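import Mathlib
import Cfsg.Prelude.Def_LieExceptional
import Cfsg.Agent.Lib.Char.Zassenhaus

/-! Zassenhaus groups: elementary counting. -/

set_option autoImplicit false
set_option linter.unusedVariables false
set_option linter.unusedSectionVars false
set_option linter.unusedSimpArgs false
set_option linter.style.haveILetI false

namespace CfsgLib.H9.Zass

open MulAction Cfsg

variable {G Ω : Type*} [Group G] [Finite G] [MulAction G Ω] [Fintype Ω]

theorem main_0741 (hZ : IsZassenhausGroup G Ω) {a b : Ω} (hab : a ≠ b)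
    (heven : Even (Nat.card ↥(stabilizer G a ⊓ stabilizer G b))) :
    Fintype.card Ω - 2 ≤ 2 * Nat.card ↥(stabilizer G a ⊓ stabilizer G b) := by
  classical
  haveI := Fintype.ofFinite G
  obtain ⟨hfaith, h2, h3, -, -⟩ := hZ
  rw [MulAction.is_two_pretransitive_iff] at h2
  set H := stabilizer G a ⊓ stabilizer G b with hH
  obtain ⟨t', ht'⟩ : ∃ t : H, orderOf t = 2 := exists_prime_orderOf_dvd_card' 2 (even_iff_two_dvd.mp heven)
  set t : G := (t'.1) with htdef
  have hord : orderOf t = 2 := by rw [htdef, Subgroup.orderOf_coe]; exact ht'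
  have hta : t • a = a := t'.2.1
  have htb : t • b = b := t'.2.2
  have ht1 : t ≠ 1 := by
    rintro h
    rw [h, orderOf_one] at hord
    omega
  obtain ⟨J, hJmem⟩ : ∃ J : Finset G, ∀ s, s ∈ J ↔ IsConj t s :=
    ⟨Finset.univ.filter (fun s => IsConj t s), by intro s; simp⟩
  have hJconj : ∀ (g s : G), s ∈ J → g * s * g⁻¹ ∈ J := by
    intro g s hs
    rw [hJmem] at hs ⊢
    exact hs.trans (isConj_iff.mpr ⟨g, rfl⟩)
  -- involutions
  have hJinv : ∀ s ∈ J, ∀ c : Ω, s • (s • c) = c := by
    intro s hs c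
    obtain ⟨g, rfl⟩ := isConj_iff.mp ((hJmem s).mp hs)
    have h1 : t * t = 1 := by rw [← pow_two, ← hord, pow_orderOf_eq_one]
    have h4 : (g * t * g⁻¹) * (g * t * g⁻¹) = 1 := by
      calc _ = g * (t * t) * g⁻¹ := by group
        _ = 1 := by rw [h1]; group
    rw [← mul_smul, h4, one_smul]
  -- fixed points
  have hJfix : ∀ s ∈ J, (Finset.univ.filter (fun x : Ω => s • x = x)).card = 2 := by
    intro s hs
    obtain ⟨g, rfl⟩ := isConj_iff.mp ((hJmem s).mp hs)
    have : Finset.univ.filter (fun x : Ω => (g * t * g⁻¹) • x = x) = {g • a, g • b} := by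
      ext x
      simp only [Finset.mem_filter, Finset.mem_univ, true_and, Finset.mem_insert, Finset.mem_singleton]
      constructor
      · intro hx
        have hx' : t • (g⁻¹ • x) = g⁻¹ • x := by
          have : g⁻¹ • ((g * t * g⁻¹) • x) = g⁻¹ • x := by rw [hx]
          simpa [mul_smul] using this
        by_contra hcon
        push Not at hcon
        apply ht1
        refine h3 t a b (g⁻¹ • x) hab ?_ ?_ hta htb hx'
        · intro h
          apply hcon.2
          rw [h, smul_inv_smul]
        · intro h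
          apply hcon.1
          rw [h, smul_inv_smul]
      · rintro (rfl | rfl)
        · rw [mul_smul, mul_smul, inv_smul_smul, hta]
        · rw [mul_smul, mul_smul, inv_smul_smul, htb]
    rw [this, Finset.card_pair (fun h => hab (smul_left_cancel g h))]
  -- conjugation invariance of counts
  have hconjcard : ∀ (g : G) (P Q : G → Prop) [DecidablePred P] [DecidablePred Q], (∀ s, P s → Q (g * s * g⁻¹)) → (∀ s, Q s → P (g⁻¹ * s * g)) →
      (J.filter P).card = (J.filter Q).card := by
    intro g P Q _ _ h1 h4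
    apply Finset.card_bij (fun s _ => g * s * g⁻¹)
    · intro s hs
      rw [Finset.mem_filter] at hs ⊢
      exact ⟨hJconj g s hs.1, h1 s hs.2⟩
    · intro s _ s' _ h
      have : g⁻¹ * (g * s * g⁻¹) * g = g⁻¹ * (g * s' * g⁻¹) * g := by rw [h]
      simpa [mul_assoc] using this
    · intro s hs
      rw [Finset.mem_filter] at hs
      refine ⟨g⁻¹ * s * g, ?_, by group⟩
      rw [Finset.mem_filter]
      refine ⟨?_, h4 s hs.2⟩
      have := hJconj g⁻¹ s hs.1
      simpa using this
  -- the two constants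
  set m := (J.filter (fun s => s • a = a ∧ s • b = b)).card with hm
  set r := (J.filter (fun s => s • a = b)).card with hr
  have hmc : ∀ x y : Ω, x ≠ y → (J.filter (fun s => s • x = x ∧ s • y = y)).card = m := by
    intro x y hxy
    obtain ⟨g, hg1, hg2⟩ := h2 hxy hab
    rw [hm]
    refine hconjcard g _ _ ?_ ?_
    · rintro s ⟨h5, h6⟩
      constructor
      · rw [mul_smul, mul_smul, ← hg1, inv_smul_smul, h5]
      · rw [mul_smul, mul_smul, ← hg2, inv_smul_smul, h6]
    · rintro s ⟨h5, h6⟩
      constructor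
      · rw [mul_smul, mul_smul, hg1, h5, ← hg1, inv_smul_smul]
      · rw [mul_smul, mul_smul, hg2, h6, ← hg2, inv_smul_smul]
  have hrc : ∀ y : Ω, y ≠ a → (J.filter (fun s => s • a = y)).card = r := by
    intro y hy
    obtain ⟨g, hg1, hg2⟩ := h2 (Ne.symm hy) (hab)
    rw [hr]
    refine hconjcard g _ _ ?_ ?_
    · rintro s h5
      rw [mul_smul, mul_smul, ← hg1, inv_smul_smul, h5, hg2]
    · rintro s h5
      rw [mul_smul, mul_smul, hg1, h5, ← hg2, inv_smul_smul]
  have hN : (Finset.univ.erase a).card = Fintype.card Ω - 1 := by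
    rw [Finset.card_erase_of_mem (Finset.mem_univ _), Finset.card_univ]
  have hNge : 2 ≤ Fintype.card Ω := by
    have : 1 < Fintype.card Ω := Fintype.one_lt_card_iff.mpr ⟨a, b, hab⟩
    omega
  -- stabiliser counts
  have hA : ∀ x : Ω, (J.filter (fun s => s • x = x)).card = (Fintype.card Ω - 1) * m := by
    intro x
    have h5 : ∑ y ∈ Finset.univ.erase x, (J.filter (fun s => s • x = x ∧ s • y = y)).card
        = ∑ s ∈ J.filter (fun s => s • x = x), ((Finset.univ.erase x).filter (fun y => s • y = y)).card := by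
      simp only [Finset.card_filter]
      rw [Finset.sum_comm]
      rw [Finset.sum_filter]
      apply Finset.sum_congr rfl
      intro s _
      by_cases hs : s • x = x
      · simp [hs]
      · simp [hs]
    have h6 : ∀ s ∈ J.filter (fun s => s • x = x), ((Finset.univ.erase x).filter (fun y => s • y = y)).card = 1 := by
      intro s hs
      rw [Finset.mem_filter] at hs
      have h7 := hJfix s hs.1
      have h8 : (Finset.univ.erase x).filter (fun y => s • y = y) = (Finset.univ.filter (fun y : Ω => s • y = y)).erase x := by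
        ext y
        simp only [Finset.mem_filter, Finset.mem_erase, Finset.mem_univ, true_and, and_true]
      rw [h8, Finset.card_erase_of_mem (by simp [hs.2]), h7]
    rw [Finset.sum_congr rfl h6] at h5
    have hN' : (Finset.univ.erase x).card = Fintype.card Ω - 1 := by
      rw [Finset.card_erase_of_mem (Finset.mem_univ _), Finset.card_univ]
    have h9 : ∑ y ∈ Finset.univ.erase x, (J.filter (fun s => s • x = x ∧ s • y = y)).card = (Fintype.card Ω - 1) * m := by
      rw [Finset.sum_congr rfl (fun y hy => hmc x y (Ne.symm (Finset.ne_of_mem_erase hy)))]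
      rw [Finset.sum_const, hN', smul_eq_mul]
    simp only [Finset.sum_const, smul_eq_mul, mul_one] at h5
    rw [← h9, h5]
  -- total count
  have hT : Fintype.card Ω * ((Fintype.card Ω - 1) * m) = 2 * J.card := by
    have h5 : ∑ x : Ω, (J.filter (fun s => s • x = x)).card = ∑ s ∈ J, (Finset.univ.filter (fun x : Ω => s • x = x)).card := by
      simp only [Finset.card_filter]
      rw [Finset.sum_comm]
    rw [Finset.sum_congr rfl (fun x _ => hA x), Finset.sum_congr rfl hJfix] at h5
    simp only [Finset.sum_const, Finset.card_univ, smul_eq_mul] at h5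
    rw [h5]
    ring
  have hJc : J.card = (Fintype.card Ω - 1) * m + (Fintype.card Ω - 1) * r := by
    have h5 : J.card = ∑ y : Ω, (J.filter (fun s => s • a = y)).card :=
      Finset.card_eq_sum_card_fiberwise (fun _ _ => Finset.mem_coe.mpr (Finset.mem_univ _))
    rw [← Finset.add_sum_erase _ _ (Finset.mem_univ a), hA a,
      Finset.sum_congr rfl (fun y hy => hrc y (Finset.ne_of_mem_erase hy)), Finset.sum_const, hN, smul_eq_mul] at h5
    exact h5
  have hmpos : 1 ≤ m := by
    apply Finset.card_pos.mpr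
    exact ⟨t, Finset.mem_filter.mpr ⟨(hJmem t).mpr (IsConj.refl t), hta, htb⟩⟩
  have hkey : (Fintype.card Ω - 2) * m = 2 * r := by
    obtain ⟨N, hNdef⟩ : ∃ N, Fintype.card Ω = N + 2 := ⟨Fintype.card Ω - 2, by omega⟩
    rw [hJc, hNdef] at hT
    simp only [Nat.add_sub_cancel, show N + 2 - 1 = N + 1 by omega] at hT ⊢
    rw [hNdef]
    simp only [Nat.add_sub_cancel]
    have h5 : (N + 1) * ((N + 2) * m) = (N + 1) * (2 * m + 2 * r) := by
      calc _ = (N + 2) * ((N + 1) * m) := by ring
        _ = _ := by rw [hT]; ring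
    have h6 := Nat.eq_of_mul_eq_mul_left (Nat.succ_pos N) h5
    nlinarith
  have hrd : r ≤ Nat.card H := by
    rw [hr]
    by_cases hne : (J.filter (fun s => s • a = b)).Nonempty
    · obtain ⟨s₀, hs₀⟩ := hne
      rw [Finset.mem_filter] at hs₀
      have hs₀b : s₀ • b = a := by
        rw [← hs₀.2, hJinv s₀ hs₀.1]
      rw [Nat.card_eq_fintype_card, ← Finset.card_univ]
      have hmem : ∀ s ∈ J.filter (fun s => s • a = b), s₀⁻¹ * s ∈ H := by
        intro s hs
        rw [Finset.mem_filter] at hs
        have hsb : s • b = a := by rw [← hs.2, hJinv s hs.1]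
        constructor
        · show (s₀⁻¹ * s) • a = a
          rw [mul_smul, hs.2, inv_smul_eq_iff]
          exact hs₀.2.symm
        · show (s₀⁻¹ * s) • b = b
          rw [mul_smul, hsb, inv_smul_eq_iff]
          exact hs₀b.symm
      apply Finset.card_le_card_of_injOn (fun s => if h : s ∈ J.filter (fun s => s • a = b) then ⟨s₀⁻¹ * s, hmem s h⟩ else 1)
      · intro s _
        exact Finset.mem_coe.mpr (Finset.mem_univ _)
      · intro s hs s' hs' h
        have hs1 : s ∈ J.filter (fun s => s • a = b) := hs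
        have hs2 : s' ∈ J.filter (fun s => s • a = b) := hs'
        simp only [hs1, hs2, dite_true] at h
        have := congrArg Subtype.val h
        simpa using this
    · rw [Finset.not_nonempty_iff_eq_empty] at hne
      rw [hne]
      simp
  have h5 : Fintype.card Ω - 2 ≤ (Fintype.card Ω - 2) * m := Nat.le_mul_of_pos_right _ hmpos
  omega

/-- `p` divides the number of solutions of `x ^ p = 1` (prime case of Frobenius' theorem). -/
theorem prime_dvd_card_pow_eq_one {F : Type*} [Group F] [Finite F] (p : ℕ) [hp : Fact p.Prime]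
    (hd : p ∣ Nat.card F) : p ∣ Nat.card {x : F // x ^ p = 1} := by
  classical
  haveI := Fintype.ofFinite F
  rw [Nat.card_eq_fintype_card] at hd
  have hp' : p - 1 ≠ 0 := mt tsub_eq_zero_iff_le.mp (not_le_of_gt hp.out.one_lt)
  have Scard : p ∣ Fintype.card (Equiv.Perm.vectorsProdEqOne F p) := by
    rw [Equiv.Perm.VectorsProdEqOne.card F p]
    exact hd.trans (dvd_pow (dvd_refl _) hp')
  let f : ℕ → Equiv.Perm.vectorsProdEqOne F p → Equiv.Perm.vectorsProdEqOne F p := fun k v =>
    Equiv.Perm.VectorsProdEqOne.rotate v k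
  have hf1 : ∀ v, f 0 v = v := Equiv.Perm.VectorsProdEqOne.rotate_zero
  have hf2 : ∀ j k v, f k (f j v) = f (j + k) v := fun j k v =>
    Equiv.Perm.VectorsProdEqOne.rotate_rotate v j k
  have hf3 : ∀ v, f p v = v := Equiv.Perm.VectorsProdEqOne.rotate_length
  let e : Function.End (Equiv.Perm.vectorsProdEqOne F p) := f 1
  have hσ : ∀ k v, (e ^ k) v = f k v := by
    intro k
    induction k with
    | zero => intro v; exact (hf1 v).symm
    | succ k ih =>
      intro v
      rw [pow_succ]
      show (e ^ k) (e v) = _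
      rw [ih (e v)]
      show f k (f 1 v) = _
      rw [hf2, add_comm]
  have hfix : e ^ p ^ 1 = 1 := by
    funext v
    rw [pow_one, hσ, hf3]
    rfl
  have hmod := Equiv.Perm.card_fixedPoints_modEq (p := p) (n := 1) hfix
  have hdvd : p ∣ Fintype.card (Function.fixedPoints e) :=
    (Nat.modEq_zero_iff_dvd.mp (hmod.symm.trans (Nat.modEq_zero_iff_dvd.mpr Scard)))
  let Φ : {x : F // x ^ p = 1} → Function.fixedPoints e := fun x =>
    ⟨⟨List.Vector.replicate p x.1, (List.prod_replicate p x.1).trans x.2⟩,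
      Subtype.ext (Subtype.ext (List.rotate_replicate x.1 p 1))⟩
  have hinj : Function.Injective Φ := by
    intro x y h
    have h1 : List.replicate p x.1 = List.replicate p y.1 := congrArg (fun t => t.1.1.1) h
    apply Subtype.ext
    have h2 := congrArg List.head? h1
    have hpos : p ≠ 0 := hp.out.ne_zero
    simpa [List.head?_replicate, hpos] using h2
  have hsurj : Function.Surjective Φ := by
    rintro ⟨v, hv⟩
    have hv' : e v = v := hv
    obtain ⟨g, hg⟩ := List.rotate_one_eq_self_iff_eq_replicate.mp (Subtype.ext_iff.mp (Subtype.ext_iff.mp hv'))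
    have hlen : v.1.1.length = p := v.1.2
    rw [hlen] at hg
    have hpr : g ^ p = 1 := by
      rw [← List.prod_replicate, ← hg]
      exact v.2
    refine ⟨⟨g, hpr⟩, ?_⟩
    apply Subtype.ext
    apply Subtype.ext
    apply Subtype.ext
    exact hg.symm
  rw [Nat.card_congr (Equiv.ofBijective Φ ⟨hinj, hsurj⟩), Nat.card_eq_fintype_card]
  exact hdvd

/-- A free action has orbits of size the group order. -/
theorem dvd_card_of_free {H T : Type*} [Group H] [Finite H] [MulAction H T] [Finite T] (X : Set T)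
    (hinv : ∀ h : H, ∀ x ∈ X, h • x ∈ X) (hfree : ∀ h : H, ∀ x ∈ X, h • x = x → h = 1) :
    Nat.card H ∣ Nat.card X := by
  letI : MulAction H X :=
    { smul := fun h x => ⟨h • x.1, hinv h x.1 x.2⟩
      one_smul := fun x => Subtype.ext (one_smul H x.1)
      mul_smul := fun a b x => Subtype.ext (mul_smul a b x.1) }
  have hst : ∀ b : X, MulAction.stabilizer H b = ⊥ := by
    intro b
    rw [eq_bot_iff]
    intro h hh
    have h1 : h • b = b := hh
    have h2 : h • b.1 = b.1 := congrArg Subtype.val h1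
    exact hfree h b.1 b.2 h2
  rw [Nat.card_congr (MulAction.selfEquivOrbitsQuotientProd hst), Nat.card_prod]
  exact Dvd.intro_left _ rfl

theorem arith_key {d x y p : ℕ} (hd : 0 < d) (hdx : d ∣ x) (hdy : d ∣ y) (hx0 : 0 < x) (hxy : x ≤ y)
    (hy : y ≤ 2 * d) (hpx : p ∣ x + 1) (hpy : p ∣ y + 1) (hp : p ≠ 1) : x = y := by
  obtain ⟨i, rfl⟩ := hdx
  obtain ⟨k, rfl⟩ := hdy
  have hk : k ≤ 2 := Nat.le_of_mul_le_mul_left (by linarith) hd
  have hi : 0 < i := Nat.pos_of_mul_pos_left hx0 |> fun _ => by
    rcases Nat.eq_zero_or_pos i with h | h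
    · subst h; simp at hx0
    · exact h
  have hik : i ≤ k := Nat.le_of_mul_le_mul_left hxy hd
  by_contra hne
  have hik' : i ≠ k := fun h => hne (by rw [h])
  have h1 : i = 1 := by omega
  have h2 : k = 2 := by omega
  subst h1 h2
  exfalso
  apply hp
  have h3 : p ∣ 2 * (d * 1 + 1) - (d * 2 + 1) := Nat.dvd_sub (hpx.mul_left 2) hpy
  have h4 : 2 * (d * 1 + 1) - (d * 2 + 1) = 1 := by omega
  rw [h4] at h3
  exact Nat.dvd_one.mp h3

theorem main_0738 (hZ : IsZassenhausGroup G Ω) {a b : Ω} (hab : a ≠ b)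
    (hd : Fintype.card Ω - 2 ≤ 2 * Nat.card ↥(stabilizer G a ⊓ stabilizer G b)) (F : Subgroup G)
    (hFle : F ≤ stabilizer G a) (hFn : (F.subgroupOf (stabilizer G a)).Normal)
    (hreg : ∀ y z : Ω, y ≠ a → z ≠ a → ∃! u : F, (u : G) • y = z) :
    IsMulCommutative F ∧ ∃ p f : ℕ, p.Prime ∧ (∀ u ∈ F, u ^ p = 1) ∧ Fintype.card Ω = p ^ f + 1 := by
  classical
  have hOmega3 : 3 ≤ Fintype.card Ω := CfsgLib.Char.zass_three_le_card hZ
  obtain ⟨hfaith, h2, h3, -, -⟩ := hZ
  set H := stabilizer G a ⊓ stabilizer G b with hH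
  have hba : b ≠ a := Ne.symm hab
  -- `F` is in bijection with the points other than `a`
  have hmove : ∀ u : F, (u : G) • b ≠ a := by
    intro u h
    apply hba
    have h1 : (u : G) • a = a := hFle u.2
    exact smul_left_cancel (u : G) (h.trans h1.symm)
  have hcardF : Nat.card F + 1 = Fintype.card Ω := by
    let Φ : F → {z : Ω // z ≠ a} := fun u => ⟨(u : G) • b, hmove u⟩
    have hΦ : Function.Bijective Φ := by
      constructor
      · intro u v huv
        have h1 : (u : G) • b = (v : G) • b := congrArg Subtype.val huv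
        obtain ⟨w, -, hw⟩ := hreg b ((u : G) • b) hba (fun h => hmove u h)
        rw [hw u rfl, hw v h1.symm]
      · rintro ⟨z, hz⟩
        obtain ⟨u, hu, -⟩ := hreg b z hba hz
        exact ⟨u, Subtype.ext hu⟩
    have h1 := Nat.card_congr (Equiv.ofBijective Φ hΦ)
    rw [h1, Nat.card_eq_fintype_card, Fintype.card_subtype_compl]
    simp only [Fintype.card_unique]
    have : 0 < Fintype.card Ω := Fintype.card_pos_iff.mpr ⟨a⟩
    omega
  have hF2 : Nat.card F ≠ 1 := by omega
  have hconjmem : ∀ h ∈ H, ∀ u ∈ F, h * u * h⁻¹ ∈ F := by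
    intro h hh u hu
    have h1 : (⟨u, hFle hu⟩ : stabilizer G a) ∈ F.subgroupOf (stabilizer G a) := hu
    have h4 := hFn.conj_mem _ h1 ⟨h, hh.1⟩
    exact h4
  letI act : MulAction H F :=
    { smul := fun h u => ⟨h.1 * u.1 * h.1⁻¹, hconjmem h.1 h.2 u.1 u.2⟩
      one_smul := fun u => Subtype.ext (by show (1 : G) * u.1 * (1 : G)⁻¹ = u.1; group)
      mul_smul := fun x y u => Subtype.ext (by
        show (x.1 * y.1) * u.1 * (x.1 * y.1)⁻¹ = x.1 * (y.1 * u.1 * y.1⁻¹) * x.1⁻¹
        group) }
  have hact : ∀ (h : H) (u : F), ((h • u : F) : G) = h.1 * u.1 * h.1⁻¹ := fun _ _ => rfl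
  have hmulact : ∀ (h : H) (u v : F), h • (u * v) = (h • u) * (h • v) := by
    intro h u v
    apply Subtype.ext
    show h.1 * (u.1 * v.1) * h.1⁻¹ = (h.1 * u.1 * h.1⁻¹) * (h.1 * v.1 * h.1⁻¹)
    group
  have honeact : ∀ (h : H), h • (1 : F) = 1 := by
    intro h
    apply Subtype.ext
    show h.1 * 1 * h.1⁻¹ = 1
    group
  have hfree : ∀ (h : H) (u : F), u ≠ 1 → h • u = u → h = 1 := by
    intro h u hu huh
    have h1 : h.1 * u.1 * h.1⁻¹ = u.1 := congrArg Subtype.val huh
    have h4 : h.1 * u.1 = u.1 * h.1 := by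
      calc h.1 * u.1 = (h.1 * u.1 * h.1⁻¹) * h.1 := by group
        _ = _ := by rw [h1]
    have hb' : h.1 • b = b := h.2.2
    have ha' : h.1 • a = a := h.2.1
    have hc : h.1 • ((u : G) • b) = (u : G) • b := by
      rw [← mul_smul, h4, mul_smul, hb']
    have hbc : b ≠ (u : G) • b := by
      intro hbu
      obtain ⟨w, -, hw⟩ := hreg b b hba hba
      apply hu
      rw [hw u hbu.symm, hw 1 (one_smul G b)]
    have := h3 h.1 a b ((u : G) • b) hab hbc (Ne.symm (hmove u)) ha' hb' hc
    exact Subtype.ext this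
  set d := Nat.card H with hdd
  have hdpos : 0 < d := Nat.card_pos
  have hcardsd : ∀ S : Set F, (1 : F) ∈ S → Nat.card ↥(S \ {(1 : F)}) + 1 = Nat.card ↥S := by
    intro S hS
    rw [Nat.card_coe_set_eq, Nat.card_coe_set_eq]
    exact Set.ncard_diff_singleton_add_one hS (Set.toFinite _)
  -- the sets `Y`
  let Y : Set F := (Set.univ : Set F) \ {(1 : F)}
  have hYc : Nat.card Y + 1 = Nat.card F := by
    have := hcardsd Set.univ (Set.mem_univ _)
    rw [this]
    exact Nat.card_congr (Equiv.Set.univ F)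
  have hdvdinv : ∀ S : Set F, (1 : F) ∈ S → (∀ (h : H), ∀ x ∈ S, h • x ∈ S) → d ∣ Nat.card ↥(S \ {(1 : F)}) := by
    intro S hS hinv
    apply dvd_card_of_free
    · rintro h x ⟨hx1, hx2⟩
      refine ⟨hinv h x hx1, ?_⟩
      intro hh
      apply hx2
      have h5 : h⁻¹ • (h • x) = x := inv_smul_smul h x
      have hh' : h • x = 1 := hh
      rw [hh', honeact] at h5
      exact h5.symm
    · rintro h x ⟨hx1, hx2⟩ hhx
      exact hfree h x hx2 hhx
  have hdY : d ∣ Nat.card Y := hdvdinv Set.univ (Set.mem_univ _) (fun _ _ _ => Set.mem_univ _)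
  have hYle : Nat.card Y ≤ 2 * d := by omega
  -- the key comparison
  have hcompare : ∀ (q : ℕ) (S : Set F), q ≠ 1 → (1 : F) ∈ S → (∀ (h : H), ∀ x ∈ S, h • x ∈ S) →
      q ∣ Nat.card S → q ∣ Nat.card F → (∃ x ∈ S, x ≠ 1) → ∀ x : F, x ∈ S := by
    intro q S hq h1S hinv hqS hqF hne
    have hsub : S \ {(1 : F)} ⊆ Y := fun x hx => ⟨Set.mem_univ _, hx.2⟩
    have hle : Nat.card ↥(S \ {(1 : F)}) ≤ Nat.card Y := by
      rw [Nat.card_coe_set_eq, Nat.card_coe_set_eq]
      exact Set.ncard_le_ncard hsub (Set.toFinite _)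
    have hx0 : 0 < Nat.card ↥(S \ {(1 : F)}) := by
      rw [Nat.card_pos_iff]
      obtain ⟨x, hx, hx1⟩ := hne
      exact ⟨⟨⟨x, hx, hx1⟩⟩, inferInstance⟩
    have heq := arith_key hdpos (hdvdinv S h1S hinv) hdY hx0 hle hYle
      (by rw [hcardsd S h1S]; exact hqS) (by rw [hYc]; exact hqF) hq
    have hSY : S \ {(1 : F)} = Y := by
      apply Set.eq_of_subset_of_ncard_le hsub
      rw [← Nat.card_coe_set_eq, ← Nat.card_coe_set_eq, heq]
    intro x
    by_cases hx : x = 1
    · rw [hx]; exact h1S
    · have : x ∈ Y := ⟨Set.mem_univ _, hx⟩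
      rw [← hSY] at this
      exact this.1
  obtain ⟨p, hp, hpF⟩ := Nat.exists_prime_and_dvd hF2
  haveI : Fact p.Prime := ⟨hp⟩
  -- exponent `p`
  have hexp : ∀ x : F, x ^ p = 1 := by
    have := hcompare p {x : F | x ^ p = 1} hp.ne_one (by simp)
      (by
        intro h x hx
        have hx' : x ^ p = 1 := hx
        show (h • x) ^ p = 1
        have hpow : ∀ n : ℕ, h • (x ^ n) = (h • x) ^ n := by
          intro n
          induction n with
          | zero => simp [honeact]
          | succ n ih => rw [pow_succ, pow_succ, hmulact, ih]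
        rw [← hpow, hx', honeact])
      (prime_dvd_card_pow_eq_one p hpF) hpF
      (by
        obtain ⟨x, hx⟩ := exists_prime_orderOf_dvd_card' p hpF
        refine ⟨x, ?_, ?_⟩
        · show x ^ p = 1
          rw [← hx, pow_orderOf_eq_one]
        · rintro rfl
          rw [orderOf_one] at hx
          exact hp.ne_one hx.symm)
    exact this
  have hPG : IsPGroup p F := fun u => ⟨1, by rw [pow_one]; exact hexp u⟩
  obtain ⟨f, hf⟩ := IsPGroup.iff_card.mp hPG
  haveI hFnt : Nontrivial F := by
    rw [← Finite.one_lt_card_iff_nontrivial]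
    omega
  have hZnt := hPG.center_nontrivial
  -- commutativity
  have hcomm : ∀ x y : F, x * y = y * x := by
    have hcenter := hcompare p ((Subgroup.center F : Subgroup F) : Set F) hp.ne_one (Subgroup.one_mem _)
      (by
        intro h x hx
        rw [SetLike.mem_coe, Subgroup.mem_center_iff] at hx ⊢
        intro w
        have hw : h • (h⁻¹ • w) = w := smul_inv_smul h w
        rw [← hw, ← hmulact, ← hmulact, hx])
      (by
        have h5 : IsPGroup p (Subgroup.center F) := hPG.to_subgroup _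
        obtain ⟨c, hc⟩ := IsPGroup.iff_card.mp h5
        have hc0 : c ≠ 0 := by
          rintro rfl
          rw [pow_zero] at hc
          have := Finite.one_lt_card_iff_nontrivial.mpr hZnt
          omega
        show p ∣ Nat.card (Subgroup.center F)
        rw [hc]
        exact dvd_pow_self p hc0)
      hpF
      (by
        obtain ⟨⟨x, hx⟩, hx1⟩ := exists_ne (1 : Subgroup.center F)
        exact ⟨x, hx, fun h => hx1 (Subtype.ext h)⟩)
    intro x y
    have := hcenter x
    rw [SetLike.mem_coe, Subgroup.mem_center_iff] at this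
    exact (this y).symm
  refine ⟨⟨⟨hcomm⟩⟩, p, f, hp, ?_, ?_⟩
  · intro u hu
    have := hexp ⟨u, hu⟩
    exact congrArg Subtype.val this
  · rw [← hcardF, hf]

end CfsgLib.H9.Zass
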