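import Mathlib
import Cfsg.Agent.Lib.H9.Zass
import Cfsg.Agent.Lib.SS.UniqueP
import Cfsg.Agent.Lib.SS.FPF3
import Cfsg.Agent.Lib.FGS.FrobThm

/-! Zassenhaus groups with odd two-point stabiliser. -/

set_option autoImplicit false
set_option linter.unusedVariables false
set_option linter.unusedSectionVars false
set_option linter.unusedSimpArgs false
set_option linter.style.haveILetI false

namespace CfsgLib.H9.Zass

open MulAction Cfsg Subgroup
open scoped Pointwise commutatorElement

variable {G Ω : Type*} [Group G] [Finite G] [MulAction G Ω] [Fintype Ω]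

/-- The two point stabiliser is a Z-group when of odd order. -/
theorem isZGroup_of_odd (hZ : IsZassenhausGroup G Ω) {a b : Ω} (hab : a ≠ b)
    (hodd : Odd (Nat.card ↥(stabilizer G a ⊓ stabilizer G b))) :
    IsZGroup ↥(stabilizer G a ⊓ stabilizer G b) := by
  classical
  have hOmega3 : 3 ≤ Fintype.card Ω := CfsgLib.Char.zass_three_le_card hZ
  obtain ⟨g₀, hg₀, a₀, b₀, hab₀, ha₀, hb₀⟩ := hZ.2.2.2.1
  obtain ⟨hfaith, h2, h3, -, -⟩ := hZ
  rw [MulAction.is_two_pretransitive_iff] at h2
  set H := stabilizer G a ⊓ stabilizer G b with hH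
  set L := stabilizer G a with hL
  have hHL : H ≤ L := inf_le_left
  set H₁ : Subgroup L := H.subgroupOf L with hH₁
  have hmemH₁ : ∀ x : L, x ∈ H₁ ↔ (x : G) • b = b := by
    intro x
    rw [hH₁, Subgroup.mem_subgroupOf]
    constructor
    · intro h
      exact h.2
    · intro h
      exact ⟨x.2, h⟩
  have hfr : IsFrobeniusComplement H₁ := by
    refine ⟨?_, ?_, ?_⟩
    · -- nontrivial
      obtain ⟨g, hg1, hg2⟩ := h2 hab₀ hab
      have hx : g * g₀ * g⁻¹ ∈ H := by
        constructor
        · show (g * g₀ * g⁻¹) • a = a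
          rw [mul_smul, mul_smul, ← hg1, inv_smul_smul, ha₀]
        · show (g * g₀ * g⁻¹) • b = b
          rw [mul_smul, mul_smul, ← hg2, inv_smul_smul, hb₀]
      intro hbot
      have h5 : (⟨g * g₀ * g⁻¹, hx.1⟩ : L) ∈ H₁ := (hmemH₁ _).mpr hx.2
      rw [hbot, Subgroup.mem_bot] at h5
      have h6 : g * g₀ * g⁻¹ = 1 := congrArg Subtype.val h5
      apply hg₀
      have h7 : g⁻¹ * (g * g₀ * g⁻¹) * g = g₀ := by group
      rw [h6] at h7
      rw [← h7]
      group
    · -- proper
      intro htop
      obtain ⟨c, hca, hcb⟩ : ∃ c : Ω, c ≠ a ∧ c ≠ b := by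
        by_contra hcon
        push Not at hcon
        have : (Finset.univ : Finset Ω) ⊆ {a, b} := by
          intro c _
          by_cases hc : c = a
          · simp [hc]
          · simp [hcon c hc]
        have h5 := Finset.card_le_card this
        rw [Finset.card_univ, Finset.card_pair hab] at h5
        omega
      obtain ⟨g, hg1, hg2⟩ := h2 (a := a) (b := b) (c := a) (d := c) hab (Ne.symm hca)
      have h5 : (⟨g, hg1⟩ : L) ∈ H₁ := by rw [htop]; exact Subgroup.mem_top _
      have h6 : g • b = b := (hmemH₁ _).mp h5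
      apply hcb
      rw [← hg2, h6]
    · -- TI
      intro g hg
      have hgb : (g : G) • b ≠ b := fun h => hg ((hmemH₁ g).mpr h)
      have hga : (g : G) • b ≠ a := by
        intro h
        apply hab
        have h1 : (g : G) • a = a := g.2
        exact (smul_left_cancel (g : G) (h.trans h1.symm)).symm
      rw [eq_bot_iff]
      intro x hx
      obtain ⟨hx1, hx2⟩ := Subgroup.mem_inf.mp hx
      rw [Subgroup.mem_pointwise_smul_iff_inv_smul_mem] at hx2
      have h5 : (MulAut.conj g)⁻¹ • x = g⁻¹ * x * g := by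
        show (MulAut.conj g)⁻¹ x = _
        rw [MulAut.conj_inv_apply]
      rw [h5] at hx2
      have h6 : ((g⁻¹ * x * g : L) : G) • b = b := (hmemH₁ _).mp hx2
      have h7 : (x : G) • ((g : G) • b) = (g : G) • b := by
        have h8 : ((g : G)⁻¹ * (x : G) * (g : G)) • b = b := h6
        have h9 := congrArg (fun t => (g : G) • t) h8
        simp only [mul_smul, smul_inv_smul] at h9
        exact h9
      have h10 : (x : G) = 1 := h3 (x : G) a b ((g : G) • b) hab (Ne.symm hgb) (Ne.symm hga) x.2 ((hmemH₁ x).mp hx1) h7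
      rw [Subgroup.mem_bot]
      exact Subtype.ext h10
  obtain ⟨K, hK1, hK2, hK3⟩ := CfsgLib.FGS.exists_frobenius_kernel H₁ hfr
  haveI := hK2
  have hKne : K ≠ ⊥ := by
    rintro rfl
    apply hfr.2.1
    have := hK3.sup_eq_top
    simpa using this
  have hfpf := CfsgLib.SS.fpf_of_kernel H₁ K hfr hK1
  have hZ₁ : IsZGroup H₁ := by
    constructor
    intro p hp P
    haveI : Fact p.Prime := ⟨hp⟩
    rcases CfsgLib.SS.fpf_sylow_structure K H₁ hKne hfpf p P with h | ⟨n, ⟨e⟩⟩
    · exact h
    · exfalso
      have h5 : Nat.card P = 4 * 2 ^ n := by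
        rw [Nat.card_congr e.toEquiv, Nat.card_eq_fintype_card, QuaternionGroup.card]
      have h6 : Nat.card P ∣ Nat.card H₁ := Subgroup.card_subgroup_dvd_card _
      have h7 : Nat.card H₁ = Nat.card H := Nat.card_congr (Subgroup.subgroupOfEquivOfLe hHL).toEquiv
      rw [h7, h5] at h6
      have h8 : 2 ∣ Nat.card H := Dvd.dvd.trans (Dvd.intro_left (2 * 2 ^ n) (by ring)) h6
      obtain ⟨r, hr⟩ := hodd
      omega
  exact IsZGroup.of_injective (f := (Subgroup.subgroupOfEquivOfLe hHL).symm.toMonoidHom) (Subgroup.subgroupOfEquivOfLe hHL).symm.injective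

/-- conjugation by a normalising element -/
def conjH (H : Subgroup G) (s : G) (hs : ∀ h ∈ H, s * h * s⁻¹ ∈ H) : H →* H where
  toFun h := ⟨s * h * s⁻¹, hs h h.2⟩
  map_one' := Subtype.ext (by simp)
  map_mul' x y := Subtype.ext (by simp only [Subgroup.coe_mul]; group)

theorem main_0739 (hZ : IsZassenhausGroup G Ω) {a b : Ω} (hab : a ≠ b)
    (hodd : Odd (Nat.card ↥(stabilizer G a ⊓ stabilizer G b)))
    (hnil : ∀ q : ℕ, q.Prime → q ∣ Nat.card ↥(stabilizer G a ⊓ stabilizer G b) →
      ¬ ∃ N : Subgroup G, N.Normal ∧ N.index = q ^ (Nat.card G).factorization q) :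
    IsCyclic ↥(stabilizer G a ⊓ stabilizer G b) ∧
      Subgroup.centralizer ((stabilizer G a ⊓ stabilizer G b : Subgroup G) : Set G) = stabilizer G a ⊓ stabilizer G b ∧
      ∀ s : G, s • a = b → s • b = a → ∀ h ∈ stabilizer G a ⊓ stabilizer G b, s * h * s⁻¹ = h⁻¹ := by
  classical
  haveI hZG := isZGroup_of_odd hZ hab hodd
  have hOmega3 : 3 ≤ Fintype.card Ω := CfsgLib.Char.zass_three_le_card hZ
  obtain ⟨g₀, hg₀, a₀, b₀, hab₀, ha₀, hb₀⟩ := hZ.2.2.2.1
  obtain ⟨hfaith, h2, h3, -, -⟩ := hZ
  rw [MulAction.is_two_pretransitive_iff] at h2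
  set H := stabilizer G a ⊓ stabilizer G b with hH
  have hmemH : ∀ x : G, x ∈ H ↔ x • a = a ∧ x • b = b := fun x => Iff.rfl
  -- a nontrivial element
  obtain ⟨x₁, hx₁H, hx₁⟩ : ∃ x ∈ H, x ≠ 1 := by
    obtain ⟨g, hg1, hg2⟩ := h2 hab₀ hab
    refine ⟨g * g₀ * g⁻¹, ?_, ?_⟩
    · constructor
      · show (g * g₀ * g⁻¹) • a = a
        rw [mul_smul, mul_smul, ← hg1, inv_smul_smul, ha₀]
      · show (g * g₀ * g⁻¹) • b = b
        rw [mul_smul, mul_smul, ← hg2, inv_smul_smul, hb₀]
    · intro h6
      apply hg₀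
      have h7 : g⁻¹ * (g * g₀ * g⁻¹) * g = g₀ := by group
      rw [h6] at h7
      rw [← h7]
      group
  have hfix : ∀ x ∈ H, x ≠ 1 → ∀ c, x • c = c → c = a ∨ c = b := by
    intro x hx hx1 c hc
    by_contra hcon
    push Not at hcon
    exact hx1 (h3 x a b c hab (Ne.symm hcon.2) (Ne.symm hcon.1) hx.1 hx.2 hc)
  have hswapor : ∀ y x : G, x ∈ H → x ≠ 1 → y * x * y⁻¹ ∈ H → y ∈ H ∨ (y • a = b ∧ y • b = a) := by
    intro y x hx hx1 hy
    have hne : y * x * y⁻¹ ≠ 1 := by
      intro h
      apply hx1
      have h7 : y⁻¹ * (y * x * y⁻¹) * y = x := by group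
      rw [h] at h7
      rw [← h7]
      group
    have h5 : ∀ c, x • c = c → y • c = a ∨ y • c = b := by
      intro c hc
      apply hfix _ hy hne
      rw [mul_smul, mul_smul, inv_smul_smul, hc]
    have h6 := h5 a hx.1
    have h7 := h5 b hx.2
    have h8 : y • a ≠ y • b := fun h => hab (smul_left_cancel y h)
    rcases h6 with h6 | h6 <;> rcases h7 with h7 | h7
    · exact absurd (h6.trans h7.symm) h8
    · left; exact ⟨h6, h7⟩
    · right; exact ⟨h6, h7⟩
    · exact absurd (h6.trans h7.symm) h8
  set N := Fintype.card Ω with hN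
  set d := Nat.card H with hd
  -- `d` divides `N - 2`
  have hdvdN : d ∣ N - 2 := by
    have h5 := dvd_card_of_free (H := H) (T := Ω) ((Set.univ : Set Ω) \ {a, b})
      (by
        rintro h x ⟨-, hx⟩
        refine ⟨Set.mem_univ _, ?_⟩
        intro hh
        apply hx
        rcases hh with hh | hh
        · left
          have : (h : G) • x = (h : G) • a := by rw [h.2.1]; exact hh
          exact smul_left_cancel _ this
        · right
          have : (h : G) • x = (h : G) • b := by rw [h.2.2]; exact hh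
          exact smul_left_cancel _ this)
      (by
        rintro h x ⟨-, hx⟩ hhx
        apply Subtype.ext
        simp only [Set.mem_insert_iff, Set.mem_singleton_iff, not_or] at hx
        exact h3 (h : G) a b x hab (Ne.symm hx.2) (Ne.symm hx.1) h.2.1 h.2.2 hhx)
    have h6 : Nat.card ↥((Set.univ : Set Ω) \ {a, b}) = N - 2 := by
      rw [Nat.card_coe_set_eq, Set.ncard_diff (by
        intro x _
        exact Set.mem_univ _), Set.ncard_univ, Nat.card_eq_fintype_card, Set.ncard_pair hab]
    rw [h6] at h5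
    exact h5
  -- the order of `G`
  have hcardG : N * (N - 1) * d = Nat.card G := by
    have h5 := Subgroup.card_mul_index (stabilizer G (a, b))
    have h6 : stabilizer G (a, b) = H := by
      ext x
      rw [MulAction.mem_stabilizer_iff, Prod.smul_mk, Prod.mk.injEq]
      exact Iff.rfl
    rw [MulAction.index_stabilizer, h6] at h5
    have h7 : orbit G (a, b) = {p : Ω × Ω | p.1 ≠ p.2} := by
      ext ⟨c, e⟩
      constructor
      · rintro ⟨g, hg⟩
        have h8 : g • a = c ∧ g • b = e := by
          simpa using hg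
        show c ≠ e
        rw [← h8.1, ← h8.2]
        exact fun h => hab (smul_left_cancel g h)
      · intro hce
        obtain ⟨g, hg1, hg2⟩ := h2 hab hce
        exact ⟨g, by simp [hg1, hg2]⟩
    have h8 : (orbit G (a, b)).ncard = N * (N - 1) := by
      rw [h7]
      have h9 : {p : Ω × Ω | p.1 ≠ p.2} = ((Finset.univ : Finset Ω).offDiag : Set (Ω × Ω)) := by
        ext p
        simp
      rw [h9, Set.ncard_coe_finset, Finset.offDiag_card, Finset.card_univ, ← hN, Nat.mul_sub_one]
    rw [h8] at h5
    rw [← h5]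
    ring
  have hOdd2 : ∀ q : ℕ, q.Prime → q ∣ d → q ≠ 2 := by
    rintro q hq hqd rfl
    obtain ⟨r, hr⟩ := hodd
    omega
  -- Sylow subgroups inside `H`
  have hsyl : ∀ q : ℕ, q.Prime → q ∣ d → ∃ P : Sylow q G, (P : Subgroup G) ≤ H := by
    intro q hq hqd
    haveI : Fact q.Prime := ⟨hq⟩
    have hq2 := hOdd2 q hq hqd
    have h5 : q ∣ N - 2 := hqd.trans hdvdN
    have h6 : ¬ q ∣ N - 1 := by
      intro h
      have h7 : q ∣ (N - 1) - (N - 2) := Nat.dvd_sub h h5
      have h8 : (N - 1) - (N - 2) = 1 := by omega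
      rw [h8] at h7
      exact hq.one_lt.ne' (Nat.dvd_one.mp h7)
    have h7 : ¬ q ∣ N := by
      intro h
      have h8 : q ∣ N - (N - 2) := Nat.dvd_sub h h5
      have h9 : N - (N - 2) = 2 := by omega
      rw [h9] at h8
      exact hq2 ((Nat.prime_dvd_prime_iff_eq hq Nat.prime_two).mp h8)
    have h8 : ¬ q ∣ N * (N - 1) := by
      intro h
      rcases (Nat.Prime.dvd_mul hq).mp h with h | h
      · exact h7 h
      · exact h6 h
    have hdpos : d ≠ 0 := Nat.card_pos.ne'
    have hNpos : N * (N - 1) ≠ 0 := by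
      apply Nat.mul_ne_zero <;> omega
    let S : Sylow q H := default
    let T : Subgroup G := (S : Subgroup H).map H.subtype
    have hTH : T ≤ H := Subgroup.map_subtype_le _
    have hTc : Nat.card T = q ^ (Nat.card G).factorization q := by
      have h9 : Nat.card T = Nat.card S := by
        rw [Subgroup.card_map_of_injective H.subtype_injective]
      rw [h9, S.card_eq_multiplicity, ← hcardG, Nat.factorization_mul hNpos hdpos]
      simp only [Finsupp.coe_add, Pi.add_apply]
      rw [Nat.factorization_eq_zero_of_not_dvd h8, zero_add]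
    exact ⟨Sylow.ofCard T hTc, by rw [Sylow.coe_ofCard]; exact hTH⟩
  -- the swap lemma
  have hswapH : ∀ s : G, s • a = b → s • b = a → ∀ h ∈ H, s * h * s⁻¹ ∈ H := by
    intro s hsa hsb h hh
    have h5 : s⁻¹ • a = b := by rw [inv_smul_eq_iff, hsb]
    have h6 : s⁻¹ • b = a := by rw [inv_smul_eq_iff, hsa]
    constructor
    · show (s * h * s⁻¹) • a = a
      rw [mul_smul, mul_smul, h5, hh.2, hsb]
    · show (s * h * s⁻¹) • b = b
      rw [mul_smul, mul_smul, h6, hh.1, hsa]
  have hofcomm : ∀ (u x : H), Abelianization.of (u * x * u⁻¹) = Abelianization.of x := by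
    intro u x
    rw [map_mul, map_mul, map_inv, mul_comm (Abelianization.of u), mul_assoc, mul_inv_cancel, mul_one]
  have hkerof : ∀ x : H, Abelianization.of x = 1 ↔ x ∈ commutator H := by
    intro x
    exact QuotientGroup.eq_one_iff x
  have hcardC : Nat.card (Abelianization H) = (commutator H).index := rfl
  -- the key: swaps invert `H` modulo the commutator
  have hkey : ∀ s : G, ∀ (hsa : s • a = b) (hsb : s • b = a) (h : H),
      Abelianization.of (conjH H s (hswapH s hsa hsb) h) * Abelianization.of h = 1 := by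
    intro s hsa hsb
    set σ := conjH H s (hswapH s hsa hsb) with hσ
    set τ : Abelianization H →* Abelianization H := Abelianization.map σ with hτ
    have hτof : ∀ x : H, τ (Abelianization.of x) = Abelianization.of (σ x) := fun _ => rfl
    obtain ⟨k, hk⟩ := MonoidHom.map_cyclic τ
    have hττ : ∀ z : Abelianization H, τ (τ z) = z := by
      intro z
      induction z using QuotientGroup.induction_on with
      | H x =>
        show τ (τ (Abelianization.of x)) = Abelianization.of x
        rw [hτof, hτof]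
        have hu : s * s ∈ H := by
          constructor
          · show (s * s) • a = a
            rw [mul_smul, hsa, hsb]
          · show (s * s) • b = b
            rw [mul_smul, hsb, hsa]
        have : σ (σ x) = (⟨s * s, hu⟩ : H) * x * (⟨s * s, hu⟩ : H)⁻¹ := by
          apply Subtype.ext
          show s * (s * x * s⁻¹) * s⁻¹ = (s * s) * x * (s * s)⁻¹
          group
        rw [this, hofcomm]
    obtain ⟨c, hc⟩ := IsCyclic.exists_generator (α := Abelianization H)
    set m := Nat.card (Abelianization H) with hm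
    have hordc : orderOf c = m := orderOf_eq_card_of_forall_mem_zpowers hc
    have hkk : (m : ℤ) ∣ k * k - 1 := by
      rw [← hordc, orderOf_dvd_iff_zpow_eq_one]
      have h5 := hττ c
      rw [hk, hk, ← zpow_mul] at h5
      rw [zpow_sub, zpow_one, h5, mul_inv_cancel]
    have hmd : m ∣ d := by
      show (commutator H).index ∣ d
      exact Subgroup.index_dvd_card _
    have hcop : IsCoprime (m : ℤ) (k - 1) := by
      rw [Int.isCoprime_iff_gcd_eq_one]
      by_contra hg
      obtain ⟨q, hq, hqg⟩ := Nat.exists_prime_and_dvd hg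
      haveI : Fact q.Prime := ⟨hq⟩
      have hqm : q ∣ m := by
        have h5 := Int.gcd_dvd_left (a := (m : ℤ)) (b := k - 1)
        have h6 : (q : ℤ) ∣ (m : ℤ) := (Int.natCast_dvd_natCast.mpr hqg).trans h5
        exact Int.natCast_dvd_natCast.mp h6
      have hqk : (q : ℤ) ∣ k - 1 := by
        have h5 := Int.gcd_dvd_right (a := (m : ℤ)) (b := k - 1)
        exact (Int.natCast_dvd_natCast.mpr hqg).trans h5
      have hqd := hqm.trans hmd
      have hq2 := hOdd2 q hq hqd
      obtain ⟨P, hPH⟩ := hsyl q hq hqd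
      -- `q ^ e` divides `k - 1`
      set e := m.factorization q with he
      have hmpos : m ≠ 0 := Nat.card_pos.ne'
      obtain ⟨m', hm'⟩ : q ^ e ∣ m := Nat.ordProj_dvd m q
      have hcop' : Nat.Coprime q m' := by
        rw [Nat.Prime.coprime_iff_not_dvd hq]
        intro h
        have h5 : q ^ (e + 1) ∣ m := by
          rw [hm', pow_succ]
          exact mul_dvd_mul_left _ h
        exact Nat.pow_succ_factorization_not_dvd hmpos hq h5
      have hqk1 : ¬ (q : ℤ) ∣ k + 1 := by
        intro h
        have h5 : (q : ℤ) ∣ (k + 1) - (k - 1) := dvd_sub h hqk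
        have h6 : (k + 1) - (k - 1) = 2 := by ring
        rw [h6] at h5
        have h7 : q ∣ 2 := by exact_mod_cast h5
        exact hq2 ((Nat.prime_dvd_prime_iff_eq hq Nat.prime_two).mp h7)
      have hqek : ((q ^ e : ℕ) : ℤ) ∣ k - 1 := by
        have h5 : ((q ^ e : ℕ) : ℤ) ∣ (k - 1) * (k + 1) := by
          have h6 : ((q ^ e : ℕ) : ℤ) ∣ (m : ℤ) := Int.natCast_dvd_natCast.mpr ⟨m', hm'⟩
          refine h6.trans ?_
          have h7 : (k - 1) * (k + 1) = k * k - 1 := by ring
          rw [h7]
          exact hkk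
        have h6 : IsCoprime ((q ^ e : ℕ) : ℤ) (k + 1) := by
          push_cast
          apply IsCoprime.pow_left
          exact ((Nat.prime_iff_prime_int.mp hq).irreducible.coprime_iff_not_dvd).mpr hqk1
        exact h6.dvd_of_dvd_mul_right h5
      have hcopA : ¬ q ∣ Nat.card (commutator H) := by
        intro h
        have h5 : (Nat.card (commutator H)).Coprime m := IsZGroup.coprime_commutator_index H
        have := Nat.dvd_gcd h hqm
        rw [h5.gcd_eq_one] at this
        exact hq.one_lt.ne' (Nat.dvd_one.mp this)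
      -- `τ` is trivial on the image of `P`
      have hτP : ∀ x (hx : x ∈ (P : Subgroup G)), τ (Abelianization.of (⟨x, hPH hx⟩ : H)) = Abelianization.of (⟨x, hPH hx⟩ : H) := by
        intro x hx
        set z := Abelianization.of (⟨x, hPH hx⟩ : H) with hz
        obtain ⟨r, hr⟩ := P.isPGroup' ⟨x, hx⟩
        have hzr : z ^ q ^ r = 1 := by
          have h5 : x ^ q ^ r = 1 := congrArg Subtype.val hr
          rw [hz, ← map_pow]
          have h6 : (⟨x, hPH hx⟩ : H) ^ q ^ r = 1 := Subtype.ext h5
          rw [h6, map_one]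
        obtain ⟨j, -, hj⟩ := (Nat.dvd_prime_pow hq).mp (orderOf_dvd_of_pow_eq_one hzr)
        have hzm : orderOf z ∣ q ^ e * m' := by
          rw [← hm']
          exact orderOf_dvd_natCard z
        rw [hj] at hzm
        have hzqe : q ^ j ∣ q ^ e := (Nat.Coprime.pow_left j hcop').dvd_of_dvd_mul_right hzm
        have hzz : z ^ q ^ e = 1 := by
          rw [← orderOf_dvd_iff_pow_eq_one, hj]
          exact hzqe
        have hzk : z ^ (k - 1) = 1 := by
          obtain ⟨t, ht⟩ := hqek
          rw [ht, zpow_mul]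
          have : z ^ ((q ^ e : ℕ) : ℤ) = 1 := by
            rw [zpow_natCast]
            exact hzz
          rw [this, one_zpow]
        rw [hk]
        have h5 : z ^ k = z ^ (k - 1) * z := by
          rw [← zpow_add_one]
          congr 1
          ring
        rw [h5, hzk, one_mul]
      have hPtriv : ∀ u (hu : u ∈ (P : Subgroup G)), Abelianization.of (⟨u, hPH hu⟩ : H) = 1 → u = 1 := by
        intro u hu hof
        have h5 := (hkerof _).mp hof
        have h6 : orderOf (⟨⟨u, hPH hu⟩, h5⟩ : commutator H) ∣ Nat.card (commutator H) := orderOf_dvd_natCard _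
        obtain ⟨r, hr⟩ := P.isPGroup' ⟨u, hu⟩
        have h7 : (⟨⟨u, hPH hu⟩, h5⟩ : commutator H) ^ q ^ r = 1 := by
          have h8 : u ^ q ^ r = 1 := congrArg Subtype.val hr
          apply Subtype.ext
          apply Subtype.ext
          simpa using h8
        obtain ⟨j, -, hj⟩ := (Nat.dvd_prime_pow hq).mp (orderOf_dvd_of_pow_eq_one h7)
        rcases Nat.eq_zero_or_pos j with rfl | hjpos
        · rw [pow_zero, orderOf_eq_one_iff] at hj
          exact congrArg (fun t : commutator H => ((t : H) : G)) hj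
        · exfalso
          apply hcopA
          rw [hj] at h6
          exact (dvd_pow_self q hjpos.ne').trans h6
      -- Burnside
      have hPne : (P : Subgroup G) ≠ ⊥ := by
        apply Sylow.ne_bot_of_dvd_card
        rw [← hcardG]
        exact hqd.trans (Dvd.intro_left _ rfl)
      obtain ⟨x₀, hx₀, hx₀1⟩ := (Subgroup.ne_bot_iff_exists_ne_one).mp hPne |> fun ⟨x, hx⟩ => (⟨x.1, x.2, fun h => hx (Subtype.ext h)⟩ : ∃ x ∈ (P : Subgroup G), x ≠ 1)
      have hnc : normalizer ((P : Subgroup G) : Set G) ≤ centralizer ((P : Subgroup G) : Set G) := by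
        intro y hy
        rw [Subgroup.mem_centralizer_iff]
        intro x hx
        have hyP : ∀ t ∈ (P : Subgroup G), y * t * y⁻¹ ∈ (P : Subgroup G) := fun t ht => (Subgroup.mem_normalizer_iff.mp hy t).mp ht
        have hu := hyP x hx
        have heq : Abelianization.of (⟨y * x * y⁻¹, hPH hu⟩ : H) = Abelianization.of (⟨x, hPH hx⟩ : H) := by
          rcases hswapor y x₀ (hPH hx₀) hx₀1 (hPH (hyP x₀ hx₀)) with hyH | ⟨hya, hyb⟩
          · have : (⟨y * x * y⁻¹, hPH hu⟩ : H) = (⟨y, hyH⟩ : H) * ⟨x, hPH hx⟩ * (⟨y, hyH⟩ : H)⁻¹ := rfl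
            rw [this, hofcomm]
          · have hh₀ : s⁻¹ * y ∈ H := by
              constructor
              · show (s⁻¹ * y) • a = a
                rw [mul_smul, hya, inv_smul_eq_iff, hsa]
              · show (s⁻¹ * y) • b = b
                rw [mul_smul, hyb, inv_smul_eq_iff, hsb]
            have : (⟨y * x * y⁻¹, hPH hu⟩ : H) = σ ((⟨s⁻¹ * y, hh₀⟩ : H) * ⟨x, hPH hx⟩ * (⟨s⁻¹ * y, hh₀⟩ : H)⁻¹) := by
              apply Subtype.ext
              show y * x * y⁻¹ = s * ((s⁻¹ * y) * x * (s⁻¹ * y)⁻¹) * s⁻¹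
              group
            rw [this, ← hτof, hofcomm, hτP x hx]
        have hmem : y * x * y⁻¹ * x⁻¹ ∈ (P : Subgroup G) := Subgroup.mul_mem _ hu (Subgroup.inv_mem _ hx)
        have h5 : y * x * y⁻¹ * x⁻¹ = 1 := by
          apply hPtriv _ hmem
          have : (⟨y * x * y⁻¹ * x⁻¹, hPH hmem⟩ : H) = (⟨y * x * y⁻¹, hPH hu⟩ : H) * (⟨x, hPH hx⟩ : H)⁻¹ := rfl
          rw [this, map_mul, map_inv, heq, mul_inv_cancel]
        have h6 : y * x * y⁻¹ = x := mul_inv_eq_one.mp h5
        calc x * y = (y * x * y⁻¹) * y := by rw [h6]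
          _ = y * x := by group
      apply hnil q hq hqd
      refine ⟨(MonoidHom.transferSylow P hnc).ker, inferInstance, ?_⟩
      rw [(MonoidHom.ker_transferSylow_isComplement' P hnc).symm.index_eq_card, P.card_eq_multiplicity]
    have hmk : (m : ℤ) ∣ k + 1 := by
      apply hcop.dvd_of_dvd_mul_left
      have h7 : (k - 1) * (k + 1) = k * k - 1 := by ring
      rw [h7]
      exact hkk
    intro h
    rw [← hτof, hk]
    set z := Abelianization.of h
    have h5 : z ^ (m : ℤ) = 1 := by
      rw [zpow_natCast]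
      exact pow_card_eq_one'
    obtain ⟨t, ht⟩ := hmk
    have h6 : z ^ (k + 1) = 1 := by
      rw [ht, zpow_mul, h5, one_zpow]
    rw [← zpow_add_one]
    exact h6
  -- a swap exists
  obtain ⟨s₀, hs₀a, hs₀b⟩ := h2 hab (Ne.symm hab)
  haveI hAcyc : IsCyclic (commutator H) := IsZGroup.isCyclic_commutator H
  have hAcomm : ∀ x y : H, x ∈ commutator H → y ∈ commutator H → x * y = y * x := by
    intro x y hx hy
    have h5 : IsMulCommutative (commutator H) := inferInstance
    have := h5.is_comm.comm ⟨x, hx⟩ ⟨y, hy⟩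
    exact congrArg Subtype.val this
  have hs₀ia : s₀⁻¹ • a = b := by rw [inv_smul_eq_iff, hs₀b]
  have hs₀ib : s₀⁻¹ • b = a := by rw [inv_smul_eq_iff, hs₀a]
  set σ := conjH H s₀ (hswapH s₀ hs₀a hs₀b) with hσ
  set σ' := conjH H s₀⁻¹ (hswapH s₀⁻¹ hs₀ia hs₀ib) with hσ'
  have hσσ' : ∀ x : H, σ (σ' x) = x := by
    intro x
    apply Subtype.ext
    show s₀ * (s₀⁻¹ * x * s₀⁻¹⁻¹) * s₀⁻¹ = x
    group
  have hσA : ∀ (s : G) (hs : ∀ h ∈ H, s * h * s⁻¹ ∈ H), ∀ x ∈ commutator H, conjH H s hs x ∈ commutator H := by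
    intro s hs x hx
    rw [← hkerof] at hx ⊢
    have : Abelianization.of (conjH H s hs x) = Abelianization.map (conjH H s hs) (Abelianization.of x) := rfl
    rw [this, hx, map_one]
  -- `h ^ 2` centralises the commutator subgroup
  have hsq : ∀ (h w : H), w ∈ commutator H → (h * h) * w = w * (h * h) := by
    intro h w hw
    obtain ⟨j, hj⟩ := MonoidHom.map_cyclic (MulAut.conjNormal h : commutator H ≃* commutator H).toMonoidHom
    have hj' : ∀ g (hg : g ∈ commutator H), h * g * h⁻¹ = g ^ j := by
      intro g hg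
      have := hj ⟨g, hg⟩
      have h5 := congrArg Subtype.val this
      simpa using h5
    set g := σ' w with hg
    have hgA : g ∈ commutator H := hσA _ _ _ hw
    have hσg : σ g = w := hσσ' w
    set h' := σ h with hh'
    have h5 : h' * w * h'⁻¹ = h * w * h⁻¹ := by
      have h6 : σ (h * g * h⁻¹) = h' * w * h'⁻¹ := by
        rw [map_mul, map_mul, map_inv, hσg]
      rw [← h6, hj' g hgA, map_zpow, hσg, ← hj' w hw]
    set a := h' * h with ha
    have haA : a ∈ commutator H := by
      rw [← hkerof, ha, map_mul]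
      exact hkey s₀ hs₀a hs₀b h
    have hh'a : h' = a * h⁻¹ := by rw [ha]; group
    have h7 : h⁻¹ * w * h ∈ commutator H := by
      have := (inferInstance : (commutator H).Normal).conj_mem w hw h⁻¹
      simpa using this
    have h8 : a * (h⁻¹ * w * h) = (h⁻¹ * w * h) * a := hAcomm _ _ haA h7
    have h9 : h' * w * h'⁻¹ = h⁻¹ * w * h := by
      rw [hh'a]
      calc a * h⁻¹ * w * (a * h⁻¹)⁻¹ = a * (h⁻¹ * w * h) * a⁻¹ := by group
        _ = (h⁻¹ * w * h) * a * a⁻¹ := by rw [h8]
        _ = _ := by group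
    rw [h9] at h5
    calc (h * h) * w = (h * h * w * h⁻¹) * h := by group
      _ = h * (h * w * h⁻¹) * h := by group
      _ = h * (h⁻¹ * w * h) * h := by rw [h5]
      _ = _ := by group
  have hcen : ∀ (h w : H), w ∈ commutator H → h * w = w * h := by
    intro h w hw
    have hord : Odd (orderOf h) := by
      have h5 : orderOf h ∣ d := orderOf_dvd_natCard h
      exact Odd.of_dvd_nat hodd h5
    obtain ⟨t, ht⟩ := hord
    have h6 : h = (h * h) ^ (t + 1) := by
      rw [← pow_two, ← pow_mul]
      have h7 : 2 * (t + 1) = orderOf h + 1 := by omega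
      rw [h7, pow_succ, pow_orderOf_eq_one, one_mul]
    have h7 : Commute (h * h) w := hsq h w hw
    have h8 : Commute ((h * h) ^ (t + 1)) w := h7.pow_left _
    rw [← h6] at h8
    exact h8
  have hcomm : ∀ x y : H, x * y = y * x := by
    apply commutative_of_cyclic_center_quotient (Abelianization.of : H →* Abelianization H)
    intro x hx
    have hx' : x ∈ commutator H := (hkerof x).mp hx
    rw [Subgroup.mem_center_iff]
    intro y
    exact hcen y x hx'
  have hAbot : ∀ x : H, Abelianization.of x = 1 → x = 1 := by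
    intro x hx
    have hx' : x ∈ commutator H := (hkerof x).mp hx
    have : commutator H = ⊥ := by
      rw [_root_.commutator_def, eq_bot_iff, Subgroup.commutator_le]
      intro g₁ _ g₂ _
      rw [Subgroup.mem_bot, commutatorElement_eq_one_iff_mul_comm]
      exact hcomm _ _
    rw [this] at hx'
    exact hx'
  have hinv : ∀ s : G, s • a = b → s • b = a → ∀ h ∈ H, s * h * s⁻¹ = h⁻¹ := by
    intro s hsa hsb h hh
    have h5 := hkey s hsa hsb ⟨h, hh⟩
    rw [← map_mul] at h5
    have h6 := hAbot _ h5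
    have h7 : s * h * s⁻¹ * h = 1 := congrArg Subtype.val h6
    exact eq_inv_of_mul_eq_one_left h7
  refine ⟨?_, ?_, hinv⟩
  · apply isCyclic_of_injective (Abelianization.of : H →* Abelianization H)
    intro x y hxy
    have h5 : Abelianization.of (x⁻¹ * y) = 1 := by
      rw [map_mul, map_inv, hxy, inv_mul_cancel]
    have h6 := hAbot _ h5
    exact (inv_mul_eq_one.mp h6)
  · ext x
    constructor
    · intro hx
      have h5 : x * x₁ = x₁ * x := by
        rw [Subgroup.mem_centralizer_iff] at hx
        exact (hx x₁ hx₁H).symm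
      have h6 : x * x₁ * x⁻¹ = x₁ := by rw [h5]; group
      rcases hswapor x x₁ hx₁H hx₁ (by rw [h6]; exact hx₁H) with h7 | ⟨h7, h8⟩
      · exact h7
      · exfalso
        have h9 := hinv x h7 h8 x₁ hx₁H
        rw [h6] at h9
        have h10 : x₁ * x₁ = 1 := by
          nth_rw 1 [h9]
          exact inv_mul_cancel _
        have h11 : orderOf (⟨x₁, hx₁H⟩ : H) = 2 := by
          apply orderOf_eq_prime
          · rw [pow_two]
            exact Subtype.ext h10
          · intro h
            exact hx₁ (congrArg Subtype.val h)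
        have h12 : orderOf (⟨x₁, hx₁H⟩ : H) ∣ d := orderOf_dvd_natCard _
        rw [h11] at h12
        exact hOdd2 2 Nat.prime_two h12 rfl
    · intro hx
      rw [Subgroup.mem_centralizer_iff]
      intro y hy
      have := hcomm ⟨y, hy⟩ ⟨x, hx⟩
      exact congrArg Subtype.val this

end CfsgLib.H9.Zass
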