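import Mathlib

/-! The flag of a `p`-subgroup of `SL_n`. -/

set_option autoImplicit false
set_option linter.unusedVariables false
set_option linter.style.haveILetI false

namespace CfsgLib.H9.BorelTits

open Matrix

variable {F : Type*} [Field F] [Fintype F] {n : ℕ}

/-- The upper fixed space. -/
def up (U : Subgroup (Matrix.SpecialLinearGroup (Fin n) F)) (W : Submodule F (Fin n → F)) :
    Submodule F (Fin n → F) where
  carrier := {v | ∀ u ∈ U, (u : Matrix (Fin n) (Fin n) F).mulVec v - v ∈ W}
  add_mem' := by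
    intro a b ha hb u hu
    have := W.add_mem (ha u hu) (hb u hu)
    rw [Matrix.mulVec_add]
    convert this using 1
    abel
  zero_mem' := by
    intro u hu
    simp
  smul_mem' := by
    intro c a ha u hu
    have := W.smul_mem c (ha u hu)
    rw [Matrix.mulVec_smul, ← smul_sub]
    exact this

theorem mem_up {U : Subgroup (Matrix.SpecialLinearGroup (Fin n) F)} {W : Submodule F (Fin n → F)}
    {v : Fin n → F} : v ∈ up U W ↔ ∀ u ∈ U, (u : Matrix (Fin n) (Fin n) F).mulVec v - v ∈ W := Iff.rfl

/-- A subspace invariant under `U`. -/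
def Inv (U : Subgroup (Matrix.SpecialLinearGroup (Fin n) F)) (W : Submodule F (Fin n → F)) : Prop :=
  ∀ u ∈ U, ∀ w ∈ W, (u : Matrix (Fin n) (Fin n) F).mulVec w ∈ W

theorem le_up {U : Subgroup (Matrix.SpecialLinearGroup (Fin n) F)} {W : Submodule F (Fin n → F)}
    (h : Inv U W) : W ≤ up U W := by
  intro w hw u hu
  exact W.sub_mem (h u hu w hw) hw

theorem inv_up {U : Subgroup (Matrix.SpecialLinearGroup (Fin n) F)} {W : Submodule F (Fin n → F)}
    (h : Inv U W) : Inv U (up U W) := by
  intro u hu w hw u' hu'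
  have h1 := hw (u' * u) (U.mul_mem hu' hu)
  have h2 := hw u hu
  have h3 : ((u' * u : Matrix.SpecialLinearGroup (Fin n) F) : Matrix (Fin n) (Fin n) F).mulVec w =
      (u' : Matrix (Fin n) (Fin n) F).mulVec ((u : Matrix (Fin n) (Fin n) F).mulVec w) := by
    rw [Matrix.SpecialLinearGroup.coe_mul, Matrix.mulVec_mulVec]
  rw [h3] at h1
  have h4 := W.sub_mem h1 h2
  convert h4 using 1
  abel

theorem up_mono {U : Subgroup (Matrix.SpecialLinearGroup (Fin n) F)} {W W' : Submodule F (Fin n → F)}
    (h : W ≤ W') : up U W ≤ up U W' := fun v hv u hu => h (hv u hu)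

/-- A `p`-group fixes a nonzero vector in every nonzero quotient. -/
theorem exists_up (p : ℕ) [Fact p.Prime] [CharP F p] {U : Subgroup (Matrix.SpecialLinearGroup (Fin n) F)}
    (hU : IsPGroup p U) {W : Submodule F (Fin n → F)} (hinv : Inv U W) (hW : W ≠ ⊤) :
    ∃ v, v ∉ W ∧ v ∈ up U W := by
  classical
  -- the action on the quotient
  let Q := (Fin n → F) ⧸ W
  have hact : ∀ u : U, ∀ a b : Fin n → F, a - b ∈ W →
      (u : Matrix (Fin n) (Fin n) F).mulVec a - (u : Matrix (Fin n) (Fin n) F).mulVec b ∈ W := by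
    intro u a b hab
    rw [← Matrix.mulVec_sub]
    exact hinv u.1 u.2 _ hab
  let act : U → Q → Q := fun u => Quotient.map' (fun a => (u : Matrix (Fin n) (Fin n) F).mulVec a) (by
    intro a b hab
    have h1 := (Submodule.quotientRel_def W).mp hab
    exact (Submodule.quotientRel_def W).mpr (hact u a b h1))
  have hactmk : ∀ (u : U) (a : Fin n → F), act u (Submodule.Quotient.mk a) =
      Submodule.Quotient.mk ((u : Matrix (Fin n) (Fin n) F).mulVec a) := fun u a => rfl
  letI : MulAction U Q :=
    { smul := act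
      one_smul := by
        intro x
        induction x using Submodule.Quotient.induction_on with
        | H a =>
          show act 1 _ = _
          rw [hactmk]
          simp
      mul_smul := by
        intro u₁ u₂ x
        induction x using Submodule.Quotient.induction_on with
        | H a =>
          show act (u₁ * u₂) _ = act u₁ (act u₂ _)
          rw [hactmk, hactmk, hactmk]
          simp [Matrix.mulVec_mulVec] }
  have hsmul : ∀ (u : U) (a : Fin n → F), u • (Submodule.Quotient.mk a : Q) =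
      Submodule.Quotient.mk ((u : Matrix (Fin n) (Fin n) F).mulVec a) := fun u a => rfl
  haveI : Finite Q := inferInstance
  have hp : p.Prime := Fact.out
  -- count
  have hcard : p ∣ Nat.card Q := by
    have h1 : Nontrivial Q := Submodule.Quotient.nontrivial_iff.mpr hW
    have h2 : 0 < Module.finrank F Q := Module.finrank_pos
    letI := Fintype.ofFinite Q
    rw [Nat.card_eq_fintype_card, Module.card_eq_pow_finrank (K := F) (V := Q)]
    apply dvd_pow _ h2.ne'
    have h3 : ((Fintype.card F : ℕ) : F) = 0 := Nat.cast_card_eq_zero F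
    exact (CharP.cast_eq_zero_iff F p _).mp h3
  have h0 : (0 : Q) ∈ MulAction.fixedPoints U Q := by
    intro u
    show u • ((Submodule.Quotient.mk (0 : Fin n → F)) : Q) = _
    rw [hsmul]
    simp
  have hfix := hU.card_modEq_card_fixedPoints Q
  have h2 : p ∣ Nat.card (MulAction.fixedPoints U Q) := by
    have := (Nat.modEq_zero_iff_dvd.mp (hfix.symm.trans ((Nat.modEq_zero_iff_dvd.mpr hcard))))
    exact this
  obtain ⟨x, hx, hx0⟩ : ∃ x ∈ MulAction.fixedPoints U Q, x ≠ 0 := by
    by_contra hh
    push Not at hh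
    have h3 : Nat.card (MulAction.fixedPoints U Q) = 1 := by
      rw [Nat.card_eq_one_iff_unique]
      refine ⟨⟨?_⟩, ⟨⟨0, h0⟩⟩⟩
      rintro ⟨a, ha⟩ ⟨b, hb⟩
      apply Subtype.ext
      exact (hh a ha).trans (hh b hb).symm
    rw [h3] at h2
    exact hp.one_lt.ne' (Nat.dvd_one.mp h2)
  obtain ⟨v, rfl⟩ := Submodule.Quotient.mk_surjective W x
  refine ⟨v, ?_, ?_⟩
  · intro hv
    exact hx0 ((Submodule.Quotient.mk_eq_zero W).mpr hv)
  · intro u hu
    have h3 := hx ⟨u, hu⟩
    rw [hsmul] at h3
    exact (Submodule.Quotient.eq W).mp h3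

/-- The ascending chain. -/
def chain (U : Subgroup (Matrix.SpecialLinearGroup (Fin n) F)) : ℕ → Submodule F (Fin n → F)
  | 0 => ⊥
  | i + 1 => up U (chain U i)

theorem chain_inv (U : Subgroup (Matrix.SpecialLinearGroup (Fin n) F)) (i : ℕ) : Inv U (chain U i) := by
  induction i with
  | zero =>
    intro u hu w hw
    have h1 : w = 0 := hw
    simp [h1, chain]
  | succ i ih => exact inv_up ih

theorem chain_lt (p : ℕ) [Fact p.Prime] [CharP F p] {U : Subgroup (Matrix.SpecialLinearGroup (Fin n) F)}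
    (hU : IsPGroup p U) (i : ℕ) (h : chain U i ≠ ⊤) : chain U i < chain U (i + 1) := by
  obtain ⟨v, hv, hv2⟩ := exists_up p hU (chain_inv U i) h
  exact lt_of_le_of_ne (le_up (chain_inv U i)) (fun h2 => hv (h2 ▸ hv2))

theorem chain_top (p : ℕ) [Fact p.Prime] [CharP F p] {U : Subgroup (Matrix.SpecialLinearGroup (Fin n) F)}
    (hU : IsPGroup p U) : ∃ i, chain U i = ⊤ := by
  by_contra hh
  push Not at hh
  have h1 : ∀ i, i ≤ Module.finrank F (chain U i) := by
    intro i
    induction i with
    | zero => simp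
    | succ i ih =>
      have := Submodule.finrank_lt_finrank_of_lt (chain_lt p hU i (hh i))
      omega
  have h2 := h1 (n + 1)
  have h3 := Submodule.finrank_le (chain U (n + 1))
  simp only [Module.finrank_fin_fun] at h3
  omega

theorem main (p : ℕ) [Fact p.Prime] [CharP F p] (n : ℕ)
    (U : Subgroup (Matrix.SpecialLinearGroup (Fin n) F)) (hU : IsPGroup p ↥U) (hne : U ≠ ⊥) :
    ∃ (k : ℕ) (V : Fin (k + 2) → Submodule F (Fin n → F)), 1 ≤ k ∧ StrictMono V ∧ V 0 = ⊥ ∧ V (Fin.last (k + 1)) = ⊤ ∧
      (∀ g ∈ Subgroup.normalizer (U : Set (Matrix.SpecialLinearGroup (Fin n) F)), ∀ i, (V i).map (Matrix.mulVecLin (g : Matrix (Fin n) (Fin n) F)) = V i) ∧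
      (∀ u ∈ U, ∀ i : Fin (k + 1), ∀ v ∈ V i.succ, (u : Matrix (Fin n) (Fin n) F).mulVec v - v ∈ V (Fin.castSucc i)) := by
  classical
  have hex := chain_top p hU
  set L := Nat.find hex with hL
  have hLtop : chain U L = ⊤ := Nat.find_spec hex
  have hLmin : ∀ i < L, chain U i ≠ ⊤ := fun i hi => Nat.find_min hex hi
  -- `U` acts non-trivially
  obtain ⟨u₀, hu₀, hu₀1⟩ : ∃ u ∈ U, u ≠ 1 := by
    by_contra hh
    push Not at hh
    exact hne ((Subgroup.eq_bot_iff_forall _).mpr hh)
  have h1ne : chain U 1 ≠ ⊤ := by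
    intro h
    apply hu₀1
    apply Subtype.ext
    have h2 : ∀ v, (u₀ : Matrix (Fin n) (Fin n) F).mulVec v = v := by
      intro v
      have h3 : v ∈ chain U 1 := by
        rw [h]
        exact Submodule.mem_top
      have h4 : (u₀ : Matrix (Fin n) (Fin n) F).mulVec v - v ∈ (⊥ : Submodule F (Fin n → F)) := h3 u₀ hu₀
      exact sub_eq_zero.mp h4
    ext i j
    have h3 := congrFun (h2 (Pi.single j 1)) i
    simp only [Matrix.mulVec_single_one, Matrix.col_apply] at h3
    rw [h3]
    simp [Matrix.one_apply, Pi.single_apply, eq_comm]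
  have h0ne : chain U 0 ≠ ⊤ := by
    intro h
    apply h1ne
    have h2 : chain U 0 ≤ chain U 1 := le_up (chain_inv U 0)
    exact top_le_iff.mp (h ▸ h2)
  have hL2 : 2 ≤ L := by
    by_contra hh
    have h2 : L = 0 ∨ L = 1 := by omega
    rcases h2 with h2 | h2
    · rw [h2] at hLtop
      exact h0ne hLtop
    · rw [h2] at hLtop
      exact h1ne hLtop
  obtain ⟨k, hk⟩ : ∃ k, L = k + 1 := ⟨L - 1, by omega⟩
  have hmulvec : ∀ (a b : Matrix.SpecialLinearGroup (Fin n) F) (v : Fin n → F),
      ((a * b : Matrix.SpecialLinearGroup (Fin n) F) : Matrix (Fin n) (Fin n) F).mulVec v =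
        (a : Matrix (Fin n) (Fin n) F).mulVec ((b : Matrix (Fin n) (Fin n) F).mulVec v) := by
    intro a b v
    rw [Matrix.SpecialLinearGroup.coe_mul, Matrix.mulVec_mulVec]
  have hone : ∀ v : Fin n → F, ((1 : Matrix.SpecialLinearGroup (Fin n) F) : Matrix (Fin n) (Fin n) F).mulVec v = v := by
    intro v
    simp
  -- normaliser
  have hpres : ∀ g ∈ Subgroup.normalizer (U : Set (Matrix.SpecialLinearGroup (Fin n) F)), ∀ i, ∀ v ∈ chain U i,
      (g : Matrix (Fin n) (Fin n) F).mulVec v ∈ chain U i := by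
    intro g hg i
    induction i with
    | zero =>
      intro v hv
      have h1 : v = 0 := hv
      simp [h1, chain]
    | succ i ih =>
      intro v hv u hu
      have h2 : g⁻¹ * u * g ∈ U := by
        have h3 := Subgroup.inv_mem _ hg
        have h4 := (Subgroup.mem_normalizer_iff.mp h3 u).mp hu
        simpa using h4
      have h3 := hv _ h2
      have h4 := ih _ h3
      have h5 : (g : Matrix (Fin n) (Fin n) F).mulVec
          (((g⁻¹ * u * g : Matrix.SpecialLinearGroup (Fin n) F) : Matrix (Fin n) (Fin n) F).mulVec v - v) =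
          (u : Matrix (Fin n) (Fin n) F).mulVec ((g : Matrix (Fin n) (Fin n) F).mulVec v) -
            (g : Matrix (Fin n) (Fin n) F).mulVec v := by
        rw [Matrix.mulVec_sub, ← hmulvec, show g * (g⁻¹ * u * g) = u * g by group, hmulvec]
      rw [← h5]
      exact h4
  refine ⟨k, fun i => chain U i, ?_, ?_, rfl, ?_, ?_, ?_⟩
  · omega
  · rw [Fin.strictMono_iff_lt_succ]
    intro i
    have h2 : (i : ℕ) < L := by
      have := i.2
      omega
    exact chain_lt p hU i (hLmin i h2)
  · show chain U (k + 1) = ⊤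
    rw [← hk]
    exact hLtop
  · intro g hg i
    apply le_antisymm
    · rintro _ ⟨v, hv, rfl⟩
      exact hpres g hg i v hv
    · intro v hv
      refine ⟨(g⁻¹ : Matrix.SpecialLinearGroup (Fin n) F).1.mulVec v, hpres _ (Subgroup.inv_mem _ hg) i v hv, ?_⟩
      show (g : Matrix (Fin n) (Fin n) F).mulVec ((g⁻¹ : Matrix.SpecialLinearGroup (Fin n) F).1.mulVec v) = v
      have := hmulvec g g⁻¹ v
      rw [mul_inv_cancel, hone] at this
      exact this.symm
  · intro u hu i v hv
    exact hv u hu

end CfsgLib.H9.BorelTits
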