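import Cfsg.Agent.Lib.H9.KNormal
import Cfsg.Agent.Lib.FGS.FrobThm
import Cfsg.Agent.Lib.Lead.Frobenius
import Mathlib

/-! Burnside's theorem on minimal normal subgroups of doubly transitive groups. -/

set_option autoImplicit false

namespace CfsgLib.H9.Burnside

open MulAction CfsgLib.H9.KNormal

universe u v

variable {G : Type u} {X : Type v} [Group G] [MulAction G X]

/-- All non-identity elements have the same order: the exponent is prime. -/
theorem exists_prime_of_same_order [Finite G] (T : Subgroup G) (hT : T ≠ ⊥)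
    (hsame : ∀ s ∈ T, ∀ t ∈ T, s ≠ 1 → t ≠ 1 → orderOf s = orderOf t) :
    ∃ p, p.Prime ∧ ∀ t ∈ T, t ^ p = 1 := by
  obtain ⟨t, ht, ht1⟩ := (T.bot_or_exists_ne_one).resolve_left hT
  have h1 : orderOf t ≠ 1 := fun h => ht1 (orderOf_eq_one_iff.mp h)
  have hp : (orderOf t).minFac.Prime := Nat.minFac_prime h1
  have hord := orderOf_pow_orderOf_div (x := t) (n := (orderOf t).minFac) (orderOf_pos t).ne'
    (Nat.minFac_dvd _)
  set s := t ^ (orderOf t / (orderOf t).minFac) with hs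
  have hsT : s ∈ T := T.pow_mem ht _
  have hs1 : s ≠ 1 := by
    intro h
    rw [h, orderOf_one] at hord
    exact hp.one_lt.ne hord
  refine ⟨_, hp, fun r hr => ?_⟩
  by_cases hr1 : r = 1
  · rw [hr1, one_pow]
  · rw [← hord, ← hsame r hr s hsT hr1 hs1]
    exact pow_orderOf_eq_one r

/-- A non-trivial subgroup of prime exponent has a non-trivial central element. -/
theorem exists_central_of_exp [Finite G] (T : Subgroup G) (hT : T ≠ ⊥) (p : ℕ) (hp : p.Prime)
    (he : ∀ t ∈ T, t ^ p = 1) : ∃ z ∈ T, z ≠ 1 ∧ ∀ s ∈ T, s * z = z * s := by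
  haveI : Fact p.Prime := ⟨hp⟩
  have hP : IsPGroup p T := fun t => ⟨1, by
    apply Subtype.ext
    simpa using he t t.2⟩
  haveI : Nontrivial T := (Subgroup.nontrivial_iff_ne_bot T).mpr hT
  haveI := hP.center_nontrivial
  obtain ⟨z, hz⟩ := exists_ne (1 : Subgroup.center T)
  refine ⟨(z : T), (z : T).2, fun h => hz (Subtype.ext (Subtype.ext h)), fun s hs => ?_⟩
  have := (Subgroup.mem_center_iff.mp z.2) ⟨s, hs⟩
  exact congrArg Subtype.val this

/-- The regular case. -/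
theorem regular_case [Finite G] [Finite X] [FaithfulSMul G X]
    (h2 : ∀ a b c d : X, a ≠ b → c ≠ d → ∃ g : G, g • a = c ∧ g • b = d)
    (N : Subgroup G) [hNn : N.Normal] (hN : N ≠ ⊥)
    (hmin : ∀ M : Subgroup G, M.Normal → M ≤ N → M = ⊥ ∨ M = N)
    (htr : ∀ x y : X, ∃ n ∈ N, n • x = y) (a : X) (hreg : ∀ n ∈ N, n • a = a → n = 1) :
    (∀ m ∈ N, ∀ n ∈ N, m * n = n * m) ∧ (∃ p : ℕ, p.Prime ∧ ∀ n ∈ N, n ^ p = 1) ∧
      ∀ b : X, ∀ n ∈ N, n • b = b → n = 1 := by
  have hne : ∀ n ∈ N, n ≠ 1 → n • a ≠ a := fun n hn h1 h => h1 (hreg n hn h)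
  have hsame : ∀ s ∈ N, ∀ t ∈ N, s ≠ 1 → t ≠ 1 → orderOf s = orderOf t := by
    intro s hs t ht hs1 ht1
    obtain ⟨g, hga, hgs⟩ := h2 a (s • a) a (t • a) (hne s hs hs1).symm (hne t ht ht1).symm
    have hconj : g * s * g⁻¹ = t := by
      have h3 : t⁻¹ * (g * s * g⁻¹) = 1 := by
        apply hreg _ (N.mul_mem (N.inv_mem ht) (hNn.conj_mem s hs g))
        have h4 : g⁻¹ • a = a := by
          conv_lhs => rw [← hga]
          rw [inv_smul_smul]
        have h6 : (t⁻¹ * (g * s * g⁻¹)) • a = t⁻¹ • (g • s • (g⁻¹ • a)) := by simp only [mul_smul]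
        rw [h6, h4, hgs, inv_smul_smul]
      have h5 : g * s * g⁻¹ = t * (t⁻¹ * (g * s * g⁻¹)) := by group
      rw [h5, h3, mul_one]
    rw [← hconj, orderOf_eq_orderOf_iff]
    intro n
    rw [conj_pow]
    constructor
    · intro h; rw [h]; group
    · intro h
      have : s ^ n = g⁻¹ * (g * s ^ n * g⁻¹) * g := by group
      rw [this, h]; group
  obtain ⟨p, hp, hexp⟩ := exists_prime_of_same_order N hN hsame
  obtain ⟨z, hzN, hz1, hzc⟩ := exists_central_of_exp N hN p hp hexp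
  -- the centre
  let Z : Subgroup G := Subgroup.centralizer (N : Set G) ⊓ N
  have hZnormal : Z.Normal := by
    constructor
    rintro x ⟨hx, hxN⟩ g
    refine ⟨?_, hNn.conj_mem x hxN g⟩
    apply Subgroup.mem_centralizer_iff.mpr
    intro y hy
    have hy' : g⁻¹ * y * g ∈ N := by
      have := hNn.conj_mem y hy g⁻¹
      simpa using this
    have := (Subgroup.mem_centralizer_iff.mp hx) _ hy'
    calc y * (g * x * g⁻¹) = g * ((g⁻¹ * y * g) * x) * g⁻¹ := by group
      _ = g * (x * (g⁻¹ * y * g)) * g⁻¹ := by rw [this]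
      _ = g * x * g⁻¹ * y := by group
  have hZ := hmin Z hZnormal inf_le_right
  have hcomm : ∀ m ∈ N, ∀ n ∈ N, m * n = n * m := by
    rcases hZ with hZ | hZ
    · exfalso
      have : z ∈ Z := ⟨Subgroup.mem_centralizer_iff.mpr hzc, hzN⟩
      rw [hZ] at this
      exact hz1 (Subgroup.mem_bot.mp this)
    · intro m hm n hn
      have : m ∈ Z := by rw [hZ]; exact hm
      exact (Subgroup.mem_centralizer_iff.mp this.1) n hn |>.symm
  refine ⟨hcomm, ⟨p, hp, hexp⟩, fun b n hn hb => ?_⟩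
  obtain ⟨m, hm, hma⟩ := htr b a
  have : m * n * m⁻¹ = 1 := by
    apply hreg _ (N.mul_mem (N.mul_mem hm hn) (N.inv_mem hm))
    rw [← hma, mul_smul, mul_smul, inv_smul_smul, hb]
  have h3 : n = m⁻¹ * (m * n * m⁻¹) * m := by group
  rw [h3, this]; group

/-! ### Blocks of the normal subgroup -/

/-- A block of `N`, in elementwise form. -/
def Bl (N : Subgroup G) (S : Set X) : Prop := ∀ n ∈ N, ∀ x ∈ S, n • x ∈ S → ∀ y ∈ S, n • y ∈ S

theorem bl_image {N : Subgroup G} [hNn : N.Normal] {S : Set X} (hS : Bl N S) (g : G) :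
    Bl N ((fun x => g • x) '' S) := by
  rintro n hn _ ⟨x, hx, rfl⟩ ⟨x', hx', hxx'⟩ _ ⟨y, hy, rfl⟩
  have hk : g⁻¹ * n * g ∈ N := by
    have := hNn.conj_mem n hn g⁻¹
    simpa using this
  have h1 : (g⁻¹ * n * g) • x = x' := by
    have hxx'' : g • x' = n • g • x := hxx'
    rw [mul_smul, mul_smul, ← hxx'', inv_smul_smul]
  have h2 := hS _ hk x hx (by rw [h1]; exact hx') y hy
  refine ⟨_, h2, ?_⟩
  change g • (g⁻¹ * n * g) • y = n • g • y
  rw [mul_smul, mul_smul, smul_inv_smul]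

theorem bl_inter {N : Subgroup G} {S T : Set X} (hS : Bl N S) (hT : Bl N T) : Bl N (S ∩ T) := by
  rintro n hn x ⟨hx1, hx2⟩ ⟨hy1, hy2⟩ y ⟨hz1, hz2⟩
  exact ⟨hS n hn x hx1 hy1 y hz1, hT n hn x hx2 hy2 y hz2⟩

/-- In a block system of minimal size, the translates form a linear space, on which elements of
`N` act as dilatations; hence an element of `N` fixing two points is trivial. -/
theorem two_fix_eq_one [Finite X] [FaithfulSMul G X]
    (h2 : ∀ a b c d : X, a ≠ b → c ≠ d → ∃ g : G, g • a = c ∧ g • b = d)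
    (N : Subgroup G) [hNn : N.Normal] (S₀ : Set X) (hS₀ : Bl N S₀) (hS₀2 : 2 ≤ S₀.ncard)
    (hS₀u : S₀ ≠ Set.univ) : ∀ ν ∈ N, ∀ x y : X, x ≠ y → ν • x = x → ν • y = y → ν = 1 := by
  classical
  -- a block of minimal size
  have hex : ∃ k, ∃ S : Set X, Bl N S ∧ 2 ≤ S.ncard ∧ S ≠ Set.univ ∧ S.ncard = k :=
    ⟨_, S₀, hS₀, hS₀2, hS₀u, rfl⟩
  obtain ⟨B, hB, hB2, hBu, hBk⟩ := Nat.find_spec hex
  have hBmin : ∀ S : Set X, Bl N S → 2 ≤ S.ncard → S ≠ Set.univ → B.ncard ≤ S.ncard := by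
    intro S hS hS2 hSu
    rw [hBk]
    exact Nat.find_min' hex ⟨S, hS, hS2, hSu, rfl⟩
  let Line : Set X → Prop := fun L => ∃ g : G, L = (fun x => g • x) '' B
  have hLbl : ∀ L, Line L → Bl N L := by
    rintro _ ⟨g, rfl⟩
    exact bl_image hB g
  have hLcard : ∀ L, Line L → L.ncard = B.ncard := by
    rintro _ ⟨g, rfl⟩
    exact Set.ncard_image_of_injective _ (MulAction.injective g)
  have hLu : ∀ L, Line L → L ≠ Set.univ := by
    rintro _ ⟨g, rfl⟩ h
    apply hBu
    ext x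
    simp only [Set.mem_univ, iff_true]
    have : g • x ∈ (fun x => g • x) '' B := by rw [h]; exact Set.mem_univ _
    obtain ⟨y, hy, hyx⟩ := this
    have : y = x := MulAction.injective g hyx
    rwa [← this]
  obtain ⟨a₀, b₀, ha₀, hb₀, hab₀⟩ := (Set.one_lt_ncard_iff).mp (by omega : 1 < B.ncard)
  have hLex : ∀ x y : X, x ≠ y → ∃ L, Line L ∧ x ∈ L ∧ y ∈ L := by
    intro x y hxy
    obtain ⟨g, hg1, hg2⟩ := h2 a₀ b₀ x y hab₀ hxy
    exact ⟨_, ⟨g, rfl⟩, ⟨a₀, ha₀, hg1⟩, ⟨b₀, hb₀, hg2⟩⟩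
  have hLuniq : ∀ L₁ L₂, Line L₁ → Line L₂ → ∀ x y : X, x ≠ y → x ∈ L₁ → y ∈ L₁ → x ∈ L₂ → y ∈ L₂ →
      L₁ = L₂ := by
    intro L₁ L₂ h₁ h₂ x y hxy hx₁ hy₁ hx₂ hy₂
    have hI : Bl N (L₁ ∩ L₂) := bl_inter (hLbl L₁ h₁) (hLbl L₂ h₂)
    have hI2 : 2 ≤ (L₁ ∩ L₂).ncard := by
      have : 1 < (L₁ ∩ L₂).ncard := (Set.one_lt_ncard_iff).mpr ⟨x, y, ⟨hx₁, hx₂⟩, ⟨hy₁, hy₂⟩, hxy⟩
      omega
    have hIu : L₁ ∩ L₂ ≠ Set.univ := by
      intro h
      apply hLu L₁ h₁
      rw [Set.eq_univ_iff_forall] at h ⊢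
      exact fun z => (h z).1
    have hI3 := hBmin _ hI hI2 hIu
    have e1 : L₁ ∩ L₂ = L₁ := Set.eq_of_subset_of_ncard_le Set.inter_subset_left
      (by rw [hLcard L₁ h₁]; exact hI3)
    have e2 : L₁ ∩ L₂ = L₂ := Set.eq_of_subset_of_ncard_le Set.inter_subset_right
      (by rw [hLcard L₂ h₂]; exact hI3)
    rw [← e1]
    exact e2
  -- dilatations
  have hdil : ∀ ν ∈ N, ∀ L, Line L → ∀ x ∈ L, ν • x = x → ∀ y ∈ L, ν • y ∈ L := by
    intro ν hν L hL x hx hfix y hy
    exact hLbl L hL ν hν x hx (by rw [hfix]; exact hx) y hy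
  intro ν hν x y hxy hx hy
  obtain ⟨L, hL, hxL, hyL⟩ := hLex x y hxy
  -- points off the line are fixed
  have hoff : ∀ w, w ∉ L → ν • w = w := by
    intro w hw
    by_contra hne
    have hwx : x ≠ w := fun h => hw (h ▸ hxL)
    have hwy : y ≠ w := fun h => hw (h ▸ hyL)
    obtain ⟨L₁, hL₁, hx₁, hw₁⟩ := hLex x w hwx
    obtain ⟨L₂, hL₂, hy₂, hw₂⟩ := hLex y w hwy
    have h1 := hdil ν hν L₁ hL₁ x hx₁ hx w hw₁
    have h2' := hdil ν hν L₂ hL₂ y hy₂ hy w hw₂
    have he := hLuniq L₁ L₂ hL₁ hL₂ (ν • w) w hne h1 hw₁ h2' hw₂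
    have he2 := hLuniq L L₁ hL hL₁ x y hxy hxL hyL hx₁ (by rw [he]; exact hy₂)
    exact hw (by rw [he2]; exact hw₁)
  -- there is a point off the line
  obtain ⟨w₀, hw₀⟩ : ∃ w, w ∉ L := by
    by_contra hcon
    push Not at hcon
    exact hLu L hL (Set.eq_univ_iff_forall.mpr hcon)
  have hon : ∀ z, z ∈ L → ν • z = z := by
    intro z hz
    by_contra hne
    have hwz : w₀ ≠ z := fun h => hw₀ (h ▸ hz)
    obtain ⟨L₁, hL₁, hw₁, hz₁⟩ := hLex w₀ z hwz
    have h1 := hdil ν hν L₁ hL₁ w₀ hw₁ (hoff w₀ hw₀) z hz₁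
    have h2' := hdil ν hν L hL x hxL hx z hz
    have he := hLuniq L L₁ hL hL₁ (ν • z) z hne h2' hz h1 hz₁
    exact hw₀ (by rw [he]; exact hw₁)
  apply FaithfulSMul.eq_of_smul_eq_smul (α := X)
  intro z
  rw [one_smul]
  by_cases hz : z ∈ L
  · exact hon z hz
  · exact hoff z hz

/-- A transitive normal subgroup, non-regular, in which elements fixing two points are trivial,
is not minimal normal: its Frobenius kernel is a smaller normal subgroup. -/
theorem frob_step [Finite G] [Finite X] [FaithfulSMul G X] (N : Subgroup G) [hNn : N.Normal]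
    (htr : ∀ x y : X, ∃ n ∈ N, n • x = y) (a : X) (hna : ∃ n ∈ N, n • a = a ∧ n ≠ 1)
    (htwo : ∀ ν ∈ N, ∀ x y : X, x ≠ y → ν • x = x → ν • y = y → ν = 1) :
    ∃ M : Subgroup G, M.Normal ∧ M ≤ N ∧ M ≠ ⊥ ∧ M ≠ N := by
  classical
  obtain ⟨n₀, hn₀, hn₀a, hn₀1⟩ := hna
  let H : Subgroup N := stabilizer N a
  have hHmem : ∀ h : N, h ∈ H ↔ (h : G) • a = a := fun h => Iff.rfl
  have hH1 : H ≠ ⊥ := by
    intro h
    have : (⟨n₀, hn₀⟩ : N) ∈ H := hn₀a
    rw [h, Subgroup.mem_bot] at this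
    exact hn₀1 (congrArg Subtype.val this)
  obtain ⟨b, hb⟩ : ∃ b : X, n₀ • b ≠ b := by
    by_contra hcon
    push Not at hcon
    apply hn₀1
    apply FaithfulSMul.eq_of_smul_eq_smul (α := X)
    intro z
    rw [one_smul]
    exact hcon z
  have hab : a ≠ b := fun h => hb (h ▸ hn₀a)
  have hH2 : H ≠ ⊤ := by
    intro h
    obtain ⟨m, hm, hmab⟩ := htr a b
    have : (⟨m, hm⟩ : N) ∈ H := by rw [h]; exact Subgroup.mem_top _
    have h3 : m • a = a := this
    rw [h3] at hmab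
    exact hab hmab
  have hF : Cfsg.IsFrobeniusComplement H := by
    refine ⟨hH1, hH2, fun g hg => ?_⟩
    rw [Subgroup.eq_bot_iff_forall]
    rintro x ⟨hx1, hx2⟩
    have hx3 := (CfsgLib.Lead.mem_conj_smul_iff H g x).mp hx2
    have hx4 : ((g⁻¹ * x * g : N) : G) • a = a := hx3
    have hga : (g : G) • a ≠ a := hg
    have hx5 : (x : G) • ((g : G) • a) = (g : G) • a := by
      have h5 : ((g : G)⁻¹ * x * g) • a = a := hx4
      rw [mul_smul, mul_smul] at h5
      rw [inv_smul_eq_iff] at h5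
      exact h5
    apply Subtype.ext
    exact htwo x x.2 _ _ hga hx5 hx1
  obtain ⟨K, hK, -, hKc⟩ := CfsgLib.FGS.exists_frobenius_kernel H hF
  have hKmem : ∀ y : N, y ∈ K ↔ y = 1 ∨ ∀ x : X, (y : G) • x ≠ x := by
    intro y
    have h1 : y ∈ K ↔ y ∈ Cfsg.frobeniusKernel H := by rw [← hK]; rfl
    rw [h1, CfsgLib.Lead.mem_kernel_iff]
    constructor
    · rintro (h | h)
      · exact Or.inl h
      · right
        intro x hx
        obtain ⟨m, hm, hma⟩ := htr a x
        apply h ⟨m, hm⟩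
        change ((m⁻¹ * y * m : G)) • a = a
        rw [mul_smul, mul_smul, hma, hx, ← hma, inv_smul_smul]
    · rintro (h | h)
      · exact Or.inl h
      · right
        intro g hg
        have h5 : ((g : G)⁻¹ * y * g) • a = a := hg
        rw [mul_smul, mul_smul, inv_smul_eq_iff] at h5
        exact h _ h5
  refine ⟨K.map N.subtype, ?_, Subgroup.map_subtype_le K, ?_, ?_⟩
  · constructor
    rintro _ ⟨y, hy, rfl⟩ g
    have hc : g * (y : G) * g⁻¹ ∈ N := hNn.conj_mem _ y.2 g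
    refine ⟨⟨_, hc⟩, ?_, rfl⟩
    have hy' : y ∈ K := hy
    apply (hKmem _).mpr
    replace hy := (hKmem _).mp hy'
    rcases hy with hy | hy
    · left
      apply Subtype.ext
      simp [hy]
    · right
      intro x hx
      have h5 : (g * (y : G) * g⁻¹) • x = x := hx
      rw [mul_smul, mul_smul, ← eq_inv_smul_iff] at h5
      exact hy _ h5
  · intro h
    have hKbot : K = ⊥ := by
      rw [Subgroup.eq_bot_iff_forall]
      intro y hy
      have : (y : G) ∈ K.map N.subtype := ⟨y, hy, rfl⟩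
      rw [h, Subgroup.mem_bot] at this
      exact Subtype.ext this
    apply hH2
    rw [Subgroup.eq_top_iff']
    intro y
    obtain ⟨⟨k, h'⟩, hkh⟩ := hKc.2 y
    have hk1 : (k : N) = 1 := by
      have hall : ∀ z : N, z ∈ K → z = 1 := by
        intro z hz
        rw [hKbot, Subgroup.mem_bot] at hz
        exact hz
      exact hall _ k.2
    have : y = h' := by
      rw [← hkh]
      simp [hk1]
    rw [this]
    exact h'.2
  · intro h
    have : n₀ ∈ K.map N.subtype := by rw [h]; exact hn₀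
    obtain ⟨y, hy, hy0⟩ := this
    have hy' : y ∈ K := hy
    replace hy := (hKmem _).mp hy'
    rcases hy with hy | hy
    · apply hn₀1
      rw [← hy0, hy]
      rfl
    · apply hy a
      have h5 : (y : G) = n₀ := hy0
      rw [h5]
      exact hn₀a

/-- The simplicity step: a proper non-trivial minimal normal subgroup of `N` does not exist. -/
theorem simple_step [Finite G] [Finite X] [FaithfulSMul G X]
    (h2 : ∀ a b c d : X, a ≠ b → c ≠ d → ∃ g : G, g • a = c ∧ g • b = d)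
    (N : Subgroup G) [hNn : N.Normal] (hprim : IsPreprimitive N X)
    (hmin : ∀ M : Subgroup G, M.Normal → M ≤ N → M = ⊥ ∨ M = N)
    (T : Subgroup G) (hTN : T ≤ N) (hTn : ∀ n ∈ N, ∀ t ∈ T, n * t * n⁻¹ ∈ T) (hT : T ≠ ⊥)
    (hTne : T ≠ N)
    (hTmin : ∀ T₁ : Subgroup G, T₁ ≤ T → (∀ n ∈ N, ∀ t ∈ T₁, n * t * n⁻¹ ∈ T₁) → T₁ = ⊥ ∨ T₁ = T) :
    False := by
  classical
  -- `T` is not normal in `G`
  obtain ⟨g, t₀, ht₀, hgt₀⟩ : ∃ g : G, ∃ t₀ ∈ T, g * t₀ * g⁻¹ ∉ T := by
    by_contra hcon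
    push Not at hcon
    have hnormal : T.Normal := ⟨fun t ht g => hcon g t ht⟩
    rcases hmin T hnormal hTN with h | h
    · exact hT h
    · exact hTne h
  -- conjugates of `T`
  have halt : ∀ h : G, (∀ t ∈ T, h * t * h⁻¹ ∈ T) ∨
      (∀ t ∈ T, ∀ s ∈ T, (h * t * h⁻¹) * s = s * (h * t * h⁻¹)) := by
    intro h
    let U : Subgroup G := T.map (MulAut.conj h).toMonoidHom
    have hU : ∀ y, y ∈ U ↔ h⁻¹ * y * h ∈ T := by
      intro y
      constructor
      · rintro ⟨x, hx, rfl⟩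
        have : h⁻¹ * (MulAut.conj h).toMonoidHom x * h = x := by
          simp [MulAut.conj_apply, mul_assoc]
        rw [this]
        exact hx
      · intro hy
        refine ⟨_, hy, ?_⟩
        simp [MulAut.conj_apply, mul_assoc]
    have hUn : ∀ n ∈ N, ∀ u ∈ U, n * u * n⁻¹ ∈ U := by
      intro n hn u hu
      rw [hU] at hu ⊢
      have hk : h⁻¹ * n * h ∈ N := by
        have := hNn.conj_mem n hn h⁻¹
        simpa using this
      have := hTn _ hk _ hu
      have e : h⁻¹ * (n * u * n⁻¹) * h = h⁻¹ * n * h * (h⁻¹ * u * h) * (h⁻¹ * n * h)⁻¹ := by group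
      rw [e]
      exact this
    have hV := hTmin (U ⊓ T) inf_le_right (fun n hn t ht => ⟨hUn n hn t ht.1, hTn n hn t ht.2⟩)
    rcases hV with hV | hV
    · right
      intro t ht s hs
      have hc1 : (h * t * h⁻¹) ∈ U := ⟨t, ht, rfl⟩
      have hc2 : (h * t * h⁻¹) * s * (h * t * h⁻¹)⁻¹ * s⁻¹ ∈ U ⊓ T := by
        constructor
        · have := hUn s (hTN hs) _ (U.inv_mem hc1)
          have e : (h * t * h⁻¹) * s * (h * t * h⁻¹)⁻¹ * s⁻¹ =
              (h * t * h⁻¹) * (s * (h * t * h⁻¹)⁻¹ * s⁻¹) := by group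
          rw [e]
          exact U.mul_mem hc1 this
        · have hh : (h * t * h⁻¹) ∈ N := hNn.conj_mem t (hTN ht) h
          have := hTn _ hh s hs
          exact T.mul_mem this (T.inv_mem hs)
      rw [hV, Subgroup.mem_bot] at hc2
      have e := mul_inv_eq_one.mp hc2
      exact mul_inv_eq_iff_eq_mul.mp e
    · left
      have hTU : T ≤ U := fun t ht => by
        rw [← hV] at ht
        exact ht.1
      have hcard : Nat.card U = Nat.card T :=
        Subgroup.card_map_of_injective (MulAut.conj h).injective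
      have hUT : T = U := Subgroup.eq_of_le_of_card_ge hTU hcard.le
      intro t ht
      rw [hUT]
      exact ⟨t, ht, rfl⟩
  have hg2 : ∀ t ∈ T, ∀ s ∈ T, (g * t * g⁻¹) * s = s * (g * t * g⁻¹) := by
    rcases halt g with h | h
    · exact absurd (h t₀ ht₀) hgt₀
    · exact h
  -- transitivity of `T`
  have htrT : ∀ x y : X, ∃ t ∈ T, t • x = y := by
    haveI : (T.subgroupOf N).Normal := ⟨by
      intro n hn k
      rw [Subgroup.mem_subgroupOf] at hn ⊢
      exact hTn k k.2 n hn⟩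
    have hne : T.subgroupOf N ≠ ⊥ := by
      intro h
      apply hT
      rw [Subgroup.eq_bot_iff_forall]
      intro t ht
      have : (⟨t, hTN ht⟩ : N) ∈ T.subgroupOf N := by
        rw [Subgroup.mem_subgroupOf]; exact ht
      rw [h, Subgroup.mem_bot] at this
      exact congrArg Subtype.val this
    intro x y
    obtain ⟨n, hn, hny⟩ := transitive_of_primitive hprim (T.subgroupOf N) hne x y
    exact ⟨n, hn, hny⟩
  -- regularity
  have hsemi : ∀ t ∈ T, ∀ a : X, t • a = a → t = 1 := by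
    intro t ht a hta
    apply FaithfulSMul.eq_of_smul_eq_smul (α := X)
    intro x
    rw [one_smul]
    obtain ⟨s, hs, hsx⟩ := htrT (g⁻¹ • a) (g⁻¹ • x)
    have hsx' : (g * s * g⁻¹) • a = x := by
      rw [mul_smul, mul_smul, hsx, smul_inv_smul]
    rw [← hsx', ← mul_smul, ← hg2 s hs t ht, mul_smul, hta]
  have hnon : ∃ a : X, True := by
    obtain ⟨t, ht, ht1⟩ := (T.bot_or_exists_ne_one).resolve_left hT
    by_contra hcon
    push Not at hcon
    apply ht1
    apply FaithfulSMul.eq_of_smul_eq_smul (α := X)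
    intro x
    exact (hcon x).elim
  obtain ⟨a, -⟩ := hnon
  have hmoved : ∀ t ∈ T, t ≠ 1 → t • a ≠ a := fun t ht ht1 h => ht1 (hsemi t ht a h)
  -- all orders agree
  have hsame : ∀ s ∈ T, ∀ t ∈ T, s ≠ 1 → t ≠ 1 → orderOf s = orderOf t := by
    intro t₁ ht₁ t₂ ht₂ h1 h2'
    obtain ⟨h, hha, hh1⟩ := h2 a (t₁ • a) a (t₂ • a) (hmoved t₁ ht₁ h1).symm (hmoved t₂ ht₂ h2').symm
    have hinva : h⁻¹ • a = a := by
      conv_lhs => rw [← hha]
      rw [inv_smul_smul]
    have hconj_ord : orderOf t₁ = orderOf (h * t₁ * h⁻¹) := by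
      rw [orderOf_eq_orderOf_iff]
      intro n
      rw [conj_pow]
      constructor
      · intro e; rw [e]; group
      · intro e
        have : t₁ ^ n = h⁻¹ * (h * t₁ ^ n * h⁻¹) * h := by group
        rw [this, e]; group
    rw [hconj_ord]
    have hta : (h * t₁ * h⁻¹) • a = t₂ • a := by
      rw [mul_smul, mul_smul, hinva, hh1]
    rcases halt h with hcase | hcase
    · have hmem := hcase t₁ ht₁
      have : t₂⁻¹ * (h * t₁ * h⁻¹) = 1 := by
        apply hsemi _ (T.mul_mem (T.inv_mem ht₂) hmem)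
        rw [mul_smul, hta, inv_smul_smul]
      have h5 : h * t₁ * h⁻¹ = t₂ * (t₂⁻¹ * (h * t₁ * h⁻¹)) := by group
      rw [h5, this, mul_one]
    · set t' := h * t₁ * h⁻¹ with ht'
      have hcomm : Commute t' t₂ := hcase t₁ ht₁ t₂ ht₂
      have hpow : ∀ k : ℕ, t' ^ k • a = t₂ ^ k • a := by
        intro k
        induction k with
        | zero => simp
        | succ k ih =>
          rw [pow_succ, mul_smul, hta, ← mul_smul, (hcomm.pow_left k).eq, mul_smul, ih, ← mul_smul,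
            ← pow_succ']
      rw [orderOf_eq_orderOf_iff]
      intro k
      constructor
      · intro e
        have h6 := hpow k
        rw [e, one_smul] at h6
        exact hsemi _ (T.pow_mem ht₂ k) a h6.symm
      · intro e
        have h6 := hpow k
        rw [e, one_smul] at h6
        have h7 : t' ^ k = h * t₁ ^ k * h⁻¹ := by rw [ht', conj_pow]
        rw [h7, mul_smul, mul_smul, hinva, smul_eq_iff_eq_inv_smul, hinva] at h6
        have h8 := hsemi _ (T.pow_mem ht₁ k) a h6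
        rw [h7, h8]
        group
  obtain ⟨p, hp, hexp⟩ := exists_prime_of_same_order T hT hsame
  obtain ⟨z, hzT, hz1, hzc⟩ := exists_central_of_exp T hT p hp hexp
  -- `T` is abelian
  let Z : Subgroup G := Subgroup.centralizer (T : Set G) ⊓ T
  have hZ := hTmin Z inf_le_right (by
    rintro n hn x ⟨hx, hxT⟩
    refine ⟨?_, hTn n hn x hxT⟩
    apply Subgroup.mem_centralizer_iff.mpr
    intro y hy
    have hy' : n⁻¹ * y * n ∈ T := by
      have := hTn n⁻¹ (N.inv_mem hn) y hy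
      simpa using this
    have := (Subgroup.mem_centralizer_iff.mp hx) _ hy'
    calc y * (n * x * n⁻¹) = n * ((n⁻¹ * y * n) * x) * n⁻¹ := by group
      _ = n * (x * (n⁻¹ * y * n)) * n⁻¹ := by rw [this]
      _ = n * x * n⁻¹ * y := by group)
  have hcomm : ∀ m ∈ T, ∀ n ∈ T, m * n = n * m := by
    rcases hZ with hZ | hZ
    · exfalso
      have : z ∈ Z := ⟨Subgroup.mem_centralizer_iff.mpr hzc, hzT⟩
      rw [hZ] at this
      exact hz1 (Subgroup.mem_bot.mp this)
    · intro m hm n hn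
      have : m ∈ Z := by rw [hZ]; exact hm
      exact (Subgroup.mem_centralizer_iff.mp this.1) n hn |>.symm
  -- final contradiction
  obtain ⟨t, ht, hta⟩ := htrT a ((g * t₀ * g⁻¹) • a)
  apply hgt₀
  have hgoal : t⁻¹ * (g * t₀ * g⁻¹) = 1 := by
    apply FaithfulSMul.eq_of_smul_eq_smul (α := X)
    intro x
    rw [one_smul]
    obtain ⟨s, hs, hsx⟩ := htrT a x
    have h1 : (t⁻¹ * (g * t₀ * g⁻¹)) * s = s * (t⁻¹ * (g * t₀ * g⁻¹)) := by
      calc (t⁻¹ * (g * t₀ * g⁻¹)) * s = t⁻¹ * ((g * t₀ * g⁻¹) * s) := by group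
        _ = t⁻¹ * (s * (g * t₀ * g⁻¹)) := by rw [hg2 t₀ ht₀ s hs]
        _ = (t⁻¹ * s) * (g * t₀ * g⁻¹) := by group
        _ = (s * t⁻¹) * (g * t₀ * g⁻¹) := by rw [hcomm _ (T.inv_mem ht) s hs]
        _ = s * (t⁻¹ * (g * t₀ * g⁻¹)) := by group
    rw [← hsx, ← mul_smul, h1, mul_smul]
    congr 1
    rw [mul_smul, ← hta, inv_smul_smul]
  have e : g * t₀ * g⁻¹ = t * (t⁻¹ * (g * t₀ * g⁻¹)) := by group
  rw [e, hgoal, mul_one]
  exact ht

end CfsgLib.H9.Burnside
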