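import Mathlib

/-! Subgroups of bounded order in large alternating groups centralize large alternating groups. -/

set_option autoImplicit false
set_option linter.unusedVariables false
set_option linter.unusedSectionVars false
set_option linter.unusedSimpArgs false
set_option linter.style.haveILetI false

namespace CfsgLib.H9.CentAlt

open Equiv

variable {H X : Type*} [Group H] [Finite H] [MulAction H X] [Finite X]

/-- Many orbits with the same stabilizer. -/
theorem exists_points (r : ℕ) (hX : Nat.card H * (2 ^ Nat.card H * r + 1) ≤ Nat.card X) :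
    ∃ (K₀ : Subgroup H) (x : Fin r → X), (∀ i, MulAction.stabilizer H (x i) = K₀) ∧
      ∀ i j, x j ∈ MulAction.orbit H (x i) → i = j := by
  classical
  haveI := Fintype.ofFinite H
  haveI := Fintype.ofFinite X
  let Q := MulAction.orbitRel.Quotient H X
  haveI : Fintype Q := Fintype.ofFinite Q
  haveI : Fintype (Subgroup H) := Fintype.ofFinite _
  set n := Nat.card H with hn
  have hnpos : 0 < n := Nat.card_pos
  -- many orbits
  have horb : ∀ x : X, Nat.card (MulAction.orbit H x) ≤ n := by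
    intro x
    refine Nat.card_le_card_of_surjective (fun h : H => (⟨h • x, MulAction.mem_orbit x h⟩ : MulAction.orbit H x)) ?_
    rintro ⟨y, h, rfl⟩
    exact ⟨h, rfl⟩
  have hQ : Nat.card X ≤ Fintype.card Q * n := by
    have e := MulAction.selfEquivSigmaOrbits H X
    rw [Nat.card_congr e, Nat.card_sigma]
    calc ∑ q : Q, Nat.card (MulAction.orbit H (Quotient.out q)) ≤ ∑ q : Q, n :=
          Finset.sum_le_sum (fun q _ => horb _)
      _ = Fintype.card Q * n := by simp
  have hsub : Fintype.card (Subgroup H) ≤ 2 ^ n := by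
    have h1 : Function.Injective (fun K : Subgroup H => (K : Set H)) := SetLike.coe_injective
    have h2 := Fintype.card_le_of_injective _ h1
    rw [Fintype.card_set] at h2
    rwa [hn, Nat.card_eq_fintype_card]
  have hQ2 : Fintype.card (Subgroup H) * r < Fintype.card Q := by
    have h3 : n * (2 ^ n * r + 1) ≤ Fintype.card Q * n := hX.trans hQ
    have h4 : 2 ^ n * r + 1 ≤ Fintype.card Q := by
      rw [mul_comm] at h3
      exact Nat.le_of_mul_le_mul_right h3 hnpos
    calc Fintype.card (Subgroup H) * r ≤ 2 ^ n * r := Nat.mul_le_mul_right _ hsub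
      _ < Fintype.card Q := h4
  obtain ⟨K₀, hK₀⟩ := Fintype.exists_lt_card_fiber_of_mul_lt_card
    (fun q : Q => MulAction.stabilizer H (Quotient.out q)) hQ2
  obtain ⟨s, hs, hscard⟩ := Finset.exists_subset_card_eq hK₀.le
  have hfin : Fintype.card (Fin r) ≤ Fintype.card s := by simp [hscard]
  obtain ⟨ρ⟩ := Function.Embedding.nonempty_of_card_le hfin
  refine ⟨K₀, fun i => Quotient.out ((ρ i : s) : Q), ?_, ?_⟩
  · intro i
    have := hs (ρ i).2
    simpa using this
  · intro i j hij
    apply ρ.injective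
    apply Subtype.ext
    have h1 : (Quotient.mk'' (Quotient.out ((ρ j : s) : Q)) : Q) = Quotient.mk'' (Quotient.out ((ρ i : s) : Q)) := by
      apply Quotient.sound'
      exact hij
    rw [Quotient.out_eq', Quotient.out_eq'] at h1
    exact h1.symm

/-- Lifting permutations of `r` isomorphic orbits. -/
theorem exists_lift [Fintype X] [DecidableEq X] (r : ℕ) (K₀ : Subgroup H) (x : Fin r → X)
    (hstab : ∀ i, MulAction.stabilizer H (x i) = K₀)
    (horb : ∀ i j, x j ∈ MulAction.orbit H (x i) → i = j) :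
    ∃ φ : Perm (Fin r) →* Perm X, Function.Injective φ ∧
      (∀ π, Perm.sign π = 1 → Perm.sign (φ π) = 1) ∧
      ∀ (π : Perm (Fin r)) (g : H) (y : X), φ π (g • y) = g • φ π y := by
  classical
  haveI := Fintype.ofFinite H
  let A := H ⧸ K₀
  haveI : Fintype A := Fintype.ofFinite A
  let ι₀ : A × Fin r → X := fun z => Quotient.liftOn' z.1 (fun h : H => h • x z.2) (by
    intro a b hab
    have h1 : a⁻¹ * b ∈ K₀ := QuotientGroup.leftRel_apply.1 hab
    rw [← hstab z.2] at h1
    have h2 : (a⁻¹ * b) • x z.2 = x z.2 := h1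
    calc a • x z.2 = a • ((a⁻¹ * b) • x z.2) := by rw [h2]
      _ = b • x z.2 := by rw [smul_smul, mul_inv_cancel_left])
  have hι₀ : ∀ (h : H) (i : Fin r), ι₀ (QuotientGroup.mk h, i) = h • x i := fun h i => rfl
  have hinj : Function.Injective ι₀ := by
    rintro ⟨a, i⟩ ⟨b, j⟩ hab
    obtain ⟨a, rfl⟩ := QuotientGroup.mk_surjective a
    obtain ⟨b, rfl⟩ := QuotientGroup.mk_surjective b
    rw [hι₀, hι₀] at hab
    have hij : i = j := by
      apply horb
      refine ⟨b⁻¹ * a, ?_⟩
      change (b⁻¹ * a) • x i = x j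
      rw [mul_smul, hab, inv_smul_smul]
    subst hij
    have h1 : a⁻¹ * b ∈ K₀ := by
      rw [← hstab i]
      change (a⁻¹ * b) • x i = x i
      rw [mul_smul, ← hab, inv_smul_smul]
    have : (QuotientGroup.mk a : A) = QuotientGroup.mk b := QuotientGroup.eq.2 h1
    rw [this]
  let ι : A × Fin r ↪ X := ⟨ι₀, hinj⟩
  let φ₀ : Perm (Fin r) →* Perm (A × Fin r) :=
    MonoidHom.mk' (fun π => Equiv.prodCongrRight (fun _ : A => π)) (by
      intro a b
      ext z <;> simp)
  have hφ₀ : ∀ (π : Perm (Fin r)) (a : A) (i : Fin r), φ₀ π (a, i) = (a, π i) := fun π a i => rfl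
  have hsmul : ∀ (g : H) (a : A) (i : Fin r), ι (g • a, i) = g • ι (a, i) := by
    intro g a i
    obtain ⟨a, rfl⟩ := QuotientGroup.mk_surjective a
    change ι₀ ((g • (QuotientGroup.mk a : A)), i) = g • ι₀ (QuotientGroup.mk a, i)
    rw [hι₀, MulAction.Quotient.smul_mk]
    change ι₀ (QuotientGroup.mk _, i) = _
    rw [hι₀, smul_eq_mul, mul_smul]
  refine ⟨(Perm.viaEmbeddingHom ι).comp φ₀, ?_, ?_, ?_⟩
  · intro π ρ h
    have h1 : φ₀ π = φ₀ ρ := Perm.viaEmbeddingHom_injective ι h
    ext i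
    have h2 := congrArg (fun f : Perm (A × Fin r) => (f ((QuotientGroup.mk 1 : A), i)).2) h1
    simp only [hφ₀] at h2
    rw [h2]
  · intro π hπ
    have h1 : Perm.sign ((Perm.viaEmbeddingHom ι).comp φ₀ π) = Perm.sign (φ₀ π) := by
      rw [MonoidHom.comp_apply, Perm.viaEmbeddingHom_apply]
      unfold Perm.viaEmbedding
      rw [Perm.sign_extendDomain]
    rw [h1]
    change Perm.sign (Equiv.prodCongrRight (fun _ : A => π)) = 1
    rw [Perm.sign_prodCongrRight]
    simp [hπ]
  · intro π g y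
    rw [MonoidHom.comp_apply, Perm.viaEmbeddingHom_apply]
    by_cases hy : y ∈ Set.range ι
    · obtain ⟨⟨a, i⟩, rfl⟩ := hy
      rw [← hsmul, Perm.viaEmbedding_apply, Perm.viaEmbedding_apply, hφ₀, hφ₀, hsmul]
    · have hy2 : g • y ∉ Set.range ι := by
        rintro ⟨⟨a, i⟩, ha⟩
        apply hy
        refine ⟨(g⁻¹ • a, i), ?_⟩
        rw [hsmul, ha, inv_smul_smul]
      rw [Perm.viaEmbedding_apply_of_notMem _ _ _ hy, Perm.viaEmbedding_apply_of_notMem _ _ _ hy2]

/-- The theorem on centralizers. -/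
theorem main : ∃ f : ℕ → ℕ → ℕ, ∀ (m r : ℕ) (H : Subgroup ↥(alternatingGroup (Fin m))), f (Nat.card H) r ≤ m →
      ∃ K : Subgroup ↥(alternatingGroup (Fin m)), Nonempty (↥K ≃* ↥(alternatingGroup (Fin r))) ∧
        K ≤ Subgroup.centralizer (H : Set ↥(alternatingGroup (Fin m))) := by
  classical
  refine ⟨fun n r => n * (2 ^ n * r + 1), ?_⟩
  intro m r H hm
  have hcard : Nat.card H * (2 ^ Nat.card H * r + 1) ≤ Nat.card (Fin m) := by
    simpa using hm
  obtain ⟨K₀, x, hstab, horb⟩ := exists_points (H := H) (X := Fin m) r hcard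
  obtain ⟨φ, hinj, hsign, hcomm⟩ := exists_lift (H := H) (X := Fin m) r K₀ x hstab horb
  let ψ : ↥(alternatingGroup (Fin r)) →* ↥(alternatingGroup (Fin m)) :=
    MonoidHom.codRestrict (φ.comp (alternatingGroup (Fin r)).subtype) _ (by
      intro π
      exact Equiv.Perm.mem_alternatingGroup.2 (hsign _ (Equiv.Perm.mem_alternatingGroup.1 π.2)))
  have hψ : Function.Injective ψ := by
    intro a b hab
    have h1 : φ a.1 = φ b.1 := congrArg Subtype.val hab
    exact Subtype.ext (hinj h1)
  refine ⟨ψ.range, ⟨(MonoidHom.ofInjective hψ).symm⟩, ?_⟩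
  rintro _ ⟨π, rfl⟩
  rw [Subgroup.mem_centralizer_iff]
  intro g hg
  apply Subtype.ext
  ext y
  have h1 := hcomm π.1 ⟨g, hg⟩ y
  have h2 : ((g * ψ π : ↥(alternatingGroup (Fin m))) : Perm (Fin m)) y = (g : Perm (Fin m)) (φ π.1 y) := rfl
  have h3 : ((ψ π * g : ↥(alternatingGroup (Fin m))) : Perm (Fin m)) y = φ π.1 ((g : Perm (Fin m)) y) := rfl
  rw [h2, h3]
  exact congrArg Fin.val h1.symm

end CfsgLib.H9.CentAlt
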