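import Mathlib
import Cfsg.Agent.Lib.H9.SemisMat

/-! Counting semisimple conjugacy classes of `GL_n` and `SL_n`. -/

set_option autoImplicit false
set_option linter.unusedVariables false
set_option linter.unusedSectionVars false
set_option linter.unusedSimpArgs false
set_option linter.style.haveILetI false

namespace CfsgLib.H9.SemisCount

open Polynomial Module Matrix

universe v

/-- Classes versus invariants. -/
theorem card_classes {G X : Type*} [Group G] (φ : G → X) (P : G → Prop) (Q : Set X)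
    (hinv : ∀ g h, IsConj g h → φ g = φ h) (hinj : ∀ g h, P g → P h → φ g = φ h → IsConj g h)
    (hsurj : ∀ f ∈ Q, ∃ g, P g ∧ φ g = f) (hmaps : ∀ g, P g → φ g ∈ Q) :
    Nat.card {c : ConjClasses G // ∃ g, ConjClasses.mk g = c ∧ P g} = Nat.card Q := by
  classical
  refine Nat.card_congr (Equiv.ofBijective (fun c => ⟨φ c.2.choose, hmaps _ c.2.choose_spec.2⟩) ⟨?_, ?_⟩)
  · intro c d hcd
    apply Subtype.ext
    have h1 : φ c.2.choose = φ d.2.choose := congrArg Subtype.val hcd
    have h2 := hinj _ _ c.2.choose_spec.2 d.2.choose_spec.2 h1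
    rw [← c.2.choose_spec.1, ← d.2.choose_spec.1]
    exact ConjClasses.mk_eq_mk_iff_isConj.2 h2
  · rintro ⟨f, hf⟩
    obtain ⟨g, hg, hgf⟩ := hsurj f hf
    refine ⟨⟨ConjClasses.mk g, g, rfl, hg⟩, ?_⟩
    apply Subtype.ext
    simp only
    have hex : ∃ g', ConjClasses.mk g' = ConjClasses.mk g ∧ P g' := ⟨g, rfl, hg⟩
    have h1 := hex.choose_spec.1
    rw [ConjClasses.mk_eq_mk_iff_isConj] at h1
    rw [← hgf]
    exact hinv _ _ h1

variable {F : Type v} [Field F] [Fintype F]

theorem card_tail (k : ℕ) (S : Set F) :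
    Nat.card {a : Fin (k + 1) → F // a 0 ∈ S} = Fintype.card F ^ k * Nat.card S := by
  classical
  have h1 := CfsgLib.H9.natCard_eq_of_fibers (fun a : {a : Fin (k + 1) → F // a 0 ∈ S} => (Fin.tail a.1 : Fin k → F))
    (Nat.card S) (by
      intro t
      apply Nat.card_congr
      refine ⟨fun a => ⟨a.1.1 0, a.1.2⟩, fun s => ⟨⟨Fin.cons s.1 t, by simpa using s.2⟩, by simp⟩, ?_, ?_⟩
      · rintro ⟨⟨a, ha⟩, hat⟩
        apply Subtype.ext
        apply Subtype.ext
        simp only at hat ⊢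
        rw [← hat]
        exact Fin.cons_self_tail a
      · rintro ⟨s, hs⟩
        rfl)
  rw [h1]
  congr 1
  simp [Nat.card_eq_fintype_card]

/-- The polynomial with prescribed lower coefficients. -/
noncomputable def toPoly {k : ℕ} (a : Fin (k + 1) → F) : F[X] :=
  X ^ (k + 1) + ∑ i : Fin (k + 1), C (a i) * X ^ (i : ℕ)

theorem toPoly_monic {k : ℕ} (a : Fin (k + 1) → F) : (toPoly a).Monic :=
  monic_X_pow_add (degree_sum_fin_lt a)

theorem toPoly_natDegree {k : ℕ} (a : Fin (k + 1) → F) : (toPoly a).natDegree = k + 1 :=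
  natDegree_eq_of_degree_eq_some (by
    have h : degree (∑ i : Fin (k + 1), C (a i) * X ^ (i : ℕ)) < degree (X ^ (k + 1) : F[X]) := by
      rw [degree_X_pow]; exact degree_sum_fin_lt a
    unfold toPoly
    rw [degree_add_eq_left_of_degree_lt h, degree_X_pow])

theorem toPoly_coeff {k : ℕ} (a : Fin (k + 1) → F) (i : Fin (k + 1)) : (toPoly a).coeff i = a i := by
  classical
  simp only [toPoly, coeff_add, coeff_X_pow, finsetSum_coeff, coeff_C_mul, mul_ite, mul_one, mul_zero]
  have hi : (i : ℕ) ≠ k + 1 := by omega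
  rw [if_neg hi, zero_add]
  rw [Finset.sum_eq_single i]
  · simp
  · intro b _ hb
    rw [if_neg]
    intro h
    exact hb (Fin.ext h.symm)
  · simp

theorem card_monic (k : ℕ) (S : Set F) :
    Nat.card {f : F[X] // f.Monic ∧ f.natDegree = k + 1 ∧ f.coeff 0 ∈ S} = Fintype.card F ^ k * Nat.card S := by
  classical
  rw [← card_tail k S]
  symm
  refine Nat.card_congr (Equiv.ofBijective (fun a => ⟨toPoly a.1, toPoly_monic _, toPoly_natDegree _, ?_⟩) ⟨?_, ?_⟩)
  · have := toPoly_coeff a.1 0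
    simp only [Fin.val_zero] at this
    rw [this]
    exact a.2
  · intro a b hab
    apply Subtype.ext
    ext i
    have h1 : toPoly a.1 = toPoly b.1 := congrArg Subtype.val hab
    rw [← toPoly_coeff a.1 i, h1, toPoly_coeff]
  · rintro ⟨f, hfm, hfd, hf0⟩
    refine ⟨⟨fun i => f.coeff i, by simpa using hf0⟩, ?_⟩
    apply Subtype.ext
    ext m
    simp only [toPoly, coeff_add, coeff_X_pow, finsetSum_coeff, coeff_C_mul, mul_ite, mul_one, mul_zero]
    by_cases hm : m < k + 1
    · rw [if_neg (by omega), zero_add, Finset.sum_eq_single (⟨m, hm⟩ : Fin (k + 1))]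
      · simp
      · intro b _ hb
        rw [if_neg]
        intro h
        exact hb (Fin.ext h.symm)
      · simp
    · rw [Finset.sum_eq_zero, add_zero]
      · by_cases hm2 : m = k + 1
        · rw [if_pos hm2, hm2, ← hfd]
          exact hfm.coeff_natDegree.symm
        · rw [if_neg hm2]
          exact (coeff_eq_zero_of_natDegree_lt (by omega)).symm
      · intro b _
        rw [if_neg]
        intro h
        have := b.2
        omega

open CfsgLib.H9.SemisMat

/-- Statement S2387. -/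
theorem main_2387 {q : ℕ} (hq : Fintype.card F = q) (p : ℕ) [Fact p.Prime] [CharP F p] (n : ℕ) (hn : 1 ≤ n) :
    Nat.card {c : ConjClasses (GL (Fin n) F) // ∃ g : GL (Fin n) F, ConjClasses.mk g = c ∧ (orderOf g).Coprime p} = (q - 1) * q ^ (n - 1) := by
  classical
  obtain ⟨k, rfl⟩ : ∃ k, n = k + 1 := ⟨n - 1, by omega⟩
  simp only [Nat.add_sub_cancel]
  have h1 := card_classes (G := GL (Fin (k + 1)) F) (fun g => (g : Matrix (Fin (k + 1)) (Fin (k + 1)) F).charpoly)
    (fun g => (orderOf g).Coprime p)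
    {f : F[X] | f.Monic ∧ f.natDegree = k + 1 ∧ f.coeff 0 ∈ ({c | c ≠ 0} : Set F)} ?_ ?_ ?_ ?_
  · rw [h1]
    have h2 := card_monic k ({c | c ≠ 0} : Set F)
    have h3 : Nat.card ({c | c ≠ 0} : Set F) = q - 1 := by
      rw [← hq, ← Nat.card_eq_fintype_card, ← Nat.card_units]
      apply Nat.card_congr
      exact unitsEquivNeZero.symm
    rw [h3, hq] at h2
    rw [mul_comm]
    exact h2
  · intro g h hgh
    obtain ⟨c, rfl⟩ := isConj_iff.1 hgh
    simp only [Units.val_mul]
    rw [Matrix.mul_assoc, Matrix.charpoly_mul_comm, Matrix.mul_assoc]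
    have h2 : ((c⁻¹ : GL (Fin (k + 1)) F) : Matrix (Fin (k + 1)) (Fin (k + 1)) F) * (c : Matrix (Fin (k + 1)) (Fin (k + 1)) F) = 1 := by
      rw [← Units.val_mul, inv_mul_cancel, Units.val_one]
    rw [h2, Matrix.mul_one]
  · intro g h hg hh hc
    have hpow : ∀ x : GL (Fin (k + 1)) F, (x : Matrix (Fin (k + 1)) (Fin (k + 1)) F) ^ orderOf x = 1 := by
      intro x
      rw [← Units.val_pow_eq_pow_val, pow_orderOf_eq_one, Units.val_one]
    obtain ⟨P, hP⟩ := conj_gl p (g : Matrix (Fin (k + 1)) (Fin (k + 1)) F) (h : Matrix (Fin (k + 1)) (Fin (k + 1)) F) (orderOf g) (orderOf h)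
      (orderOf_pos g) (orderOf_pos h) hg hh (hpow g) (hpow h) hc
    rw [isConj_iff]
    refine ⟨P, ?_⟩
    have : P * g = h * P := Units.ext hP
    rw [this]
    group
  · rintro f ⟨hfm, hfd, hf0⟩
    exact exists_gl_charpoly p f hfm hfd hf0
  · intro g hg
    refine ⟨Matrix.charpoly_monic _, ?_, ?_⟩
    · rw [Matrix.charpoly_natDegree_eq_dim, Fintype.card_fin]
    · intro h0
      have h2 := Matrix.det_eq_sign_charpoly_coeff (g : Matrix (Fin (k + 1)) (Fin (k + 1)) F)
      rw [h0, mul_zero] at h2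
      exact ((Matrix.isUnit_iff_isUnit_det _).1 g.isUnit).ne_zero h2

/-- Statement S2384. -/
theorem main_2384 {q : ℕ} (hq : Fintype.card F = q) (p : ℕ) [Fact p.Prime] [CharP F p] (n : ℕ) (hn : 1 ≤ n) :
    Nat.card {c : ConjClasses (Matrix.SpecialLinearGroup (Fin n) F) //
      ∃ g : Matrix.SpecialLinearGroup (Fin n) F, ConjClasses.mk g = c ∧ (orderOf g).Coprime p} = q ^ (n - 1) := by
  classical
  obtain ⟨k, rfl⟩ : ∃ k, n = k + 1 := ⟨n - 1, by omega⟩
  simp only [Nat.add_sub_cancel]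
  have h1 := card_classes (G := Matrix.SpecialLinearGroup (Fin (k + 1)) F) (fun g => (g : Matrix (Fin (k + 1)) (Fin (k + 1)) F).charpoly)
    (fun g => (orderOf g).Coprime p)
    {f : F[X] | f.Monic ∧ f.natDegree = k + 1 ∧ f.coeff 0 ∈ ({(-1) ^ (k + 1)} : Set F)} ?_ ?_ ?_ ?_
  · rw [h1]
    have h2 := card_monic k ({(-1) ^ (k + 1)} : Set F)
    have h3 : Nat.card ↑({(-1) ^ (k + 1)} : Set F) = 1 := by
      rw [Nat.card_coe_set_eq, Set.ncard_singleton]
    rw [h3, mul_one, hq] at h2
    exact h2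
  · intro g h hgh
    obtain ⟨c, rfl⟩ := isConj_iff.1 hgh
    simp only [Matrix.SpecialLinearGroup.coe_mul]
    rw [Matrix.mul_assoc, Matrix.charpoly_mul_comm, Matrix.mul_assoc]
    have h2 : ((c⁻¹ : Matrix.SpecialLinearGroup (Fin (k + 1)) F) : Matrix (Fin (k + 1)) (Fin (k + 1)) F) * (c : Matrix (Fin (k + 1)) (Fin (k + 1)) F) = 1 := by
      rw [← Matrix.SpecialLinearGroup.coe_mul, inv_mul_cancel, Matrix.SpecialLinearGroup.coe_one]
    rw [h2, Matrix.mul_one]
  · intro g h hg hh hc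
    exact main_2388 p g h hg hh hc
  · rintro f ⟨hfm, hfd, hf0⟩
    have hne : f.coeff 0 ≠ 0 := by
      rw [Set.mem_singleton_iff.1 hf0]
      exact pow_ne_zero _ (neg_ne_zero.2 one_ne_zero)
    obtain ⟨x, hx, hxc⟩ := exists_gl_charpoly p f hfm hfd hne
    have hdet : (x : Matrix (Fin (k + 1)) (Fin (k + 1)) F).det = 1 := by
      rw [Matrix.det_eq_sign_charpoly_coeff, hxc, Set.mem_singleton_iff.1 hf0, Fintype.card_fin, ← mul_pow]
      simp
    let s : Matrix.SpecialLinearGroup (Fin (k + 1)) F := ⟨x, hdet⟩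
    refine ⟨s, ?_, hxc⟩
    have hsm : s ^ orderOf x = 1 := by
      apply Subtype.ext
      rw [Matrix.SpecialLinearGroup.coe_pow]
      change (x : Matrix (Fin (k + 1)) (Fin (k + 1)) F) ^ orderOf x = 1
      rw [← Units.val_pow_eq_pow_val, pow_orderOf_eq_one, Units.val_one]
    exact Nat.Coprime.coprime_dvd_left (orderOf_dvd_of_pow_eq_one hsm) hx
  · intro g hg
    refine ⟨Matrix.charpoly_monic _, ?_, ?_⟩
    · rw [Matrix.charpoly_natDegree_eq_dim, Fintype.card_fin]
    · have h2 := Matrix.det_eq_sign_charpoly_coeff (g : Matrix (Fin (k + 1)) (Fin (k + 1)) F)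
      rw [g.2, Fintype.card_fin] at h2
      rw [Set.mem_singleton_iff]
      have h3 : ((-1 : F) ^ (k + 1)) * (-1) ^ (k + 1) = 1 := by
        rw [← mul_pow]; simp
      calc (g : Matrix (Fin (k + 1)) (Fin (k + 1)) F).charpoly.coeff 0
          = ((-1 : F) ^ (k + 1)) * (-1) ^ (k + 1) * (g : Matrix (Fin (k + 1)) (Fin (k + 1)) F).charpoly.coeff 0 := by rw [h3, one_mul]
        _ = (-1) ^ (k + 1) := by rw [mul_assoc, ← h2, mul_one]

end CfsgLib.H9.SemisCount
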