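import Mathlib
import Cfsg.Agent.Lib.H9.PGraph2
import Cfsg.Agent.Lib.H9.SemisCount

/-!
Counting conjugacy classes of elements of prime order `r ≠ p` in `GL_n(q)`.
-/
set_option autoImplicit false
open scoped MatrixGroups Matrix

namespace CfsgLib.H9.ClassOrderR

open Polynomial Finset UniqueFactorizationMonoid
open CfsgLib.H9.PGraph

/-- Equivalence between bounded tuples and symmetric powers. -/
noncomputable def tupleEquiv (S : Type*) [Fintype S] [DecidableEq S] (N : ℕ) :
    Sym (Option S) N ≃ {a : S → ℕ // ∑ g, a g ≤ N} :=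
  (Sym.equivNatSumOfFintype (Option S) N).trans
    { toFun := fun P => ⟨fun g => P.1 (some g), by
        have := P.2
        rw [Fintype.sum_option] at this
        change ∑ g, P.1 (some g) ≤ N
        omega⟩
      invFun := fun a => ⟨fun o => o.elim (N - ∑ g, a.1 g) a.1, by
        rw [Fintype.sum_option]
        have := a.2
        simp only [Option.elim]
        omega⟩
      left_inv := by
        rintro ⟨P, hP⟩
        apply Subtype.ext
        funext o
        rcases o with _ | g
        · simp only [Option.elim]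
          rw [Fintype.sum_option] at hP
          omega
        · rfl
      right_inv := by
        rintro ⟨a, ha⟩
        rfl }

theorem tuple_finite (S : Type*) [Fintype S] (N : ℕ) : Finite {a : S → ℕ // ∑ g, a g ≤ N} := by
  classical
  exact Finite.of_equiv _ (tupleEquiv S N)

theorem tuple_card (S : Type*) [Fintype S] (N : ℕ) :
    Nat.card {a : S → ℕ // ∑ g, a g ≤ N} = (N + Fintype.card S).choose (Fintype.card S) := by
  classical
  rw [← Nat.card_congr (tupleEquiv S N), Nat.card_eq_fintype_card, Sym.card_sym_eq_choose, Fintype.card_option]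
  have e : Fintype.card S + 1 + N - 1 = N + Fintype.card S := by omega
  rw [e]
  exact Nat.choose_symm_add

theorem card_nonzero (S : Type*) [Fintype S] {i : ℕ} (hi : 0 < i) (n : ℕ) :
    Nat.card {a : S → ℕ // a ≠ 0 ∧ i * ∑ g, a g ≤ n} =
      (n / i + Fintype.card S).choose (Fintype.card S) - 1 := by
  classical
  haveI := tuple_finite S (n / i)
  haveI : Fintype {a : S → ℕ // ∑ g, a g ≤ n / i} := Fintype.ofFinite _
  let x₀ : {a : S → ℕ // ∑ g, a g ≤ n / i} := ⟨0, by simp⟩
  have e : {a : S → ℕ // a ≠ 0 ∧ i * ∑ g, a g ≤ n} ≃ {x : {a : S → ℕ // ∑ g, a g ≤ n / i} // ¬ x = x₀} :=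
    { toFun := fun a => ⟨⟨a.1, (Nat.le_div_iff_mul_le hi).2 (by rw [mul_comm]; exact a.2.2)⟩, fun h => a.2.1 (congrArg Subtype.val h)⟩
      invFun := fun x => ⟨x.1.1, fun h => x.2 (Subtype.ext h), by
        have := (Nat.le_div_iff_mul_le hi).1 x.1.2
        rw [mul_comm]
        exact this⟩
      left_inv := fun _ => rfl
      right_inv := fun _ => rfl }
  rw [Nat.card_congr e, Nat.card_eq_fintype_card, Fintype.card_subtype_compl, Fintype.card_subtype_eq,
    ← Nat.card_eq_fintype_card, tuple_card]

variable {F : Type*} [Field F] [Fintype F]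

section

variable {S : Finset F[X]}

/-- The polynomial attached to a tuple. -/
noncomputable def FF (S : Finset F[X]) (n i : ℕ) (a : S → ℕ) : F[X] :=
  (X - 1) ^ (n - i * ∑ g, a g) * ∏ g : S, (g : F[X]) ^ a g

theorem X1_monic : (X - 1 : F[X]).Monic := by
  simpa using monic_X_sub_C (1 : F)

theorem X1_deg : (X - 1 : F[X]).natDegree = 1 := by
  simpa using natDegree_X_sub_C (1 : F)

theorem X1_irr : Irreducible (X - 1 : F[X]) := by
  simpa using irreducible_X_sub_C (1 : F)

theorem prod_monic (hm : ∀ g ∈ S, (g : F[X]).Monic) (a : S → ℕ) : (∏ g : S, (g : F[X]) ^ a g).Monic :=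
  monic_prod_of_monic _ _ (fun g _ => (hm g g.2).pow _)

theorem prod_deg {i : ℕ} (hm : ∀ g ∈ S, (g : F[X]).Monic) (hd : ∀ g ∈ S, (g : F[X]).natDegree = i) (a : S → ℕ) :
    (∏ g : S, (g : F[X]) ^ a g).natDegree = i * ∑ g, a g := by
  rw [natDegree_prod_of_monic univ (fun g : S => (g : F[X]) ^ a g) (fun g _ => (hm g g.2).pow _), Finset.mul_sum]
  refine Finset.sum_congr rfl fun g _ => ?_
  rw [(hm g g.2).natDegree_pow, hd g g.2, mul_comm]

theorem FF_monic (hm : ∀ g ∈ S, (g : F[X]).Monic) (n i : ℕ) (a : S → ℕ) : (FF S n i a).Monic :=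
  (X1_monic.pow _).mul (prod_monic hm a)

theorem FF_deg {n i : ℕ} (hm : ∀ g ∈ S, (g : F[X]).Monic) (hd : ∀ g ∈ S, (g : F[X]).natDegree = i) (a : S → ℕ)
    (h : i * ∑ g, a g ≤ n) : (FF S n i a).natDegree = n := by
  rw [FF, (X1_monic.pow _).natDegree_mul (prod_monic hm a), X1_monic.natDegree_pow, X1_deg, prod_deg hm hd]
  omega

theorem eq_of_monic_irr {f g : F[X]} (hf : Irreducible f) (hfm : f.Monic) (hg : Irreducible g) (hgm : g.Monic)
    (h : f ∣ g) : f = g :=
  eq_of_monic_of_associated hfm hgm ((hf.dvd_irreducible_iff_associated hg).1 h)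

theorem factor_FF (hm : ∀ g ∈ S, (g : F[X]).Monic) (hirr : ∀ g ∈ S, Irreducible (g : F[X])) {n i : ℕ} {a : S → ℕ}
    {h : F[X]} (hh : Irreducible h) (hhm : h.Monic) (hd : h ∣ FF S n i a) : h = X - 1 ∨ h ∈ S := by
  rcases hh.prime.dvd_or_dvd hd with h1 | h1
  · left
    exact eq_of_monic_irr hh hhm X1_irr X1_monic (hh.prime.dvd_of_dvd_pow h1)
  · right
    obtain ⟨g, -, hg⟩ := (Prime.dvd_finsetProd_iff hh.prime _).1 h1
    have := eq_of_monic_irr hh hhm (hirr g g.2) (hm g g.2) (hh.prime.dvd_of_dvd_pow hg)
    rw [this]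
    exact g.2

theorem FF_inj (hm : ∀ g ∈ S, (g : F[X]).Monic) (hirr : ∀ g ∈ S, Irreducible (g : F[X])) (hX : (X - 1 : F[X]) ∉ S)
    {n i : ℕ} {a b : S → ℕ} (h : FF S n i a = FF S n i b) : a = b := by
  classical
  have key : ∀ (c : S → ℕ) (g : S), emultiplicity (g : F[X]) (FF S n i c) = (c g : ℕ∞) := by
    intro c g
    have hp : Prime (g : F[X]) := (hirr g g.2).prime
    have hg1 : emultiplicity (g : F[X]) (X - 1 : F[X]) = 0 := by
      rw [emultiplicity_eq_zero]
      intro hd
      have := eq_of_monic_irr (hirr g g.2) (hm g g.2) X1_irr X1_monic hd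
      exact hX (this ▸ g.2)
    have hg2 : ∀ g' : S, emultiplicity (g : F[X]) ((g' : F[X]) ^ c g') = if g' = g then (c g : ℕ∞) else 0 := by
      intro g'
      rw [emultiplicity_pow hp]
      by_cases he : g' = g
      · subst he
        rw [if_pos rfl, (FiniteMultiplicity.of_prime_left hp hp.ne_zero).emultiplicity_self, mul_one]
      · rw [if_neg he]
        have : emultiplicity (g : F[X]) (g' : F[X]) = 0 := by
          rw [emultiplicity_eq_zero]
          intro hd
          have := eq_of_monic_irr (hirr g g.2) (hm g g.2) (hirr g' g'.2) (hm g' g'.2) hd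
          exact he (Subtype.ext this.symm)
        rw [this, mul_zero]
    rw [FF, emultiplicity_mul hp, emultiplicity_pow hp, hg1, mul_zero, zero_add,
      Finset.emultiplicity_prod hp]
    simp only [hg2]
    simp
  funext g
  have h1 := key a g
  rw [h, key b g] at h1
  exact_mod_cast h1.symm

end

/-- The statement S2568. -/
theorem main_2568 (p : ℕ) [Fact p.Prime] [CharP F p] (n r i t : ℕ) (hr : r.Prime) (hrp : r ≠ p)
    (hi : i = orderOf ((Fintype.card F : ℕ) : ZMod r)) (ht : t * i = r - 1) :
    Nat.card {C : ConjClasses (GL (Fin n) F) // ∃ g : GL (Fin n) F, ConjClasses.mk g = C ∧ orderOf g = r} =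
      (n / i + t).choose t - 1 := by
  classical
  haveI : Fact r.Prime := ⟨hr⟩
  have hpp : p.Prime := Fact.out
  have hr0 : (r : F) ≠ 0 := CfsgLib.H9.PGraph.cast_ne_of_ne p hr hrp
  have hpr : p.Coprime r := (Nat.coprime_primes hpp hr).2 hrp.symm
  have hr2 : 2 ≤ r := hr.two_le
  have hipos : 0 < i := by
    by_contra h0
    have hi0 : i = 0 := by omega
    rw [hi0, mul_zero] at ht
    omega
  set Φ : F[X] := cyclotomic r F with hΦ
  have hΦ0 : Φ ≠ 0 := cyclotomic_ne_zero r F
  have hΦm : Φ.Monic := cyclotomic.monic r F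
  set S : Finset F[X] := (normalizedFactors Φ).toFinset with hS
  have hmemS : ∀ g, g ∈ S ↔ g ∈ normalizedFactors Φ := fun g => Multiset.mem_toFinset
  have hSirr : ∀ g ∈ S, Irreducible g := fun g hg => irreducible_of_normalized_factor g ((hmemS g).1 hg)
  have hSm : ∀ g ∈ S, g.Monic := by
    intro g hg
    have h1 := normalize_normalized_factor g ((hmemS g).1 hg)
    rw [← h1]
    exact monic_normalize (hSirr g hg).ne_zero
  have hSd : ∀ g ∈ S, g ∣ Φ := fun g hg => dvd_of_mem_normalizedFactors ((hmemS g).1 hg)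
  have hSdeg : ∀ g ∈ S, g.natDegree = i := by
    intro g hg
    rw [hi]
    exact deg_factor p (hSirr g hg) hpr (hSd g hg)
  have hSof : ∀ g : F[X], Irreducible g → g.Monic → g ∣ Φ → g ∈ S := by
    intro g hgi hgm hgd
    obtain ⟨g', hg', ha⟩ := exists_mem_normalizedFactors_of_dvd hΦ0 hgi hgd
    rw [hmemS]
    have h1 : g'.Monic := hSm g' ((hmemS g').2 hg')
    have := eq_of_monic_of_associated hgm h1 ha
    rw [this]
    exact hg'
  have hX : (X - 1 : F[X]) ∉ S := by
    intro h
    have h1 := hSd _ h
    have h2 : (X - C (1 : F)) ∣ Φ := by simpa using h1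
    have h3 := dvd_iff_isRoot.1 h2
    rw [IsRoot.def, hΦ, eval_one_cyclotomic_prime (R := F) (p := r)] at h3
    exact hr0 h3
  -- number of factors
  have hΦsq : Squarefree Φ := by
    have h1 : Squarefree (X ^ r - C (1 : F) : F[X]) :=
      (separable_X_pow_sub_C (1 : F) hr0 one_ne_zero).squarefree
    rw [map_one] at h1
    exact h1.squarefree_of_dvd (cyclotomic.dvd_X_pow_sub_one r F)
  have hcardS : S.card = t := by
    have h1 : (normalizedFactors Φ).Nodup := (squarefree_iff_nodup_normalizedFactors hΦ0).1 hΦsq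
    have h2 : ∏ g ∈ S, g = Φ := by
      have h3 : ∏ g ∈ S, g = (normalizedFactors Φ).prod := by
        rw [hS, Finset.prod_eq_multiset_prod, Multiset.toFinset_val, Multiset.dedup_eq_self.2 h1]
        simp
      rw [h3]
      have h4 := prod_normalizedFactors_eq hΦ0
      rw [h4]
      exact hΦm.normalize_eq_self
    have h5 := congrArg natDegree h2
    rw [natDegree_prod_of_monic _ _ hSm, Finset.sum_congr rfl hSdeg, Finset.sum_const, hΦ, natDegree_cyclotomic,
      Nat.totient_prime hr, smul_eq_mul, ← ht] at h5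
    exact Nat.eq_of_mul_eq_mul_right hipos h5
  -- the set of admissible polynomials
  let Q : Set F[X] := {f | f.Monic ∧ f.natDegree = n ∧ (∀ h : F[X], Irreducible h → h.Monic → h ∣ f → h = X - 1 ∨ h ∈ S) ∧
    f ≠ (X - 1) ^ n}
  have hX1r : (X - 1 : F[X]) ∣ X ^ r - 1 := by
    simpa using sub_dvd_pow_sub_pow (X : F[X]) 1 r
  have hc1 := CfsgLib.H9.SemisCount.card_classes (G := GL (Fin n) F)
    (fun g => (g : Matrix (Fin n) (Fin n) F).charpoly) (fun g => orderOf g = r) Q ?_ ?_ ?_ ?_
  · rw [hc1]
    have hbij : Nat.card Q = Nat.card {a : S → ℕ // a ≠ 0 ∧ i * ∑ g, a g ≤ n} := by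
      symm
      refine Nat.card_congr (Equiv.ofBijective (fun a => ⟨FF S n i a.1, ?_⟩) ⟨?_, ?_⟩)
      · obtain ⟨a, ha0, hale⟩ := a
        refine ⟨FF_monic hSm n i a, FF_deg hSm hSdeg a hale, ?_, ?_⟩
        · intro h hh hhm hd
          exact factor_FF hSm hSirr hh hhm hd
        · intro hE
          obtain ⟨g, hg⟩ : ∃ g, a g ≠ 0 := by
            by_contra hno
            push Not at hno
            exact ha0 (funext hno)
          have h1 : (g : F[X]) ∣ FF S n i a := by
            have h2 : (g : F[X]) ∣ (g : F[X]) ^ a g := dvd_pow_self _ hg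
            have h3 : (g : F[X]) ^ a g ∣ ∏ g : S, (g : F[X]) ^ a g :=
              Finset.dvd_prod_of_mem (fun g : S => (g : F[X]) ^ a g) (Finset.mem_univ g)
            exact (h2.trans h3).trans (Dvd.intro_left _ rfl)
          rw [hE] at h1
          have h4 := (hSirr g g.2).prime.dvd_of_dvd_pow h1
          have h5 := eq_of_monic_irr (hSirr g g.2) (hSm g g.2) X1_irr X1_monic h4
          exact hX (h5 ▸ g.2)
      · rintro ⟨a, ha1, ha2⟩ ⟨b, hb1, hb2⟩ hab
        apply Subtype.ext
        exact FF_inj hSm hSirr hX (congrArg Subtype.val hab)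
      · rintro ⟨f, hfm, hfd, hfa, hfne⟩
        have hf0 : f ≠ 0 := hfm.ne_zero
        let a : S → ℕ := fun g => (normalizedFactors f).count (g : F[X])
        set c := (normalizedFactors f).count (X - 1 : F[X]) with hc
        have hsub : (normalizedFactors f).toFinset ⊆ insert (X - 1 : F[X]) S := by
          intro h hh
          have h1 := Multiset.mem_toFinset.1 hh
          have h2 := irreducible_of_normalized_factor h h1
          have h3 : h.Monic := by
            rw [← normalize_normalized_factor h h1]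
            exact monic_normalize h2.ne_zero
          rw [Finset.mem_insert]
          exact hfa h h2 h3 (dvd_of_mem_normalizedFactors h1)
        have hprod : f = (X - 1) ^ c * ∏ g : S, (g : F[X]) ^ a g := by
          have h1 : f = (normalizedFactors f).prod := by
            rw [prod_normalizedFactors_eq hf0]
            exact hfm.normalize_eq_self.symm
          have h2 : (normalizedFactors f).prod = ∏ h ∈ insert (X - 1 : F[X]) S, h ^ (normalizedFactors f).count h := by
            rw [Finset.prod_multiset_count]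
            apply Finset.prod_subset hsub
            intro h _ hh
            rw [Multiset.count_eq_zero_of_notMem (fun h' => hh (Multiset.mem_toFinset.2 h')), pow_zero]
          rw [h1, h2, Finset.prod_insert hX]
          congr 1
          exact (Finset.prod_coe_sort S (fun h => h ^ (normalizedFactors f).count h)).symm
        have hdeg : c + i * ∑ g, a g = n := by
          have := congrArg natDegree hprod
          rw [(X1_monic.pow _).natDegree_mul (prod_monic hSm a), X1_monic.natDegree_pow, X1_deg, prod_deg hSm hSdeg, hfd] at this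
          omega
        refine ⟨⟨a, ?_, by omega⟩, ?_⟩
        · intro ha0
          apply hfne
          have h1 : ∑ g, a g = 0 := by
            rw [ha0]; simp
          have hcn : c = n := by
            rw [h1] at hdeg
            omega
          rw [hprod, hcn, ha0]
          simp
        · apply Subtype.ext
          simp only [FF]
          have h1 : n - i * ∑ g, a g = c := by omega
          rw [h1]
          exact hprod.symm
    rw [hbij, card_nonzero _ hipos, Fintype.card_coe, hcardS]
  · intro g h hgh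
    obtain ⟨c, rfl⟩ := isConj_iff.1 hgh
    simp only [Units.val_mul]
    rw [Matrix.mul_assoc, Matrix.charpoly_mul_comm, Matrix.mul_assoc]
    have h2 : ((c⁻¹ : GL (Fin n) F) : Matrix (Fin n) (Fin n) F) * (c : Matrix (Fin n) (Fin n) F) = 1 := by
      rw [← Units.val_mul, inv_mul_cancel, Units.val_one]
    rw [h2, Matrix.mul_one]
  · intro g h hg hh hc
    have hrp' : r.Coprime p := hpr.symm
    have hpow : ∀ x : GL (Fin n) F, orderOf x = r → (x : Matrix (Fin n) (Fin n) F) ^ r = 1 := by
      intro x hx
      rw [← Units.val_pow_eq_pow_val, ← hx, pow_orderOf_eq_one, Units.val_one]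
    obtain ⟨P, hP⟩ := CfsgLib.H9.SemisMat.conj_gl p (g : Matrix (Fin n) (Fin n) F) (h : Matrix (Fin n) (Fin n) F) r r
      hr.pos hr.pos hrp' hrp' (hpow g hg) (hpow h hh) hc
    rw [isConj_iff]
    refine ⟨P, ?_⟩
    have : P * g = h * P := Units.ext hP
    rw [this]
    group
  · rintro f ⟨hfm, hfd, hfa, hfne⟩
    have hf0 : f ≠ 0 := hfm.ne_zero
    have hdv : ∀ h ∈ normalizedFactors f, h ∣ (X ^ r - 1 : F[X]) := by
      intro h h1
      have h2 := irreducible_of_normalized_factor h h1
      have h3 : h.Monic := by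
        rw [← normalize_normalized_factor h h1]
        exact monic_normalize h2.ne_zero
      rcases hfa h h2 h3 (dvd_of_mem_normalizedFactors h1) with rfl | h4
      · exact hX1r
      · exact (hSd h h4).trans (cyclotomic.dvd_X_pow_sub_one r F)
    have hgen : ∀ s : Multiset F[X], (∀ h ∈ s, h ∣ (X ^ r - 1 : F[X])) → s.prod ∣ (X ^ r - 1 : F[X]) ^ (Multiset.card s) := by
      intro s
      induction s using Multiset.induction with
      | empty => simp
      | cons a s ih =>
        intro hs
        rw [Multiset.prod_cons, Multiset.card_cons, pow_succ, mul_comm]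
        exact mul_dvd_mul (ih fun h hh => hs h (Multiset.mem_cons_of_mem hh)) (hs a (Multiset.mem_cons_self a s))
    have hf1 : f ∣ (X ^ r - 1 : F[X]) ^ (Multiset.card (normalizedFactors f) + 1) := by
      have h1 : f = (normalizedFactors f).prod := by
        rw [prod_normalizedFactors_eq hf0]
        exact hfm.normalize_eq_self.symm
      rw [h1, pow_succ]
      simp only [← h1]
      have := hgen _ hdv
      rw [← h1] at this
      exact Dvd.dvd.mul_right this _
    obtain ⟨x, -, hx1, hx2, -⟩ := exists_gl_pow p f hfm hfd (coeff_ne hr.ne_zero hf1) hr.ne_zero (by omega) hf1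
    refine ⟨x, ?_, hx2⟩
    haveI : Fact r.Prime := ⟨hr⟩
    apply orderOf_eq_prime hx1
    rintro rfl
    apply hfne
    rw [← hx2]
    simp [Matrix.charpoly_one]
  · intro g hg
    have hgo : (g : Matrix (Fin n) (Fin n) F) ^ r = 1 := by
      rw [← Units.val_pow_eq_pow_val, ← hg, pow_orderOf_eq_one, Units.val_one]
    set A : Matrix (Fin n) (Fin n) F := (g : Matrix (Fin n) (Fin n) F) with hA
    have hmr : minpoly F A ∣ X ^ r - 1 := by
      apply minpoly.dvd
      simp [hgo]
    have hss : (CfsgLib.H9.SemisMat.lin A).IsSemisimple := CfsgLib.H9.SemisMat.ss_of_pow p A r hr.pos hpr.symm hgo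
    refine ⟨Matrix.charpoly_monic _, ?_, ?_, ?_⟩
    · rw [Matrix.charpoly_natDegree_eq_dim, Fintype.card_fin]
    · intro h hh hhm hd
      have h1 : h ∣ (CfsgLib.H9.SemisMat.lin A).charpoly := by
        rw [CfsgLib.H9.SemisMat.charpoly_lin]
        exact hd
      have h2 := CfsgLib.H9.Semis.dvd_minpoly _ (Fin n → F) (CfsgLib.H9.SemisMat.lin A) hss rfl h hh hhm h1
      have h3 : minpoly F (CfsgLib.H9.SemisMat.lin A) = minpoly F A :=
        minpoly.algEquiv_eq (Matrix.toLinAlgEquiv' (R := F) (n := Fin n)) A
      rw [h3] at h2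
      have h4 : h ∣ X ^ r - 1 := h2.trans hmr
      have h5 : (X ^ r - 1 : F[X]) = (X - 1) * Φ := by
        rw [hΦ]
        have := cyclotomic_prime_pow_mul_X_pow_sub_one F r 0
        simp only [pow_zero, pow_one, zero_add] at this
        rw [← this]
        ring
      rw [h5] at h4
      rcases hh.prime.dvd_or_dvd h4 with h6 | h6
      · left
        exact eq_of_monic_irr hh hhm X1_irr X1_monic h6
      · right
        exact hSof h hh hhm h6
    · intro hc
      have h1 : minpoly F A ∣ (X - 1) ^ n := by
        rw [← hc]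
        exact Matrix.minpoly_dvd_charpoly A
      have hsq : Squarefree (minpoly F A) := by
        have h2 : Squarefree (X ^ r - C (1 : F) : F[X]) :=
          (separable_X_pow_sub_C (1 : F) hr0 one_ne_zero).squarefree
        rw [map_one] at h2
        exact h2.squarefree_of_dvd hmr
      have hn0 : n ≠ 0 := by
        rintro rfl
        have : g = 1 := Subsingleton.elim _ _
        rw [this, orderOf_one] at hg
        omega
      have h3 : minpoly F A ∣ X - 1 := (hsq.dvd_pow_iff_dvd hn0).1 h1
      obtain ⟨c, hc'⟩ := h3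
      have h4 : aeval A (X - 1 : F[X]) = 0 := by
        rw [hc', map_mul, minpoly.aeval, zero_mul]
      have h5 : A = 1 := by
        simpa [sub_eq_zero] using h4
      have h6 : g = 1 := Units.ext h5
      rw [h6, orderOf_one] at hg
      omega

end CfsgLib.H9.ClassOrderR
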