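import Mathlib
import Cfsg.Agent.Lib.ClassGeo.Trans

/-!
Degree bound for cross-characteristic representations of `SL_n`, by additive characters of the
unipotent radical of a maximal parabolic.
-/
set_option autoImplicit false
open scoped MatrixGroups

namespace CfsgLib.H9.CrossDeg

open Matrix Finset

variable {F : Type*} [Field F] [Fintype F] {L : Type*} [Field L] {m d : ℕ}

/-- Unipotent radical of the stabiliser of a line. -/
def xx (a : Fin m → F) : Matrix.SpecialLinearGroup (Unit ⊕ Fin m) F :=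
  ⟨fromBlocks 1 (of fun _ j => a j) 0 1, by rw [det_fromBlocks_zero₂₁]; simp⟩

/-- Levi part. -/
def gB (B : Matrix.SpecialLinearGroup (Fin m) F) : Matrix.SpecialLinearGroup (Unit ⊕ Fin m) F :=
  ⟨fromBlocks 1 0 0 (B : Matrix (Fin m) (Fin m) F), by
    rw [det_fromBlocks_zero₂₁]
    simp⟩

theorem xx_add (a a' : Fin m → F) : xx (a + a') = xx a * xx a' := by
  apply Subtype.ext
  change fromBlocks _ _ _ _ = fromBlocks _ _ _ _ * fromBlocks _ _ _ _
  rw [fromBlocks_multiply]
  congr 1
  · simp
  · ext i j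
    simp [add_comm]
  · simp
  · simp

theorem gB_xx (B : Matrix.SpecialLinearGroup (Fin m) F) (a : Fin m → F) :
    gB B * xx (a ᵥ* (B : Matrix (Fin m) (Fin m) F)) = xx a * gB B := by
  apply Subtype.ext
  change fromBlocks _ _ _ _ * fromBlocks _ _ _ _ = fromBlocks _ _ _ _ * fromBlocks _ _ _ _
  rw [fromBlocks_multiply, fromBlocks_multiply]
  congr 1
  · simp
  · ext i j
    simp [Matrix.mul_apply, vecMul, dotProduct]
  · simp
  · simp

variable (R : Matrix.SpecialLinearGroup (Unit ⊕ Fin m) F →* Matrix (Fin d) (Fin d) L)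
  (ψ : AddChar F L)

/-- Spectral projections (up to the scalar `|A|`). -/
noncomputable def EE (b : Fin m → F) : Matrix (Fin d) (Fin d) L :=
  ∑ a : Fin m → F, ψ (-(a ⬝ᵥ b)) • R (xx a)

open Classical in
/-- Character orthogonality on `F^m`. -/
theorem sum_char (hψ : ψ.IsPrimitive) (c : Fin m → F) :
    (∑ a : Fin m → F, ψ (a ⬝ᵥ c)) = if c = 0 then ((Fintype.card (Fin m → F) : ℕ) : L) else 0 := by
  classical
  split_ifs with h
  · subst h
    simp
  · let φ : AddChar (Fin m → F) L :=
      { toFun := fun a => ψ (a ⬝ᵥ c)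
        map_zero_eq_one' := by simp
        map_add_eq_mul' := by
          intro a a'
          rw [add_dotProduct, AddChar.map_add_eq_mul] }
    have hφ : φ ≠ 1 := by
      obtain ⟨i, hi⟩ : ∃ i, c i ≠ 0 := by
        by_contra hcon
        push Not at hcon
        exact h (funext hcon)
      have h2 := hψ hi
      intro h3
      apply h2
      ext x
      have h4 := DFunLike.congr_fun h3 (Pi.single i x)
      have h5 : φ (Pi.single i x) = ψ (x * c i) := by
        change ψ (Pi.single i x ⬝ᵥ c) = _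
        rw [single_dotProduct]
      rw [h5] at h4
      have h6 : ∀ {G : Type _} [AddGroup G] (y : G), (1 : AddChar G L) y = 1 :=
        fun y => AddChar.one_apply _
      rw [AddChar.mulShift_apply, mul_comm, h6]
      rw [h6] at h4
      exact h4
    exact AddChar.sum_eq_zero_of_ne_one hφ

theorem R_xx_mul (hψ : ψ.IsPrimitive) (a b : Fin m → F) :
    R (xx a) * EE R ψ b = ψ (a ⬝ᵥ b) • EE R ψ b := by
  classical
  unfold EE
  rw [mul_sum, smul_sum]
  rw [← Equiv.sum_comp (Equiv.addLeft a) (fun s => ψ (a ⬝ᵥ b) • ψ (-(s ⬝ᵥ b)) • R (xx s))]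
  refine sum_congr rfl (fun a' _ => ?_)
  simp only [Equiv.coe_addLeft]
  rw [xx_add, map_mul, mul_smul_comm, add_dotProduct, smul_smul, ← AddChar.map_add_eq_mul]
  congr 2
  ring

open Classical in
theorem EE_mul (hψ : ψ.IsPrimitive) (b c : Fin m → F) :
    EE R ψ b * EE R ψ c = (if c = b then ((Fintype.card (Fin m → F) : ℕ) : L) else 0) • EE R ψ c := by
  classical
  have h1 : EE R ψ b * EE R ψ c =
      ∑ s : Fin m → F, ∑ a : Fin m → F, ψ (-(a ⬝ᵥ b)) • ψ (-((s - a) ⬝ᵥ c)) • R (xx s) := by
    rw [sum_comm]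
    unfold EE
    rw [sum_mul]
    refine sum_congr rfl (fun a _ => ?_)
    rw [smul_mul_assoc, mul_sum, smul_sum]
    rw [← Equiv.sum_comp (Equiv.addLeft a) (fun s => ψ (-(a ⬝ᵥ b)) • ψ (-((s - a) ⬝ᵥ c)) • R (xx s))]
    refine sum_congr rfl (fun a' _ => ?_)
    simp only [Equiv.coe_addLeft]
    rw [xx_add, map_mul, mul_smul_comm]
    congr 2
    simp
  rw [h1]
  have h2 : ∀ s : Fin m → F, ∑ a : Fin m → F, ψ (-(a ⬝ᵥ b)) • ψ (-((s - a) ⬝ᵥ c)) • R (xx s) =
      (if c = b then ((Fintype.card (Fin m → F) : ℕ) : L) else 0) • (ψ (-(s ⬝ᵥ c)) • R (xx s)) := by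
    intro s
    have h3 : ∀ a : Fin m → F, ψ (-(a ⬝ᵥ b)) • ψ (-((s - a) ⬝ᵥ c)) • R (xx s) =
        ψ (a ⬝ᵥ (c - b)) • (ψ (-(s ⬝ᵥ c)) • R (xx s)) := by
      intro a
      rw [smul_smul, smul_smul, ← AddChar.map_add_eq_mul, ← AddChar.map_add_eq_mul]
      congr 2
      rw [sub_dotProduct, dotProduct_sub]
      ring
    simp_rw [h3]
    rw [← sum_smul, sum_char ψ hψ (c - b)]
    simp [sub_eq_zero]
  simp_rw [h2]
  rw [← smul_sum]
  rfl

theorem gB_mul (B : Matrix.SpecialLinearGroup (Fin m) F) (b : Fin m → F) :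
    R (gB B) * EE R ψ b = EE R ψ ((B : Matrix (Fin m) (Fin m) F) *ᵥ b) * R (gB B) := by
  classical
  unfold EE
  rw [mul_sum, sum_mul]
  let e : (Fin m → F) ≃ (Fin m → F) :=
    { toFun := fun a => a ᵥ* (B : Matrix (Fin m) (Fin m) F)
      invFun := fun a => a ᵥ* ((B⁻¹ : Matrix.SpecialLinearGroup (Fin m) F) : Matrix (Fin m) (Fin m) F)
      left_inv := fun a => by
        simp only
        rw [vecMul_vecMul]
        have : (B : Matrix (Fin m) (Fin m) F) * ((B⁻¹ : Matrix.SpecialLinearGroup (Fin m) F) : Matrix (Fin m) (Fin m) F) = 1 := by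
          rw [← Matrix.SpecialLinearGroup.coe_mul, mul_inv_cancel, Matrix.SpecialLinearGroup.coe_one]
        rw [this, vecMul_one]
      right_inv := fun a => by
        simp only
        rw [vecMul_vecMul]
        have : ((B⁻¹ : Matrix.SpecialLinearGroup (Fin m) F) : Matrix (Fin m) (Fin m) F) * (B : Matrix (Fin m) (Fin m) F) = 1 := by
          rw [← Matrix.SpecialLinearGroup.coe_mul, inv_mul_cancel, Matrix.SpecialLinearGroup.coe_one]
        rw [this, vecMul_one] }
  rw [← e.sum_comp]
  refine sum_congr rfl (fun a _ => ?_)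
  rw [mul_smul_comm, smul_mul_assoc, ← map_mul, ← map_mul]
  have h1 : gB B * xx (e a) = xx a * gB B := gB_xx B a
  rw [h1]
  congr 2
  rw [dotProduct_mulVec]
  rfl

theorem xx_not_central (j : Fin m) :
    xx (Pi.single j (1 : F)) ∉ Subgroup.center (Matrix.SpecialLinearGroup (Unit ⊕ Fin m) F) := by
  classical
  intro h
  rw [Matrix.SpecialLinearGroup.mem_center_iff] at h
  obtain ⟨r, _, hr⟩ := h
  have h1 := congrFun (congrFun hr (Sum.inl ())) (Sum.inr j)
  simp [xx] at h1

/-- The main counting argument. -/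
theorem degree_bound (hψ : ψ.IsPrimitive) (hm : 2 ≤ m)
    (hker : ∀ g, R g = 1 → g ∈ Subgroup.center (Matrix.SpecialLinearGroup (Unit ⊕ Fin m) F))
    (hN : ((Fintype.card (Fin m → F) : ℕ) : L) ≠ 0) :
    (Fintype.card F) ^ m - 1 ≤ d := by
  classical
  set N : L := ((Fintype.card (Fin m → F) : ℕ) : L) with hNdef
  -- some nonzero projection
  have hsum : ∑ b : Fin m → F, EE R ψ b = N • (1 : Matrix (Fin d) (Fin d) L) := by
    unfold EE
    rw [sum_comm]
    have h1 : ∀ a : Fin m → F, ∑ b : Fin m → F, ψ (-(a ⬝ᵥ b)) • R (xx a) =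
        (if a = 0 then N else 0) • R (xx a) := by
      intro a
      rw [← sum_smul]
      have h2 : ∑ b : Fin m → F, ψ (-(a ⬝ᵥ b)) = ∑ b : Fin m → F, ψ (b ⬝ᵥ (-a)) := by
        refine sum_congr rfl (fun b _ => ?_)
        rw [dotProduct_neg, dotProduct_comm]
      rw [h2, sum_char ψ hψ (-a)]
      by_cases ha : a = 0
      · rw [if_pos (by simp [ha]), if_pos ha]
      · have ha' : -a ≠ 0 := neg_ne_zero.2 ha
        rw [if_neg ha', if_neg ha]
    simp_rw [h1]
    rw [sum_eq_single 0]
    · have : xx (0 : Fin m → F) = 1 := by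
        apply Subtype.ext
        change fromBlocks _ _ _ _ = 1
        rw [← fromBlocks_one]
        congr 1
      simp [this]
    · intro a _ ha
      simp [ha]
    · intro h
      exact absurd (mem_univ _) h
  have hex : ∃ b₀ : Fin m → F, b₀ ≠ 0 ∧ EE R ψ b₀ ≠ 0 := by
    by_contra hcon
    push Not at hcon
    have h1 : EE R ψ 0 = N • 1 := by
      rw [← hsum, sum_eq_single 0]
      · intro b _ hb
        exact hcon b hb
      · intro h
        exact absurd (mem_univ _) h
    have j0 : Fin m := ⟨0, by omega⟩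
    apply xx_not_central (F := F) j0
    apply hker
    have h2 := R_xx_mul R ψ hψ (Pi.single j0 1) 0
    rw [dotProduct_zero, AddChar.map_zero_eq_one, one_smul, h1, mul_smul_comm, mul_one] at h2
    exact smul_right_injective _ hN h2
  obtain ⟨b₀, hb₀, hE₀⟩ := hex
  have hunit : ∀ B : Matrix.SpecialLinearGroup (Fin m) F, R (gB B) * R (gB B⁻¹) = 1 := by
    intro B
    rw [← map_mul]
    have : gB B * gB B⁻¹ = 1 := by
      apply Subtype.ext
      change fromBlocks _ _ _ _ * fromBlocks _ _ _ _ = 1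
      have h1 : (B : Matrix (Fin m) (Fin m) F) * ((B⁻¹ : Matrix.SpecialLinearGroup (Fin m) F) : Matrix (Fin m) (Fin m) F) = 1 := by
        rw [← Matrix.SpecialLinearGroup.coe_mul, mul_inv_cancel, Matrix.SpecialLinearGroup.coe_one]
      rw [fromBlocks_multiply, ← fromBlocks_one, h1]
      simp
    rw [this, map_one]
  have hunit' : ∀ B : Matrix.SpecialLinearGroup (Fin m) F, R (gB B⁻¹) * R (gB B) = 1 := by
    intro B
    have := hunit B⁻¹
    rwa [inv_inv] at this
  have hi : (⟨0, by omega⟩ : Fin m) ≠ ⟨1, by omega⟩ := by simp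
  have hstd : ∀ b : Fin m → F, b ≠ 0 →
      (EE R ψ b = 0 ↔ EE R ψ (Pi.single (⟨0, by omega⟩ : Fin m) 1) = 0) := by
    intro b hb
    obtain ⟨B, hB⟩ := CfsgLib.ClassGeo.exists_SL_mulVec_eq_single hi b hb
    have h1 := gB_mul R ψ B b
    rw [hB] at h1
    constructor
    · intro h0
      rw [h0, mul_zero] at h1
      have h2 := congrArg (fun X => X * R (gB B⁻¹)) h1
      simp only [zero_mul, mul_assoc, hunit, mul_one] at h2
      exact h2.symm
    · intro h0
      rw [h0, zero_mul] at h1
      have h2 := congrArg (fun X => R (gB B⁻¹) * X) h1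
      simp only [mul_zero, ← mul_assoc, hunit', one_mul] at h2
      exact h2
  have hne : ∀ b : {b : Fin m → F // b ≠ 0}, EE R ψ b.1 ≠ 0 := by
    rintro ⟨b, hb⟩ h0
    exact hE₀ ((hstd b₀ hb₀).2 ((hstd b hb).1 h0))
  have hvec : ∀ b : {b : Fin m → F // b ≠ 0}, ∃ w : Fin d → L, EE R ψ b.1 *ᵥ w ≠ 0 := by
    intro b
    by_contra hcon
    push Not at hcon
    apply hne b
    have : (EE R ψ b.1).mulVecLin = 0 := by
      exact LinearMap.ext (fun x => hcon x)
    apply (Matrix.toLin' (R := L) (m := Fin d) (n := Fin d)).injective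
    rw [map_zero, Matrix.toLin'_apply']
    exact this
  choose w hw using hvec
  let v : {b : Fin m → F // b ≠ 0} → (Fin d → L) := fun b => EE R ψ b.1 *ᵥ w b
  have hind : LinearIndependent L v := by
    rw [Fintype.linearIndependent_iff]
    intro g hg c
    have h1 := congrArg (fun x => EE R ψ c.1 *ᵥ x) hg
    simp only [mulVec_zero, mulVec_sum, mulVec_smul] at h1
    rw [sum_eq_single c] at h1
    · simp only [v, mulVec_mulVec, EE_mul R ψ hψ, if_true, smul_mulVec] at h1
      rcases smul_eq_zero.1 h1 with h2 | h2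
      · exact h2
      · exact absurd ((smul_eq_zero.1 h2).resolve_left hN) (hw c)
    · intro b _ hb
      simp only [v, mulVec_mulVec]
      rw [EE_mul R ψ hψ, if_neg (fun h => hb (Subtype.ext h))]
      simp
    · intro h
      exact absurd (mem_univ _) h
  have hc := hind.fintype_card_le_finrank
  simp only [Module.finrank_fin_fun] at hc
  rw [Fintype.card_subtype_compl, Fintype.card_subtype_eq, Fintype.card_fun, Fintype.card_fin] at hc
  exact hc

/-- The statement of S2392. -/
theorem main_2392 {q : ℕ} (hq : Fintype.card F = q) (n : ℕ) (hn : 3 ≤ n)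
    {K : Type*} [Field K] (hK : ringChar K ≠ ringChar F) {d : ℕ}
    (ρ : Matrix.SpecialLinearGroup (Fin n) F →* GL (Fin d) K)
    (hker : ρ.ker ≤ Subgroup.center (Matrix.SpecialLinearGroup (Fin n) F)) :
    q ^ (n - 1) - 1 ≤ d := by
  classical
  subst hq
  obtain ⟨m, rfl⟩ : ∃ m, n = m + 1 := ⟨n - 1, by omega⟩
  have hm : 2 ≤ m := by omega
  simp only [Nat.add_sub_cancel]
  have hcard : Fintype.card (Fin (m + 1)) = Fintype.card (Unit ⊕ Fin m) := by simp [add_comm]
  let e : Fin (m + 1) ≃ (Unit ⊕ Fin m) := Fintype.equivOfCardEq hcard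
  let Φ : Matrix.SpecialLinearGroup (Fin (m + 1)) F ≃* Matrix.SpecialLinearGroup (Unit ⊕ Fin m) F :=
    { toFun := fun g => ⟨Matrix.reindex e e g.1, by rw [Matrix.det_reindex_self]; exact g.2⟩
      invFun := fun g => ⟨Matrix.reindex e.symm e.symm g.1, by rw [Matrix.det_reindex_self]; exact g.2⟩
      left_inv := fun g => by
        apply Subtype.ext
        ext i j
        simp
      right_inv := fun g => by
        apply Subtype.ext
        ext i j
        simp
      map_mul' := fun g h => by
        apply Subtype.ext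
        change Matrix.reindex e e (g.1 * h.1) = Matrix.reindex e e g.1 * Matrix.reindex e e h.1
        simp [Matrix.submatrix_mul_equiv] }
  let prim := AddChar.FiniteField.primitiveChar F K hK
  let L := CyclotomicField prim.n K
  let ψ : AddChar F L := prim.char
  have hψ : ψ.IsPrimitive := prim.prim
  have hinj : Function.Injective (algebraMap K L) := (algebraMap K L).injective
  let R : Matrix.SpecialLinearGroup (Unit ⊕ Fin m) F →* Matrix (Fin d) (Fin d) L :=
    { toFun := fun g => ((ρ (Φ.symm g) : GL (Fin d) K) : Matrix (Fin d) (Fin d) K).map (algebraMap K L)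
      map_one' := by
        simp
      map_mul' := by
        intro g h
        rw [map_mul, map_mul, Units.val_mul, Matrix.map_mul] }
  have hR : ∀ g, R g = 1 → g ∈ Subgroup.center (Matrix.SpecialLinearGroup (Unit ⊕ Fin m) F) := by
    intro g hg
    have h1 : ρ (Φ.symm g) = 1 := by
      apply Units.ext
      ext i j
      have h2 := congrFun (congrFun hg i) j
      apply hinj
      change algebraMap K L _ = _ at h2
      rw [h2, Units.val_one, Matrix.one_apply, Matrix.one_apply]
      split_ifs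
      · simp
      · simp
    have h3 : Φ.symm g ∈ Subgroup.center _ := hker h1
    rw [Subgroup.mem_center_iff] at h3 ⊢
    intro h
    have := h3 (Φ.symm h)
    rw [← map_mul, ← map_mul] at this
    exact Φ.symm.injective this
  have hp : ((Fintype.card (Fin m → F) : ℕ) : L) ≠ 0 := by
    obtain ⟨f, hp1, hp2⟩ := FiniteField.card F (ringChar F)
    rw [Fintype.card_fun, Fintype.card_fin, hp2, Nat.cast_pow, Nat.cast_pow]
    refine pow_ne_zero _ (pow_ne_zero _ ?_)
    intro h0
    have h1 : CharP L (ringChar K) := charP_of_injective_algebraMap hinj (ringChar K)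
    have h2 := (CharP.cast_eq_zero_iff L (ringChar K) (ringChar F)).1 h0
    rcases (Nat.dvd_prime hp1).1 h2 with h3 | h3
    · exact CharP.ringChar_ne_one h3
    · exact hK h3
  exact degree_bound R ψ hψ hm hR hp

end CfsgLib.H9.CrossDeg
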