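import Mathlib

/-!
Degree bound for cross-characteristic representations of `Sp_{2n}`, via additive characters of an
abelian subgroup `F^n` in the unipotent radical of the Siegel parabolic.
-/
set_option autoImplicit false
open scoped MatrixGroups

namespace CfsgLib.H9.CrossSp

open Matrix Finset

variable {F : Type*} [Field F] [Fintype F] {L : Type*} [Field L] {r d : ℕ}

section General

variable {G : Type*} [Monoid G] (x : (Fin r → F) → G)
  (R : G →* Matrix (Fin d) (Fin d) L) (ψ : AddChar F L)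

/-- Spectral projections (up to the scalar `|A|`). -/
noncomputable def EE (b : Fin r → F) : Matrix (Fin d) (Fin d) L :=
  ∑ a : Fin r → F, ψ (-(a ⬝ᵥ b)) • R (x a)

open Classical in
/-- Character orthogonality on `F^r`. -/
theorem sum_char (hψ : ψ.IsPrimitive) (c : Fin r → F) :
    (∑ a : Fin r → F, ψ (a ⬝ᵥ c)) = if c = 0 then ((Fintype.card (Fin r → F) : ℕ) : L) else 0 := by
  classical
  split_ifs with h
  · subst h
    simp
  · let φ : AddChar (Fin r → F) L :=
      { toFun := fun a => ψ (a ⬝ᵥ c)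
        map_zero_eq_one' := by simp
        map_add_eq_mul' := by
          intro a a'
          rw [add_dotProduct, AddChar.map_add_eq_mul] }
    have hφ : φ ≠ 1 := by
      obtain ⟨i, hi⟩ : ∃ i, c i ≠ 0 := by
        by_contra hcon
        push Not at hcon
        exact h (funext hcon)
      have h2 := hψ hi
      intro h3
      apply h2
      ext y
      have h4 := DFunLike.congr_fun h3 (Pi.single i y)
      have h5 : φ (Pi.single i y) = ψ (y * c i) := by
        change ψ (Pi.single i y ⬝ᵥ c) = _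
        rw [single_dotProduct]
      rw [h5] at h4
      have h6 : ∀ {H : Type _} [AddGroup H] (z : H), (1 : AddChar H L) z = 1 :=
        fun z => AddChar.one_apply _
      rw [AddChar.mulShift_apply, mul_comm, h6]
      rw [h6] at h4
      exact h4
    exact AddChar.sum_eq_zero_of_ne_one hφ

variable (hx : ∀ a a', x (a + a') = x a * x a')

include hx

theorem R_xx_mul (a b : Fin r → F) :
    R (x a) * EE x R ψ b = ψ (a ⬝ᵥ b) • EE x R ψ b := by
  classical
  unfold EE
  rw [mul_sum, smul_sum]
  rw [← Equiv.sum_comp (Equiv.addLeft a) (fun s => ψ (a ⬝ᵥ b) • ψ (-(s ⬝ᵥ b)) • R (x s))]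
  refine sum_congr rfl (fun a' _ => ?_)
  simp only [Equiv.coe_addLeft]
  rw [hx, map_mul, mul_smul_comm, add_dotProduct, smul_smul, ← AddChar.map_add_eq_mul]
  congr 2
  ring

open Classical in
theorem EE_mul (hψ : ψ.IsPrimitive) (b c : Fin r → F) :
    EE x R ψ b * EE x R ψ c =
      (if c = b then ((Fintype.card (Fin r → F) : ℕ) : L) else 0) • EE x R ψ c := by
  classical
  have h1 : EE x R ψ b * EE x R ψ c =
      ∑ s : Fin r → F, ∑ a : Fin r → F, ψ (-(a ⬝ᵥ b)) • ψ (-((s - a) ⬝ᵥ c)) • R (x s) := by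
    rw [sum_comm]
    unfold EE
    rw [sum_mul]
    refine sum_congr rfl (fun a _ => ?_)
    rw [smul_mul_assoc, mul_sum, smul_sum]
    rw [← Equiv.sum_comp (Equiv.addLeft a) (fun s => ψ (-(a ⬝ᵥ b)) • ψ (-((s - a) ⬝ᵥ c)) • R (x s))]
    refine sum_congr rfl (fun a' _ => ?_)
    simp only [Equiv.coe_addLeft]
    rw [hx, map_mul, mul_smul_comm]
    congr 2
    simp
  rw [h1]
  have h2 : ∀ s : Fin r → F, ∑ a : Fin r → F, ψ (-(a ⬝ᵥ b)) • ψ (-((s - a) ⬝ᵥ c)) • R (x s) =
      (if c = b then ((Fintype.card (Fin r → F) : ℕ) : L) else 0) • (ψ (-(s ⬝ᵥ c)) • R (x s)) := by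
    intro s
    have h3 : ∀ a : Fin r → F, ψ (-(a ⬝ᵥ b)) • ψ (-((s - a) ⬝ᵥ c)) • R (x s) =
        ψ (a ⬝ᵥ (c - b)) • (ψ (-(s ⬝ᵥ c)) • R (x s)) := by
      intro a
      rw [smul_smul, smul_smul, ← AddChar.map_add_eq_mul, ← AddChar.map_add_eq_mul]
      congr 2
      rw [sub_dotProduct, dotProduct_sub]
      ring
    simp_rw [h3]
    rw [← sum_smul, sum_char ψ hψ (c - b)]
    simp [sub_eq_zero]
  simp_rw [h2]
  rw [← smul_sum]
  rfl

omit hx in
theorem sum_EE (hψ : ψ.IsPrimitive) (h0 : x 0 = 1) :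
    ∑ b : Fin r → F, EE x R ψ b =
      ((Fintype.card (Fin r → F) : ℕ) : L) • (1 : Matrix (Fin d) (Fin d) L) := by
  classical
  unfold EE
  rw [sum_comm]
  have h1 : ∀ a : Fin r → F, ∑ b : Fin r → F, ψ (-(a ⬝ᵥ b)) • R (x a) =
      (if a = 0 then ((Fintype.card (Fin r → F) : ℕ) : L) else 0) • R (x a) := by
    intro a
    rw [← sum_smul]
    have h2 : ∑ b : Fin r → F, ψ (-(a ⬝ᵥ b)) = ∑ b : Fin r → F, ψ (b ⬝ᵥ (-a)) := by
      refine sum_congr rfl (fun b _ => ?_)
      rw [dotProduct_neg, dotProduct_comm]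
    rw [h2, sum_char ψ hψ (-a)]
    by_cases ha : a = 0
    · rw [if_pos (by simp [ha]), if_pos ha]
    · have ha' : -a ≠ 0 := neg_ne_zero.2 ha
      rw [if_neg ha', if_neg ha]
  simp_rw [h1]
  rw [sum_eq_single 0]
  · simp [h0]
  · intro a _ ha
    simp [ha]
  · intro h
    exact absurd (mem_univ _) h

/-- The projections that do not vanish number at most `d`. -/
theorem card_le (hψ : ψ.IsPrimitive) (hN : ((Fintype.card (Fin r → F) : ℕ) : L) ≠ 0)
    (S : Finset (Fin r → F)) (hS : ∀ b ∈ S, EE x R ψ b ≠ 0) : S.card ≤ d := by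
  classical
  have hvec : ∀ b : S, ∃ w : Fin d → L, EE x R ψ b.1 *ᵥ w ≠ 0 := by
    intro b
    by_contra hcon
    push Not at hcon
    apply hS b.1 b.2
    have : (EE x R ψ b.1).mulVecLin = 0 := LinearMap.ext (fun y => hcon y)
    apply (Matrix.toLin' (R := L) (m := Fin d) (n := Fin d)).injective
    rw [map_zero, Matrix.toLin'_apply']
    exact this
  choose w hw using hvec
  let v : S → (Fin d → L) := fun b => EE x R ψ b.1 *ᵥ w b
  have hind : LinearIndependent L v := by
    rw [Fintype.linearIndependent_iff]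
    intro g hg c
    have h1 := congrArg (fun y => EE x R ψ c.1 *ᵥ y) hg
    simp only [mulVec_zero, mulVec_sum, mulVec_smul] at h1
    rw [sum_eq_single c] at h1
    · simp only [v, mulVec_mulVec, EE_mul x R ψ hx hψ, if_true, smul_mulVec] at h1
      rcases smul_eq_zero.1 h1 with h2 | h2
      · exact h2
      · exact absurd ((smul_eq_zero.1 h2).resolve_left hN) (hw c)
    · intro b _ hb
      simp only [v, mulVec_mulVec]
      rw [EE_mul x R ψ hx hψ, if_neg (fun h => hb (Subtype.ext h))]
      simp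
    · intro h
      exact absurd (mem_univ _) h
  have hc := hind.fintype_card_le_finrank
  simp only [Module.finrank_fin_fun] at hc
  simpa using hc

omit hx in
/-- Non-vanishing transported along the normaliser. -/
theorem EE_ne_of_conj (g g' : G) (hg : R g' * R g = 1) (T : (Fin r → F) ≃ (Fin r → F))
    (hT : ∀ a, g * x a = x (T a) * g) (b b' : Fin r → F) (hb : ∀ a, (T a) ⬝ᵥ b = a ⬝ᵥ b')
    (h : EE x R ψ b ≠ 0) : EE x R ψ b' ≠ 0 := by
  classical
  intro h0
  apply h
  have h1 : R g * EE x R ψ b' = EE x R ψ b * R g := by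
    unfold EE
    rw [mul_sum, sum_mul, ← Equiv.sum_comp T (fun a => ψ (-(a ⬝ᵥ b)) • R (x a) * R g)]
    refine sum_congr rfl (fun a _ => ?_)
    rw [mul_smul_comm, smul_mul_assoc, ← map_mul, ← map_mul, hT, hb]
  rw [h0, mul_zero] at h1
  have h2 := congrArg (fun X => X * R g') h1
  have hg2 : R g * R g' = 1 := by
    exact mul_eq_one_comm.1 hg
  simp only [zero_mul, mul_assoc, hg2, mul_one] at h2
  exact h2.symm

end General

section Sp

variable {m : ℕ}

/-- The symmetric matrices with support on the first row and column. -/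
def SS (a : Fin (m + 1) → F) : Matrix (Fin (m + 1)) (Fin (m + 1)) F :=
  of fun i j => if i = 0 then a j else if j = 0 then a i else 0

theorem SS_symm (a : Fin (m + 1) → F) : (SS a)ᵀ = SS a := by
  ext i j
  simp only [transpose_apply, SS, of_apply]
  by_cases hi : i = 0
  · by_cases hj : j = 0
    · simp [hi, hj]
    · simp [hi, hj]
  · by_cases hj : j = 0
    · simp [hi, hj]
    · simp [hi, hj]

theorem SS_add (a a' : Fin (m + 1) → F) : SS (a + a') = SS a + SS a' := by
  ext i j
  simp only [SS, of_apply, Matrix.add_apply, Pi.add_apply]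
  by_cases hi : i = 0
  · simp [hi]
  · by_cases hj : j = 0
    · simp [hi, hj]
    · simp [hi, hj]

theorem mem_sp_upper (S : Matrix (Fin (m + 1)) (Fin (m + 1)) F) (hS : Sᵀ = S) :
    fromBlocks 1 S 0 1 ∈ symplecticGroup (Fin (m + 1)) F := by
  rw [SymplecticGroup.mem_iff, fromBlocks_transpose, hS, J]
  rw [fromBlocks_multiply, fromBlocks_multiply]
  simp

theorem mem_sp_levi (P Q : Matrix (Fin (m + 1)) (Fin (m + 1)) F) (h : P * Qᵀ = 1) :
    fromBlocks P 0 0 Q ∈ symplecticGroup (Fin (m + 1)) F := by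
  have h' : Q * Pᵀ = 1 := by
    have := congrArg transpose h
    rwa [transpose_mul, transpose_transpose, transpose_one] at this
  rw [SymplecticGroup.mem_iff, fromBlocks_transpose, J]
  rw [fromBlocks_multiply, fromBlocks_multiply]
  simp [h, h']

/-- The abelian subgroup. -/
def xS (a : Fin (m + 1) → F) : symplecticGroup (Fin (m + 1)) F :=
  ⟨fromBlocks 1 (SS a) 0 1, mem_sp_upper _ (SS_symm a)⟩

theorem xS_add (a a' : Fin (m + 1) → F) : xS (a + a') = xS a * xS a' := by
  apply Subtype.ext
  change fromBlocks _ _ _ _ = fromBlocks _ _ _ _ * fromBlocks _ _ _ _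
  rw [fromBlocks_multiply, SS_add]
  simp [add_comm]

theorem xS_zero : xS (0 : Fin (m + 1) → F) = 1 := by
  apply Subtype.ext
  change fromBlocks _ _ _ _ = 1
  have : SS (0 : Fin (m + 1) → F) = 0 := by
    ext i j
    simp [SS]
  rw [this, fromBlocks_one]

/-- The first basis vector. -/
def e0 : Fin (m + 1) → F := Pi.single 0 1

theorem e0_zero : (e0 : Fin (m + 1) → F) 0 = 1 := by simp [e0]

theorem e0_ne {i : Fin (m + 1)} (hi : i ≠ 0) : (e0 : Fin (m + 1) → F) i = 0 := by simp [e0, hi]

theorem e0_dot (u : Fin (m + 1) → F) : e0 ⬝ᵥ u = u 0 := by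
  simp [e0, single_dotProduct]

theorem mulVec_SS (c u : Fin (m + 1) → F) (hu : u 0 = 0) : SS c *ᵥ u = (c ⬝ᵥ u) • e0 := by
  classical
  ext i
  simp only [mulVec, dotProduct, Pi.smul_apply, smul_eq_mul, SS, of_apply]
  by_cases hi : i = 0
  · simp [hi, e0_zero]
  · simp only [hi, if_false, e0_ne hi, mul_zero]
    rw [sum_eq_single 0]
    · simp [hu]
    · intro k _ hk
      simp [hk]
    · intro h
      exact absurd (mem_univ _) h

theorem vecMul_SS (c u : Fin (m + 1) → F) (hu : u 0 = 0) : u ᵥ* SS c = (c ⬝ᵥ u) • e0 := by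
  rw [← mulVec_transpose, SS_symm, mulVec_SS c u hu]

theorem SS_add_e0 (a : Fin (m + 1) → F) (t : F) :
    SS (a + t • e0) = SS a + t • vecMulVec e0 e0 := by
  ext i j
  simp only [SS, of_apply, Matrix.add_apply, Pi.add_apply, Pi.smul_apply, smul_eq_mul,
    Matrix.smul_apply, vecMulVec_apply]
  by_cases hi : i = 0
  · simp [hi, e0_zero]
  · by_cases hj : j = 0
    · simp [hi, hj, e0_ne hi]
    · simp [hi, hj, e0_ne hi, e0_ne hj]

/-- The shift part of the Levi factor. -/
def gShift (u : Fin (m + 1) → F) (hu : u 0 = 0) : symplecticGroup (Fin (m + 1)) F :=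
  ⟨fromBlocks (1 + vecMulVec e0 u) 0 0 (1 - vecMulVec u e0), mem_sp_levi _ _ (by
    rw [transpose_sub, transpose_one, transpose_vecMulVec, add_mul, one_mul, mul_sub, mul_one,
      vecMulVec_mul_vecMulVec]
    have : u ⬝ᵥ e0 = 0 := by rw [dotProduct_comm, e0_dot, hu]
    rw [this]
    simp)⟩

/-- The induced map on the parameters. -/
def shiftT (u : Fin (m + 1) → F) (hu : u 0 = 0) : (Fin (m + 1) → F) ≃ (Fin (m + 1) → F) :=
  { toFun := fun a => a + (2 * (a ⬝ᵥ u)) • e0
    invFun := fun a => a - (2 * (a ⬝ᵥ u)) • e0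
    left_inv := fun a => by
      simp only
      rw [add_dotProduct, smul_dotProduct, e0_dot, hu]
      simp
    right_inv := fun a => by
      simp only
      rw [sub_dotProduct, smul_dotProduct, e0_dot, hu]
      simp }

theorem gShift_xS (u : Fin (m + 1) → F) (hu : u 0 = 0) (a : Fin (m + 1) → F) :
    gShift u hu * xS a = xS (shiftT u hu a) * gShift u hu := by
  apply Subtype.ext
  change fromBlocks _ _ _ _ * fromBlocks _ _ _ _ = fromBlocks _ _ _ _ * fromBlocks _ _ _ _
  rw [fromBlocks_multiply, fromBlocks_multiply]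
  have h1 : (1 + vecMulVec e0 u) * SS a = SS (shiftT u hu a) * (1 - vecMulVec u e0) := by
    have h2 : shiftT u hu a = a + (2 * (a ⬝ᵥ u)) • e0 := rfl
    have h3 : (a + (2 * (a ⬝ᵥ u)) • e0) ⬝ᵥ u = a ⬝ᵥ u := by
      rw [add_dotProduct, smul_dotProduct, e0_dot, hu]
      simp
    rw [add_mul, one_mul, vecMulVec_mul, vecMul_SS a u hu, mul_sub, mul_one, mul_vecMulVec, h2,
      mulVec_SS _ u hu, h3, SS_add_e0]
    ext i j
    simp only [Matrix.add_apply, Matrix.sub_apply, Matrix.smul_apply, vecMulVec_apply, Pi.smul_apply,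
      smul_eq_mul]
    ring
  rw [h1]
  simp

theorem shiftT_dot (u : Fin (m + 1) → F) (hu : u 0 = 0) (a b : Fin (m + 1) → F) :
    (shiftT u hu a) ⬝ᵥ b = a ⬝ᵥ (b + (2 * b 0) • u) := by
  change (a + (2 * (a ⬝ᵥ u)) • e0) ⬝ᵥ b = _
  rw [add_dotProduct, smul_dotProduct, e0_dot, dotProduct_add, dotProduct_smul]
  simp only [smul_eq_mul]
  ring

/-- The torus part of the Levi factor. -/
def gTorus (l : F) (hl : l ≠ 0) : symplecticGroup (Fin (m + 1)) F :=
  ⟨fromBlocks (diagonal (fun i => if i = 0 then l else 1)) 0 0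
      (diagonal (fun i => if i = 0 then l⁻¹ else 1)), mem_sp_levi _ _ (by
    rw [diagonal_transpose, diagonal_mul_diagonal, ← diagonal_one]
    congr 1
    funext i
    by_cases hi : i = 0
    · simp [hi, hl]
    · simp [hi])⟩

/-- The induced map on the parameters. -/
def torusT (l : F) (hl : l ≠ 0) : (Fin (m + 1) → F) ≃ (Fin (m + 1) → F) :=
  { toFun := fun a i => if i = 0 then l ^ 2 * a i else l * a i
    invFun := fun a i => if i = 0 then (l ^ 2)⁻¹ * a i else l⁻¹ * a i
    left_inv := fun a => by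
      funext i
      by_cases hi : i = 0
      · simp [hi, hl]
      · simp [hi, hl]
    right_inv := fun a => by
      funext i
      by_cases hi : i = 0
      · simp [hi, hl]
      · simp [hi, hl] }

theorem gTorus_xS (l : F) (hl : l ≠ 0) (a : Fin (m + 1) → F) :
    gTorus l hl * xS a = xS (torusT l hl a) * gTorus l hl := by
  apply Subtype.ext
  change fromBlocks _ _ _ _ * fromBlocks _ _ _ _ = fromBlocks _ _ _ _ * fromBlocks _ _ _ _
  rw [fromBlocks_multiply, fromBlocks_multiply]
  have h1 : diagonal (fun i => if i = 0 then l else 1) * SS a =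
      SS (torusT l hl a) * diagonal (fun i => if i = 0 then l⁻¹ else 1) := by
    ext i j
    rw [diagonal_mul, mul_diagonal]
    change _ * (if i = 0 then a j else if j = 0 then a i else 0) =
      (if i = 0 then (if j = 0 then l ^ 2 * a j else l * a j)
        else if j = 0 then (if i = 0 then l ^ 2 * a i else l * a i) else 0) * _
    by_cases hi : i = 0
    · by_cases hj : j = 0
      · simp only [hi, hj, if_true]
        field_simp
      · simp [hi, hj]
    · by_cases hj : j = 0
      · simp only [hi, hj, if_true, if_false]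
        field_simp
      · simp [hi, hj]
  rw [h1]
  simp

theorem torusT_dot (l : F) (hl : l ≠ 0) (a b : Fin (m + 1) → F) :
    (torusT l hl a) ⬝ᵥ b = a ⬝ᵥ (torusT l hl b) := by
  simp only [dotProduct]
  refine sum_congr rfl (fun i _ => ?_)
  change (if i = 0 then l ^ 2 * a i else l * a i) * b i = a i * (if i = 0 then l ^ 2 * b i else l * b i)
  by_cases hi : i = 0
  · simp only [hi, if_true]
    ring
  · simp only [hi, if_false]
    ring

theorem torusT_zero (l : F) (hl : l ≠ 0) (b : Fin (m + 1) → F) : torusT l hl b 0 = l ^ 2 * b 0 := by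
  change (if (0 : Fin (m + 1)) = 0 then l ^ 2 * b 0 else l * b 0) = _
  simp

theorem xS_not_central : xS (e0 : Fin (m + 1) → F) ∉
    Subgroup.center (symplecticGroup (Fin (m + 1)) F) := by
  classical
  intro h
  have h1 := (Subgroup.mem_center_iff.1 h) (SymplecticGroup.symJ (Fin (m + 1)) F)
  have h2 := congrArg Subtype.val h1
  change J _ _ * fromBlocks _ _ _ _ = fromBlocks _ _ _ _ * J _ _ at h2
  rw [J, fromBlocks_multiply, fromBlocks_multiply] at h2
  have h3 := congrFun (congrFun h2 (Sum.inl 0)) (Sum.inl 0)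
  simp [SS, e0_zero] at h3

variable {K : Type*} [Field K]

/-- The statement of S2393. -/
theorem main_2393 {q : ℕ} (hq : Fintype.card F = q) (hodd : Odd q) (n : ℕ) (hn : 2 ≤ n)
    (hK : ringChar K ≠ ringChar F) {d : ℕ}
    (ρ : ↥(Matrix.symplecticGroup (Fin n) F) →* GL (Fin d) K)
    (hker : ρ.ker ≤ Subgroup.center ↥(Matrix.symplecticGroup (Fin n) F)) :
    q ^ (n - 1) * (q - 1) / 2 ≤ d := by
  classical
  subst hq
  obtain ⟨m, rfl⟩ : ∃ m, n = m + 1 := ⟨n - 1, by omega⟩
  simp only [Nat.add_sub_cancel]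
  have h2F : (2 : F) ≠ 0 := by
    intro h
    have h1 : ringChar F = 2 := by
      have := (CharP.cast_eq_zero_iff F (ringChar F) 2).1 (by exact_mod_cast h)
      rcases (Nat.dvd_prime Nat.prime_two).1 this with h3 | h3
      · exact absurd h3 (CharP.ringChar_ne_one)
      · exact h3
    have h2 := FiniteField.even_card_of_char_two h1
    rw [Nat.odd_iff] at hodd
    omega
  let prim := AddChar.FiniteField.primitiveChar F K hK
  let L := CyclotomicField prim.n K
  let ψ : AddChar F L := prim.char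
  have hψ : ψ.IsPrimitive := prim.prim
  have hinj : Function.Injective (algebraMap K L) := (algebraMap K L).injective
  let R : symplecticGroup (Fin (m + 1)) F →* Matrix (Fin d) (Fin d) L :=
    { toFun := fun g => ((ρ g : GL (Fin d) K) : Matrix (Fin d) (Fin d) K).map (algebraMap K L)
      map_one' := by
        simp
      map_mul' := by
        intro g h
        rw [map_mul, Units.val_mul, Matrix.map_mul] }
  have hR : ∀ g, R g = 1 → g ∈ Subgroup.center (symplecticGroup (Fin (m + 1)) F) := by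
    intro g hg
    have h1 : ρ g = 1 := by
      apply Units.ext
      ext i j
      have h2 := congrFun (congrFun hg i) j
      apply hinj
      change algebraMap K L _ = _ at h2
      rw [h2, Units.val_one, Matrix.one_apply, Matrix.one_apply]
      split_ifs
      · simp
      · simp
    exact hker h1
  have hN : ((Fintype.card (Fin (m + 1) → F) : ℕ) : L) ≠ 0 := by
    obtain ⟨f, hp1, hp2⟩ := FiniteField.card F (ringChar F)
    rw [Fintype.card_fun, Fintype.card_fin, hp2, Nat.cast_pow, Nat.cast_pow]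
    refine pow_ne_zero _ (pow_ne_zero _ ?_)
    intro h0
    have h1 : CharP L (ringChar K) := charP_of_injective_algebraMap hinj (ringChar K)
    have h2 := (CharP.cast_eq_zero_iff L (ringChar K) (ringChar F)).1 h0
    rcases (Nat.dvd_prime hp1).1 h2 with h3 | h3
    · exact CharP.ringChar_ne_one h3
    · exact hK h3
  let E := EE (xS (m := m) (F := F)) R ψ
  have hE : ∀ b, E b = EE (xS (m := m) (F := F)) R ψ b := fun _ => rfl
  -- some nonvanishing projection with `b 0 ≠ 0`
  have hex : ∃ b₀ : Fin (m + 1) → F, b₀ 0 ≠ 0 ∧ E b₀ ≠ 0 := by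
    by_contra hcon
    push Not at hcon
    apply xS_not_central (F := F) (m := m)
    apply hR
    have h1 : ∀ b, R (xS e0) * E b = E b := by
      intro b
      have h2 := R_xx_mul xS R ψ xS_add e0 b
      rw [hE, h2, e0_dot]
      by_cases hb : b 0 = 0
      · rw [hb, AddChar.map_zero_eq_one, one_smul]
      · have := hcon b hb
        rw [hE] at this
        rw [this, smul_zero]
    have h3 := sum_EE xS R ψ hψ xS_zero
    have h4 : R (xS e0) * ((Fintype.card (Fin (m + 1) → F) : ℕ) : L) • (1 : Matrix (Fin d) (Fin d) L) =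
        ((Fintype.card (Fin (m + 1) → F) : ℕ) : L) • (1 : Matrix (Fin d) (Fin d) L) := by
      rw [← h3, mul_sum]
      exact sum_congr rfl (fun b _ => h1 b)
    rw [mul_smul_comm, mul_one] at h4
    exact smul_right_injective _ hN h4
  obtain ⟨b₀, hb₀, hE₀⟩ := hex
  have htrans : ∀ (l : F) (hl : l ≠ 0) (b : Fin (m + 1) → F), b 0 = l ^ 2 * b₀ 0 → E b ≠ 0 := by
    intro l hl b hb
    have h1 : E (torusT l hl b₀) ≠ 0 := by
      apply EE_ne_of_conj xS R ψ (gTorus l hl) (gTorus l hl)⁻¹ (by
        rw [← map_mul, inv_mul_cancel, map_one]) (torusT l hl) (gTorus_xS l hl) b₀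
      · intro a
        exact torusT_dot l hl a b₀
      · exact hE₀
    set b₁ := torusT l hl b₀ with hb₁
    have hb₁0 : b₁ 0 = l ^ 2 * b₀ 0 := torusT_zero l hl b₀
    have hb₁ne : 2 * b₁ 0 ≠ 0 := by
      rw [hb₁0]
      exact mul_ne_zero h2F (mul_ne_zero (pow_ne_zero _ hl) hb₀)
    let u : Fin (m + 1) → F := (2 * b₁ 0)⁻¹ • (b - b₁)
    have hu : u 0 = 0 := by
      simp [u, hb, hb₁0]
    have h2 : b₁ + (2 * b₁ 0) • u = b := by
      simp only [u]
      rw [smul_smul, mul_inv_cancel₀ hb₁ne, one_smul]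
      abel
    rw [← h2]
    apply EE_ne_of_conj xS R ψ (gShift u hu) (gShift u hu)⁻¹ (by
      rw [← map_mul, inv_mul_cancel, map_one]) (shiftT u hu) (gShift_xS u hu) b₁
    · intro a
      exact shiftT_dot u hu a b₁
    · exact h1
  -- the counting
  let T₀ : Finset F := (univ.filter (fun l : F => l ≠ 0)).image (fun l => l ^ 2 * b₀ 0)
  have hT₀ : Fintype.card F - 1 ≤ 2 * T₀.card := by
    have h1 : (univ.filter (fun l : F => l ≠ 0)).card = Fintype.card F - 1 := by
      rw [filter_ne' univ (0 : F), card_erase_of_mem (mem_univ _), card_univ]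
    rw [← h1]
    apply card_le_mul_card_image
    intro a ha
    obtain ⟨l, hl, rfl⟩ := mem_image.1 ha
    have h3 : (univ.filter (fun l : F => l ≠ 0)).filter (fun x => x ^ 2 * b₀ 0 = l ^ 2 * b₀ 0) ⊆ {l, -l} := by
      intro x hx
      have h4 := (mem_filter.1 hx).2
      have h5 : x ^ 2 = l ^ 2 := mul_right_cancel₀ hb₀ h4
      rcases sq_eq_sq_iff_eq_or_eq_neg.1 h5 with h6 | h6
      · simp [h6]
      · simp [h6]
    calc _ ≤ ({l, -l} : Finset F).card := card_le_card h3
      _ ≤ 2 := card_le_two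
  let S : Finset (Fin (m + 1) → F) :=
    (T₀ ×ˢ (univ : Finset (Fin m → F))).image (fun p => Fin.cons p.1 p.2)
  have hScard : S.card = T₀.card * Fintype.card F ^ m := by
    rw [card_image_of_injective, card_product, card_univ, Fintype.card_fun, Fintype.card_fin]
    intro p p' h
    have := Fin.cons_injective2 h
    exact Prod.ext this.1 this.2
  have hS : ∀ b ∈ S, E b ≠ 0 := by
    intro b hb
    obtain ⟨p, hp, rfl⟩ := mem_image.1 hb
    obtain ⟨l, hl, hl2⟩ := mem_image.1 (mem_product.1 hp).1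
    exact htrans l (mem_filter.1 hl).2 _ (by simp [hl2])
  have hle := card_le xS R ψ xS_add hψ hN S hS
  rw [hScard] at hle
  refine le_trans ?_ hle
  apply Nat.div_le_of_le_mul
  calc Fintype.card F ^ m * (Fintype.card F - 1) ≤ Fintype.card F ^ m * (2 * T₀.card) :=
        Nat.mul_le_mul_left _ hT₀
    _ = 2 * (T₀.card * Fintype.card F ^ m) := by ring

end Sp

end CfsgLib.H9.CrossSp
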