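import Mathlib
import Cfsg.Prelude.Def_Sporadic
import Cfsg.Prelude.Def_Classical

/-! `p ^ 3` and the `2`-part for alternating and sporadic groups. -/

set_option autoImplicit false
set_option linter.unusedVariables false
set_option linter.style.haveILetI false

namespace CfsgLib.H9.CubePart

open Cfsg Nat

/-- Product of prime powers. -/
def prodPow (l : List (ℕ × ℕ)) : ℕ := (l.map fun x => x.1 ^ x.2).prod

/-- Exponent in the list. -/
def expo (l : List (ℕ × ℕ)) (p : ℕ) : ℕ := (l.map fun x => if x.1 = p then x.2 else 0).sum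

theorem prodPow_ne_zero (l : List (ℕ × ℕ)) (h : ∀ x ∈ l, x.1.Prime) : prodPow l ≠ 0 := by
  induction l with
  | nil => simp [prodPow]
  | cons a s ih =>
    simp only [prodPow, List.map_cons, List.prod_cons]
    apply mul_ne_zero
    · exact pow_ne_zero _ (h a (List.mem_cons_self ..)).ne_zero
    · exact ih (fun x hx => h x (List.mem_cons_of_mem _ hx))

theorem factorization_prodPow (l : List (ℕ × ℕ)) (h : ∀ x ∈ l, x.1.Prime) (p : ℕ) :
    (prodPow l).factorization p = expo l p := by
  induction l with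
  | nil => simp [prodPow, expo]
  | cons a s ih =>
    have h1 : prodPow (a :: s) = a.1 ^ a.2 * prodPow s := by simp [prodPow]
    have h2 : expo (a :: s) p = (if a.1 = p then a.2 else 0) + expo s p := by simp [expo]
    have ha := h a (List.mem_cons_self ..)
    have hs : ∀ x ∈ s, x.1.Prime := fun x hx => h x (List.mem_cons_of_mem _ hx)
    rw [h1, h2, Nat.factorization_mul (pow_ne_zero _ ha.ne_zero) (prodPow_ne_zero s hs),
      Finsupp.add_apply, ih hs, ha.factorization_pow, Finsupp.single_apply]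

theorem mem_of_expo {l : List (ℕ × ℕ)} {p : ℕ} (h : expo l p ≠ 0) : ∃ x ∈ l, x.1 = p := by
  induction l with
  | nil => simp [expo] at h
  | cons a s ih =>
    have h2 : expo (a :: s) p = (if a.1 = p then a.2 else 0) + expo s p := by simp [expo]
    rw [h2] at h
    by_cases h3 : a.1 = p
    · exact ⟨a, List.mem_cons_self .., h3⟩
    · rw [if_neg h3, zero_add] at h
      obtain ⟨x, hx, hx2⟩ := ih h
      exact ⟨x, List.mem_cons_of_mem _ hx, hx2⟩

/-- The check. -/
def chkL (l : List (ℕ × ℕ)) : Bool :=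
  (l.all fun x => x.1.Prime) && (l.all fun x => x.1 == 2 || expo l x.1 != 3 || decide (x.1 ^ 3 < 2 ^ expo l 2))

theorem of_chk {l : List (ℕ × ℕ)} (h : chkL l = true) {N : ℕ} (hN : N = prodPow l) (p : ℕ) (hodd : p ≠ 2)
    (h3 : N.factorization p = 3) : p ^ 3 < 2 ^ N.factorization 2 := by
  simp only [chkL, Bool.and_eq_true, List.all_eq_true, decide_eq_true_eq, Bool.or_eq_true, beq_iff_eq,
    bne_iff_ne, ne_eq] at h
  obtain ⟨h1, h2⟩ := h
  subst hN
  rw [factorization_prodPow l h1] at h3 ⊢
  obtain ⟨x, hx, rfl⟩ := mem_of_expo (l := l) (p := p) (by omega)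
  rcases h2 x hx with (h4 | h4) | h4
  · exact absurd h4 hodd
  · exact absurd h3 h4
  · exact h4

theorem two_pow_bound (p : ℕ) (hp : 3 ≤ p) : 2 * p ^ 3 < 4 ^ p := by
  induction p, hp using Nat.le_induction with
  | base => norm_num
  | succ n hn ih =>
    have h1 : (n + 1) ^ 3 ≤ 4 * n ^ 3 := by
      have : 3 ≤ n := hn
      nlinarith [sq_nonneg n, mul_le_mul this this (by omega) (by omega), pow_pos (by omega : 0 < n) 3]
    rw [pow_succ (4 : ℕ) n]
    omega

theorem alt_case (n p : ℕ) (hn : 5 ≤ n) (hp : p.Prime) (hodd : p ≠ 2) {N : ℕ} (hN : 2 * N = n !)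
    (h3 : N.factorization p = 3) : p ^ 3 < 2 ^ N.factorization 2 := by
  have hN0 : N ≠ 0 := by
    rintro rfl
    exact (Nat.factorial_ne_zero n) (by simpa using hN.symm)
  have hp3 : 3 ≤ p := by
    have := hp.two_le
    omega
  have hfac : ∀ q, (n !).factorization q = (2).factorization q + N.factorization q := by
    intro q
    rw [← hN, Nat.factorization_mul two_ne_zero hN0]
    rfl
  have hpf : (n !).factorization p = 3 := by
    rw [hfac, h3]
    have : (2 : ℕ).factorization p = 0 := by
      rw [Nat.prime_two.factorization, Finsupp.single_apply, if_neg (Ne.symm hodd)]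
    omega
  have h2f : (n !).factorization 2 = 1 + N.factorization 2 := by
    rw [hfac]
    congr 1
    rw [Nat.prime_two.factorization, Finsupp.single_apply, if_pos rfl]
  -- `n ≥ 3 p`
  have hn3 : 3 * p ≤ n := by
    by_contra hlt
    push Not at hlt
    have hlt2 : n < p ^ 2 := by nlinarith
    have hlog : Nat.log p n < 2 := Nat.log_lt_of_lt_pow (by omega) hlt2
    have h4 := Nat.factorization_factorial hp hlog
    rw [hpf] at h4
    have h5 : n / p < 3 := by
      apply Nat.div_lt_of_lt_mul
      linarith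
    simp at h4
    omega
  -- lower bound for the `2`-part
  have hm : (3 * p)! ∣ n ! := Nat.factorial_dvd_factorial hn3
  have h6 : ((3 * p)!).factorization 2 ≤ (n !).factorization 2 :=
    (Nat.factorization_le_iff_dvd (Nat.factorial_ne_zero _) (Nat.factorial_ne_zero _)).mpr hm 2
  have hlog : Nat.log 2 (3 * p) < Nat.log 2 (3 * p) + 1 := Nat.lt_succ_self _
  have h7 := Nat.factorization_factorial Nat.prime_two hlog
  have hlog2 : 2 ≤ Nat.log 2 (3 * p) := by
    apply Nat.le_log_of_pow_le (by omega)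
    omega
  have h8 : 3 * p / 2 ^ 1 + 3 * p / 2 ^ 2 ≤ ((3 * p)!).factorization 2 := by
    rw [h7]
    have h9 : ∑ i ∈ Finset.Ico 1 3, 3 * p / 2 ^ i ≤ ∑ i ∈ Finset.Ico 1 (Nat.log 2 (3 * p) + 1), 3 * p / 2 ^ i := by
      apply Finset.sum_le_sum_of_subset
      intro i hi
      simp only [Finset.mem_Ico] at hi ⊢
      omega
    have h10 : ∑ i ∈ Finset.Ico 1 3, 3 * p / 2 ^ i = 3 * p / 2 ^ 1 + 3 * p / 2 ^ 2 := by
      rw [show Finset.Ico 1 3 = {1, 2} by decide]
      rw [Finset.sum_pair (by norm_num)]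
    omega
  have h11 : 2 * p ≤ (n !).factorization 2 := by
    have : 2 * p ≤ 3 * p / 2 ^ 1 + 3 * p / 2 ^ 2 := by
      omega
    omega
  have h12 := two_pow_bound p hp3
  have h13 : (4 : ℕ) ^ p ≤ 2 ^ (n !).factorization 2 := by
    have : (4 : ℕ) ^ p = 2 ^ (2 * p) := by
      rw [pow_mul]
      norm_num
    rw [this]
    exact Nat.pow_le_pow_right (by norm_num) h11
  rw [h2f, pow_add, pow_one] at h13
  omega

theorem main {G : Type*} [Group G] [Finite G] (hG : IsAlternating G ∨ IsSporadic G)
    (p : ℕ) (hp : p.Prime) (hodd : p ≠ 2) (h3 : (Nat.card G).factorization p = 3) :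
    p ^ 3 < 2 ^ (Nat.card G).factorization 2 := by
  rcases hG with ⟨n, hn, ⟨e⟩⟩ | hG
  · haveI : Nontrivial (Fin n) := Fin.nontrivial_iff_two_le.mpr (by omega)
    apply alt_case n p hn hp hodd _ h3
    rw [Nat.card_congr e.toEquiv, two_mul_nat_card_alternatingGroup, Nat.card_eq_fintype_card, Fintype.card_perm, Fintype.card_fin]
  · unfold IsSporadic at hG
    rcases hG with h | h | h | h | h | h | h | h | h | h | h | h | h | h | h | h | h | h | h | h | h | h | h | h | h | h
    · exact of_chk (l := [(2, 4), (3, 2), (5, 1), (11, 1)]) (by decide +kernel) (by rw [h.2]; decide +kernel) p hodd h3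
    · exact of_chk (l := [(2, 6), (3, 3), (5, 1), (11, 1)]) (by decide +kernel) (by rw [h.2]; decide +kernel) p hodd h3
    · exact of_chk (l := [(2, 7), (3, 2), (5, 1), (7, 1), (11, 1)]) (by decide +kernel) (by rw [h.2]; decide +kernel) p hodd h3
    · exact of_chk (l := [(2, 7), (3, 2), (5, 1), (7, 1), (11, 1), (23, 1)]) (by decide +kernel) (by rw [h.2]; decide +kernel) p hodd h3
    · exact of_chk (l := [(2, 10), (3, 3), (5, 1), (7, 1), (11, 1), (23, 1)]) (by decide +kernel) (by rw [h.2]; decide +kernel) p hodd h3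
    · exact of_chk (l := [(2, 3), (3, 1), (5, 1), (7, 1), (11, 1), (19, 1)]) (by decide +kernel) (by rw [h.2]; decide +kernel) p hodd h3
    · exact of_chk (l := [(2, 7), (3, 3), (5, 2), (7, 1)]) (by decide +kernel) (by rw [h.2]; decide +kernel) p hodd h3
    · exact of_chk (l := [(2, 7), (3, 5), (5, 1), (17, 1), (19, 1)]) (by decide +kernel) (by rw [h.2]; decide +kernel) p hodd h3
    · exact of_chk (l := [(2, 21), (3, 3), (5, 1), (7, 1), (11, 3), (23, 1), (29, 1), (31, 1), (37, 1), (43, 1)]) (by decide +kernel) (by rw [h.2]; decide +kernel) p hodd h3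
    · exact of_chk (l := [(2, 21), (3, 9), (5, 4), (7, 2), (11, 1), (13, 1), (23, 1)]) (by decide +kernel) (by rw [h.2]; decide +kernel) p hodd h3
    · exact of_chk (l := [(2, 18), (3, 6), (5, 3), (7, 1), (11, 1), (23, 1)]) (by decide +kernel) (by rw [h.2]; decide +kernel) p hodd h3
    · exact of_chk (l := [(2, 10), (3, 7), (5, 3), (7, 1), (11, 1), (23, 1)]) (by decide +kernel) (by rw [h.2]; decide +kernel) p hodd h3
    · exact of_chk (l := [(2, 17), (3, 9), (5, 2), (7, 1), (11, 1), (13, 1)]) (by decide +kernel) (by rw [h.2]; decide +kernel) p hodd h3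
    · exact of_chk (l := [(2, 18), (3, 13), (5, 2), (7, 1), (11, 1), (13, 1), (17, 1), (23, 1)]) (by decide +kernel) (by rw [h.2]; decide +kernel) p hodd h3
    · exact of_chk (l := [(2, 21), (3, 16), (5, 2), (7, 3), (11, 1), (13, 1), (17, 1), (23, 1), (29, 1)]) (by decide +kernel) (by rw [h.2]; decide +kernel) p hodd h3
    · exact of_chk (l := [(2, 9), (3, 2), (5, 3), (7, 1), (11, 1)]) (by decide +kernel) (by rw [h.2]; decide +kernel) p hodd h3
    · exact of_chk (l := [(2, 7), (3, 6), (5, 3), (7, 1), (11, 1)]) (by decide +kernel) (by rw [h.2]; decide +kernel) p hodd h3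
    · exact of_chk (l := [(2, 10), (3, 3), (5, 2), (7, 3), (17, 1)]) (by decide +kernel) (by rw [h.2]; decide +kernel) p hodd h3
    · exact of_chk (l := [(2, 14), (3, 3), (5, 3), (7, 1), (13, 1), (29, 1)]) (by decide +kernel) (by rw [h.2]; decide +kernel) p hodd h3
    · exact of_chk (l := [(2, 13), (3, 7), (5, 2), (7, 1), (11, 1), (13, 1)]) (by decide +kernel) (by rw [h.2]; decide +kernel) p hodd h3
    · exact of_chk (l := [(2, 9), (3, 4), (5, 1), (7, 3), (11, 1), (19, 1), (31, 1)]) (by decide +kernel) (by rw [h.2]; decide +kernel) p hodd h3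
    · exact of_chk (l := [(2, 14), (3, 6), (5, 6), (7, 1), (11, 1), (19, 1)]) (by decide +kernel) (by rw [h.2]; decide +kernel) p hodd h3
    · exact of_chk (l := [(2, 8), (3, 7), (5, 6), (7, 1), (11, 1), (31, 1), (37, 1), (67, 1)]) (by decide +kernel) (by rw [h.2]; decide +kernel) p hodd h3
    · exact of_chk (l := [(2, 15), (3, 10), (5, 3), (7, 2), (13, 1), (19, 1), (31, 1)]) (by decide +kernel) (by rw [h.2]; decide +kernel) p hodd h3
    · exact of_chk (l := [(2, 41), (3, 13), (5, 6), (7, 2), (11, 1), (13, 1), (17, 1), (19, 1), (23, 1), (31, 1), (47, 1)]) (by decide +kernel) (by rw [h.2]; decide +kernel) p hodd h3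
    · exact of_chk (l := [(2, 46), (3, 20), (5, 9), (7, 6), (11, 2), (13, 3), (17, 1), (19, 1), (23, 1), (29, 1), (31, 1), (41, 1), (47, 1), (59, 1), (71, 1)]) (by decide +kernel) (by rw [h.2]; decide +kernel) p hodd h3

end CfsgLib.H9.CubePart
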