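import Mathlib

/-! Fixed fields of finite-field automorphisms, and matrices scalar under the automorphism. -/

set_option autoImplicit false
set_option linter.unusedVariables false
set_option linter.unusedSectionVars false
set_option linter.unusedSimpArgs false
set_option linter.style.haveILetI false

namespace CfsgLib.H9.FieldAut

open Matrix Module

variable {F : Type*} [Field F] [Fintype F]

/-- Fixed field of an automorphism. -/
def fixedField (σ : F ≃+* F) : Subfield F := RingHom.eqLocusField (σ : F →+* F) (RingHom.id F)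

theorem mem_fixedField (σ : F ≃+* F) (x : F) : x ∈ fixedField σ ↔ σ x = x := by
  change (σ : F →+* F) x = RingHom.id F x ↔ _
  simp

theorem card_fixed (σ : F ≃+* F) {q₀ r : ℕ} (hr : r.Prime) (hF : Fintype.card F = q₀ ^ r)
    (hσ : orderOf σ = r) : Nat.card (fixedField σ) = q₀ := by
  classical
  let G := Subgroup.zpowers σ
  have hfo : IsOfFinOrder σ := by
    rw [← orderOf_pos_iff, hσ]; exact hr.pos
  haveI : Finite G := hfo.finite_zpowers
  haveI : Fintype G := Fintype.ofFinite G
  have hcard : Fintype.card G = r := by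
    rw [← Nat.card_eq_fintype_card, Nat.card_zpowers, hσ]
  haveI : FaithfulSMul G F := ⟨by
    intro a b h
    apply Subtype.ext
    apply RingEquiv.ext
    intro x
    exact h x⟩
  have h1 := FixedPoints.finrank_eq_card G F
  have heq : (FixedPoints.subfield G F) = fixedField σ := by
    ext x
    rw [mem_fixedField]
    constructor
    · intro hx
      have := hx (⟨σ, Subgroup.mem_zpowers σ⟩ : G)
      exact this
    · intro hx g
      obtain ⟨g, k, rfl⟩ := g
      change ((σ ^ k : F ≃+* F)) x = x
      have hfix : ∀ k : ℤ, (σ ^ k : F ≃+* F) x = x := by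
        intro k
        induction k using Int.induction_on with
        | zero => simp
        | succ i ih =>
          rw [_root_.zpow_add_one]
          change (σ ^ (i : ℤ)) (σ x) = x
          rw [hx, ih]
        | pred i ih =>
          rw [_root_.zpow_sub_one]
          change (σ ^ (-(i : ℤ))) (σ⁻¹ x) = x
          have : σ⁻¹ x = x := by
            apply σ.injective
            change σ (σ.symm x) = σ x
            rw [RingEquiv.apply_symm_apply, hx]
          rw [this, ih]
      exact hfix k
  have h2 : finrank (fixedField σ) F = r := by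
    rw [← heq, h1, hcard]
  have h3 : Nat.card F = Nat.card (fixedField σ) ^ finrank (fixedField σ) F :=
    Module.natCard_eq_pow_finrank (K := fixedField σ) (V := F)
  rw [Nat.card_eq_fintype_card, hF, h2] at h3
  exact (Nat.pow_left_injective (n := r) hr.ne_zero h3).symm

/-- The map `(u, h) ↦ u • ι h`. -/
noncomputable def Φ (σ : F ≃+* F) (n : ℕ) : Fˣ × GL (Fin n) (fixedField σ) →* GL (Fin n) F :=
  (Matrix.GeneralLinearGroup.scalar (Fin n)).noncommCoprod
    (Matrix.GeneralLinearGroup.map (fixedField σ).subtype)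
    (fun u h => Matrix.GeneralLinearGroup.scalar_commute u _)

theorem Φ_val (σ : F ≃+* F) (n : ℕ) (p : Fˣ × GL (Fin n) (fixedField σ)) (i j : Fin n) :
    ((Φ σ n p : GL (Fin n) F) : Matrix (Fin n) (Fin n) F) i j = (p.1 : F) * ((p.2 : Matrix (Fin n) (Fin n) (fixedField σ)) i j : F) := by
  have : (Φ σ n p : GL (Fin n) F) = Matrix.GeneralLinearGroup.scalar (Fin n) p.1 *
      Matrix.GeneralLinearGroup.map (fixedField σ).subtype p.2 := rfl
  rw [this, Units.val_mul, Matrix.GeneralLinearGroup.coe_scalar]
  simp [Matrix.GeneralLinearGroup.map, Matrix.scalar_apply, Matrix.diagonal_mul]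

theorem range_eq (σ : F ≃+* F) {n : ℕ} (hn : 1 ≤ n) (g : GL (Fin n) F) :
    g ∈ (Φ σ n).range ↔ ∃ c : F, c ≠ 0 ∧ (g : Matrix (Fin n) (Fin n) F).map σ = c • (g : Matrix (Fin n) (Fin n) F) := by
  classical
  constructor
  · rintro ⟨⟨u, h⟩, rfl⟩
    have hu : (u : F) ≠ 0 := u.ne_zero
    refine ⟨σ u / u, div_ne_zero (by simpa using hu) hu, ?_⟩
    ext i j
    rw [Matrix.map_apply, Matrix.smul_apply, Φ_val, smul_eq_mul, map_mul]
    have hfix := (mem_fixedField σ _).1 ((h : Matrix (Fin n) (Fin n) (fixedField σ)) i j).2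
    simp only
    rw [hfix]
    field_simp
  · rintro ⟨c, hc, hg⟩
    have hgentry : ∀ i j, σ ((g : Matrix (Fin n) (Fin n) F) i j) = c * (g : Matrix (Fin n) (Fin n) F) i j := by
      intro i j
      have := congrFun (congrFun hg i) j
      simpa [Matrix.map_apply] using this
    -- a nonzero entry
    have hne : ∃ i j, (g : Matrix (Fin n) (Fin n) F) i j ≠ 0 := by
      by_contra hall
      push Not at hall
      have h0 : (g : Matrix (Fin n) (Fin n) F) = 0 := by
        ext i j; exact hall i j
      haveI : Nonempty (Fin n) := ⟨⟨0, hn⟩⟩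
      have h1 := g.isUnit
      rw [h0] at h1
      exact not_isUnit_zero h1
    obtain ⟨i, j, hd⟩ := hne
    set d := (g : Matrix (Fin n) (Fin n) F) i j with hdd
    have hcd : σ d = c * d := hgentry i j
    have hfix : ∀ k l, d⁻¹ * (g : Matrix (Fin n) (Fin n) F) k l ∈ fixedField σ := by
      intro k l
      rw [mem_fixedField, map_mul, map_inv₀, hgentry k l, hcd]
      field_simp
    let m₀ : Matrix (Fin n) (Fin n) (fixedField σ) := fun k l => ⟨d⁻¹ * (g : Matrix (Fin n) (Fin n) F) k l, hfix k l⟩
    have hmap : m₀.map (fixedField σ).subtype = d⁻¹ • (g : Matrix (Fin n) (Fin n) F) := by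
      ext k l
      rfl
    have hdet : m₀.det ≠ 0 := by
      intro h0
      have h1 := RingHom.map_det (fixedField σ).subtype m₀
      rw [h0, map_zero] at h1
      have h2 : (fixedField σ).subtype.mapMatrix m₀ = d⁻¹ • (g : Matrix (Fin n) (Fin n) F) := hmap
      rw [h2, Matrix.det_smul] at h1
      have h3 : (g : Matrix (Fin n) (Fin n) F).det ≠ 0 := by
        have := (Matrix.isUnit_iff_isUnit_det _).1 g.isUnit
        exact this.ne_zero
      exact (mul_ne_zero (pow_ne_zero _ (inv_ne_zero hd)) h3) h1.symm
    refine ⟨(Units.mk0 d hd, Matrix.GeneralLinearGroup.mkOfDetNeZero m₀ hdet), ?_⟩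
    apply Units.ext
    ext k l
    rw [Φ_val]
    change d * ((m₀ k l : fixedField σ) : F) = _
    simp only [m₀]
    field_simp

/-- The kernel of `Φ` is a copy of the units of the fixed field. -/
theorem card_ker (σ : F ≃+* F) {n : ℕ} (hn : 1 ≤ n) :
    Nat.card (Φ σ n).ker = Nat.card (fixedField σ)ˣ := by
  classical
  have hi : Fin n := ⟨0, hn⟩
  let f : (fixedField σ)ˣ → (Φ σ n).ker := fun t =>
    ⟨(Units.map (fixedField σ).subtype.toMonoidHom t⁻¹, Matrix.GeneralLinearGroup.scalar (Fin n) t), by
      rw [MonoidHom.mem_ker]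
      apply Units.ext
      ext k l
      rw [Φ_val]
      by_cases hkl : k = l
      · subst hkl
        simp [Matrix.scalar_apply]
      · simp [Matrix.scalar_apply, hkl, Matrix.diagonal_apply_ne, Matrix.one_apply_ne]⟩
  refine (Nat.card_congr (Equiv.ofBijective f ⟨?_, ?_⟩)).symm
  · intro a b hab
    have h1 := congrArg (fun x : (Φ σ n).ker => ((x.1.1 : Fˣ) : F)) hab
    simp only [f] at h1
    apply Units.ext
    apply Subtype.ext
    have h2 : ((a⁻¹ : (fixedField σ)ˣ) : fixedField σ) = ((b⁻¹ : (fixedField σ)ˣ) : fixedField σ) := by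
      apply Subtype.ext
      simpa using h1
    have h3 : a⁻¹ = b⁻¹ := Units.ext h2
    have h4 : a = b := inv_injective h3
    rw [h4]
  · rintro ⟨⟨u, h⟩, hk⟩
    rw [MonoidHom.mem_ker] at hk
    have hentry : ∀ k l, (u : F) * ((h : Matrix (Fin n) (Fin n) (fixedField σ)) k l : F) = (1 : Matrix (Fin n) (Fin n) F) k l := by
      intro k l
      have := congrFun (congrFun (congrArg (fun x : GL (Fin n) F => (x : Matrix (Fin n) (Fin n) F)) hk) k) l
      simp only [Units.val_one] at this
      rwa [Φ_val] at this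
    have hii := hentry hi hi
    simp only [Matrix.one_apply_eq] at hii
    set t : fixedField σ := (h : Matrix (Fin n) (Fin n) (fixedField σ)) hi hi with ht
    have ht0 : t ≠ 0 := by
      intro h0
      rw [h0] at hii
      simp at hii
    refine ⟨Units.mk0 t ht0, ?_⟩
    apply Subtype.ext
    simp only [f]
    have hu : (u : F) = (t : F)⁻¹ := by
      field_simp [show (t : F) ≠ 0 from by exact_mod_cast ht0] at hii ⊢
      linear_combination hii
    refine Prod.ext ?_ ?_
    · apply Units.ext
      simp [hu]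
    · apply Units.ext
      ext k l
      have h1 := hentry k l
      have hscal : ((Matrix.GeneralLinearGroup.scalar (Fin n) (Units.mk0 t ht0) : GL (Fin n) (fixedField σ)) : Matrix (Fin n) (Fin n) (fixedField σ)) k l
         = if k = l then t else 0 := by
        rw [Matrix.GeneralLinearGroup.coe_scalar]
        by_cases hkl : k = l
        · subst hkl; simp
        · simp [hkl, Matrix.one_apply_ne]
      change _ = (((h : Matrix (Fin n) (Fin n) (fixedField σ)) k l : fixedField σ) : F)
      rw [hscal]
      have ht0' : (t : F) ≠ 0 := by exact_mod_cast ht0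
      rw [hu] at h1
      by_cases hkl : k = l
      · subst hkl
        simp only [Matrix.one_apply_eq, if_true] at h1 ⊢
        field_simp at h1
        exact h1.symm
      · simp only [Matrix.one_apply_ne hkl, if_neg hkl] at h1 ⊢
        have : ((h : Matrix (Fin n) (Fin n) (fixedField σ)) k l : F) = 0 := by
          rcases mul_eq_zero.1 h1 with h2 | h2
          · exact absurd h2 (inv_ne_zero ht0')
          · exact h2
        rw [this]; rfl

/-- Counting theorem. -/
theorem main {q₀ r n : ℕ} (hr : r.Prime) (hn : 1 ≤ n) (hF : Fintype.card F = q₀ ^ r) (σ : F ≃+* F)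
    (hσ : orderOf σ = r) :
    Nat.card {g : GL (Fin n) F // ∃ c : F, c ≠ 0 ∧ (g : Matrix (Fin n) (Fin n) F).map σ = c • (g : Matrix (Fin n) (Fin n) F)} =
      (q₀ ^ r - 1) / (q₀ - 1) * ∏ i : Fin n, (q₀ ^ n - q₀ ^ (i : ℕ)) := by
  classical
  have hq₀ := card_fixed σ hr hF hσ
  haveI : Fintype (fixedField σ) := Fintype.ofFinite _
  have hq₀' : Fintype.card (fixedField σ) = q₀ := by rw [← Nat.card_eq_fintype_card, hq₀]
  have hq₀2 : 2 ≤ q₀ := by
    rw [← hq₀']; exact Fintype.one_lt_card
  have e1 : Nat.card {g : GL (Fin n) F // ∃ c : F, c ≠ 0 ∧ (g : Matrix (Fin n) (Fin n) F).map σ = c • (g : Matrix (Fin n) (Fin n) F)} = Nat.card (Φ σ n).range := by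
    apply Nat.card_congr
    exact (Equiv.subtypeEquivRight (fun g => (range_eq σ hn g).symm))
  have e2 : Nat.card (Φ σ n).ker * Nat.card (Φ σ n).range = Nat.card (Fˣ × GL (Fin n) (fixedField σ)) := by
    rw [← Subgroup.index_ker, Subgroup.card_mul_index]
  rw [e1]
  have hF' : Nat.card F = q₀ ^ r := by rw [Nat.card_eq_fintype_card, hF]
  rw [card_ker σ hn, Nat.card_prod, Nat.card_units, Nat.card_units, hq₀, Matrix.card_GL_field, hq₀', hF'] at e2
  have hdvd : q₀ - 1 ∣ q₀ ^ r - 1 := by
    simpa using Nat.sub_dvd_pow_sub_pow q₀ 1 r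
  have hpos : 0 < q₀ - 1 := by omega
  apply Nat.eq_of_mul_eq_mul_left hpos
  rw [e2, ← mul_assoc, Nat.mul_div_cancel' hdvd]

end CfsgLib.H9.FieldAut
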