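import Mathlib
import Cfsg.Prelude.Def_FischerSpaces

/-! The line system of a set of 3-transpositions is a Fischer space. -/

set_option autoImplicit false
set_option linter.unusedVariables false
set_option linter.unusedSectionVars false
set_option linter.unusedSimpArgs false
set_option linter.style.haveILetI false

namespace CfsgLib.H9.Fischer

open Cfsg Cfsg.LineSystem

theorem fin3_all (P : Fin 3 → Prop) (h0 : P 0) (h1 : P 1) (h2 : P 2) : ∀ k, P k := by
  intro k
  fin_cases k
  · exact h0
  · exact h1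
  · exact h2

theorem fin6_all (P : Fin 6 → Prop) (h0 : P 0) (h1 : P 1) (h2 : P 2) (h3 : P 3) (h4 : P 4) (h5 : P 5) : ∀ k, P k := by
  intro k
  fin_cases k
  · exact h0
  · exact h1
  · exact h2
  · exact h3
  · exact h4
  · exact h5

section words

variable {G : Type*} [Group G]

/-- The table of the nine points of the affine plane. -/
def tab (x a b : G) (i j : Fin 3) : G :=
  ![![x, b, x * b * x],
    ![a, x * (a * b * a) * x, x * (a * (x * b * x) * a) * x],
    ![x * a * x, a * (x * b * x) * a, a * b * a]] i j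

/-- The table of the six points of the dual affine plane. -/
def tab6 (x a b : G) (i : Fin 6) : G :=
  ![a, x, b, x * a * x, x * b * x, a * (x * b * x) * a] i

/-- Propagation of the conjugation law. -/
theorem law_step {Λ : Type*} (R : Λ → Λ → Λ) (p : Λ → G) (hinv : ∀ u, p u * p u = 1) {u₁ u₂ : Λ}
    (h1 : ∀ v, p u₁ * p v * p u₁ = p (R u₁ v)) (h2 : ∀ v, p u₂ * p v * p u₂ = p (R u₂ v))
    (hR : ∀ v, R (R u₁ u₂) v = R u₁ (R u₂ (R u₁ v))) :
    ∀ v, p (R u₁ u₂) * p v * p (R u₁ u₂) = p (R (R u₁ u₂) v) := by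
  intro v
  rw [hR, ← h1 u₂, ← h1 (R u₂ (R u₁ v)), ← h2, ← h1 v]
  have e1 : p u₁ * p u₁ = 1 := hinv u₁
  have e2 : ∀ w, p u₁ * (p u₁ * w) = w := fun w => by rw [← mul_assoc, e1, one_mul]
  simp only [mul_assoc, e2]

section affine

variable {x a b : G}

theorem law_x (hx : x * x = 1) : ∀ k l, x * tab x a b k l * x = tab x a b (-0 - k) (-0 - l) := by
  have e : ∀ w, x * (x * w) = w := fun w => by rw [← mul_assoc, hx, one_mul]
  refine fin3_all _ (fin3_all _ ?_ ?_ ?_) (fin3_all _ ?_ ?_ ?_) (fin3_all _ ?_ ?_ ?_)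
  · show x * x * x = x
    rw [hx, one_mul]
  · show x * b * x = x * b * x
    rfl
  · show x * (x * b * x) * x = b
    simp only [mul_assoc, e, hx, mul_one]
  · show x * a * x = x * a * x
    rfl
  · show x * (x * (a * b * a) * x) * x = a * b * a
    simp only [mul_assoc, e, hx, mul_one]
  · show x * (x * (a * (x * b * x) * a) * x) * x = a * (x * b * x) * a
    simp only [mul_assoc, e, hx, mul_one]
  · show x * (x * a * x) * x = a
    simp only [mul_assoc, e, hx, mul_one]
  · show x * (a * (x * b * x) * a) * x = x * (a * (x * b * x) * a) * x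
    rfl
  · show x * (a * b * a) * x = x * (a * b * a) * x
    rfl

theorem law_a (hx : x * x = 1) (ha : a * a = 1) (hxa : x * a * x = a * x * a) :
    ∀ k l, a * tab x a b k l * a = tab x a b (-1 - k) (-0 - l) := by
  have ex : ∀ w, x * (x * w) = w := fun w => by rw [← mul_assoc, hx, one_mul]
  have ea : ∀ w, a * (a * w) = w := fun w => by rw [← mul_assoc, ha, one_mul]
  have h1 : a * (x * a) = x * (a * x) := by simpa only [mul_assoc] using hxa.symm
  have h2 : ∀ w, a * (x * (a * w)) = x * (a * (x * w)) := by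
    intro w
    rw [← mul_assoc x a, ← mul_assoc a x, ← mul_assoc a (x * a), h1]
    simp only [mul_assoc]
  refine fin3_all _ (fin3_all _ ?_ ?_ ?_) (fin3_all _ ?_ ?_ ?_) (fin3_all _ ?_ ?_ ?_)
  · show a * x * a = x * a * x
    exact hxa.symm
  · show a * b * a = a * b * a
    rfl
  · show a * (x * b * x) * a = a * (x * b * x) * a
    rfl
  · show a * a * a = a
    rw [ha, one_mul]
  · show a * (x * (a * b * a) * x) * a = x * (a * (x * b * x) * a) * x
    simp only [mul_assoc, h2, h1]
  · show a * (x * (a * (x * b * x) * a) * x) * a = x * (a * b * a) * x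
    simp only [mul_assoc, h2, h1, ex, ha, mul_one]
  · show a * (x * a * x) * a = x
    simp only [mul_assoc, h2, h1, ex, ha, mul_one]
  · show a * (a * (x * b * x) * a) * a = x * b * x
    simp only [mul_assoc, ea, ha, mul_one]
  · show a * (a * b * a) * a = b
    simp only [mul_assoc, ea, ha, mul_one]

theorem law_b (hx : x * x = 1) (ha : a * a = 1) (hb : b * b = 1)
    (hxb : x * b * x = b * x * b) (hab : a * b * a = b * a * b)
    (hab' : a * (x * b * x) * a = (x * b * x) * a * (x * b * x))
    (hxc : x * (x * (a * (x * b * x) * a) * x) * x = (x * (a * (x * b * x) * a) * x) * x * (x * (a * (x * b * x) * a) * x)) :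
    ∀ k l, b * tab x a b k l * b = tab x a b (-0 - k) (-1 - l) := by
  have ex : ∀ w, x * (x * w) = w := fun w => by rw [← mul_assoc, hx, one_mul]
  have ea : ∀ w, a * (a * w) = w := fun w => by rw [← mul_assoc, ha, one_mul]
  have eb : ∀ w, b * (b * w) = w := fun w => by rw [← mul_assoc, hb, one_mul]
  have hba' : b * (x * a * x) * b = x * (a * (x * b * x) * a) * x := by
    have h1 := congrArg (fun w => x * w * x) hab'
    simp only [mul_assoc, ex, hx, mul_one] at h1 ⊢
    exact h1.symm
  have hc21 : b * (x * (a * b * a) * x) * b = a * (x * b * x) * a := by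
    have h1 : x * (a * b * a) * x = (x * a * x) * (b * x * b) * (x * a * x) := by
      rw [← hxb]
      simp only [mul_assoc, ex, hx, mul_one]
    have h2 : b * ((x * a * x) * (b * x * b) * (x * a * x)) * b
        = (b * (x * a * x) * b) * x * (b * (x * a * x) * b) := by
      simp only [mul_assoc]
    have h3 : x * (x * (a * (x * b * x) * a) * x) * x = a * (x * b * x) * a := by
      simp only [mul_assoc, ex, hx, mul_one]
    rw [h1, h2, hba', ← hxc, h3]
  refine fin3_all _ (fin3_all _ ?_ ?_ ?_) (fin3_all _ ?_ ?_ ?_) (fin3_all _ ?_ ?_ ?_)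
  · show b * x * b = x * b * x
    exact hxb.symm
  · show b * b * b = b
    rw [hb, one_mul]
  · show b * (x * b * x) * b = x
    rw [hxb]
    simp only [mul_assoc, eb, hb, mul_one]
  · show b * a * b = a * b * a
    exact hab.symm
  · show b * (x * (a * b * a) * x) * b = a * (x * b * x) * a
    exact hc21
  · show b * (x * (a * (x * b * x) * a) * x) * b = x * a * x
    rw [← hba']
    simp only [mul_assoc, eb, hb, mul_one]
  · show b * (x * a * x) * b = x * (a * (x * b * x) * a) * x
    exact hba'
  · show b * (a * (x * b * x) * a) * b = x * (a * b * a) * x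
    rw [← hc21]
    simp only [mul_assoc, eb, hb, mul_one]
  · show b * (a * b * a) * b = a
    rw [hab]
    simp only [mul_assoc, eb, hb, mul_one]

end affine

section dual

variable {x a b : G}

/-- The action of a point on the six points of the dual affine plane. -/
def R6 (u v : Fin 6) : Fin 6 :=
  ![![0, 3, 2, 1, 5, 4], ![3, 1, 4, 0, 2, 5], ![0, 4, 2, 5, 1, 3], ![1, 0, 5, 3, 4, 2],
    ![5, 2, 1, 3, 4, 0], ![4, 1, 3, 2, 0, 5]] u v

theorem c_eq (hx : x * x = 1) (ha : a * a = 1) (hxa : x * a * x = a * x * a) (hab : a * b = b * a) :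
    a * (x * (b * (x * a))) = x * (a * (x * (b * (x * (a * x))))) := by
  have hbb : a * (b * a) = b := by
    rw [← hab, ← mul_assoc, ha, one_mul]
  calc a * (x * (b * (x * a))) = a * (x * ((a * (b * a)) * (x * a))) := by rw [hbb]
    _ = (a * x * a) * b * (a * x * a) := by simp only [mul_assoc]
    _ = (x * a * x) * b * (x * a * x) := by rw [hxa]
    _ = _ := by simp only [mul_assoc]

theorem law6_x (hx : x * x = 1) (ha : a * a = 1) (hxa : x * a * x = a * x * a)
    (hab : a * b = b * a) : ∀ k, x * tab6 x a b k * x = tab6 x a b (R6 1 k) := by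
  have ex : ∀ w, x * (x * w) = w := fun w => by rw [← mul_assoc, hx, one_mul]
  have h0 := c_eq hx ha hxa hab
  refine fin6_all _ ?_ ?_ ?_ ?_ ?_ ?_
  · show x * a * x = x * a * x
    rfl
  · show x * x * x = x
    rw [hx, one_mul]
  · show x * b * x = x * b * x
    rfl
  · show x * (x * a * x) * x = a
    simp only [mul_assoc, ex, hx, mul_one]
  · show x * (x * b * x) * x = b
    simp only [mul_assoc, ex, hx, mul_one]
  · show x * (a * (x * b * x) * a) * x = a * (x * b * x) * a
    simp only [mul_assoc]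
    exact h0.symm

theorem law6_a (hx : x * x = 1) (ha : a * a = 1) (hxa : x * a * x = a * x * a)
    (hab : a * b = b * a) : ∀ k, a * tab6 x a b k * a = tab6 x a b (R6 0 k) := by
  have ex : ∀ w, x * (x * w) = w := fun w => by rw [← mul_assoc, hx, one_mul]
  have ea : ∀ w, a * (a * w) = w := fun w => by rw [← mul_assoc, ha, one_mul]
  refine fin6_all _ ?_ ?_ ?_ ?_ ?_ ?_
  · show a * a * a = a
    rw [ha, one_mul]
  · show a * x * a = x * a * x
    exact hxa.symm
  · show a * b * a = b
    rw [mul_assoc, ← hab, ← mul_assoc, ha, one_mul]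
  · show a * (x * a * x) * a = x
    rw [hxa]
    simp only [mul_assoc, ea, ha, mul_one]
  · show a * (x * b * x) * a = a * (x * b * x) * a
    rfl
  · show a * (a * (x * b * x) * a) * a = x * b * x
    simp only [mul_assoc, ea, ha, mul_one]

theorem law6_b (hx : x * x = 1) (ha : a * a = 1) (hb : b * b = 1) (hxa : x * a * x = a * x * a)
    (hxb : x * b * x = b * x * b) (hab : a * b = b * a) :
    ∀ k, b * tab6 x a b k * b = tab6 x a b (R6 2 k) := by
  have eb : ∀ w, b * (b * w) = w := fun w => by rw [← mul_assoc, hb, one_mul]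
  have h0 := c_eq hx ha hxa hab
  have hbab : b * (a * b) = a := by
    rw [hab, ← mul_assoc, hb, one_mul]
  have h1 : b * (x * (a * (x * b))) = x * (a * (x * (b * (x * (a * x))))) := by
    calc b * (x * (a * (x * b))) = b * (x * ((b * (a * b)) * (x * b))) := by rw [hbab]
      _ = (b * x * b) * a * (b * x * b) := by simp only [mul_assoc]
      _ = (x * b * x) * a * (x * b * x) := by rw [hxb]
      _ = x * (b * ((x * a * x) * (b * x))) := by simp only [mul_assoc]
      _ = x * (b * ((a * x * a) * (b * x))) := by rw [hxa]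
      _ = x * ((b * a) * (x * ((a * b) * x))) := by simp only [mul_assoc]
      _ = x * ((a * b) * (x * ((b * a) * x))) := by rw [show b * a = a * b from hab.symm]
      _ = x * (a * ((b * x * b) * (a * x))) := by simp only [mul_assoc]
      _ = x * (a * ((x * b * x) * (a * x))) := by rw [hxb]
      _ = _ := by simp only [mul_assoc]
  have h2 : b * (x * a * x) * b = a * (x * b * x) * a := by
    simp only [mul_assoc]
    rw [h1, h0]
  refine fin6_all _ ?_ ?_ ?_ ?_ ?_ ?_
  · show b * a * b = a
    rw [mul_assoc, hbab]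
  · show b * x * b = x * b * x
    exact hxb.symm
  · show b * b * b = b
    rw [hb, one_mul]
  · show b * (x * a * x) * b = a * (x * b * x) * a
    exact h2
  · show b * (x * b * x) * b = x
    rw [hxb]
    simp only [mul_assoc, eb, hb, mul_one]
  · show b * (a * (x * b * x) * a) * b = x * a * x
    rw [← h2]
    simp only [mul_assoc, eb, hb, mul_one]

theorem R6_id : ∀ u₁ u₂ v, R6 (R6 u₁ u₂) v = R6 u₁ (R6 u₂ (R6 u₁ v)) := by decide

end dual

end words

section setD

variable {G : Type*} [Group G] {D : Set G}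

theorem D_sq (hD : IsThreeTranspositionGroup D) {d : G} (hd : d ∈ D) : d * d = 1 := by
  have h := hD.1.1 d hd
  rw [← pow_two, ← h, pow_orderOf_eq_one]

theorem D_inv (hD : IsThreeTranspositionGroup D) {d : G} (hd : d ∈ D) : d⁻¹ = d :=
  inv_eq_of_mul_eq_one_left (D_sq hD hd)

theorem D_conj (hD : IsThreeTranspositionGroup D) {g d : G} (hg : g ∈ D) (hd : d ∈ D) : g * d * g ∈ D := by
  have := hD.2.1 g d hd
  rwa [D_inv hD hg] at this

theorem D_s3 (hD : IsThreeTranspositionGroup D) {p q : G} (hp : p ∈ D) (hq : q ∈ D) (hc : ¬ Commute p q) :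
    p * q * p = q * p * q := by
  have hpp := D_sq hD hp
  have hqq := D_sq hD hq
  have ep : ∀ w, p * (p * w) = w := fun w => by rw [← mul_assoc, hpp, one_mul]
  have eq : ∀ w, q * (q * w) = w := fun w => by rw [← mul_assoc, hqq, one_mul]
  rcases hD.1.2 p hp q hq with h | h
  · exfalso
    apply hc
    have h1 : p * (q * (p * q)) = 1 := by
      rw [pow_two] at h
      simpa only [mul_assoc] using h
    have h2 : q * (p * q) = p := by
      have := congrArg (fun w => p * w) h1
      simpa only [ep, mul_one] using this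
    show p * q = q * p
    have h3 := congrArg (fun w => q * w) h2
    simpa only [eq] using h3
  · have h1 : p * (q * (p * (q * (p * q)))) = 1 := by
      rw [pow_succ, pow_two] at h
      simpa only [mul_assoc] using h
    have h2 : q * (p * (q * (p * q))) = p := by
      have := congrArg (fun w => p * w) h1
      simpa only [ep, mul_one] using this
    have h3 : p * (q * (p * q)) = q * p := by
      have := congrArg (fun w => q * w) h2
      simpa only [eq] using this
    have h4 : q * (p * q) = p * (q * p) := by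
      have := congrArg (fun w => p * w) h3
      simpa only [ep, mul_assoc] using this
    simpa only [mul_assoc] using h4.symm

/-- The line through two points. -/
def lineOf (x y : D) : Set D :=
  {z : D | (z : G) = x ∨ (z : G) = y ∨ (z : G) = (y : G) * (x : G) * (y : G)⁻¹}

/-- Three points on a line. -/
def Tri (p q r : G) : Prop := ¬ Commute p q ∧ q * p * q = r

theorem Tri.swap (hD : IsThreeTranspositionGroup D) {p q r : G} (hp : p ∈ D) (hq : q ∈ D) (h : Tri p q r) :
    Tri q p r :=
  ⟨fun hc => h.1 hc.symm, by rw [← h.2]; exact D_s3 hD hp hq h.1⟩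

theorem Tri.rot (hD : IsThreeTranspositionGroup D) {p q r : G} (hp : p ∈ D) (hq : q ∈ D) (h : Tri p q r) :
    Tri p r q := by
  have hpp := D_sq hD hp
  have hqq := D_sq hD hq
  have ep : ∀ w, p * (p * w) = w := fun w => by rw [← mul_assoc, hpp, one_mul]
  have eq : ∀ w, q * (q * w) = w := fun w => by rw [← mul_assoc, hqq, one_mul]
  have hs := D_s3 hD hp hq h.1
  have h1 : r * p * r = q := by
    rw [← h.2, ← hs]
    simp only [mul_assoc, ep, hpp, mul_one]
    have h5 : p * (q * (p * (q * p))) = (p * q * p) * (q * p) := by simp only [mul_assoc]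
    rw [h5, hs]
    simp only [mul_assoc, eq, ep, hpp, mul_one]
  refine ⟨?_, h1⟩
  intro hc
  apply h.1
  have h2 : r * p * r = p := by
    have hr : r ∈ D := by
      rw [← h.2]
      exact D_conj hD hq hp
    have := D_sq hD hr
    have hc' : r * p = p * r := hc.symm
    rw [hc', mul_assoc, this, mul_one]
  rw [h1] at h2
  rw [h2]

/-- The representation of a line by two of its points. -/
theorem line_rep (hD : IsThreeTranspositionGroup D) {x y : D} (hc : ¬ Commute (x : G) (y : G)) {p q : D}
    (hp : p ∈ lineOf x y) (hq : q ∈ lineOf x y) (hpq : p ≠ q) :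
    ¬ Commute (p : G) (q : G) ∧ lineOf x y = lineOf p q := by
  have hyi : (y : G)⁻¹ = y := D_inv hD y.2
  have hqi : (q : G)⁻¹ = q := D_inv hD q.2
  let t : G := (y : G) * (x : G) * (y : G)
  have ht : t ∈ D := D_conj hD y.2 x.2
  have base : Tri (x : G) (y : G) t := ⟨hc, rfl⟩
  have hlx : lineOf x y = {z : D | (z : G) = x ∨ (z : G) = y ∨ (z : G) = t} := by
    ext z
    simp only [lineOf, Set.mem_ofPred_eq, hyi, t]
  have key : ∀ r : G, Tri (p : G) (q : G) r →
      (∀ z : G, (z = x ∨ z = y ∨ z = t) ↔ (z = p ∨ z = q ∨ z = r)) →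
      ¬ Commute (p : G) (q : G) ∧ lineOf x y = lineOf p q := by
    intro r hr hz
    refine ⟨hr.1, ?_⟩
    rw [hlx]
    ext z
    simp only [lineOf, Set.mem_ofPred_eq, hqi, hr.2]
    exact hz z
  rw [hlx] at hp hq
  have hne : ∀ u v : G, u = (p : G) → v = (q : G) → u = v → False := by
    intro u v h1 h2 h3
    exact hpq (Subtype.ext (by rw [← h1, ← h2, h3]))
  have b1 := base.swap hD x.2 y.2
  have b2 := base.rot hD x.2 y.2
  have b3 := b2.swap hD x.2 ht
  have b4 := b1.rot hD y.2 x.2
  have b5 := b4.swap hD y.2 ht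
  rcases hp with hp | hp | hp <;> rcases hq with hq | hq | hq
  · exact (hne _ _ hp.symm hq.symm rfl).elim
  · exact key t (by rw [hp, hq]; exact base) (by intro z; rw [hp, hq])
  · exact key y (by rw [hp, hq]; exact b2) (by intro z; rw [hp, hq]; tauto)
  · exact key t (by rw [hp, hq]; exact b1) (by intro z; rw [hp, hq]; tauto)
  · exact (hne _ _ hp.symm hq.symm rfl).elim
  · exact key x (by rw [hp, hq]; exact b4) (by intro z; rw [hp, hq]; tauto)
  · exact key y (by rw [hp, hq]; exact b3) (by intro z; rw [hp, hq]; tauto)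
  · exact key x (by rw [hp, hq]; exact b5) (by intro z; rw [hp, hq]; tauto)
  · exact (hne _ _ hp.symm hq.symm rfl).elim

theorem mem_lines {l : Set D} : l ∈ threeTranspositionLines D ↔
    ∃ x y : D, ¬ Commute (x : G) (y : G) ∧ l = lineOf x y := Iff.rfl

theorem partial_linear (hD : IsThreeTranspositionGroup D) :
    IsPartialLinear (threeTranspositionLines D) := by
  rintro l ⟨x, y, hc, rfl⟩ m ⟨x', y', hc', rfl⟩ u v huv h1 h2 h3 h4
  change lineOf x y = lineOf x' y'
  rw [(line_rep hD hc h1 h2 huv).2, (line_rep hD hc' h3 h4 huv).2]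

theorem left_mem_line (x y : D) : x ∈ lineOf x y := Or.inl rfl
theorem right_mem_line (x y : D) : y ∈ lineOf x y := Or.inr (Or.inl rfl)

theorem line_ncard (hD : IsThreeTranspositionGroup D) : ∀ l ∈ threeTranspositionLines D, l.ncard = 3 := by
  rintro l ⟨x, y, hc, rfl⟩
  have hyi : (y : G)⁻¹ = y := D_inv hD y.2
  let t : D := ⟨(y : G) * (x : G) * (y : G), D_conj hD y.2 x.2⟩
  have base : Tri (x : G) (y : G) (t : G) := ⟨hc, rfl⟩
  have hxy : x ≠ y := fun h => hc (by rw [h])
  have b2 := base.rot hD x.2 y.2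
  have b1 := base.swap hD x.2 y.2
  have b4 := b1.rot hD y.2 x.2
  have hxt : x ≠ t := fun h => b2.1 (by rw [← h])
  have hyt : y ≠ t := fun h => b4.1 (by rw [← h])
  rw [Set.ncard_eq_three]
  refine ⟨x, y, t, hxy, hxt, hyt, ?_⟩
  ext z
  simp only [lineOf, Set.mem_ofPred_eq, hyi, Set.mem_insert_iff, Set.mem_singleton_iff, Subtype.ext_iff]
  rfl

/-- The abstract criterion for a plane. -/
theorem iso_of_law (hD : IsThreeTranspositionGroup D) {Λ : Type*} (M : Set (Set Λ)) (R : Λ → Λ → Λ) (p : Λ → D)
    (hinj : Function.Injective p)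
    (hlaw : ∀ u v, (p u : G) * (p v : G) * (p u : G) = (p (R u v) : G))
    (hM : ∀ ℓ : Set Λ, ℓ ∈ M ↔ ∃ u v, R v u ≠ u ∧ ℓ = {w | w = u ∨ w = v ∨ w = R v u})
    (T : Set D) (hT : T ⊆ Set.range p)
    (hgen : ∀ U : Set D, T ⊆ U → IsSubspace (threeTranspositionLines D) U → Set.range p ⊆ U) :
    Isomorphic (restrict (threeTranspositionLines D) (span (threeTranspositionLines D) T)) M := by
  classical
  have hsub : IsSubspace (threeTranspositionLines D) (Set.range p) := by
    rintro l ⟨x, y, hc, rfl⟩ a ⟨u, rfl⟩ b ⟨v, rfl⟩ hab ha hb z hz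
    have h1 := line_rep hD hc ha hb hab
    have hz2 : z ∈ lineOf x y := hz
    rw [h1.2] at hz2
    have hi : (p v : G)⁻¹ = p v := D_inv hD (p v).2
    rcases hz2 with h | h | h
    · exact ⟨u, (Subtype.ext h).symm⟩
    · exact ⟨v, (Subtype.ext h).symm⟩
    · refine ⟨R v u, Subtype.ext ?_⟩
      rw [h, hi, hlaw]
  have hspan : span (threeTranspositionLines D) T = Set.range p := by
    apply Set.Subset.antisymm
    · intro z hz
      exact hz _ ⟨hT, hsub⟩
    · intro z hz U hU
      exact hgen U hU.1 hU.2 hz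
  rw [hspan]
  let e : ↥(Set.range p) ≃ Λ := (Equiv.ofInjective p hinj).symm
  have he : ∀ z : ↥(Set.range p), p (e z) = z.1 := fun z => by
    have := Equiv.apply_ofInjective_symm hinj z
    exact this
  have he' : ∀ w : Λ, e ⟨p w, ⟨w, rfl⟩⟩ = w := fun w => by
    apply hinj
    rw [he]
  refine ⟨e, fun ℓ => ⟨?_, ?_⟩⟩
  · rintro ⟨l', ⟨x, y, hc, rfl⟩, hsub', rfl⟩
    obtain ⟨u, rfl⟩ := hsub' (left_mem_line x y)
    obtain ⟨v, rfl⟩ := hsub' (right_mem_line (p u) y)
    have hi : (p v : G)⁻¹ = p v := D_inv hD (p v).2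
    rw [hM]
    refine ⟨u, v, ?_, ?_⟩
    · intro h
      apply hc
      have h1 := hlaw v u
      rw [h] at h1
      have h2 : (p v : G) * (p v : G) = 1 := D_sq hD (p v).2
      show (p u : G) * (p v : G) = (p v : G) * (p u : G)
      calc (p u : G) * (p v : G) = (p v : G) * (p u : G) * (p v : G) * (p v : G) := by rw [h1]
        _ = (p v : G) * (p u : G) := by rw [mul_assoc, h2, mul_one]
    · ext w
      constructor
      · rintro ⟨z, hz, rfl⟩
        have h1 : p (e z) = z.1 := he z
        have hz' : (z.1 : G) = p u ∨ (z.1 : G) = p v ∨ (z.1 : G) = (p v : G) * (p u : G) * (p v : G)⁻¹ := hz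
        rw [hi, hlaw, ← h1] at hz'
        rcases hz' with h | h | h
        · exact Or.inl (hinj (Subtype.ext h))
        · exact Or.inr (Or.inl (hinj (Subtype.ext h)))
        · exact Or.inr (Or.inr (hinj (Subtype.ext h)))
      · intro hw
        refine ⟨⟨p w, ⟨w, rfl⟩⟩, ?_, he' w⟩
        show (p w : G) = p u ∨ (p w : G) = p v ∨ (p w : G) = (p v : G) * (p u : G) * (p v : G)⁻¹
        rw [hi, hlaw]
        rcases hw with rfl | rfl | rfl
        · exact Or.inl rfl
        · exact Or.inr (Or.inl rfl)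
        · exact Or.inr (Or.inr rfl)
  · intro h
    rw [hM] at h
    obtain ⟨u, v, hne, hset⟩ := h
    have hi : (p v : G)⁻¹ = p v := D_inv hD (p v).2
    have hc : ¬ Commute (p u : G) (p v : G) := by
      intro hc
      apply hne
      apply hinj
      apply Subtype.ext
      rw [← hlaw]
      have h2 : (p v : G) * (p v : G) = 1 := D_sq hD (p v).2
      have hc' : (p v : G) * (p u : G) = (p u : G) * (p v : G) := hc.symm
      rw [hc', mul_assoc, h2, mul_one]
    have hmem : ∀ z : ↥(Set.range p), z ∈ ℓ ↔ (e z = u ∨ e z = v ∨ e z = R v u) := by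
      intro z
      have h1 : z ∈ ℓ ↔ e z ∈ e '' ℓ := (e.injective.mem_set_image).symm
      rw [h1, hset]
      rfl
    refine ⟨lineOf (p u) (p v), ⟨p u, p v, hc, rfl⟩, ?_, ?_⟩
    · intro z hz
      have hz' : (z : G) = p u ∨ (z : G) = p v ∨ (z : G) = (p v : G) * (p u : G) * (p v : G)⁻¹ := hz
      rw [hi, hlaw] at hz'
      rcases hz' with h | h | h
      · exact ⟨u, (Subtype.ext h).symm⟩
      · exact ⟨v, (Subtype.ext h).symm⟩
      · exact ⟨R v u, (Subtype.ext h).symm⟩
    · ext z
      rw [hmem]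
      show _ ↔ ((z.1 : G) = p u ∨ (z.1 : G) = p v ∨ (z.1 : G) = (p v : G) * (p u : G) * (p v : G)⁻¹)
      rw [hi, hlaw, ← he z]
      constructor
      · rintro (h | h | h)
        · exact Or.inl (by rw [h])
        · exact Or.inr (Or.inl (by rw [h]))
        · exact Or.inr (Or.inr (by rw [h]))
      · rintro (h | h | h)
        · exact Or.inl (hinj (Subtype.ext h))
        · exact Or.inr (Or.inl (hinj (Subtype.ext h)))
        · exact Or.inr (Or.inr (hinj (Subtype.ext h)))

theorem tab_mem (hD : IsThreeTranspositionGroup D) {x a b : G} (hx : x ∈ D) (ha : a ∈ D) (hb : b ∈ D) :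
    ∀ i j, tab x a b i j ∈ D := by
  have hb' := D_conj hD hx hb
  have ha' := D_conj hD hx ha
  have c22 := D_conj hD ha hb
  have c21 := D_conj hD ha hb'
  have c12 := D_conj hD hx c21
  have c11 := D_conj hD hx c22
  exact fin3_all _ (fin3_all _ hx hb hb') (fin3_all _ ha c11 c12) (fin3_all _ ha' c21 c22)

/-- The point reflections of the affine plane. -/
def R9 (u v : Fin 3 × Fin 3) : Fin 3 × Fin 3 := (-u.1 - v.1, -u.2 - v.2)

theorem R9_id (u₁ u₂ v : Fin 3 × Fin 3) : R9 (R9 u₁ u₂) v = R9 u₁ (R9 u₂ (R9 u₁ v)) := by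
  have h : ∀ i j k : Fin 3, -(-i - j) - k = -i - (-j - (-i - k)) := by decide
  exact Prod.ext (h _ _ _) (h _ _ _)

theorem law9 (hD : IsThreeTranspositionGroup D) {x a b : G} (hx : x ∈ D) (ha : a ∈ D) (hb : b ∈ D)
    (hxa : ¬ Commute x a) (hxb : ¬ Commute x b) (hab : ¬ Commute a b)
    (hab' : ¬ Commute a (x * b * x)) :
    ∀ u v : Fin 3 × Fin 3, tab x a b u.1 u.2 * tab x a b v.1 v.2 * tab x a b u.1 u.2
      = tab x a b (R9 u v).1 (R9 u v).2 := by
  have hxx := D_sq hD hx
  have haa := D_sq hD ha
  have hbb := D_sq hD hb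
  have ex : ∀ w, x * (x * w) = w := fun w => by rw [← mul_assoc, hxx, one_mul]
  have ea : ∀ w, a * (a * w) = w := fun w => by rw [← mul_assoc, haa, one_mul]
  have s1 := D_s3 hD hx ha hxa
  have s2 := D_s3 hD hx hb hxb
  have s3 := D_s3 hD ha hb hab
  have hb'm := D_conj hD hx hb
  have s4 := D_s3 hD ha hb'm hab'
  have hc21 : a * (x * b * x) * a ∈ D := D_conj hD ha hb'm
  have hc12 : x * (a * (x * b * x) * a) * x ∈ D := D_conj hD hx hc21
  have hnc : ¬ Commute x (x * (a * (x * b * x) * a) * x) := by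
    intro hc
    apply hab
    have hc' : x * (x * (a * (x * b * x) * a) * x) = (x * (a * (x * b * x) * a) * x) * x := hc
    have h1 : (x * a * x) * x * (x * a * x) = a := by
      have e1 : (x * a * x) * x * (x * a * x) = x * (a * (x * a * x)) := by
        simp only [mul_assoc, ex, hxx, mul_one]
      rw [e1, s1]
      simp only [mul_assoc, ea, ex, haa, hxx, mul_one]
    have h2 : (x * a * x) * (x * (a * (x * b * x) * a) * x) * (x * a * x) = b := by
      simp only [mul_assoc, ex, hxx, mul_one, ea, haa]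
    show a * b = b * a
    rw [← h1, ← h2]
    have hi : (x * a * x) * (x * a * x) = 1 := by
      simp only [mul_assoc, ex, ea, hxx, haa]
    generalize x * a * x = y at hi hc' ⊢
    generalize x * (a * (x * b * x) * a) * x = z at hc' ⊢
    have ey : ∀ w, y * (y * w) = w := fun w => by rw [← mul_assoc, hi, one_mul]
    simp only [mul_assoc, ey]
    rw [← mul_assoc x z, hc', mul_assoc z x]
  have s5 := D_s3 hD hx hc12 hnc
  let p : Fin 3 × Fin 3 → G := fun u => tab x a b u.1 u.2
  have hinv : ∀ u, p u * p u = 1 := fun u => D_sq hD (tab_mem hD hx ha hb u.1 u.2)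
  have L00 : ∀ v, p (0, 0) * p v * p (0, 0) = p (R9 (0, 0) v) := fun v => law_x hxx v.1 v.2
  have L10 : ∀ v, p (1, 0) * p v * p (1, 0) = p (R9 (1, 0) v) := fun v => law_a hxx haa s1 v.1 v.2
  have L01 : ∀ v, p (0, 1) * p v * p (0, 1) = p (R9 (0, 1) v) := fun v => law_b hxx haa hbb s2 s3 s4 s5 v.1 v.2
  have L20 := law_step R9 p hinv L00 L10 (R9_id _ _)
  have L02 := law_step R9 p hinv L00 L01 (R9_id _ _)
  have L22 := law_step R9 p hinv L10 L01 (R9_id _ _)
  have L21 := law_step R9 p hinv L10 L02 (R9_id _ _)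
  have L12 := law_step R9 p hinv L00 L21 (R9_id _ _)
  have L11 := law_step R9 p hinv L00 L22 (R9_id _ _)
  have e20 : R9 (0, 0) (1, 0) = (2, 0) := by decide
  have e02 : R9 (0, 0) (0, 1) = (0, 2) := by decide
  have e22 : R9 (1, 0) (0, 1) = (2, 2) := by decide
  have e21 : R9 (1, 0) (R9 (0, 0) (0, 1)) = (2, 1) := by decide
  have e12 : R9 (0, 0) (R9 (1, 0) (R9 (0, 0) (0, 1))) = (1, 2) := by decide
  have e11 : R9 (0, 0) (R9 (1, 0) (0, 1)) = (1, 1) := by decide
  rw [e20] at L20
  rw [e02] at L02
  rw [e22] at L22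
  rw [e21] at L21
  rw [e12] at L12
  rw [e11] at L11
  have hall : ∀ (i j : Fin 3) (v : Fin 3 × Fin 3), p (i, j) * p v * p (i, j) = p (R9 (i, j) v) :=
    fin3_all _ (fin3_all _ L00 L01 L02) (fin3_all _ L10 L11 L12) (fin3_all _ L20 L21 L22)
  intro u v
  exact hall u.1 u.2 v

theorem third_mem (hD : IsThreeTranspositionGroup D) {U : Set D}
    (hU : IsSubspace (threeTranspositionLines D) U) {p q : D} (hc : ¬ Commute (p : G) (q : G))
    (hp : p ∈ U) (hq : q ∈ U) : (⟨(q : G) * (p : G) * (q : G), D_conj hD q.2 p.2⟩ : D) ∈ U := by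
  have hne : p ≠ q := fun h => hc (by rw [h])
  apply hU (lineOf p q) ⟨p, q, hc, rfl⟩ p hp q hq hne (left_mem_line p q) (right_mem_line p q)
  show _ ∨ _ ∨ (((q : G) * (p : G) * (q : G)) : G) = (q : G) * (p : G) * (q : G)⁻¹
  rw [D_inv hD q.2]
  exact Or.inr (Or.inr rfl)

/-- The conversion between the two models of the integers modulo 3. -/
def cv (z : ZMod 3) : Fin 3 := z

theorem cv_neg_sub : ∀ i j : ZMod 3, cv (-i - j) = -cv i - cv j := by decide

theorem plane_aff (hD : IsThreeTranspositionGroup D) (x a b : D)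
    (hxa : ¬ Commute (x : G) (a : G)) (hxb : ¬ Commute (x : G) (b : G)) (hab : ¬ Commute (a : G) (b : G))
    (hab' : ¬ Commute (a : G) ((x : G) * (b : G) * (x : G)))
    (hne1 : (b : G) ≠ (x : G) * (a : G) * (x : G))
    (hne2 : (x : G) * (b : G) * (x : G) ≠ (x : G) * (a : G) * (x : G)) :
    Isomorphic (restrict (threeTranspositionLines D)
      (span (threeTranspositionLines D) (lineOf x a ∪ lineOf x b))) affinePlaneThree := by
  classical
  have hxx := D_sq hD x.2
  have haa := D_sq hD a.2
  have hbb := D_sq hD b.2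
  have ex : ∀ w, (x : G) * (x * w) = w := fun w => by rw [← mul_assoc, hxx, one_mul]
  have ea : ∀ w, (a : G) * (a * w) = w := fun w => by rw [← mul_assoc, haa, one_mul]
  have s1 := D_s3 hD x.2 a.2 hxa
  have hm := tab_mem hD x.2 a.2 b.2
  have hl := law9 hD x.2 a.2 b.2 hxa hxb hab hab'
  let p₉ : Fin 3 × Fin 3 → G := fun u => tab (x : G) a b u.1 u.2
  have hl9 : ∀ u v, p₉ u * p₉ v * p₉ u = p₉ (R9 u v) := hl
  have hax : (a : G) ≠ x := fun h => hxa (by rw [h])
  have hbx : (b : G) ≠ x := fun h => hxb (by rw [h])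
  -- distinctness from `x`
  have hnx : ∀ t : Fin 3 × Fin 3, t ≠ (0, 0) → p₉ t ≠ x := by
    have hcancel : ∀ w : G, (x : G) * w * x = x → w = x := by
      intro w hw
      have := congrArg (fun z => (x : G) * z * x) hw
      simpa only [mul_assoc, ex, hxx, mul_one, one_mul] using this
    have hcancel2 : ∀ w : G, (a : G) * w * a = x → w = (x : G) * a * x := by
      intro w hw
      have h1 := congrArg (fun z => (a : G) * z * a) hw
      have h2 : (a : G) * ((a : G) * w * a) * a = w := by
        simp only [mul_assoc, ea, haa, mul_one]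
      simp only [h2] at h1
      rw [h1, s1]
    have key : ∀ (i j : Fin 3), (i, j) ≠ ((0, 0) : Fin 3 × Fin 3) → tab (x : G) a b i j ≠ x := by
      refine fin3_all _ (fin3_all _ ?_ ?_ ?_) (fin3_all _ ?_ ?_ ?_) (fin3_all _ ?_ ?_ ?_)
      · intro h
        exact absurd rfl h
      · intro _
        exact hbx
      · intro _ h
        exact hbx (hcancel _ h)
      · intro _
        exact hax
      · intro _ h
        exact hne1 (hcancel2 _ (hcancel _ h))
      · intro _ h
        exact hne2 (hcancel2 _ (hcancel _ h))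
      · intro _ h
        exact hax (hcancel _ h)
      · intro _ h
        exact hne2 (hcancel2 _ h)
      · intro _ h
        exact hne1 (hcancel2 _ h)
    intro t ht
    exact key t.1 t.2 ht
  have hinj9 : Function.Injective p₉ := by
    intro u v huv
    by_contra hne
    have h0 : R9 (-u.1, -u.2) u = (0, 0) := by
      have h : ∀ i : Fin 3, - -i - i = 0 := by decide
      exact Prod.ext (h _) (h _)
    have h1 := hl9 (-u.1, -u.2) u
    have h2 := hl9 (-u.1, -u.2) v
    rw [huv, h2, h0] at h1
    have h3 : R9 (-u.1, -u.2) v ≠ (0, 0) := by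
      intro h
      apply hne
      have h4 : ∀ i j : Fin 3, - -i - j = 0 → i = j := by decide
      have h5 := congrArg Prod.fst h
      have h6 := congrArg Prod.snd h
      exact Prod.ext (h4 _ _ h5) (h4 _ _ h6)
    exact hnx _ h3 h1
  let p : (Fin 2 → ZMod 3) → D := fun w => ⟨tab (x : G) a b (cv (w 0)) (cv (w 1)), hm _ _⟩
  have hinj : Function.Injective p := by
    intro u v huv
    have h1 : p₉ (cv (u 0), cv (u 1)) = p₉ (cv (v 0), cv (v 1)) := congrArg Subtype.val huv
    have h2 := hinj9 h1
    have h3 : cv (u 0) = cv (v 0) := congrArg Prod.fst h2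
    have h4 : cv (u 1) = cv (v 1) := congrArg Prod.snd h2
    funext i
    fin_cases i
    · exact h3
    · exact h4
  have hlaw : ∀ u v, (p u : G) * (p v : G) * (p u : G) = (p (-u - v) : G) := by
    intro u v
    have h1 := hl9 (cv (u 0), cv (u 1)) (cv (v 0), cv (v 1))
    have h2 : (p (-u - v) : G) = tab (x : G) a b (cv (-u 0 - v 0)) (cv (-u 1 - v 1)) := rfl
    rw [h2, cv_neg_sub, cv_neg_sub]
    exact h1
  refine iso_of_law hD affinePlaneThree (fun u v => -u - v) p hinj hlaw ?_ _ ?_ ?_
  · intro ℓ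
    have h3 : ∀ c : ZMod 3, c = 0 ∨ c = 1 ∨ c = 2 := by decide
    constructor
    · rintro ⟨v₀, w₀, hw₀, rfl⟩
      have h4 : ∀ (s t : ZMod 3), -(s + t) - s = s + 2 * t := by decide
      have h5 : -(v₀ + w₀) - v₀ = v₀ + (2 : ZMod 3) • w₀ := by
        funext i
        exact h4 _ _
      refine ⟨v₀, v₀ + w₀, ?_, ?_⟩
      · show -(v₀ + w₀) - v₀ ≠ v₀
        rw [h5]
        intro h
        apply hw₀
        have h6 : (2 : ZMod 3) • w₀ = 0 := by
          simpa using h
        have h7 : ∀ t : ZMod 3, 2 * t = 0 → t = 0 := by decide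
        funext i
        exact h7 _ (congrFun h6 i)
      · ext z
        show (∃ c : ZMod 3, z = v₀ + c • w₀) ↔ (z = v₀ ∨ z = v₀ + w₀ ∨ z = -(v₀ + w₀) - v₀)
        rw [h5]
        constructor
        · rintro ⟨c, rfl⟩
          rcases h3 c with rfl | rfl | rfl
          · left
            simp
          · right; left
            simp
          · right; right
            rfl
        · rintro (rfl | rfl | rfl)
          · exact ⟨0, by simp⟩
          · exact ⟨1, by simp⟩
          · exact ⟨2, rfl⟩
    · rintro ⟨u, v, hne, rfl⟩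
      have hne' : -v - u ≠ u := hne
      refine ⟨u, v - u, ?_, ?_⟩
      · intro h
        apply hne'
        have h4 : ∀ s t : ZMod 3, t - s = 0 → -t - s = s := by decide
        funext i
        exact h4 _ _ (congrFun h i)
      · ext z
        show (z = u ∨ z = v ∨ z = -v - u) ↔ (∃ c : ZMod 3, z = u + c • (v - u))
        have h4 : ∀ s t : ZMod 3, -t - s = s + 2 * (t - s) := by decide
        have h5 : -v - u = u + (2 : ZMod 3) • (v - u) := by
          funext i
          exact h4 _ _
        constructor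
        · rintro (rfl | rfl | rfl)
          · exact ⟨0, by simp⟩
          · exact ⟨1, by simp⟩
          · exact ⟨2, h5⟩
        · rintro ⟨c, rfl⟩
          rcases h3 c with rfl | rfl | rfl
          · left
            simp
          · right; left
            simp
          · right; right
            exact h5.symm
  · -- `T` lies in the range
    have hlab : ∀ (i j : Fin 3), ∃ w, (p w : G) = tab (x : G) a b i j := by
      intro i j
      exact ⟨![i, j], rfl⟩
    have hi : ∀ d : D, (d : G)⁻¹ = d := fun d => D_inv hD d.2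
    rintro z (hz | hz)
    · rcases hz with h | h | h
      · obtain ⟨w, hw⟩ := hlab 0 0
        exact ⟨w, Subtype.ext (hw.trans h.symm)⟩
      · obtain ⟨w, hw⟩ := hlab 1 0
        exact ⟨w, Subtype.ext (hw.trans h.symm)⟩
      · obtain ⟨w, hw⟩ := hlab 2 0
        refine ⟨w, Subtype.ext (hw.trans ?_)⟩
        rw [h, hi a]
        exact s1
    · rcases hz with h | h | h
      · obtain ⟨w, hw⟩ := hlab 0 0
        exact ⟨w, Subtype.ext (hw.trans h.symm)⟩
      · obtain ⟨w, hw⟩ := hlab 0 1
        exact ⟨w, Subtype.ext (hw.trans h.symm)⟩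
      · obtain ⟨w, hw⟩ := hlab 0 2
        refine ⟨w, Subtype.ext (hw.trans ?_)⟩
        rw [h, hi b]
        exact D_s3 hD x.2 b.2 hxb
  · intro U hT hU
    have hi : ∀ d : D, (d : G)⁻¹ = d := fun d => D_inv hD d.2
    have hx1 : x ∈ U := hT (Or.inl (left_mem_line x a))
    have ha1 : a ∈ U := hT (Or.inl (right_mem_line x a))
    have hb1 : b ∈ U := hT (Or.inr (right_mem_line x b))
    have ha2 : (⟨(x : G) * a * x, hm 2 0⟩ : D) ∈ U := by
      apply hT
      left
      show _ ∨ _ ∨ _
      right; right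
      show (x : G) * a * x = (a : G) * x * (a : G)⁻¹
      rw [hi a]
      exact s1
    have hb2 : (⟨(x : G) * b * x, hm 0 2⟩ : D) ∈ U := by
      apply hT
      right
      show _ ∨ _ ∨ _
      right; right
      show (x : G) * b * x = (b : G) * x * (b : G)⁻¹
      rw [hi b]
      exact D_s3 hD x.2 b.2 hxb
    have c22 : (⟨(a : G) * b * a, hm 2 2⟩ : D) ∈ U := third_mem hD hU (p := b) (q := a) (fun h => hab h.symm) hb1 ha1
    have c21 : (⟨(a : G) * ((x : G) * b * x) * a, hm 2 1⟩ : D) ∈ U :=
      third_mem hD hU (p := ⟨(x : G) * b * x, hm 0 2⟩) (q := a) (fun h => hab' h.symm) hb2 ha1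
    have hconjx : ∀ u v : G, Commute u v → Commute ((x : G) * u * x) ((x : G) * v * x) := by
      intro u v h
      show (x : G) * u * x * (x * v * x) = x * v * x * (x * u * x)
      have h' : u * v = v * u := h
      simp only [mul_assoc, ex]
      rw [← mul_assoc u v, h', mul_assoc]
    have hcx : ∀ u : G, (x : G) * ((x : G) * u * x) * x = u := by
      intro u
      simp only [mul_assoc, ex, hxx, mul_one]
    have hnc1 : ¬ Commute ((x : G) * b * x) ((x : G) * a * x) := by
      intro h
      apply hab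
      have := hconjx _ _ h
      rw [hcx, hcx] at this
      exact this.symm
    have hnc2 : ¬ Commute (b : G) ((x : G) * a * x) := by
      intro h
      apply hab'
      have := hconjx _ _ h
      rw [hcx] at this
      exact this.symm
    have c11' := third_mem hD hU (p := ⟨(x : G) * b * x, hm 0 2⟩) (q := ⟨(x : G) * a * x, hm 2 0⟩) hnc1 hb2 ha2
    have c12' := third_mem hD hU (p := b) (q := ⟨(x : G) * a * x, hm 2 0⟩) hnc2 hb1 ha2
    have hall : ∀ (i j : Fin 3) (h : tab (x : G) a b i j ∈ D), (⟨tab (x : G) a b i j, h⟩ : D) ∈ U := by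
      refine fin3_all _ (fin3_all _ ?_ ?_ ?_) (fin3_all _ ?_ ?_ ?_) (fin3_all _ ?_ ?_ ?_)
      · intro _
        exact hx1
      · intro _
        exact hb1
      · intro _
        exact hb2
      · intro _
        exact ha1
      · intro _
        convert c11' using 2
        show (x : G) * ((a : G) * b * a) * x = (x : G) * a * x * ((x : G) * b * x) * ((x : G) * a * x)
        simp only [mul_assoc, ex, hxx, mul_one]
      · intro _
        convert c12' using 2
        show (x : G) * ((a : G) * ((x : G) * b * x) * a) * x = (x : G) * a * x * (b : G) * ((x : G) * a * x)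
        simp only [mul_assoc]
      · intro _
        exact ha2
      · intro _
        exact c21
      · intro _
        exact c22
    rintro _ ⟨w, rfl⟩
    exact hall _ _ _

/-- The six points of the dual affine plane. -/
def f6 (i : Fin 6) : DualAffinePoint :=
  ![⟨{0, 1}, by decide⟩, ⟨{1, 2}, by decide⟩, ⟨{2, 3}, by decide⟩, ⟨{0, 2}, by decide⟩, ⟨{1, 3}, by decide⟩,
    ⟨{0, 3}, by decide⟩] i

theorem f6_bij : Function.Bijective f6 := by
  decide +kernel

theorem dual_lines1 : ∀ k : Fin 4, ∃ i j : Fin 6, R6 j i ≠ i ∧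
    ∀ s : DualAffinePoint, k ∉ s.1 ↔ (s = f6 i ∨ s = f6 j ∨ s = f6 (R6 j i)) := by
  decide +kernel

theorem dual_lines2 : ∀ i j : Fin 6, R6 j i ≠ i → ∃ k : Fin 4,
    ∀ s : DualAffinePoint, k ∉ s.1 ↔ (s = f6 i ∨ s = f6 j ∨ s = f6 (R6 j i)) := by
  decide +kernel

theorem R6_trans : ∀ u v : Fin 6, u ≠ v → ∃ w₁ w₂ : Fin 6, R6 w₂ (R6 w₁ u) = 1 := by
  decide

theorem plane_dual (hD : IsThreeTranspositionGroup D) (x a b : D)
    (hxa : ¬ Commute (x : G) (a : G)) (hxb : ¬ Commute (x : G) (b : G)) (hab : Commute (a : G) (b : G))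
    (hne : (a : G) ≠ b) :
    Isomorphic (restrict (threeTranspositionLines D)
      (span (threeTranspositionLines D) (lineOf x a ∪ lineOf x b))) dualAffinePlaneTwo := by
  classical
  have hxx := D_sq hD x.2
  have haa := D_sq hD a.2
  have hbb := D_sq hD b.2
  have ex : ∀ w, (x : G) * (x * w) = w := fun w => by rw [← mul_assoc, hxx, one_mul]
  have ea : ∀ w, (a : G) * (a * w) = w := fun w => by rw [← mul_assoc, haa, one_mul]
  have s1 := D_s3 hD x.2 a.2 hxa
  have s2 := D_s3 hD x.2 b.2 hxb
  have hm : ∀ i, tab6 (x : G) a b i ∈ D := by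
    have hb' := D_conj hD x.2 b.2
    exact fin6_all _ a.2 x.2 b.2 (D_conj hD x.2 a.2) hb' (D_conj hD a.2 hb')
  let q : Fin 6 → G := tab6 (x : G) a b
  have hinv : ∀ u, q u * q u = 1 := fun u => D_sq hD (hm u)
  have L1 : ∀ v, q 1 * q v * q 1 = q (R6 1 v) := law6_x hxx haa s1 hab
  have L0 : ∀ v, q 0 * q v * q 0 = q (R6 0 v) := law6_a hxx haa s1 hab
  have L2 : ∀ v, q 2 * q v * q 2 = q (R6 2 v) := law6_b hxx haa hbb s1 s2 hab
  have L3 := law_step R6 q hinv L1 L0 (R6_id _ _)
  have L4 := law_step R6 q hinv L1 L2 (R6_id _ _)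
  have L5 := law_step R6 q hinv L0 L4 (R6_id _ _)
  have e3 : R6 1 0 = 3 := by decide
  have e4 : R6 1 2 = 4 := by decide
  have e5 : R6 0 (R6 1 2) = 5 := by decide
  rw [e3] at L3
  rw [e4] at L4
  rw [e5] at L5
  have hl : ∀ u v, q u * q v * q u = q (R6 u v) := fin6_all _ L0 L1 L2 L3 L4 L5
  have hax : (a : G) ≠ x := fun h => hxa (by rw [h])
  have hbx : (b : G) ≠ x := fun h => hxb (by rw [h])
  have hcancel : ∀ w : G, (x : G) * w * x = x → w = x := by
    intro w hw
    have := congrArg (fun z => (x : G) * z * x) hw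
    simpa only [mul_assoc, ex, hxx, mul_one, one_mul] using this
  have hnx : ∀ t : Fin 6, t ≠ 1 → q t ≠ x := by
    refine fin6_all _ ?_ ?_ ?_ ?_ ?_ ?_
    · intro _
      exact hax
    · intro h
      exact absurd rfl h
    · intro _
      exact hbx
    · intro _ h
      exact hax (hcancel _ h)
    · intro _ h
      exact hbx (hcancel _ h)
    · intro _ h
      have h3 : (a : G) * ((x : G) * b * x) * a = x := h
      have h4 : (x : G) * b * x = (a : G) * x * a := by
        calc (x : G) * b * x = a * ((a : G) * ((x : G) * b * x) * a) * a := by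
              simp only [mul_assoc, ea, haa, mul_one]
          _ = (a : G) * x * a := by rw [h3]
      rw [← s1] at h4
      have h5 := congrArg (fun z => (x : G) * z * x) h4
      simp only [mul_assoc, ex, hxx, mul_one] at h5
      exact hne h5.symm
  have hinj6 : Function.Injective q := by
    intro u v huv
    by_contra hne'
    obtain ⟨w₁, w₂, hw⟩ := R6_trans u v hne'
    have h1 : q (R6 w₂ (R6 w₁ u)) = q (R6 w₂ (R6 w₁ v)) := by
      rw [← hl, ← hl, ← hl, ← hl, huv]
    rw [hw] at h1
    have h2 : R6 w₂ (R6 w₁ v) ≠ 1 := by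
      intro h
      rw [← hw] at h
      have h3 : ∀ w₁ w₂ u v : Fin 6, R6 w₂ (R6 w₁ v) = R6 w₂ (R6 w₁ u) → v = u := by decide
      exact hne' (h3 _ _ _ _ h).symm
    exact hnx _ h2 h1.symm
  let e := Equiv.ofBijective f6 f6_bij
  have hef : ∀ i, e.symm (f6 i) = i := fun i => by
    have : f6 i = e i := rfl
    rw [this, e.symm_apply_apply]
  have hfe : ∀ s, f6 (e.symm s) = s := fun s => e.apply_symm_apply s
  let p : DualAffinePoint → D := fun s => ⟨q (e.symm s), hm _⟩
  let R : DualAffinePoint → DualAffinePoint → DualAffinePoint := fun u v => f6 (R6 (e.symm u) (e.symm v))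
  have hinj : Function.Injective p := by
    intro u v huv
    exact e.symm.injective (hinj6 (congrArg Subtype.val huv))
  have hlaw : ∀ u v, (p u : G) * (p v : G) * (p u : G) = (p (R u v) : G) := by
    intro u v
    show q (e.symm u) * q (e.symm v) * q (e.symm u) = q (e.symm (f6 _))
    rw [hef, hl]
  refine iso_of_law hD dualAffinePlaneTwo R p hinj hlaw ?_ _ ?_ ?_
  · intro ℓ
    constructor
    · rintro ⟨k, rfl⟩
      obtain ⟨i, j, hij, hk⟩ := dual_lines1 k
      refine ⟨f6 i, f6 j, ?_, ?_⟩
      · show f6 (R6 (e.symm (f6 j)) (e.symm (f6 i))) ≠ f6 i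
        rw [hef, hef]
        exact fun h => hij (f6_bij.1 h)
      · ext s
        show k ∉ s.1 ↔ (s = f6 i ∨ s = f6 j ∨ s = f6 (R6 (e.symm (f6 j)) (e.symm (f6 i))))
        rw [hef, hef]
        exact hk s
    · rintro ⟨u, v, huv, rfl⟩
      obtain ⟨i, rfl⟩ := f6_bij.2 u
      obtain ⟨j, rfl⟩ := f6_bij.2 v
      have huv' : R6 j i ≠ i := by
        intro h
        apply huv
        show f6 (R6 (e.symm (f6 j)) (e.symm (f6 i))) = f6 i
        rw [hef, hef, h]
      obtain ⟨k, hk⟩ := dual_lines2 i j huv'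
      refine ⟨k, ?_⟩
      ext s
      show (s = f6 i ∨ s = f6 j ∨ s = f6 (R6 (e.symm (f6 j)) (e.symm (f6 i)))) ↔ k ∉ s.1
      rw [hef, hef]
      exact (hk s).symm
  · have hlab : ∀ i : Fin 6, ∃ w, (p w : G) = q i := by
      intro i
      refine ⟨f6 i, ?_⟩
      show q (e.symm (f6 i)) = q i
      rw [hef]
    have hi : ∀ d : D, (d : G)⁻¹ = d := fun d => D_inv hD d.2
    rintro z (hz | hz)
    · rcases hz with h | h | h
      · obtain ⟨w, hw⟩ := hlab 1
        exact ⟨w, Subtype.ext (hw.trans h.symm)⟩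
      · obtain ⟨w, hw⟩ := hlab 0
        exact ⟨w, Subtype.ext (hw.trans h.symm)⟩
      · obtain ⟨w, hw⟩ := hlab 3
        refine ⟨w, Subtype.ext (hw.trans ?_)⟩
        rw [h, hi a]
        exact s1
    · rcases hz with h | h | h
      · obtain ⟨w, hw⟩ := hlab 1
        exact ⟨w, Subtype.ext (hw.trans h.symm)⟩
      · obtain ⟨w, hw⟩ := hlab 2
        exact ⟨w, Subtype.ext (hw.trans h.symm)⟩
      · obtain ⟨w, hw⟩ := hlab 4
        refine ⟨w, Subtype.ext (hw.trans ?_)⟩
        rw [h, hi b]
        exact s2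
  · intro U hT hU
    have hi : ∀ d : D, (d : G)⁻¹ = d := fun d => D_inv hD d.2
    have hx1 : x ∈ U := hT (Or.inl (left_mem_line x a))
    have ha1 : a ∈ U := hT (Or.inl (right_mem_line x a))
    have hb1 : b ∈ U := hT (Or.inr (right_mem_line x b))
    have ha2 : (⟨(x : G) * a * x, hm 3⟩ : D) ∈ U := by
      apply hT
      left
      show _ ∨ _ ∨ _
      right; right
      show (x : G) * a * x = (a : G) * x * (a : G)⁻¹
      rw [hi a]
      exact s1
    have hb2 : (⟨(x : G) * b * x, hm 4⟩ : D) ∈ U := by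
      apply hT
      right
      show _ ∨ _ ∨ _
      right; right
      show (x : G) * b * x = (b : G) * x * (b : G)⁻¹
      rw [hi b]
      exact s2
    have hnc : ¬ Commute ((x : G) * b * x) (a : G) := by
      intro h
      have h1 : q 5 = q 4 := by
        show (a : G) * ((x : G) * b * x) * a = (x : G) * b * x
        rw [h.eq.symm, mul_assoc, haa, mul_one]
      have h2 := hinj6 h1
      exact absurd h2 (by decide)
    have c5 := third_mem hD hU (p := ⟨(x : G) * b * x, hm 4⟩) (q := a) hnc hb2 ha1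
    have hall : ∀ (i : Fin 6) (h : q i ∈ D), (⟨q i, h⟩ : D) ∈ U := by
      refine fin6_all _ ?_ ?_ ?_ ?_ ?_ ?_
      · intro _
        exact ha1
      · intro _
        exact hx1
      · intro _
        exact hb1
      · intro _
        exact ha2
      · intro _
        exact hb2
      · intro _
        exact c5
    rintro _ ⟨w, rfl⟩
    exact hall _ _

/-- The line system of 3-transpositions is a Fischer space. -/
theorem main (hD : IsThreeTranspositionGroup D) : IsFischerSpace (threeTranspositionLines D) := by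
  refine ⟨partial_linear hD, line_ncard hD, ?_⟩
  rintro l hl m hm hlm ⟨o, ho1, ho2⟩
  -- rewrite the lines through the common point
  have hrep : ∀ l ∈ threeTranspositionLines D, o ∈ l → ∃ a : D, ¬ Commute (o : G) (a : G) ∧ l = lineOf o a := by
    rintro l ⟨u, v, hc, rfl⟩ ho
    have hne : u ≠ v := fun h => hc (by rw [h])
    by_cases h : o = u
    · subst h
      exact ⟨v, hc, rfl⟩
    · obtain ⟨h1, h2⟩ := line_rep hD hc ho (left_mem_line u v) h
      exact ⟨u, h1, h2⟩
  obtain ⟨a, hxa, rfl⟩ := hrep l hl ho1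
  obtain ⟨b, hxb, rfl⟩ := hrep m hm ho2
  have hxx := D_sq hD o.2
  have ex : ∀ w, (o : G) * (o * w) = w := fun w => by rw [← mul_assoc, hxx, one_mul]
  have hi : ∀ d : D, (d : G)⁻¹ = d := fun d => D_inv hD d.2
  let a' : D := ⟨(o : G) * a * o, D_conj hD o.2 a.2⟩
  let b' : D := ⟨(o : G) * b * o, D_conj hD o.2 b.2⟩
  have s1 := D_s3 hD o.2 a.2 hxa
  have s2 := D_s3 hD o.2 b.2 hxb
  have ha'm : a' ∈ lineOf o a := by
    right; right
    show (o : G) * a * o = (a : G) * o * (a : G)⁻¹
    rw [hi a]
    exact s1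
  have hb'm : b' ∈ lineOf o b := by
    right; right
    show (o : G) * b * o = (b : G) * o * (b : G)⁻¹
    rw [hi b]
    exact s2
  have hb'o : b' ≠ o := by
    intro h
    have h1 : (o : G) * b * o = o := congrArg Subtype.val h
    have := congrArg (fun z => (o : G) * z * o) h1
    simp only [mul_assoc, ex, hxx, mul_one, one_mul] at this
    exact hxb (by rw [this])
  have hbo : b ≠ o := fun h => hxb (by rw [h])
  have hm1 : ∀ z : D, z ≠ o → z ∈ lineOf o b → z ∉ lineOf o a := by
    intro z hz h1 h2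
    apply hlm
    exact partial_linear hD _ ⟨o, a, hxa, rfl⟩ _ ⟨o, b, hxb, rfl⟩ o z hz.symm (left_mem_line o a) h2 (left_mem_line o b) h1
  have hb1 := hm1 b hbo (right_mem_line o b)
  have hb2 := hm1 b' hb'o hb'm
  have hab_ne : a ≠ b := fun h => hb1 (by rw [← h]; exact right_mem_line o a)
  have hab'_ne : a ≠ b' := fun h => hb2 (by rw [← h]; exact right_mem_line o a)
  have hne1 : (b : G) ≠ (o : G) * a * o := fun h => hb1 (by
    have : b = a' := Subtype.ext h
    rw [this]
    exact ha'm)
  have hne2 : (o : G) * b * o ≠ (o : G) * a * o := fun h => hb2 (by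
    have : b' = a' := Subtype.ext h
    rw [this]
    exact ha'm)
  by_cases hc1 : Commute (a : G) (b : G)
  · exact Or.inl (plane_dual hD o a b hxa hxb hc1 (fun h => hab_ne (Subtype.ext h)))
  by_cases hc2 : Commute (a : G) ((o : G) * b * o)
  · left
    have hcb : ¬ Commute (o : G) (b' : G) := (line_rep hD hxb (left_mem_line o b) hb'm hb'o.symm).1
    have hl' : lineOf o b = lineOf o b' := (line_rep hD hxb (left_mem_line o b) hb'm hb'o.symm).2
    rw [hl']
    exact plane_dual hD o a b' hxa hcb hc2 (fun h => hab'_ne (Subtype.ext h))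
  · exact Or.inr (plane_aff hD o a b hxa hxb hc1 hc2 hne1 hne2)

end setD

end CfsgLib.H9.Fischer
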