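import Mathlib
import Cfsg.Agent.Lib.H9.Fischer

/-! The maps `t(x)` of a nondegenerate Fischer space. -/

set_option autoImplicit false
set_option linter.unusedVariables false
set_option linter.unusedSectionVars false
set_option linter.unusedSimpArgs false
set_option linter.style.haveILetI false

namespace CfsgLib.H9.Fischer2

open Cfsg Cfsg.LineSystem CfsgLib.H9.Fischer

/-- The abstract properties of the two planes. -/
structure PlaneModel {Λ : Type} (M : Set (Set Λ)) (R : Λ → Λ → Λ) : Prop where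
  hM : ∀ ℓ : Set Λ, ℓ ∈ M ↔ ∃ u v, R v u ≠ u ∧ ℓ = {w | w = u ∨ w = v ∨ w = R v u}
  inv : ∀ u v, R u (R u v) = v
  idem : ∀ u, R u u = u
  quandle : ∀ u v w, R u (R v w) = R (R u v) (R u w)
  symm : ∀ u v, R v u ≠ u → R u v = R v u
  sym2 : ∀ u v, R u v = v → R v u = u
  rot : ∀ u v, R v u ≠ u → R (R v u) u = v
  ord2 : ∀ u v w, R u v = v → R u (R v (R u (R v w))) = w
  ord3 : ∀ u v w, R u v ≠ v → R u (R v (R u (R v (R u (R v w))))) = w

/-- The reflections of the affine plane. -/
def Ra (u v : Fin 2 → ZMod 3) : Fin 2 → ZMod 3 := -u - v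

theorem model_aff : PlaneModel affinePlaneThree Ra where
  hM := by
    intro ℓ
    have h3 : ∀ c : ZMod 3, c = 0 ∨ c = 1 ∨ c = 2 := by decide
    constructor
    · rintro ⟨v₀, w₀, hw₀, rfl⟩
      have h4 : ∀ (s t : ZMod 3), -(s + t) - s = s + 2 * t := by decide
      have h5 : -(v₀ + w₀) - v₀ = v₀ + (2 : ZMod 3) • w₀ := by
        funext i
        exact h4 _ _
      refine ⟨v₀, v₀ + w₀, ?_, ?_⟩
      · show -(v₀ + w₀) - v₀ ≠ v₀
        rw [h5]
        intro h
        apply hw₀
        have h6 : (2 : ZMod 3) • w₀ = 0 := by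
          simpa using h
        have h7 : ∀ t : ZMod 3, 2 * t = 0 → t = 0 := by decide
        funext i
        exact h7 _ (congrFun h6 i)
      · ext z
        show (∃ c : ZMod 3, z = v₀ + c • w₀) ↔ (z = v₀ ∨ z = v₀ + w₀ ∨ z = -(v₀ + w₀) - v₀)
        rw [h5]
        constructor
        · rintro ⟨c, rfl⟩
          rcases h3 c with rfl | rfl | rfl
          · left
            simp
          · right; left
            simp
          · right; right
            rfl
        · rintro (rfl | rfl | rfl)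
          · exact ⟨0, by simp⟩
          · exact ⟨1, by simp⟩
          · exact ⟨2, rfl⟩
    · rintro ⟨u, v, hne, rfl⟩
      have hne' : -v - u ≠ u := hne
      refine ⟨u, v - u, ?_, ?_⟩
      · intro h
        apply hne'
        have h4 : ∀ s t : ZMod 3, t - s = 0 → -t - s = s := by decide
        funext i
        exact h4 _ _ (congrFun h i)
      · ext z
        show (z = u ∨ z = v ∨ z = -v - u) ↔ (∃ c : ZMod 3, z = u + c • (v - u))
        have h4 : ∀ s t : ZMod 3, -t - s = s + 2 * (t - s) := by decide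
        have h5 : -v - u = u + (2 : ZMod 3) • (v - u) := by
          funext i
          exact h4 _ _
        constructor
        · rintro (rfl | rfl | rfl)
          · exact ⟨0, by simp⟩
          · exact ⟨1, by simp⟩
          · exact ⟨2, h5⟩
        · rintro ⟨c, rfl⟩
          rcases h3 c with rfl | rfl | rfl
          · left
            simp
          · right; left
            simp
          · right; right
            exact h5.symm
  inv := by
    intro u v
    funext i
    have h : ∀ a b : ZMod 3, -a - (-a - b) = b := by decide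
    exact h _ _
  idem := by
    intro u
    funext i
    have h : ∀ a : ZMod 3, -a - a = a := by decide
    exact h _
  quandle := by
    intro u v w
    funext i
    have h : ∀ a b c : ZMod 3, -a - (-b - c) = -(-a - b) - (-a - c) := by decide
    exact h _ _ _
  symm := by
    intro u v _
    funext i
    have h : ∀ a b : ZMod 3, -a - b = -b - a := by decide
    exact h _ _
  sym2 := by
    intro u v huv
    funext i
    have h : ∀ a b : ZMod 3, -a - b = b → -b - a = a := by decide
    exact h _ _ (congrFun huv i)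
  rot := by
    intro u v _
    funext i
    have h : ∀ a b : ZMod 3, -(-b - a) - a = b := by decide
    exact h _ _
  ord2 := by
    intro u v w huv
    funext i
    have h : ∀ a b c : ZMod 3, -a - b = b → -a - (-b - (-a - (-b - c))) = c := by decide
    exact h _ _ _ (congrFun huv i)
  ord3 := by
    intro u v w _
    funext i
    have h : ∀ a b c : ZMod 3, -a - (-b - (-a - (-b - (-a - (-b - c))))) = c := by decide
    exact h _ _ _

/-- The inverse of the labelling of the dual affine plane. -/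
noncomputable def g6 : DualAffinePoint ≃ Fin 6 := (Equiv.ofBijective f6 f6_bij).symm

theorem g6_f6 (i : Fin 6) : g6 (f6 i) = i := by
  have : f6 i = (Equiv.ofBijective f6 f6_bij) i := rfl
  rw [this]
  exact (Equiv.ofBijective f6 f6_bij).symm_apply_apply i

theorem f6_g6 (s : DualAffinePoint) : f6 (g6 s) = s :=
  (Equiv.ofBijective f6 f6_bij).apply_symm_apply s

/-- The reflections of the dual affine plane. -/
noncomputable def Rd (u v : DualAffinePoint) : DualAffinePoint := f6 (R6 (g6 u) (g6 v))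

theorem Rd_f6 (i j : Fin 6) : Rd (f6 i) (f6 j) = f6 (R6 i j) := by
  simp only [Rd, g6_f6]

theorem f6_inj {i j : Fin 6} : f6 i = f6 j ↔ i = j := f6_bij.1.eq_iff

theorem exists_f6 (s : DualAffinePoint) : ∃ i, s = f6 i := ⟨g6 s, (f6_g6 s).symm⟩

theorem model_dual : PlaneModel dualAffinePlaneTwo Rd where
  hM := by
    intro ℓ
    constructor
    · rintro ⟨k, rfl⟩
      obtain ⟨i, j, hij, hk⟩ := dual_lines1 k
      refine ⟨f6 i, f6 j, ?_, ?_⟩
      · rw [Rd_f6]
        exact fun h => hij (f6_bij.1 h)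
      · ext s
        rw [Rd_f6]
        exact hk s
    · rintro ⟨u, v, huv, rfl⟩
      obtain ⟨i, rfl⟩ := exists_f6 u
      obtain ⟨j, rfl⟩ := exists_f6 v
      rw [Rd_f6] at huv ⊢
      have huv' : R6 j i ≠ i := fun h => huv (by rw [h])
      obtain ⟨k, hk⟩ := dual_lines2 i j huv'
      refine ⟨k, ?_⟩
      ext s
      exact (hk s).symm
  inv := by
    intro u v
    obtain ⟨i, rfl⟩ := exists_f6 u
    obtain ⟨j, rfl⟩ := exists_f6 v
    rw [Rd_f6, Rd_f6]
    have h : ∀ i j : Fin 6, R6 i (R6 i j) = j := by decide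
    rw [h]
  idem := by
    intro u
    obtain ⟨i, rfl⟩ := exists_f6 u
    rw [Rd_f6]
    have h : ∀ i : Fin 6, R6 i i = i := by decide
    rw [h]
  quandle := by
    intro u v w
    obtain ⟨i, rfl⟩ := exists_f6 u
    obtain ⟨j, rfl⟩ := exists_f6 v
    obtain ⟨k, rfl⟩ := exists_f6 w
    simp only [Rd_f6]
    have h : ∀ i j k : Fin 6, R6 i (R6 j k) = R6 (R6 i j) (R6 i k) := by decide
    rw [h]
  symm := by
    intro u v huv
    obtain ⟨i, rfl⟩ := exists_f6 u
    obtain ⟨j, rfl⟩ := exists_f6 v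
    simp only [Rd_f6] at huv ⊢
    have h : ∀ i j : Fin 6, R6 j i ≠ i → R6 i j = R6 j i := by decide
    rw [h i j (fun h' => huv (by rw [h']))]
  sym2 := by
    intro u v huv
    obtain ⟨i, rfl⟩ := exists_f6 u
    obtain ⟨j, rfl⟩ := exists_f6 v
    simp only [Rd_f6, f6_inj] at huv ⊢
    have h : ∀ i j : Fin 6, R6 i j = j → R6 j i = i := by decide
    exact h i j huv
  rot := by
    intro u v huv
    obtain ⟨i, rfl⟩ := exists_f6 u
    obtain ⟨j, rfl⟩ := exists_f6 v
    simp only [Rd_f6] at huv ⊢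
    have h : ∀ i j : Fin 6, R6 j i ≠ i → R6 (R6 j i) i = j := by decide
    rw [h i j (fun h' => huv (by rw [h']))]
  ord2 := by
    intro u v w huv
    obtain ⟨i, rfl⟩ := exists_f6 u
    obtain ⟨j, rfl⟩ := exists_f6 v
    obtain ⟨k, rfl⟩ := exists_f6 w
    simp only [Rd_f6, f6_inj] at huv ⊢
    have h : ∀ i j k : Fin 6, R6 i j = j → R6 i (R6 j (R6 i (R6 j k))) = k := by decide
    exact h i j k huv
  ord3 := by
    intro u v w huv
    obtain ⟨i, rfl⟩ := exists_f6 u
    obtain ⟨j, rfl⟩ := exists_f6 v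
    obtain ⟨k, rfl⟩ := exists_f6 w
    simp only [Rd_f6, f6_inj] at huv ⊢
    have h : ∀ i j k : Fin 6, R6 i j ≠ j → R6 i (R6 j (R6 i (R6 j (R6 i (R6 j k))))) = k := by decide
    exact h i j k (fun h' => huv (by rw [h']))

theorem PlaneModel.line_third {Λ : Type} {M : Set (Set Λ)} {R : Λ → Λ → Λ} (hP : PlaneModel M R)
    {ℓ : Set Λ} (hℓ : ℓ ∈ M) {u v w : Λ} (hu : u ∈ ℓ) (hv : v ∈ ℓ) (hw : w ∈ ℓ)
    (huv : u ≠ v) (huw : u ≠ w) (hvw : v ≠ w) : R u v = w := by
  obtain ⟨a, b, hne, rfl⟩ := (hP.hM ℓ).1 hℓ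
  have hab : a ≠ b := by
    rintro rfl
    exact hne (hP.idem a)
  let c := R b a
  have e1 : R a b = c := hP.symm a b hne
  have e2 : R b a = c := rfl
  have hca : R c a = b := hP.rot a b hne
  have e3 : R a c = b := by
    rw [hP.symm a c (by rw [hca]; exact hab.symm), hca]
  have e4 : R b c = a := hP.inv b a
  have hac : a ≠ c := fun h => hne h.symm
  have e5 : R c b = a := by
    rw [hP.symm c b (by rw [e4]; exact hac), e4]
  have hbc : b ≠ c := by
    intro h
    apply hab
    have h1 : R b b = a := by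
      nth_rw 2 [h]
      exact e4
    rw [hP.idem] at h1
    exact h1.symm
  rcases hu with h1 | h1 | h1 <;> rcases hv with h2 | h2 | h2 <;> rcases hw with h3 | h3 | h3 <;>
    first
      | exact absurd (h1.trans h2.symm) huv
      | exact absurd (h1.trans h3.symm) huw
      | exact absurd (h2.trans h3.symm) hvw
      | (rw [h1, h2, h3] <;> first | exact e1 | exact e2 | exact e3 | exact e4 | exact e5 | exact hca)

section space

variable {X : Type*} {L : Set (Set X)}

theorem line_three (hL : IsFischerSpace L) {l : Set X} (hl : l ∈ L) {x y : X} (hxy : x ≠ y) (hx : x ∈ l) (hy : y ∈ l) :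
    ∃ z, z ≠ x ∧ z ≠ y ∧ l = {x, y, z} := by
  obtain ⟨a, b, c, hab, hac, hbc, rfl⟩ := Set.ncard_eq_three.1 (hL.2.1 l hl)
  simp only [Set.mem_insert_iff, Set.mem_singleton_iff] at hx hy
  rcases hx with rfl | rfl | rfl <;> rcases hy with rfl | rfl | rfl
  · exact absurd rfl hxy
  · exact ⟨c, hac.symm, hbc.symm, rfl⟩
  · exact ⟨b, hab.symm, hbc, by ext w; simp only [Set.mem_insert_iff, Set.mem_singleton_iff]; tauto⟩
  · exact ⟨c, hbc.symm, hac.symm, by ext w; simp only [Set.mem_insert_iff, Set.mem_singleton_iff]; tauto⟩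
  · exact absurd rfl hxy
  · exact ⟨a, hab, hac, by ext w; simp only [Set.mem_insert_iff, Set.mem_singleton_iff]; tauto⟩
  · exact ⟨b, hbc, hab.symm, by ext w; simp only [Set.mem_insert_iff, Set.mem_singleton_iff]; tauto⟩
  · exact ⟨a, hac, hab, by ext w; simp only [Set.mem_insert_iff, Set.mem_singleton_iff]; tauto⟩
  · exact absurd rfl hxy

theorem tmap_eq (hL : IsFischerSpace L) {x y z : X} (hl : ({x, y, z} : Set X) ∈ L) (hxy : x ≠ y) (hzx : z ≠ x)
    (hzy : z ≠ y) : lineMap L x y = z := by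
  have h : ∃ z : X, z ≠ x ∧ z ≠ y ∧ x ≠ y ∧ ({x, y, z} : Set X) ∈ L := ⟨z, hzx, hzy, hxy, hl⟩
  simp only [lineMap]
  rw [dif_pos h]
  obtain ⟨h1, h2, -, h4⟩ := h.choose_spec
  have h5 := hL.1 _ hl _ h4 x y hxy (by simp) (by simp) (by simp) (by simp)
  have h6 : h.choose ∈ ({x, y, z} : Set X) := by
    rw [h5]
    simp
  simp only [Set.mem_insert_iff, Set.mem_singleton_iff] at h6
  rcases h6 with h6 | h6 | h6
  · exact absurd h6 h1
  · exact absurd h6 h2
  · exact h6

theorem tmap_not {x y : X} (h : ¬ Collinear L x y) : lineMap L x y = y := by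
  simp only [lineMap]
  rw [dif_neg]
  rintro ⟨z, -, -, hxy, hl⟩
  exact h ⟨hxy, _, hl, by simp, by simp⟩

theorem tmap_coll (hL : IsFischerSpace L) {x y : X} (h : Collinear L x y) :
    ∃ z, z ≠ x ∧ z ≠ y ∧ ({x, y, z} : Set X) ∈ L ∧ lineMap L x y = z := by
  obtain ⟨hxy, l, hl, hx, hy⟩ := h
  obtain ⟨z, h1, h2, rfl⟩ := line_three hL hl hxy hx hy
  exact ⟨z, h1, h2, hl, tmap_eq hL hl hxy h1 h2⟩

theorem tmap_self (x : X) : lineMap L x x = x :=
  tmap_not (fun h => h.1 rfl)

theorem tmap_invol (hL : IsFischerSpace L) (x y : X) : lineMap L x (lineMap L x y) = y := by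
  by_cases h : Collinear L x y
  · obtain ⟨z, h1, h2, h3, h4⟩ := tmap_coll hL h
    rw [h4]
    have h5 : ({x, z, y} : Set X) = {x, y, z} := by
      ext w
      simp only [Set.mem_insert_iff, Set.mem_singleton_iff]
      tauto
    exact tmap_eq hL (h5 ▸ h3) h1.symm h.1.symm h2.symm
  · rw [tmap_not h, tmap_not h]

theorem tmap_ne (hL : IsFischerSpace L) {x y : X} (h : Collinear L x y) : lineMap L x y ≠ y := by
  obtain ⟨z, h1, h2, h3, h4⟩ := tmap_coll hL h
  rw [h4]
  exact h2

theorem collinear_symm {x y : X} (h : Collinear L x y) : Collinear L y x := by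
  obtain ⟨hxy, l, hl, hx, hy⟩ := h
  exact ⟨hxy.symm, l, hl, hy, hx⟩

/-- Transport of `t(x)` into a plane. -/
theorem transport (hL : IsFischerSpace L) {Λ : Type} {M : Set (Set Λ)} {R : Λ → Λ → Λ} (hP : PlaneModel M R)
    {S : Set X} (hS : IsSubspace L S) (e : S ≃ Λ) (hiso : IsIso (restrict L S) M e) (x y : S) :
    ∃ h : lineMap L x.1 y.1 ∈ S, e ⟨lineMap L x.1 y.1, h⟩ = R (e x) (e y) := by
  classical
  by_cases hxy : x = y
  · subst hxy
    refine ⟨by rw [tmap_self]; exact x.2, ?_⟩
    simp only [tmap_self, hP.idem]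
  by_cases hc : Collinear L x.1 y.1
  · obtain ⟨z, h1, h2, h3, h4⟩ := tmap_coll hL hc
    have hxy' : x.1 ≠ y.1 := hc.1
    have hzS : z ∈ S := hS _ h3 x.1 x.2 y.1 y.2 hxy' (by simp) (by simp) (by simp)
    refine ⟨by rw [h4]; exact hzS, ?_⟩
    simp only [h4]
    have hmem : {w : S | w.1 ∈ ({x.1, y.1, z} : Set X)} ∈ restrict L S := by
      refine ⟨_, h3, ?_, rfl⟩
      intro w hw
      simp only [Set.mem_insert_iff, Set.mem_singleton_iff] at hw
      rcases hw with rfl | rfl | rfl
      · exact x.2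
      · exact y.2
      · exact hzS
    have hm := (hiso _).1 hmem
    refine (hP.line_third hm ⟨x, by simp, rfl⟩ ⟨y, by simp, rfl⟩ ⟨⟨z, hzS⟩, by simp, rfl⟩ ?_ ?_ ?_).symm
    · exact fun h => hxy (e.injective h)
    · intro h
      have := e.injective h
      exact h1 (congrArg Subtype.val this).symm
    · intro h
      have := e.injective h
      exact h2 (congrArg Subtype.val this).symm
  · rw [show lineMap L x.1 y.1 = y.1 from tmap_not hc]
    refine ⟨y.2, ?_⟩
    by_contra hne
    have hne' : R (e x) (e y) ≠ e y := fun h => hne h.symm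
    have hm : {w | w = e y ∨ w = e x ∨ w = R (e x) (e y)} ∈ M := (hP.hM _).2 ⟨e y, e x, hne', rfl⟩
    have h1 : e '' (e ⁻¹' {w | w = e y ∨ w = e x ∨ w = R (e x) (e y)}) = {w | w = e y ∨ w = e x ∨ w = R (e x) (e y)} :=
      Set.image_preimage_eq _ e.surjective
    rw [← h1] at hm
    obtain ⟨l, hl, hlS, hle⟩ := (hiso _).2 hm
    have hx : x ∈ e ⁻¹' {w | w = e y ∨ w = e x ∨ w = R (e x) (e y)} := Or.inr (Or.inl rfl)
    have hy : y ∈ e ⁻¹' {w | w = e y ∨ w = e x ∨ w = R (e x) (e y)} := Or.inl rfl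
    rw [hle] at hx hy
    exact hc ⟨fun h => hxy (Subtype.ext h), l, hl, hx, hy⟩

/-- The planes of a Fischer space. -/
theorem exists_plane (hL : IsFischerSpace L) {l m : Set X} (hl : l ∈ L) (hm : m ∈ L) (hlm : l ≠ m)
    (hn : (l ∩ m).Nonempty) :
    ∃ (Λ : Type) (M : Set (Set Λ)) (R : Λ → Λ → Λ) (S : Set X), PlaneModel M R ∧ IsSubspace L S ∧ l ⊆ S ∧ m ⊆ S ∧
      ∃ e : S ≃ Λ, IsIso (restrict L S) M e := by
  have h1 : IsSubspace L (span L (l ∪ m)) := by
    intro l' hl' x hx y hy hxy hxl hyl z hz T hT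
    exact hT.2 l' hl' x (hx T hT) y (hy T hT) hxy hxl hyl hz
  have h2 : l ⊆ span L (l ∪ m) := fun z hz T hT => hT.1 (Or.inl hz)
  have h3 : m ⊆ span L (l ∪ m) := fun z hz T hT => hT.1 (Or.inr hz)
  rcases hL.2.2 l hl m hm hlm hn with ⟨e, he⟩ | ⟨e, he⟩
  · exact ⟨_, _, _, _, model_dual, h1, h2, h3, e, he⟩
  · exact ⟨_, _, _, _, model_aff, h1, h2, h3, e, he⟩

/-- The order relations inside a plane. -/
theorem in_plane (hL : IsFischerSpace L) {Λ : Type} {M : Set (Set Λ)} {R : Λ → Λ → Λ} (hP : PlaneModel M R)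
    {S : Set X} (hS : IsSubspace L S) (e : S ≃ Λ) (hiso : IsIso (restrict L S) M e) {x y z : X}
    (hx : x ∈ S) (hy : y ∈ S) (hz : z ∈ S) :
    (¬ Collinear L x y → lineMap L x (lineMap L y (lineMap L x (lineMap L y z))) = z) ∧
    (Collinear L x y → lineMap L x (lineMap L y (lineMap L x (lineMap L y (lineMap L x (lineMap L y z))))) = z) := by
  have ht := transport hL hP hS e hiso
  let x' : S := ⟨x, hx⟩
  let y' : S := ⟨y, hy⟩
  have step : ∀ (a w : S), ∃ w' : S, w'.1 = lineMap L a.1 w.1 ∧ e w' = R (e a) (e w) := by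
    intro a w
    obtain ⟨h, h1⟩ := ht a w
    exact ⟨⟨_, h⟩, rfl, h1⟩
  obtain ⟨z1, hz1, ez1⟩ := step y' ⟨z, hz⟩
  obtain ⟨z2, hz2, ez2⟩ := step x' z1
  obtain ⟨z3, hz3, ez3⟩ := step y' z2
  obtain ⟨z4, hz4, ez4⟩ := step x' z3
  obtain ⟨z5, hz5, ez5⟩ := step y' z4
  obtain ⟨z6, hz6, ez6⟩ := step x' z5
  obtain ⟨w0, hw0, ew0⟩ := step x' y'
  constructor
  · intro hc
    have h0 : R (e x') (e y') = e y' := by
      rw [← ew0]
      congr 1
      apply Subtype.ext
      rw [hw0]
      exact tmap_not hc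
    have h1 : e z4 = e ⟨z, hz⟩ := by
      rw [ez4, ez3, ez2, ez1]
      exact hP.ord2 _ _ _ h0
    have h2 := congrArg Subtype.val (e.injective h1)
    rw [hz4, hz3, hz2, hz1] at h2
    exact h2
  · intro hc
    have h0 : R (e x') (e y') ≠ e y' := by
      rw [← ew0]
      intro h
      have h3 := congrArg Subtype.val (e.injective h)
      rw [hw0] at h3
      exact tmap_ne hL hc h3
    have h1 : e z6 = e ⟨z, hz⟩ := by
      rw [ez6, ez5, ez4, ez3, ez2, ez1]
      exact hP.ord3 _ _ _ h0
    have h2 := congrArg Subtype.val (e.injective h1)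
    rw [hz6, hz5, hz4, hz3, hz2, hz1] at h2
    exact h2

/-- Non-collinear points give commuting maps. -/
theorem order_two (hL : IsFischerSpace L) {x y : X} (hxy : x ≠ y) (hc : ¬ Collinear L x y) (z : X) :
    lineMap L x (lineMap L y (lineMap L x (lineMap L y z))) = z := by
  have hplane : ∀ {l m : Set X}, l ∈ L → m ∈ L → x ∈ l → y ∈ m → z ∈ l ∪ m → (l ∩ m).Nonempty →
      lineMap L x (lineMap L y (lineMap L x (lineMap L y z))) = z := by
    intro l m hl hm hxl hym hz hn
    have hlm : l ≠ m := by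
      rintro rfl
      exact hc ⟨hxy, l, hl, hxl, hym⟩
    obtain ⟨Λ, M, R, S, hP, hS, h1, h2, e, he⟩ := exists_plane hL hl hm hlm hn
    have hzS : z ∈ S := by
      rcases hz with h | h
      · exact h1 h
      · exact h2 h
    exact (in_plane hL hP hS e he (h1 hxl) (h2 hym) hzS).1 hc
  by_cases h1 : Collinear L x z
  · obtain ⟨hxz, l, hl, hxl, hzl⟩ := h1
    by_cases h2 : Collinear L y z
    · obtain ⟨hyz, m, hm, hym, hzm⟩ := h2
      exact hplane hl hm hxl hym (Or.inl hzl) ⟨z, hzl, hzm⟩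
    · rw [tmap_not h2]
      have h1' : Collinear L x z := ⟨hxz, l, hl, hxl, hzl⟩
      obtain ⟨z', hz1, hz2, hz3, hz4⟩ := tmap_coll hL h1'
      rw [hz4]
      by_cases h5 : Collinear L y z'
      · obtain ⟨hyz', m, hm, hym, hz'm⟩ := h5
        have hl' : l = {x, z, z'} := hL.1 l hl _ hz3 x z hxz hxl hzl (by simp) (by simp)
        have hz'l : z' ∈ l := by rw [hl']; simp
        have := hplane hl hm hxl hym (Or.inl hzl) ⟨z', hz'l, hz'm⟩
        rwa [tmap_not h2, hz4] at this
      · rw [tmap_not h5, ← hz4, tmap_invol hL]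
  · by_cases h2 : Collinear L y z
    · obtain ⟨hyz, m, hm, hym, hzm⟩ := h2
      have h2' : Collinear L y z := ⟨hyz, m, hm, hym, hzm⟩
      obtain ⟨z', hz1, hz2, hz3, hz4⟩ := tmap_coll hL h2'
      rw [hz4]
      by_cases h5 : Collinear L x z'
      · obtain ⟨hxz', l, hl, hxl, hz'l⟩ := h5
        have hm' : m = {y, z, z'} := hL.1 m hm _ hz3 y z hyz hym hzm (by simp) (by simp)
        have hz'm : z' ∈ m := by rw [hm']; simp
        have := hplane hl hm hxl hym (Or.inr hzm) ⟨z', hz'l, hz'm⟩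
        rwa [hz4] at this
      · rw [tmap_not h5, ← hz4, tmap_invol hL, tmap_not h1]
    · rw [tmap_not h2, tmap_not h1, tmap_not h2, tmap_not h1]

/-- Collinear points give maps with a product of order three. -/
theorem order_three (hL : IsFischerSpace L) {x y : X} (hc : Collinear L x y) (z : X) :
    lineMap L x (lineMap L y (lineMap L x (lineMap L y (lineMap L x (lineMap L y z))))) = z := by
  obtain ⟨hxy, n, hn, hxn, hyn⟩ := id hc
  by_cases hz : z ∈ n
  · obtain ⟨w, hw1, hw2, hw3⟩ := line_three hL hn hxy hxn hyn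
    subst hw3
    have t1 : lineMap L x y = w := tmap_eq hL hn hxy hw1 hw2
    have t2 : lineMap L x w = y := by
      rw [← t1, tmap_invol hL]
    have hswap : ({y, x, w} : Set X) = {x, y, w} := by
      ext v
      simp only [Set.mem_insert_iff, Set.mem_singleton_iff]
      tauto
    have t3 : lineMap L y x = w := tmap_eq hL (hswap ▸ hn) hxy.symm hw2 hw1
    have t4 : lineMap L y w = x := by
      rw [← t3, tmap_invol hL]
    simp only [Set.mem_insert_iff, Set.mem_singleton_iff] at hz
    rcases hz with rfl | rfl | rfl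
    · rw [t3, t2, tmap_self, t1, t4, tmap_self]
    · rw [tmap_self, t1, t4, tmap_self, t3, t2]
    · rw [t4, tmap_self, t3, t2, tmap_self, t1]
  have hplane : ∀ {m : Set X}, m ∈ L → z ∈ m → (n ∩ m).Nonempty →
      lineMap L x (lineMap L y (lineMap L x (lineMap L y (lineMap L x (lineMap L y z))))) = z := by
    intro m hm hzm hnm
    have hlm : n ≠ m := by
      rintro rfl
      exact hz hzm
    obtain ⟨Λ, M, R, S, hP, hS, h1, h2, e, he⟩ := exists_plane hL hn hm hlm hnm
    exact (in_plane hL hP hS e he (h1 hxn) (h1 hyn) (h2 hzm)).2 hc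
  by_cases h1 : Collinear L x z
  · obtain ⟨hxz, m, hm, hxm, hzm⟩ := h1
    exact hplane hm hzm ⟨x, hxn, hxm⟩
  by_cases h2 : Collinear L y z
  · obtain ⟨hyz, m, hm, hym, hzm⟩ := h2
    exact hplane hm hzm ⟨y, hyn, hym⟩
  rw [tmap_not h2, tmap_not h1, tmap_not h2, tmap_not h1, tmap_not h2, tmap_not h1]

/-- The maps `t(x)` preserve lines. -/
theorem image_line (hL : IsFischerSpace L) (x : X) {l : Set X} (hl : l ∈ L) : lineMap L x '' l ∈ L := by
  classical
  by_cases hxl : x ∈ l
  · have h1 : lineMap L x '' l = l := by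
      apply Set.Subset.antisymm
      · rintro _ ⟨y, hy, rfl⟩
        by_cases hxy : x = y
        · rw [← hxy, tmap_self]
          exact hxl
        · obtain ⟨z, h1, h2, rfl⟩ := line_three hL hl hxy hxl hy
          rw [tmap_eq hL hl hxy h1 h2]
          simp
      · intro y hy
        by_cases hxy : x = y
        · exact ⟨y, hy, by rw [← hxy, tmap_self]⟩
        · obtain ⟨z, h1, h2, rfl⟩ := line_three hL hl hxy hxl hy
          refine ⟨z, by simp, ?_⟩
          rw [← tmap_eq hL hl hxy h1 h2, tmap_invol hL]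
    rwa [h1]
  by_cases hex : ∃ p ∈ l, Collinear L x p
  · obtain ⟨p, hp, hxp, m, hm, hxm, hpm⟩ := hex
    have hlm : l ≠ m := by
      rintro rfl
      exact hxl hxm
    obtain ⟨Λ, M, R, S, hP, hS, h1, h2, e, he⟩ := exists_plane hL hl hm hlm ⟨p, hp, hpm⟩
    let x' : S := ⟨x, h2 hxm⟩
    have ht := transport hL hP hS e he x'
    have hline : {w : S | w.1 ∈ l} ∈ restrict L S := ⟨l, hl, h1, rfl⟩
    have hM1 := (he _).1 hline
    obtain ⟨u, v, huv, hset⟩ := (hP.hM _).1 hM1
    have hM2 : R (e x') '' (e '' {w : S | w.1 ∈ l}) ∈ M := by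
      rw [hset]
      apply (hP.hM _).2
      refine ⟨R (e x') u, R (e x') v, ?_, ?_⟩
      · rw [← hP.quandle]
        intro h
        apply huv
        have := congrArg (R (e x')) h
        rwa [hP.inv, hP.inv] at this
      · ext w
        constructor
        · rintro ⟨w', hw', rfl⟩
          rcases hw' with rfl | rfl | rfl
          · exact Or.inl rfl
          · exact Or.inr (Or.inl rfl)
          · exact Or.inr (Or.inr (hP.quandle _ _ _))
        · rintro (rfl | rfl | rfl)
          · exact ⟨u, Or.inl rfl, rfl⟩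
          · exact ⟨v, Or.inr (Or.inl rfl), rfl⟩
          · exact ⟨R v u, Or.inr (Or.inr rfl), hP.quandle _ _ _⟩
    have hS1 : ∀ w : S, lineMap L x w.1 ∈ S := fun w => (ht w).1
    let τ : S → S := fun w => ⟨lineMap L x w.1, hS1 w⟩
    have hτ : ∀ w, e (τ w) = R (e x') (e w) := fun w => (ht w).2
    have h3 : R (e x') '' (e '' {w : S | w.1 ∈ l}) = e '' (τ '' {w : S | w.1 ∈ l}) := by
      rw [Set.image_image, Set.image_image]
      exact Set.image_congr (fun w _ => (hτ w).symm)
    rw [h3] at hM2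
    obtain ⟨l', hl', hl'S, hle⟩ := (he _).2 hM2
    have h4 : lineMap L x '' l = l' := by
      ext w
      constructor
      · rintro ⟨w', hw', rfl⟩
        have h5 : τ ⟨w', h1 hw'⟩ ∈ τ '' {w : S | w.1 ∈ l} := ⟨⟨w', h1 hw'⟩, hw', rfl⟩
        rw [hle] at h5
        exact h5
      · intro hw
        have h5 : (⟨w, hl'S hw⟩ : S) ∈ {w : S | w.1 ∈ l'} := hw
        rw [← hle] at h5
        obtain ⟨w', hw', h6⟩ := h5
        refine ⟨w'.1, hw', ?_⟩
        exact congrArg Subtype.val h6
    rw [h4]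
    exact hl'
  · push Not at hex
    have h1 : lineMap L x '' l = l := by
      apply Set.Subset.antisymm
      · rintro _ ⟨y, hy, rfl⟩
        rw [tmap_not (hex y hy)]
        exact hy
      · intro y hy
        exact ⟨y, hy, tmap_not (hex y hy)⟩
    rwa [h1]

/-- The final statement. -/
theorem main (hL : IsFischerSpace L) (hnd : IsNondegenerate L) :
    (∀ x : X, ∃ σ : Equiv.Perm X, ⇑σ = lineMap L x ∧ orderOf σ = 2 ∧ IsIso L L σ) ∧
      IsThreeTranspositionSet {σ : Equiv.Perm X | ∃ x : X, ⇑σ = lineMap L x} := by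
  have hord : ∀ (x : X) (σ : Equiv.Perm X), ⇑σ = lineMap L x → orderOf σ = 2 := by
    intro x σ hσ
    apply orderOf_eq_prime
    · ext y
      simp only [pow_two, Equiv.Perm.mul_apply, Equiv.Perm.one_apply, hσ]
      exact tmap_invol hL x y
    · intro h
      obtain ⟨l, hl, hxl⟩ := hnd x
      obtain ⟨a, b, c, hab, hac, hbc, rfl⟩ := Set.ncard_eq_three.1 (hL.2.1 l hl)
      have hex : ∃ y ∈ ({a, b, c} : Set X), y ≠ x := by
        by_cases h1 : a = x
        · exact ⟨b, by simp, fun h2 => hab (h1.trans h2.symm)⟩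
        · exact ⟨a, by simp, h1⟩
      obtain ⟨y, hy, hyx⟩ := hex
      have hcoll : Collinear L x y := ⟨hyx.symm, _, hl, hxl, hy⟩
      apply tmap_ne hL hcoll
      rw [← hσ, h]
      rfl
  constructor
  · intro x
    let σ : Equiv.Perm X := Function.Involutive.toPerm (lineMap L x) (tmap_invol hL x)
    have hσ : ⇑σ = lineMap L x := rfl
    refine ⟨σ, hσ, hord x σ hσ, ?_⟩
    intro l
    rw [hσ]
    refine ⟨image_line hL x, ?_⟩
    intro h
    have h1 := image_line hL x h
    rwa [Set.image_image, show (fun a => lineMap L x (lineMap L x a)) = id from funext (tmap_invol hL x), Set.image_id] at h1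
  · constructor
    · rintro σ ⟨x, hσ⟩
      exact hord x σ hσ
    · rintro σ ⟨x, hσ⟩ τ ⟨y, hτ⟩
      by_cases hc : Collinear L x y
      · right
        ext z
        simp only [pow_succ, pow_zero, one_mul, Equiv.Perm.mul_apply, Equiv.Perm.one_apply, hσ, hτ]
        exact order_three hL hc z
      · left
        ext z
        simp only [pow_two, Equiv.Perm.mul_apply, Equiv.Perm.one_apply, hσ, hτ]
        by_cases hxy : x = y
        · subst hxy
          rw [tmap_invol hL, tmap_invol hL]
        · exact order_two hL hxy hc z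

end space

end CfsgLib.H9.Fischer2
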