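import Mathlib
import Cfsg.Agent.Lib.H9.Fischer
import Cfsg.Agent.Lib.H9.CoxA

/-! A class of 3-transpositions with very small commuting sets generates the symmetric group of degree 4. -/

set_option autoImplicit false
set_option linter.unusedVariables false
set_option linter.unusedSectionVars false
set_option linter.unusedSimpArgs false
set_option linter.style.haveILetI false

namespace CfsgLib.H9.Fischer3

open Cfsg CfsgLib.H9.Fischer

theorem s4_kernel : ∀ g : Equiv.Perm (Fin 4), g ≠ 1 → ∃ h₁ h₂ : Equiv.Perm (Fin 4),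
    (h₁ * g * h₁⁻¹) * (h₂ * g * h₂⁻¹) = Equiv.swap 0 1 * Equiv.swap 2 3 := by
  decide +kernel

variable {G : Type*} [Group G] {D : Set G}

theorem conj_commute (g u v : G) : Commute (g * u * g⁻¹) (g * v * g⁻¹) ↔ Commute u v := by
  have e : ∀ a b : G, (g * a * g⁻¹) * (g * b * g⁻¹) = g * (a * b) * g⁻¹ := by
    intro a b
    group
  constructor
  · intro h
    have h1 : (g * u * g⁻¹) * (g * v * g⁻¹) = (g * v * g⁻¹) * (g * u * g⁻¹) := h
    rw [e, e] at h1
    have h2 := mul_left_cancel (mul_right_cancel h1)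
    exact h2
  · intro h
    show (g * u * g⁻¹) * (g * v * g⁻¹) = (g * v * g⁻¹) * (g * u * g⁻¹)
    rw [e, e, show u * v = v * u from h]

/-- The six points with their conjugation law. -/
theorem six (hD : IsThreeTranspositionGroup D) {x a b : G} (hx : x ∈ D) (ha : a ∈ D) (hb : b ∈ D)
    (hxa : ¬ Commute x a) (hxb : ¬ Commute x b) (hab : Commute a b) (hne : a ≠ b) :
    (∀ i, tab6 x a b i ∈ D) ∧ (∀ u v, tab6 x a b u * tab6 x a b v * tab6 x a b u = tab6 x a b (R6 u v)) ∧
      Function.Injective (tab6 x a b) := by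
  classical
  have hxx := D_sq hD hx
  have haa := D_sq hD ha
  have hbb := D_sq hD hb
  have ex : ∀ w, x * (x * w) = w := fun w => by rw [← mul_assoc, hxx, one_mul]
  have ea : ∀ w, a * (a * w) = w := fun w => by rw [← mul_assoc, haa, one_mul]
  have s1 := D_s3 hD hx ha hxa
  have s2 := D_s3 hD hx hb hxb
  have hm : ∀ i, tab6 x a b i ∈ D := by
    have hb' := D_conj hD hx hb
    exact fin6_all _ ha hx hb (D_conj hD hx ha) hb' (D_conj hD ha hb')
  let q : Fin 6 → G := tab6 x a b
  have hinv : ∀ u, q u * q u = 1 := fun u => D_sq hD (hm u)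
  have L1 : ∀ v, q 1 * q v * q 1 = q (R6 1 v) := law6_x hxx haa s1 hab
  have L0 : ∀ v, q 0 * q v * q 0 = q (R6 0 v) := law6_a hxx haa s1 hab
  have L2 : ∀ v, q 2 * q v * q 2 = q (R6 2 v) := law6_b hxx haa hbb s1 s2 hab
  have L3 := law_step R6 q hinv L1 L0 (R6_id _ _)
  have L4 := law_step R6 q hinv L1 L2 (R6_id _ _)
  have L5 := law_step R6 q hinv L0 L4 (R6_id _ _)
  have e3 : R6 1 0 = 3 := by decide
  have e4 : R6 1 2 = 4 := by decide
  have e5 : R6 0 (R6 1 2) = 5 := by decide
  rw [e3] at L3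
  rw [e4] at L4
  rw [e5] at L5
  have hl : ∀ u v, q u * q v * q u = q (R6 u v) := fin6_all _ L0 L1 L2 L3 L4 L5
  have hax : a ≠ x := fun h => hxa (by rw [h])
  have hbx : b ≠ x := fun h => hxb (by rw [h])
  have hcancel : ∀ w : G, x * w * x = x → w = x := by
    intro w hw
    have := congrArg (fun z => x * z * x) hw
    simpa only [mul_assoc, ex, hxx, mul_one, one_mul] using this
  have hnx : ∀ t : Fin 6, t ≠ 1 → q t ≠ x := by
    refine fin6_all _ ?_ ?_ ?_ ?_ ?_ ?_
    · intro _
      exact hax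
    · intro h
      exact absurd rfl h
    · intro _
      exact hbx
    · intro _ h
      exact hax (hcancel _ h)
    · intro _ h
      exact hbx (hcancel _ h)
    · intro _ h
      have h3 : a * (x * b * x) * a = x := h
      have h4 : x * b * x = a * x * a := by
        calc x * b * x = a * (a * (x * b * x) * a) * a := by
              simp only [mul_assoc, ea, haa, mul_one]
          _ = a * x * a := by rw [h3]
      rw [← s1] at h4
      have h5 := congrArg (fun z => x * z * x) h4
      simp only [mul_assoc, ex, hxx, mul_one] at h5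
      exact hne h5.symm
  refine ⟨hm, hl, ?_⟩
  intro u v huv
  by_contra hne'
  obtain ⟨w₁, w₂, hw⟩ := R6_trans u v hne'
  have h1 : q (R6 w₂ (R6 w₁ u)) = q (R6 w₂ (R6 w₁ v)) := by
    have huv' : q u = q v := huv
    rw [← hl, ← hl, ← hl, ← hl, huv']
  rw [hw] at h1
  have h2 : R6 w₂ (R6 w₁ v) ≠ 1 := by
    intro h
    rw [← hw] at h
    have h3 : ∀ w₁ w₂ u v : Fin 6, R6 w₂ (R6 w₁ v) = R6 w₂ (R6 w₁ u) → v = u := by decide
    exact hne' (h3 _ _ _ _ h).symm
  exact hnx _ h2 h1.symm

/-- Conjugation by the product of a commuting pair. -/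
theorem swap_pair (hD : IsThreeTranspositionGroup D) {y p r : G} (hy : y ∈ D) (hp : p ∈ D) (hr : r ∈ D)
    (hyp : ¬ Commute y p) (hyr : ¬ Commute y r) (hpr : Commute p r) (hne : p ≠ r) :
    let c := (p * r) * y * (r * p)
    c ∈ D ∧ c ≠ y ∧ Commute y c := by
  intro c
  obtain ⟨hm, hl, hinj⟩ := six hD hy hp hr hyp hyr hpr hne
  have hc : c = tab6 y p r 5 := by
    show (p * r) * y * (r * p) = p * (y * r * y) * p
    rw [D_s3 hD hy hr hyr]
    simp only [mul_assoc]
  rw [hc]
  refine ⟨hm 5, fun h => ?_, ?_⟩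
  · have h1 : tab6 y p r 5 = tab6 y p r 1 := h
    exact absurd (hinj h1) (by decide)
  · have h1 := hl 1 5
    have h2 : tab6 y p r 1 * tab6 y p r 1 = 1 := D_sq hD hy
    have h3 : R6 1 5 = 5 := by decide
    rw [h3] at h1
    show y * tab6 y p r 5 = tab6 y p r 5 * y
    have h4 : tab6 y p r 1 = y := rfl
    rw [h4] at h1 h2
    calc y * tab6 y p r 5 = y * tab6 y p r 5 * y * y := by rw [mul_assoc _ y y, h2, mul_one]
      _ = tab6 y p r 5 * y := by rw [h1]

/-- The main theorem. -/
theorem main (hD : IsThreeTranspositionClass D) {d : G} (hd : d ∈ D)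
    (hV : {y : G | y ∈ D ∧ Commute d y} = {v : G | v ∈ D ∧ ∀ e ∈ D, Commute v e ↔ Commute d e})
    (hm : {y : G | y ∈ D ∧ Commute d y}.ncard = 2) : Nonempty (G ≃* Equiv.Perm (Fin 4)) := by
  classical
  obtain ⟨h3, ⟨d₀, hd₀, hcl⟩, hgen⟩ := hD
  have hconj : ∀ g : G, ∀ y ∈ D, g * y * g⁻¹ ∈ D := by
    intro g y hy
    rw [hcl] at hy ⊢
    exact IsConj.trans hy (isConj_iff.2 ⟨g, rfl⟩)
  have hcls : ∀ u ∈ D, ∀ v ∈ D, ∃ g : G, g * u * g⁻¹ = v := by
    intro u hu v hv
    rw [hcl] at hu hv
    exact isConj_iff.1 (IsConj.trans (IsConj.symm hu) hv)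
  have hD' : IsThreeTranspositionGroup D := ⟨h3, hconj, hgen⟩
  -- the partner of `d`
  obtain ⟨p₁, p₂, hp, hset⟩ := Set.ncard_eq_two.1 hm
  have hdmem : d ∈ {y : G | y ∈ D ∧ Commute d y} := ⟨hd, Commute.refl d⟩
  have hexe : ∃ e : G, e ∈ D ∧ e ≠ d ∧ Commute d e ∧ ∀ w ∈ D, Commute d w → w = d ∨ w = e := by
    rw [hset] at hdmem
    have hmem : ∀ w, w ∈ D ∧ Commute d w ↔ w = p₁ ∨ w = p₂ := by
      intro w
      have : w ∈ {y : G | y ∈ D ∧ Commute d y} ↔ w ∈ ({p₁, p₂} : Set G) := by rw [hset]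
      simpa using this
    rcases hdmem with h | h
    · have h' : d = p₁ := h
      obtain ⟨h1, h2⟩ := (hmem p₂).2 (Or.inr rfl)
      refine ⟨p₂, h1, fun h4 => hp (h'.symm.trans h4.symm), h2, fun w hw hc => ?_⟩
      rcases (hmem w).1 ⟨hw, hc⟩ with h4 | h4
      · exact Or.inl (h4.trans h'.symm)
      · exact Or.inr h4
    · have h' : d = p₂ := h
      obtain ⟨h1, h2⟩ := (hmem p₁).2 (Or.inl rfl)
      refine ⟨p₁, h1, fun h4 => hp (h4.trans h'), h2, fun w hw hc => ?_⟩
      rcases (hmem w).1 ⟨hw, hc⟩ with h4 | h4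
      · exact Or.inr h4
      · exact Or.inl (h4.trans h'.symm)
  obtain ⟨e, heD, hed, hde, heuniq⟩ := hexe
  have hVe : ∀ f ∈ D, Commute e f ↔ Commute d f := by
    have h1 : e ∈ {y : G | y ∈ D ∧ Commute d y} := ⟨heD, hde⟩
    rw [hV] at h1
    exact h1.2
  -- partners in general
  have hpart : ∀ y ∈ D, ∃ y' ∈ D, y' ≠ y ∧ Commute y y' ∧ (∀ w ∈ D, Commute y w → w = y ∨ w = y') ∧
      ∀ w ∈ D, Commute y' w ↔ Commute y w := by
    intro y hy
    obtain ⟨g, rfl⟩ := hcls d hd y hy
    refine ⟨g * e * g⁻¹, hconj g e heD, ?_, (conj_commute g d e).2 hde, ?_, ?_⟩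
    · intro h
      exact hed (mul_left_cancel (mul_right_cancel h))
    · intro w hw hc
      have hw' : g⁻¹ * w * g⁻¹⁻¹ ∈ D := hconj g⁻¹ w hw
      have hw2 : g * (g⁻¹ * w * g⁻¹⁻¹) * g⁻¹ = w := by group
      rw [← hw2] at hc
      have hc' := (conj_commute g d _).1 hc
      rcases heuniq _ hw' hc' with h | h
      · left
        rw [← hw2, h]
      · right
        rw [← hw2, h]
    · intro w hw
      have hw' : g⁻¹ * w * g⁻¹⁻¹ ∈ D := hconj g⁻¹ w hw
      have hw2 : g * (g⁻¹ * w * g⁻¹⁻¹) * g⁻¹ = w := by group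
      rw [← hw2, conj_commute, conj_commute]
      exact hVe _ hw'
  -- a non-commuting point
  have hexa : ∃ a ∈ D, ¬ Commute d a := by
    by_contra hcon
    push Not at hcon
    have h1 : Subgroup.closure D ≤ Subgroup.centralizer {d} := by
      rw [Subgroup.closure_le]
      intro w hw
      rw [SetLike.mem_coe, Subgroup.mem_centralizer_iff]
      intro h hh
      rw [Set.mem_singleton_iff] at hh
      rw [hh]
      exact hcon w hw
    obtain ⟨g, hg⟩ := hcls d hd e heD
    have h2 : g ∈ Subgroup.centralizer {d} := h1 (by rw [hgen]; exact Subgroup.mem_top g)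
    rw [Subgroup.mem_centralizer_iff] at h2
    have h4 := h2 d rfl
    rw [← h4] at hg
    apply hed
    rw [← hg]
    group
  obtain ⟨a, haD, hda⟩ := hexa
  obtain ⟨b, hbD, hba, hab, hauniq, haV⟩ := hpart a haD
  have hdb : ¬ Commute d b := by
    intro h
    rcases heuniq b hbD h with h1 | h1
    · rw [h1] at hab
      exact hda hab.symm
    · rw [h1] at hab
      have h2 := (hVe a haD).1 hab.symm
      exact hda h2
  obtain ⟨hm6, hl6, hinj6⟩ := six hD' hd haD hbD hda hdb hab hba.symm
  let q : Fin 6 → G := tab6 d a b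
  have hl : ∀ u v, q u * q v * q u = q (R6 u v) := hl6
  have hinj : Function.Injective q := hinj6
  have hm' : ∀ i, q i ∈ D := hm6
  have hq1 : q 1 = d := rfl
  have hq0 : q 0 = a := rfl
  have hq2 : q 2 = b := rfl
  have hinvq : ∀ i, q i * q i = 1 := fun i => D_sq hD' (hm' i)
  -- commuting pairs among the six
  have hcomm : ∀ i j, R6 i j = j → Commute (q i) (q j) := by
    intro i j hij
    have h1 := hl i j
    rw [hij] at h1
    show q i * q j = q j * q i
    calc q i * q j = q i * q j * q i * q i := by rw [mul_assoc _ (q i) (q i), hinvq, mul_one]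
      _ = q j * q i := by rw [h1]
  let pr : Fin 6 → Fin 6 := ![2, 5, 0, 4, 3, 1]
  have hpr1 : ∀ i, R6 i (pr i) = pr i := by decide
  have hpr2 : ∀ i, pr i ≠ i := by decide
  -- a further point commutes with none of the six
  have hout : ∀ y ∈ D, y ∉ Set.range q → ∀ i, ¬ Commute y (q i) := by
    intro y hy hyq i hc
    obtain ⟨y', hy'D, hy'ne, hy'c, huniq, -⟩ := hpart (q i) (hm' i)
    have h1 : q (pr i) = q i ∨ q (pr i) = y' := huniq _ (hm' _) (hcomm i _ (hpr1 i))
    have h2 : q (pr i) = y' := h1.resolve_left (fun h => hpr2 i (hinj h))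
    rcases huniq y hy hc.symm with h4 | h4
    · exact hyq ⟨i, h4.symm⟩
    · exact hyq ⟨pr i, h2.trans h4.symm⟩
  -- the identity between the products
  have hprod : (a * b) * (q 3 * q 4) = q 5 * d := by
    have h1 : q 3 * q 4 = d * (a * b) * d := by
      have hdd := D_sq hD' hd
      show (d * a * d) * (d * b * d) = d * (a * b) * d
      have ed : ∀ w, d * (d * w) = w := fun w => by rw [← mul_assoc, hdd, one_mul]
      simp only [mul_assoc, ed]
    have h2 : (a * b) * d * (a * b) = q 5 := by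
      show (a * b) * d * (a * b) = a * (d * b * d) * a
      rw [D_s3 hD' hd hbD hdb]
      have hab' : a * b = b * a := hab
      calc a * b * d * (a * b) = a * b * d * (b * a) := by rw [hab']
        _ = a * (b * d * b) * a := by simp only [mul_assoc]
    rw [h1]
    have hdd := D_sq hD' hd
    rw [← h2]
    simp only [mul_assoc]
  have hDeq : D = Set.range q := by
    apply Set.Subset.antisymm
    · intro y hy
      by_contra hyq
      obtain ⟨y', hy'D, hy'ne, hy'c, huniq, hV'⟩ := hpart y hy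
      have hn := hout y hy hyq
      have hn' : ∀ i, ¬ Commute y' (q i) := fun i h => hn i ((hV' _ (hm' i)).1 h)
      -- conjugation by the three products
      have hpairc : ∀ (w : G) (hw : w ∈ D) (hnw : ∀ i, ¬ Commute w (q i)) (i : Fin 6), 
          let c := (q i * q (pr i)) * w * (q (pr i) * q i)
          c ∈ D ∧ c ≠ w ∧ Commute w c := by
        intro w hw hnw i
        exact swap_pair hD' hw (hm' i) (hm' _) (hnw i) (hnw _) (hcomm i _ (hpr1 i))
          (fun h => hpr2 i (hinj h).symm)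
      have hsw : ∀ i, (q i * q (pr i)) * y * (q (pr i) * q i) = y' := by
        intro i
        obtain ⟨h1, h2, h4⟩ := hpairc y hy hn i
        exact (huniq _ h1 h4).resolve_left h2
      have hsw' : ∀ i, (q i * q (pr i)) * y' * (q (pr i) * q i) = y := by
        intro i
        obtain ⟨h1, h2, h4⟩ := hpairc y' hy'D hn' i
        have h5 := (hV' _ h1).1 h4
        exact (huniq _ h1 h5).resolve_right h2
      have e0 := hsw' 0
      have e3 := hsw 3
      have e5 := hsw 5
      have hp0 : pr 0 = 2 := rfl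
      have hp3 : pr 3 = 4 := rfl
      have hp5 : pr 5 = 1 := rfl
      rw [hp0, hq0, hq2] at e0
      rw [hp3] at e3
      rw [hp5, hq1] at e5
      have hi : ∀ i, (q i)⁻¹ = q i := fun i => D_inv hD' (hm' i)
      have hprod' : d * q 5 = (q 4 * q 3) * (b * a) := by
        have h1 := congrArg (fun z => z⁻¹) hprod
        simp only [mul_inv_rev, hi, D_inv hD' hd, D_inv hD' haD, D_inv hD' hbD] at h1
        rw [← h1]
      apply hy'ne
      calc y' = (q 5 * d) * y * (d * q 5) := e5.symm
        _ = ((a * b) * (q 3 * q 4)) * y * ((q 4 * q 3) * (b * a)) := by rw [hprod, hprod']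
        _ = (a * b) * ((q 3 * q 4) * y * (q 4 * q 3)) * (b * a) := by simp only [mul_assoc]
        _ = (a * b) * y' * (b * a) := by rw [e3]
        _ = y := e0
    · rintro _ ⟨i, rfl⟩
      exact hm' i
  -- the homomorphism from the symmetric group
  obtain ⟨cs, hcs⟩ := CfsgLib.H9.CoxA.main 3
  let f : Fin 3 → G := ![a, d, b]
  have hord3 : ∀ u ∈ D, ∀ v ∈ D, ¬ Commute u v → (u * v) ^ 3 = 1 := by
    intro u hu v hv hc
    have h1 := D_s3 hD' hu hv hc
    have h2 := D_sq hD' hu
    have h4 := D_sq hD' hv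
    have e : ∀ w, v * (v * w) = w := fun w => by rw [← mul_assoc, h4, one_mul]
    have e' : ∀ w, u * (u * w) = w := fun w => by rw [← mul_assoc, h2, one_mul]
    calc (u * v) ^ 3 = (u * v * u) * (v * u * v) := by
          simp only [pow_succ, pow_zero, one_mul, mul_assoc]
      _ = (v * u * v) * (v * u * v) := by rw [h1]
      _ = 1 := by simp only [mul_assoc, e, e', h2, h4, mul_one]
  have hda' : ¬ Commute a d := fun h => hda h.symm
  have hdb' : ¬ Commute d b := hdb
  have hbd' : ¬ Commute b d := fun h => hdb h.symm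
  have hlift : (CoxeterMatrix.A 3).IsLiftable f := by
    intro i j
    fin_cases i <;> fin_cases j
    · show (a * a) ^ 1 = 1
      rw [pow_one]
      exact D_sq hD' haD
    · show (a * d) ^ 3 = 1
      exact hord3 a haD d hd hda'
    · show (a * b) ^ 2 = 1
      rw [pow_two, show a * b = b * a from hab]
      calc b * a * (b * a) = b * (a * (b * a)) := by rw [mul_assoc]
        _ = b * (a * (a * b)) := by rw [show b * a = a * b from hab.symm]
        _ = 1 := by rw [← mul_assoc a a, D_sq hD' haD, one_mul, D_sq hD' hbD]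
    · show (d * a) ^ 3 = 1
      exact hord3 d hd a haD hda
    · show (d * d) ^ 1 = 1
      rw [pow_one]
      exact D_sq hD' hd
    · show (d * b) ^ 3 = 1
      exact hord3 d hd b hbD hdb
    · show (b * a) ^ 2 = 1
      rw [pow_two]
      calc b * a * (b * a) = b * (a * (b * a)) := by rw [mul_assoc]
        _ = b * (a * (a * b)) := by rw [show b * a = a * b from hab.symm]
        _ = 1 := by rw [← mul_assoc a a, D_sq hD' haD, one_mul, D_sq hD' hbD]
    · show (b * d) ^ 3 = 1
      exact hord3 b hbD d hd hbd'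
    · show (b * b) ^ 1 = 1
      rw [pow_one]
      exact D_sq hD' hbD
  let φ : Equiv.Perm (Fin 4) →* G := cs.lift ⟨f, hlift⟩
  have hφ : ∀ i, φ (cs.simple i) = f i := fun i => cs.lift_apply_simple hlift i
  have s0 : φ (Equiv.swap 0 1) = a := by
    have h1 := hφ 0
    rw [hcs] at h1
    exact h1
  have s1 : φ (Equiv.swap 1 2) = d := by
    have h1 := hφ 1
    rw [hcs] at h1
    exact h1
  have s2 : φ (Equiv.swap 2 3) = b := by
    have h1 := hφ 2
    rw [hcs] at h1
    exact h1
  have hsurj : Function.Surjective φ := by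
    have ha1 : a ∈ φ.range := ⟨_, s0⟩
    have hd1 : d ∈ φ.range := ⟨_, s1⟩
    have hb1 : b ∈ φ.range := ⟨_, s2⟩
    have hall : ∀ i, q i ∈ φ.range := by
      refine fin6_all _ ha1 hd1 hb1 ?_ ?_ ?_
      · exact φ.range.mul_mem (φ.range.mul_mem hd1 ha1) hd1
      · exact φ.range.mul_mem (φ.range.mul_mem hd1 hb1) hd1
      · exact φ.range.mul_mem (φ.range.mul_mem ha1 (φ.range.mul_mem (φ.range.mul_mem hd1 hb1) hd1)) ha1
    have h1 : Subgroup.closure D ≤ φ.range := by
      rw [Subgroup.closure_le, hDeq]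
      rintro _ ⟨i, rfl⟩
      exact hall i
    rw [hgen] at h1
    intro g
    exact h1 (Subgroup.mem_top g)
  have hinjφ : Function.Injective φ := by
    rw [injective_iff_map_eq_one]
    intro g hg
    by_contra hne
    obtain ⟨h₁, h₂, hh⟩ := s4_kernel g hne
    have h1 := congrArg φ hh
    simp only [map_mul, map_inv, hg, s0, s2, mul_one, mul_inv_cancel] at h1
    apply hba
    have h2 : a * b = 1 := h1.symm
    have h4 : b = a⁻¹ := eq_inv_of_mul_eq_one_right h2
    rw [h4, D_inv hD' haD]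
  exact ⟨(MulEquiv.ofBijective φ ⟨hinjφ, hsurj⟩).symm⟩

end CfsgLib.H9.Fischer3
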