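import Mathlib.Tactic
import Mathlib.GroupTheory.GroupAction.Jordan

/-! Multiple transitivity from a pointwise stabiliser. -/

namespace CfsgLib.H9

open MulAction SubMulAction

/-- If `G` is `m`-transitive, `s` has `m` points and the pointwise stabiliser of `s`
is `k`-transitive on the complement of `s`, then `G` is `(m + k)`-transitive. -/
theorem isMultiplyPretransitive_add_of_fixing {G α : Type*} [Group G] [MulAction G α]
    (s : Set α) (hfin : s.Finite) {m k : ℕ} (hs : s.ncard = m)
    (hm : IsMultiplyPretransitive G α m)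
    (hk : IsMultiplyPretransitive (fixingSubgroup G s) (ofFixingSubgroup G s) k) :
    IsMultiplyPretransitive G α (m + k) := by
  classical
  haveI : Finite s := hfin
  -- an enumeration of `s`
  have hcard : Nat.card s = m := by rw [← hs, Set.ncard]; rfl
  obtain ⟨e⟩ : Nonempty (Fin m ≃ s) := by
    apply Finite.card_eq.mp
    simp [hcard]
  let e' : Fin m ↪ α := e.toEmbedding.trans (Function.Embedding.subtype _)
  have he' : ∀ i, e' i ∈ s := fun i => (e i).2
  have he's : ∀ z ∈ s, ∃ i, e' i = z := fun z hz => ⟨e.symm ⟨z, hz⟩, by simp [e']⟩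
  -- normal form: every `(m+k)`-embedding is moved so that it starts with `e'`
  have normal : ∀ x : Fin (m + k) ↪ α, ∃ g : G, ∃ z : Fin k ↪ ofFixingSubgroup G s,
      (∀ i, g • x (Fin.castAdd k i) = e' i) ∧ (∀ i, g • x (Fin.natAdd m i) = (z i : α)) := by
    intro x
    let x₁ : Fin m ↪ α := (Fin.castAddEmb k).trans x
    obtain ⟨g, hg⟩ := hm.exists_smul_eq x₁ e'
    have hg' : ∀ i, g • x (Fin.castAdd k i) = e' i := fun i => by
      have := DFunLike.congr_fun hg i
      simpa [x₁] using this
    have hout : ∀ i, g • x (Fin.natAdd m i) ∉ s := by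
      intro i hi
      obtain ⟨j, hj⟩ := he's _ hi
      rw [← hg' j] at hj
      have h1 := MulAction.injective g hj
      have h2 := x.injective h1
      have h3 := congrArg Fin.val h2
      simp at h3
      omega
    refine ⟨g, ⟨fun i => ⟨g • x (Fin.natAdd m i), hout i⟩, ?_⟩, hg', fun i => rfl⟩
    intro i j hij
    have h1 : g • x (Fin.natAdd m i) = g • x (Fin.natAdd m j) := congrArg Subtype.val hij
    have h2 := x.injective (MulAction.injective g h1)
    exact Fin.natAdd_injective _ _ h2
  rw [isMultiplyPretransitive_iff]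
  intro x y
  obtain ⟨g, z, hg1, hg2⟩ := normal x
  obtain ⟨h, w, hh1, hh2⟩ := normal y
  obtain ⟨f, hf⟩ := hk.exists_smul_eq z w
  refine ⟨h⁻¹ * (f : G) * g, ?_⟩
  ext i
  have hif : ∀ a ∈ s, (f : G) • a = a := fun a ha => by
    have := f.2
    rw [mem_fixingSubgroup_iff] at this
    exact this a ha
  refine Fin.addCases (fun i => ?_) (fun i => ?_) i
  · change (h⁻¹ * (f : G) * g) • x (Fin.castAdd k i) = y (Fin.castAdd k i)
    rw [mul_smul, mul_smul, hg1, hif _ (he' i), inv_smul_eq_iff, hh1]
  · change (h⁻¹ * (f : G) * g) • x (Fin.natAdd m i) = y (Fin.natAdd m i)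
    rw [mul_smul, mul_smul, hg2, inv_smul_eq_iff, hh2]
    have := DFunLike.congr_fun hf i
    exact congrArg Subtype.val this

/-- If all pointwise stabilisers of `(k-1)`-sets are transitive on the complement and `k < n`,
then the action is `k`-transitive. -/
theorem isMultiplyPretransitive_of_fixing_transitive {G α : Type*} [Group G] [MulAction G α]
    [Fintype α] {k : ℕ} (hkn : k < Fintype.card α)
    (hA : ∀ Γ : Finset α, Γ.card + 1 = k → ∀ a b : α, a ∉ Γ → b ∉ Γ →
      ∃ g : G, (∀ x ∈ Γ, g • x = x) ∧ g • a = b) :
    IsMultiplyPretransitive G α k := by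
  classical
  have main : ∀ j : ℕ, j ≤ k → IsMultiplyPretransitive G α j := by
    intro j
    induction j with
    | zero => intro _; exact is_zero_pretransitive'
    | succ j ih =>
      intro hj
      have hjk := ih (by omega)
      obtain ⟨Γ₀, -, hΓ₀⟩ := Finset.exists_subset_card_eq (s := (Finset.univ : Finset α)) (n := j)
        (by rw [Finset.card_univ]; omega)
      have hncard : (Γ₀ : Set α).ncard = j := by rw [Set.ncard_coe_finset, hΓ₀]
      refine isMultiplyPretransitive_add_of_fixing (Γ₀ : Set α) (Finset.finite_toSet _) hncard hjk ?_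
      rw [is_one_pretransitive_iff]
      constructor
      rintro ⟨a, ha⟩ ⟨b, hb⟩
      have ha' : a ∉ Γ₀ := by simpa using (mem_ofFixingSubgroup_iff G).mp ha
      have hb' : b ∉ Γ₀ := by simpa using (mem_ofFixingSubgroup_iff G).mp hb
      -- enlarge `Γ₀` to a `(k-1)`-set avoiding `a`, `b`
      have hsub : Γ₀ ⊆ Finset.univ \ {a, b} := by
        intro x hx
        simp only [Finset.mem_sdiff, Finset.mem_univ, true_and, Finset.mem_insert,
          Finset.mem_singleton, not_or]
        exact ⟨fun h => ha' (h ▸ hx), fun h => hb' (h ▸ hx)⟩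
      have hcard : k - 1 ≤ (Finset.univ \ {a, b} : Finset α).card := by
        have h1 := Finset.le_card_sdiff ({a, b} : Finset α) (Finset.univ : Finset α)
        have h2 := Finset.card_le_two (a := a) (b := b)
        rw [Finset.card_univ] at h1
        omega
      obtain ⟨Γ, h1, h2, h3⟩ := Finset.exists_subsuperset_card_eq hsub (by omega) hcard
      have haΓ : a ∉ Γ := fun h => by
        have := h2 h
        simp at this
      have hbΓ : b ∉ Γ := fun h => by
        have := h2 h
        simp at this
      obtain ⟨g, hg1, hg2⟩ := hA Γ (by omega) a b haΓ hbΓ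
      refine ⟨⟨g, ?_⟩, Subtype.ext hg2⟩
      rw [mem_fixingSubgroup_iff]
      intro y hy
      exact hg1 y (h1 (by simpa using hy))
  exact main k le_rfl

/-- Stabiliser of a point in a pointwise stabiliser. -/
theorem card_stabilizer_fixingSubgroup {G α : Type*} [Group G] [MulAction G α] (s : Set α) (x : α) :
    Nat.card (stabilizer (fixingSubgroup G s) x) = Nat.card (fixingSubgroup G (insert x s)) := by
  apply Nat.card_congr
  refine ⟨fun g => ⟨(g : fixingSubgroup G s), ?_⟩, fun g => ⟨⟨g, ?_⟩, ?_⟩, ?_, ?_⟩
  · rw [mem_fixingSubgroup_iff]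
    rintro y (rfl | hy)
    · exact g.2
    · exact (mem_fixingSubgroup_iff G).mp (g : fixingSubgroup G s).2 y hy
  · rw [mem_fixingSubgroup_iff]
    intro y hy
    exact (mem_fixingSubgroup_iff G).mp g.2 y (Set.mem_insert_of_mem _ hy)
  · rw [mem_stabilizer_iff]
    exact (mem_fixingSubgroup_iff G).mp g.2 x (Set.mem_insert _ _)
  · intro g; rfl
  · intro g; rfl

/-- A number dividing the sizes of all orbits in an invariant set divides the size of the set. -/
theorem dvd_card_of_invariant {H X : Type*} [Group H] [Finite H] [MulAction H X] [Finite X]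
    (S : Set X) (hS : ∀ h : H, ∀ x ∈ S, h • x ∈ S) (d m : ℕ)
    (hm : ∀ x ∈ S, Nat.card (stabilizer H x) = m) (hd : d * m = Nat.card H) :
    d ∣ Nat.card S := by
  classical
  let T : SubMulAction H X := ⟨S, fun h {x} hx => hS h x hx⟩
  haveI : Finite (orbitRel.Quotient H T) := Quotient.finite _
  haveI : Fintype (orbitRel.Quotient H T) := Fintype.ofFinite _
  have hcard : Nat.card S = Nat.card T := rfl
  rw [hcard, Nat.card_congr (selfEquivSigmaOrbits H T), Nat.card_sigma]
  apply Finset.dvd_sum
  intro ω _
  set y := Quotient.out ω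
  have h1 : Nat.card (orbit H y) * Nat.card (stabilizer H y) = Nat.card H := by
    rw [← Subgroup.card_mul_index (stabilizer H y), MulAction.index_stabilizer,
      Nat.card_coe_set_eq, mul_comm]
  have h2 : Nat.card (stabilizer H y) = m := by
    have : stabilizer H y = stabilizer H (y : X) := by
      ext g
      simp only [mem_stabilizer_iff]
      constructor
      · intro h; exact congrArg Subtype.val h
      · intro h; exact Subtype.ext h
    rw [this]
    exact hm _ y.2
  rw [h2, ← hd] at h1
  have hmpos : 0 < m := by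
    rw [← h2]; exact Nat.card_pos
  have := Nat.eq_of_mul_eq_mul_right hmpos h1
  change d ∣ Nat.card (orbit H y)
  rw [this]

end CfsgLib.H9
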