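import Mathlib

/-!
Bruhat decomposition of `GL_n` by in-place elimination.
-/
set_option autoImplicit false
open scoped MatrixGroups

namespace CfsgLib.H9.FlagBruhat

open Matrix Finset

variable {F : Type*} [Field F] {n : ℕ}

/-- Invertible upper triangular matrices. -/
def Bhat (U : Matrix (Fin n) (Fin n) F) : Prop := U.det ≠ 0 ∧ U.BlockTriangular id

theorem Bhat.mul {U V : Matrix (Fin n) (Fin n) F} (hU : Bhat U) (hV : Bhat V) : Bhat (U * V) :=
  ⟨by rw [det_mul]; exact mul_ne_zero hU.1 hV.1, BlockTriangular.mul hU.2 hV.2⟩

theorem Bhat.one : Bhat (1 : Matrix (Fin n) (Fin n) F) :=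
  ⟨by simp, blockTriangular_one⟩

theorem step (A : Matrix (Fin n) (Fin n) F) (hA : A.det ≠ 0) (t : ℕ) (ht : t < n) (w : Fin n → Fin n)
    (h1 : ∀ i : Fin n, t + 1 ≤ i.val → ∀ k, A i k = if k = w i then 1 else 0)
    (h2 : ∀ i i' : Fin n, i.val < t + 1 → t + 1 ≤ i'.val → A i (w i') = 0) :
    ∃ (U V : Matrix (Fin n) (Fin n) F) (w' : Fin n → Fin n), Bhat U ∧ Bhat V ∧
      (∀ i : Fin n, t ≤ i.val → ∀ k, (U * A * V) i k = if k = w' i then 1 else 0) ∧
      (∀ i i' : Fin n, i.val < t → t ≤ i'.val → (U * A * V) i (w' i') = 0) := by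
  classical
  set T : Fin n := ⟨t, ht⟩ with hT
  have hne : (univ.filter fun k => A T k ≠ 0).Nonempty := by
    by_contra hemp
    rw [Finset.not_nonempty_iff_eq_empty, Finset.filter_eq_empty_iff] at hemp
    apply hA
    apply Matrix.det_eq_zero_of_row_eq_zero T
    intro k
    simpa using hemp (Finset.mem_univ k)
  obtain ⟨j, hj, hmin⟩ := Finset.exists_min_image _ (fun k : Fin n => k) hne
  have ha : A T j ≠ 0 := by simpa using hj
  set a := A T j with ha'
  have hlow : ∀ k, k < j → A T k = 0 := by
    intro k hk
    by_contra hk0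
    have := hmin k (by simpa using hk0)
    exact absurd hk (not_lt.mpr this)
  let x : Fin n → F := fun i => if i < T then -(A i j / a) else 0
  let d : Fin n → F := fun i => if i = T then a⁻¹ else 1
  let y : Fin n → F := fun k => if j < k then -(A T k / a) else 0
  let U : Matrix (Fin n) (Fin n) F := diagonal d + Matrix.of fun i l => if l = T then x i else 0
  let V : Matrix (Fin n) (Fin n) F := 1 + Matrix.of fun i k => if i = j then y k else 0
  have hU : ∀ i k, (U * A) i k = d i * A i k + x i * A T k := by
    intro i k
    have e : U * A = diagonal d * A + (Matrix.of fun i l => if l = T then x i else 0) * A :=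
      Matrix.add_mul _ _ _
    rw [e, Matrix.add_apply, diagonal_mul, Matrix.mul_apply]
    simp only [Matrix.of_apply, ite_mul, zero_mul, Finset.sum_ite_eq', Finset.mem_univ, if_true]
  have hV : ∀ (M : Matrix (Fin n) (Fin n) F) i k, (M * V) i k = M i k + M i j * y k := by
    intro M i k
    have e : M * V = M * 1 + M * (Matrix.of fun i k => if i = j then y k else 0) :=
      Matrix.mul_add _ _ _
    rw [e, Matrix.mul_one, Matrix.add_apply, Matrix.mul_apply]
    simp only [Matrix.of_apply, mul_ite, mul_zero, Finset.sum_ite_eq', Finset.mem_univ, if_true]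
  have hUup : U.BlockTriangular id := by
    intro i l hl
    simp only [id] at hl
    have hne : i ≠ l := ne_of_gt hl
    simp only [U, Matrix.add_apply, Matrix.of_apply, diagonal_apply_ne _ hne, zero_add]
    split_ifs with h
    · simp only [x]
      rw [if_neg]
      rw [← h]; exact not_lt.mpr hl.le
    · rfl
  have hVup : V.BlockTriangular id := by
    intro i k hl
    simp only [id] at hl
    have hne : i ≠ k := ne_of_gt hl
    simp only [V, Matrix.add_apply, Matrix.of_apply, Matrix.one_apply_ne hne, zero_add]
    split_ifs with h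
    · simp only [y]
      rw [if_neg]
      rw [← h]; exact not_lt.mpr hl.le
    · rfl
  have hUdet : U.det ≠ 0 := by
    rw [Matrix.det_of_upperTriangular hUup, Finset.prod_ne_zero_iff]
    intro i _
    simp only [U, Matrix.add_apply, Matrix.of_apply, diagonal_apply_eq]
    by_cases h : i = T
    · subst h
      simp [d, x, ha]
    · simp [d, h]
  have hVdet : V.det ≠ 0 := by
    rw [Matrix.det_of_upperTriangular hVup, Finset.prod_ne_zero_iff]
    intro i _
    simp only [V, Matrix.add_apply, Matrix.of_apply, Matrix.one_apply_eq]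
    by_cases h : i = j
    · subst h
      simp [y]
    · simp [h]
  -- column `j`
  have hTle : ∀ i : Fin n, t + 1 ≤ i.val → T < i := fun i hi => by
    rw [Fin.lt_def]; simpa [hT] using hi
  have hcolA : ∀ i : Fin n, t + 1 ≤ i.val → A i j = 0 := by
    intro i hi
    rw [h1 i hi, if_neg]
    intro e
    have := h2 T i (by simp [hT]) hi
    rw [← e] at this
    exact ha this
  have hcol : ∀ i, (U * A) i j = if i = T then 1 else 0 := by
    intro i
    rw [hU]
    rcases lt_trichotomy i T with h | h | h
    · have hne : i ≠ T := ne_of_lt h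
      simp only [x, d, if_neg hne, if_pos h, ← ha']
      field_simp
      ring
    · subst h
      simp only [d, x, if_true, lt_irrefl, if_false, ← ha']
      field_simp
      simp
    · have hne : i ≠ T := ne_of_gt h
      have hi : t + 1 ≤ i.val := by
        have : T.val < i.val := h
        simpa [hT] using this
      simp only [x, d, if_neg hne, if_neg (not_lt.mpr h.le), hcolA i hi]
      simp
  have hmain : ∀ i k, i ≠ T → (U * A * V) i k = (U * A) i k := by
    intro i k hi
    rw [hV, hcol, if_neg hi]
    simp
  have hrowT : ∀ k, (U * A * V) T k = if k = j then 1 else 0 := by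
    intro k
    rw [hV, hcol, if_pos rfl, hU]
    simp only [d, x, if_true, lt_irrefl, if_false, y]
    rcases lt_trichotomy k j with h | h | h
    · rw [hlow k h, if_neg (ne_of_lt h), if_neg (not_lt.mpr h.le)]
      simp
    · subst h
      rw [if_pos rfl, if_neg (lt_irrefl _), ← ha']
      field_simp
      simp
    · rw [if_neg (ne_of_gt h), if_pos h]
      field_simp
      ring
  refine ⟨U, V, Function.update w T j, ⟨hUdet, hUup⟩, ⟨hVdet, hVup⟩, ?_, ?_⟩
  · intro i hi k
    by_cases hiT : i = T
    · subst hiT
      simp only [Function.update_self]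
      exact hrowT k
    · rw [hmain i k hiT, hU]
      have hi' : t + 1 ≤ i.val := by
        have : i.val ≠ t := fun e => hiT (Fin.ext (by simpa [hT] using e))
        omega
      have hlt : T < i := hTle i hi'
      simp only [x, d, if_neg hiT, if_neg (not_lt.mpr hlt.le), Function.update_of_ne hiT]
      rw [h1 i hi']
      simp
  · intro i i' hi hi'
    have hiT : i ≠ T := fun e => by
      rw [e] at hi
      simp [hT] at hi
    by_cases hi'T : i' = T
    · subst hi'T
      simp only [Function.update_self]
      rw [hmain i j hiT, hcol, if_neg hiT]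
    · simp only [Function.update_of_ne hi'T]
      have hi'' : t + 1 ≤ i'.val := by
        have : i'.val ≠ t := fun e => hi'T (Fin.ext (by simpa [hT] using e))
        omega
      rw [hmain i _ hiT, hU, h2 i i' (by omega) hi'', h2 T i' (by simp [hT]) hi'']
      simp

theorem bruhat_mat (A : Matrix (Fin n) (Fin n) F) (hA : A.det ≠ 0) :
    ∃ (U V : Matrix (Fin n) (Fin n) F) (w : Fin n → Fin n), Bhat U ∧ Bhat V ∧
      ∀ i k, (U * A * V) i k = if k = w i then 1 else 0 := by
  classical
  have key : ∀ s, s ≤ n → ∃ (U V : Matrix (Fin n) (Fin n) F) (w : Fin n → Fin n), Bhat U ∧ Bhat V ∧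
      (∀ i : Fin n, n - s ≤ i.val → ∀ k, (U * A * V) i k = if k = w i then 1 else 0) ∧
      (∀ i i' : Fin n, i.val < n - s → n - s ≤ i'.val → (U * A * V) i (w i') = 0) := by
    intro s
    induction s with
    | zero =>
      intro _
      refine ⟨1, 1, id, Bhat.one, Bhat.one, ?_, ?_⟩
      · intro i hi
        have := i.isLt
        omega
      · intro i i' _ hi'
        have := i'.isLt
        omega
    | succ s ih =>
      intro hs
      obtain ⟨U, V, w, hU, hV, h1, h2⟩ := ih (by omega)
      have hdet : (U * A * V).det ≠ 0 := by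
        rw [det_mul, det_mul]
        exact mul_ne_zero (mul_ne_zero hU.1 hA) hV.1
      have ht : n - (s + 1) + 1 = n - s := by omega
      obtain ⟨U', V', w', hU', hV', h1', h2'⟩ := step (U * A * V) hdet (n - (s + 1)) (by omega) w
        (by rw [ht]; exact h1) (by rw [ht]; exact h2)
      refine ⟨U' * U, V * V', w', hU'.mul hU, hV.mul hV', ?_, ?_⟩
      · intro i hi k
        have := h1' i hi k
        rw [← this]
        simp only [Matrix.mul_assoc]
      · intro i i' hi hi'
        have := h2' i i' hi hi'
        rw [← this]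
        simp only [Matrix.mul_assoc]
  obtain ⟨U, V, w, hU, hV, h1, -⟩ := key n le_rfl
  exact ⟨U, V, w, hU, hV, fun i k => h1 i (by omega) k⟩

end CfsgLib.H9.FlagBruhat
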