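import Mathlib
import Cfsg.Prelude.Def_LinearParabolics
import Cfsg.Agent.Lib.H9.FlagBruhat

/-!
Double cosets of parabolic subgroups of `GL_n` and of Young subgroups of `S_n`.
-/
set_option autoImplicit false
open scoped MatrixGroups

namespace CfsgLib.H9.FlagOrb

open Matrix Finset
open CfsgLib.H9.FlagBruhat

section generic

variable {G : Type*} [Group G]

/-- The double coset relation. -/
def dc (H K : Subgroup G) : Setoid G where
  r a b := ∃ h ∈ H, ∃ k ∈ K, b = h * a * k
  iseqv := ⟨fun a => ⟨1, H.one_mem, 1, K.one_mem, by simp⟩,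
    fun {a b} ⟨h, hh, k, hk, e⟩ => ⟨h⁻¹, H.inv_mem hh, k⁻¹, K.inv_mem hk, by rw [e]; group⟩,
    fun {a b c} ⟨h, hh, k, hk, e⟩ ⟨h', hh', k', hk', e'⟩ =>
      ⟨h' * h, H.mul_mem hh' hh, k * k', K.mul_mem hk hk', by rw [e', e]; group⟩⟩

theorem card_orbits (H K : Subgroup G) :
    Nat.card (MulAction.orbitRel.Quotient G ((G ⧸ H) × (G ⧸ K))) = Nat.card (Quotient (dc H K)) := by
  symm
  let f : Quotient (dc H K) → MulAction.orbitRel.Quotient G ((G ⧸ H) × (G ⧸ K)) :=
    Quotient.lift (fun g : G => Quotient.mk (MulAction.orbitRel G ((G ⧸ H) × (G ⧸ K)))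
        (((1 : G) : G ⧸ H), ((g : G) : G ⧸ K))) (by
      rintro a b ⟨h, hh, k, hk, rfl⟩
      apply Quotient.sound
      change _ ∈ MulAction.orbit G _
      refine ⟨h⁻¹, ?_⟩
      simp only [Prod.smul_mk]
      ext
      · change ((h⁻¹ * 1 : G) : G ⧸ H) = _
        rw [QuotientGroup.eq]
        simpa using hh
      · change ((h⁻¹ * (h * a * k) : G) : G ⧸ K) = _
        rw [QuotientGroup.eq]
        have e : (h⁻¹ * (h * a * k))⁻¹ * a = k⁻¹ := by group
        rw [e]
        exact K.inv_mem hk)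
  apply Nat.card_congr
  refine Equiv.ofBijective f ⟨?_, ?_⟩
  · intro x y
    induction x using Quotient.inductionOn with | _ a => ?_
    induction y using Quotient.inductionOn with | _ b => ?_
    intro hxy
    have h2 := Quotient.exact hxy
    obtain ⟨x, hx⟩ : (((1 : G) : G ⧸ H), ((a : G) : G ⧸ K)) ∈ MulAction.orbit G
        (((1 : G) : G ⧸ H), ((b : G) : G ⧸ K)) := h2
    simp only [Prod.smul_mk, Prod.mk.injEq] at hx
    obtain ⟨h1, h3⟩ := hx
    have hxH : x ∈ H := by
      have : ((x * 1 : G) : G ⧸ H) = ((1 : G) : G ⧸ H) := h1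
      rw [QuotientGroup.eq] at this
      simpa using H.inv_mem this
    have hk : (x * b)⁻¹ * a ∈ K := by
      have : ((x * b : G) : G ⧸ K) = ((a : G) : G ⧸ K) := h3
      rw [QuotientGroup.eq] at this
      exact this
    apply Quotient.sound
    refine ⟨x⁻¹, H.inv_mem hxH, ((x * b)⁻¹ * a)⁻¹, K.inv_mem hk, ?_⟩
    group
  · intro y
    induction y using Quotient.inductionOn with | _ y => ?_
    obtain ⟨a, b⟩ := y
    induction a using QuotientGroup.induction_on with | _ a => ?_
    induction b using QuotientGroup.induction_on with | _ b => ?_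
    refine ⟨Quotient.mk _ (a⁻¹ * b), ?_⟩
    apply Quotient.sound
    change _ ∈ MulAction.orbit G _
    refine ⟨a⁻¹, ?_⟩
    simp only [Prod.smul_mk]
    ext
    · change ((a⁻¹ * a : G) : G ⧸ H) = _
      simp
    · change ((a⁻¹ * b : G) : G ⧸ K) = _
      rfl

theorem card_fixedBy_prod (H K : Subgroup G) (g : G) :
    Nat.card (MulAction.fixedBy ((G ⧸ H) × (G ⧸ K)) g) =
      Nat.card (MulAction.fixedBy (G ⧸ H) g) * Nat.card (MulAction.fixedBy (G ⧸ K) g) := by
  rw [← Nat.card_prod]
  apply Nat.card_congr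
  refine ⟨fun x => (⟨x.1.1, ?_⟩, ⟨x.1.2, ?_⟩), fun y => ⟨(y.1.1, y.2.1), ?_⟩, ?_, ?_⟩
  · have := x.2
    rw [MulAction.mem_fixedBy] at this ⊢
    exact congrArg Prod.fst this
  · have := x.2
    rw [MulAction.mem_fixedBy] at this ⊢
    exact congrArg Prod.snd this
  · rw [MulAction.mem_fixedBy]
    have h1 := y.1.2
    have h2 := y.2.2
    rw [MulAction.mem_fixedBy] at h1 h2
    exact Prod.ext h1 h2
  · intro x; rfl
  · intro y; rfl

theorem char_sum [Fintype G] (H K : Subgroup G) :
    (Nat.card G : ℂ)⁻¹ * ∑ g : G, Cfsg.fixedPointCharacter H g * Cfsg.fixedPointCharacter K g =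
      (Nat.card (Quotient (dc H K)) : ℂ) := by
  classical
  haveI : Fintype ((G ⧸ H) × (G ⧸ K)) := Fintype.ofFinite _
  haveI : ∀ g : G, Fintype (MulAction.fixedBy ((G ⧸ H) × (G ⧸ K)) g) := fun g => Fintype.ofFinite _
  haveI : Fintype (MulAction.orbitRel.Quotient G ((G ⧸ H) × (G ⧸ K))) := Fintype.ofFinite _
  have burn := MulAction.sum_card_fixedBy_eq_card_orbits_mul_card_group G ((G ⧸ H) × (G ⧸ K))
  simp only [← Nat.card_eq_fintype_card] at burn
  rw [card_orbits] at burn
  have hG : (Nat.card G : ℂ) ≠ 0 := by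
    exact_mod_cast Nat.card_pos.ne'
  have h2 : ∑ g : G, Cfsg.fixedPointCharacter H g * Cfsg.fixedPointCharacter K g =
      ((∑ g : G, Nat.card (MulAction.fixedBy ((G ⧸ H) × (G ⧸ K)) g) : ℕ) : ℂ) := by
    push_cast
    refine Finset.sum_congr rfl fun g _ => ?_
    rw [card_fixedBy_prod]
    simp [Cfsg.fixedPointCharacter]
  rw [h2, burn]
  push_cast
  field_simp

end generic

variable {F : Type*} [Field F] {n : ℕ}

/-- Permutation matrices. -/
def W : Equiv.Perm (Fin n) →* GL (Fin n) F :=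
  MonoidHom.toHomUnits
    { toFun := fun σ => Matrix.of fun i j => if i = σ j then (1 : F) else 0
      map_one' := by
        ext i j
        by_cases h : i = j <;> simp [Matrix.one_apply, h]
      map_mul' := by
        intro σ τ
        ext i j
        by_cases h : i = σ (τ j) <;> simp [Matrix.mul_apply, h] }

theorem W_apply (σ : Equiv.Perm (Fin n)) (i j : Fin n) :
    ((W σ : GL (Fin n) F) : Matrix (Fin n) (Fin n) F) i j = if i = σ j then (1 : F) else 0 := rfl

theorem W_mulVec (σ : Equiv.Perm (Fin n)) (v : Fin n → F) (i : Fin n) :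
    (((W σ : GL (Fin n) F) : Matrix (Fin n) (Fin n) F) *ᵥ v) i = v (σ⁻¹ i) := by
  simp only [Matrix.mulVec, dotProduct, W_apply, ite_mul, one_mul, zero_mul]
  rw [Finset.sum_eq_single (σ⁻¹ i)]
  · simp
  · intro b _ hb
    rw [if_neg]
    intro e
    apply hb
    rw [e]
    simp
  · simp

theorem W_mem (μ : Fin n → ℕ) {σ : Equiv.Perm (Fin n)} (hσ : σ ∈ Cfsg.youngSubgroup μ) :
    W σ ∈ Cfsg.parabolicGL n F μ := by
  intro i j hij
  rw [W_apply, if_neg]
  intro e
  have := hσ j
  rw [← e] at this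
  omega

theorem compLabel_mono (μ : Fin n → ℕ) : Monotone (Cfsg.compLabel μ) := by
  intro i j hij
  apply Finset.card_le_card
  intro k hk
  simp only [Finset.mem_filter, Finset.mem_univ, true_and] at hk ⊢
  exact hk.trans hij

theorem bt_of_id (μ : Fin n → ℕ) {U : Matrix (Fin n) (Fin n) F} (hU : U.BlockTriangular id) :
    U.BlockTriangular (Cfsg.compLabel μ) := by
  intro i j hij
  apply hU
  by_contra h
  have : i ≤ j := not_lt.mp (by simpa using h)
  have := compLabel_mono μ this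
  omega

/-- Every element of `GL_n` lies in a double coset of a permutation matrix. -/
theorem exists_W (ν μ : Fin n → ℕ) (g : GL (Fin n) F) :
    ∃ σ : Equiv.Perm (Fin n), (dc (Cfsg.parabolicGL n F ν) (Cfsg.parabolicGL n F μ)).r (W σ) g := by
  classical
  have hgdet : (g : Matrix (Fin n) (Fin n) F).det ≠ 0 := by
    have := (Matrix.isUnit_iff_isUnit_det _).mp g.isUnit
    exact this.ne_zero
  obtain ⟨U, V, w, hU, hV, h⟩ := bruhat_mat (g : Matrix (Fin n) (Fin n) F) hgdet
  have hdet : (U * (g : Matrix (Fin n) (Fin n) F) * V).det ≠ 0 := by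
    rw [det_mul, det_mul]
    exact mul_ne_zero (mul_ne_zero hU.1 hgdet) hV.1
  have hinj : Function.Injective w := by
    intro i i' hii'
    by_contra hne
    apply hdet
    apply Matrix.det_zero_of_row_eq hne
    ext k
    rw [h, h, hii']
  have hbij : Function.Bijective w := Finite.injective_iff_bijective.mp hinj
  let σ : Equiv.Perm (Fin n) := Equiv.ofBijective w hbij
  let Ug : GL (Fin n) F := Matrix.nonsingInvUnit U (isUnit_iff_ne_zero.mpr hU.1)
  let Vg : GL (Fin n) F := Matrix.nonsingInvUnit V (isUnit_iff_ne_zero.mpr hV.1)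
  have hUg : Ug ∈ Cfsg.parabolicGL n F ν := bt_of_id ν hU.2
  have hVg : Vg ∈ Cfsg.parabolicGL n F μ := bt_of_id μ hV.2
  have key : Ug * g * Vg = W σ⁻¹ := by
    apply Units.ext
    ext i k
    change (U * (g : Matrix (Fin n) (Fin n) F) * V) i k = _
    rw [h, W_apply]
    have : (k = w i) ↔ (i = σ⁻¹ k) := by
      constructor
      · intro e
        rw [e]
        change i = σ⁻¹ (σ i)
        simp
      · intro e
        rw [e]
        change k = σ (σ⁻¹ k)
        simp
    simp only [this]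
  refine ⟨σ⁻¹, Ug⁻¹, inv_mem hUg, Vg⁻¹, inv_mem hVg, ?_⟩
  rw [← key]
  group

/-- Vectors supported on positions with label `< a`. -/
def VV (L : Fin n → ℕ) (a : ℕ) : Set (Fin n → F) := {v | ∀ i, a ≤ L i → v i = 0}

theorem VV_pres {L : Fin n → ℕ} {a : ℕ} {p : Matrix (Fin n) (Fin n) F} (hp : p.BlockTriangular L)
    {v : Fin n → F} (hv : v ∈ VV L a) : p *ᵥ v ∈ VV L a := by
  intro i hi
  simp only [Matrix.mulVec, dotProduct]
  apply Finset.sum_eq_zero
  intro j _
  by_cases h : a ≤ L j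
  · rw [hv j h, mul_zero]
  · rw [hp (by omega : L j < L i), zero_mul]

theorem VV_iff {L : Fin n → ℕ} {a : ℕ} {p : GL (Fin n) F}
    (hp : (p : Matrix (Fin n) (Fin n) F).BlockTriangular L)
    (hp' : ((p⁻¹ : GL (Fin n) F) : Matrix (Fin n) (Fin n) F).BlockTriangular L)
    (v : Fin n → F) : ((p : Matrix (Fin n) (Fin n) F) *ᵥ v) ∈ VV L a ↔ v ∈ VV L a := by
  constructor
  · intro h
    have := VV_pres hp' h
    rwa [Matrix.mulVec_mulVec, ← Units.val_mul, inv_mul_cancel, Units.val_one, Matrix.one_mulVec] at this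
  · exact VV_pres hp

/-- The number of vectors in `V_a ∩ g V'_b`. -/
noncomputable def NN (L L' : Fin n → ℕ) (g : GL (Fin n) F) (a b : ℕ) : ℕ :=
  Nat.card {v : Fin n → F // v ∈ VV L a ∧ ((g⁻¹ : GL (Fin n) F) : Matrix (Fin n) (Fin n) F) *ᵥ v ∈ VV L' b}

/-- Left multiplication by an invertible matrix on vectors. -/
def vecEquiv (p : GL (Fin n) F) : (Fin n → F) ≃ (Fin n → F) where
  toFun v := ((p⁻¹ : GL (Fin n) F) : Matrix (Fin n) (Fin n) F) *ᵥ v
  invFun v := (p : Matrix (Fin n) (Fin n) F) *ᵥ v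
  left_inv v := by
    simp only [Matrix.mulVec_mulVec, ← Units.val_mul, mul_inv_cancel, Units.val_one, Matrix.one_mulVec]
  right_inv v := by
    simp only [Matrix.mulVec_mulVec, ← Units.val_mul, inv_mul_cancel, Units.val_one, Matrix.one_mulVec]

theorem NN_inv {L L' : Fin n → ℕ} {p p' g : GL (Fin n) F}
    (hp : (p : Matrix (Fin n) (Fin n) F).BlockTriangular L)
    (hpi : ((p⁻¹ : GL (Fin n) F) : Matrix (Fin n) (Fin n) F).BlockTriangular L)
    (hp' : (p' : Matrix (Fin n) (Fin n) F).BlockTriangular L')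
    (hpi' : ((p'⁻¹ : GL (Fin n) F) : Matrix (Fin n) (Fin n) F).BlockTriangular L') (a b : ℕ) :
    NN L L' (p * g * p') a b = NN L L' g a b := by
  apply Nat.card_congr
  refine Equiv.subtypeEquiv (vecEquiv p) ?_
  intro v
  have e1 : ((p * g * p')⁻¹ : GL (Fin n) F) = p'⁻¹ * (g⁻¹ * p⁻¹) := by group
  have e2 : (((p * g * p')⁻¹ : GL (Fin n) F) : Matrix (Fin n) (Fin n) F) *ᵥ v =
      ((p'⁻¹ : GL (Fin n) F) : Matrix (Fin n) (Fin n) F) *ᵥ
        (((g⁻¹ : GL (Fin n) F) : Matrix (Fin n) (Fin n) F) *ᵥ (vecEquiv p v)) := by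
    rw [e1, Units.val_mul, Units.val_mul, ← Matrix.mulVec_mulVec, ← Matrix.mulVec_mulVec]
    rfl
  rw [e2]
  have h3 := VV_iff (L := L') (a := b) hpi' (by simpa using hp')
    (((g⁻¹ : GL (Fin n) F) : Matrix (Fin n) (Fin n) F) *ᵥ (vecEquiv p v))
  have h4 := VV_iff (L := L) (a := a) hpi (by simpa using hp) v
  rw [h3]
  change _ ↔ ((p⁻¹ : GL (Fin n) F) : Matrix (Fin n) (Fin n) F) *ᵥ v ∈ VV L a ∧ _
  rw [h4]

theorem card_vanish [Fintype F] (S : Finset (Fin n)) :
    Nat.card {v : Fin n → F // ∀ i, i ∉ S → v i = 0} = Fintype.card F ^ S.card := by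
  classical
  have e : {v : Fin n → F // ∀ i, i ∉ S → v i = 0} ≃ (S → F) :=
    { toFun := fun v i => v.1 i
      invFun := fun f => ⟨fun i => if h : i ∈ S then f ⟨i, h⟩ else 0, fun i hi => by simp [hi]⟩
      left_inv := by
        rintro ⟨v, hv⟩
        ext i
        by_cases h : i ∈ S
        · simp [h]
        · simp [h, hv i h]
      right_inv := by
        intro f
        ext i
        simp }
  rw [Nat.card_congr e, Nat.card_eq_fintype_card, Fintype.card_fun]
  simp

/-- The rank table of a permutation. -/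
def TT (L L' : Fin n → ℕ) (σ : Equiv.Perm (Fin n)) (a b : ℕ) : ℕ :=
  (univ.filter fun j : Fin n => L (σ j) < a ∧ L' j < b).card

theorem NN_W [Fintype F] (L L' : Fin n → ℕ) (σ : Equiv.Perm (Fin n)) (a b : ℕ) :
    NN L L' (W σ : GL (Fin n) F) a b = Fintype.card F ^ TT L L' σ a b := by
  classical
  have h1 : TT L L' σ a b = (univ.filter fun i : Fin n => L i < a ∧ L' (σ⁻¹ i) < b).card := by
    unfold TT
    refine Finset.card_bij (fun j _ => σ j) ?_ ?_ ?_
    · intro j hj
      simpa using hj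
    · intro x _ y _ h
      exact σ.injective h
    · intro i hi
      refine ⟨σ⁻¹ i, ?_, by simp⟩
      simpa using hi
  rw [h1, ← card_vanish]
  unfold NN
  apply Nat.card_congr
  refine Equiv.subtypeEquivRight ?_
  intro v
  rw [← map_inv]
  constructor
  · rintro ⟨h2, h3⟩ i hi
    simp only [Finset.mem_filter, Finset.mem_univ, true_and, not_and_or, not_lt] at hi
    rcases hi with hi | hi
    · exact h2 i hi
    · have := h3 _ hi
      rw [W_mulVec] at this
      simpa using this
  · intro h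
    refine ⟨fun i hi => h i (by simp; omega), fun j hj => ?_⟩
    rw [W_mulVec]
    apply h
    simp
    intro _
    simpa using hj

theorem contingency (L L' : Fin n → ℕ) (σ : Equiv.Perm (Fin n)) (a b : ℕ) :
    (univ.filter fun j : Fin n => L (σ j) = a ∧ L' j = b).card + TT L L' σ a (b + 1) + TT L L' σ (a + 1) b =
      TT L L' σ (a + 1) (b + 1) + TT L L' σ a b := by
  classical
  unfold TT
  simp only [Finset.card_filter]
  rw [← Finset.sum_add_distrib, ← Finset.sum_add_distrib, ← Finset.sum_add_distrib]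
  refine Finset.sum_congr rfl fun j _ => ?_
  split_ifs <;> omega

theorem exists_perm_of_TT (L L' : Fin n → ℕ) (σ τ : Equiv.Perm (Fin n))
    (h : ∀ a b, TT L L' σ a b = TT L L' τ a b) :
    ∃ β : Equiv.Perm (Fin n), ∀ j, L (τ (β j)) = L (σ j) ∧ L' (β j) = L' j := by
  classical
  have hc : ∀ a b, (univ.filter fun j : Fin n => L (σ j) = a ∧ L' j = b).card =
      (univ.filter fun j : Fin n => L (τ j) = a ∧ L' j = b).card := by
    intro a b
    have h1 := contingency L L' σ a b
    have h2 := contingency L L' τ a b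
    simp only [h] at h1
    omega
  have hfib : ∀ y : ℕ × ℕ, Fintype.card {j : Fin n // (L (σ j), L' j) = y} =
      Fintype.card {j : Fin n // (L (τ j), L' j) = y} := by
    rintro ⟨a, b⟩
    rw [Fintype.card_subtype, Fintype.card_subtype]
    simpa only [Prod.mk.injEq] using hc a b
  let β : Equiv.Perm (Fin n) := Equiv.ofFiberEquiv (f := fun j => (L (σ j), L' j))
    (g := fun j => (L (τ j), L' j)) (fun y => Fintype.equivOfCardEq (hfib y))
  refine ⟨β, fun j => ?_⟩
  have := Equiv.ofFiberEquiv_map (f := fun j => (L (σ j), L' j))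
    (g := fun j => (L (τ j), L' j)) (fun y => Fintype.equivOfCardEq (hfib y)) j
  exact Prod.ext_iff.mp this

theorem dc_of_TT (ν μ : Fin n → ℕ) (σ τ : Equiv.Perm (Fin n))
    (h : ∀ a b, TT (Cfsg.compLabel ν) (Cfsg.compLabel μ) σ a b =
      TT (Cfsg.compLabel ν) (Cfsg.compLabel μ) τ a b) :
    (dc (Cfsg.youngSubgroup ν) (Cfsg.youngSubgroup μ)).r σ τ := by
  obtain ⟨β, hβ⟩ := exists_perm_of_TT _ _ σ τ h
  refine ⟨τ * β * σ⁻¹, ?_, β⁻¹, ?_, by group⟩
  · intro i
    have := (hβ (σ⁻¹ i)).1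
    simpa using this
  · have hb : β ∈ Cfsg.youngSubgroup μ := fun j => (hβ j).2
    exact inv_mem hb

/-- The main comparison. -/
theorem card_dc [Fintype F] (ν μ : Fin n → ℕ) :
    Nat.card (Quotient (dc (Cfsg.parabolicGL n F ν) (Cfsg.parabolicGL n F μ))) =
      Nat.card (Quotient (dc (Cfsg.youngSubgroup ν) (Cfsg.youngSubgroup μ))) := by
  symm
  let f : Quotient (dc (Cfsg.youngSubgroup ν) (Cfsg.youngSubgroup μ)) →
      Quotient (dc (Cfsg.parabolicGL n F ν) (Cfsg.parabolicGL n F μ)) :=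
    Quotient.lift (fun σ => Quotient.mk _ (W σ : GL (Fin n) F)) (by
      rintro σ τ ⟨h, hh, k, hk, rfl⟩
      apply Quotient.sound
      refine ⟨W h, W_mem ν hh, W k, W_mem μ hk, ?_⟩
      simp only [map_mul])
  apply Nat.card_congr
  refine Equiv.ofBijective f ⟨?_, ?_⟩
  · intro x y
    induction x using Quotient.inductionOn with | _ σ => ?_
    induction y using Quotient.inductionOn with | _ τ => ?_
    intro hxy
    obtain ⟨p, hp, p', hp', e⟩ := Quotient.exact hxy
    apply Quotient.sound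
    apply dc_of_TT
    intro a b
    have hq : 2 ≤ Fintype.card F := Fintype.one_lt_card
    apply Nat.pow_right_injective hq
    change Fintype.card F ^ _ = Fintype.card F ^ _
    rw [← NN_W (F := F), ← NN_W (F := F)]
    rw [e]
    exact (NN_inv hp (inv_mem hp) hp' (inv_mem hp') a b).symm
  · intro y
    induction y using Quotient.inductionOn with | _ g => ?_
    obtain ⟨σ, hσ⟩ := exists_W (F := F) ν μ g
    exact ⟨Quotient.mk _ σ, Quotient.sound hσ⟩

end CfsgLib.H9.FlagOrb
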