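import Mathlib

/-!
Jordan chains for nilpotent endomorphisms: existence, uniqueness of the shape, similarity.
-/
set_option autoImplicit false

namespace CfsgLib.H9.Jordan

open Finset Module

universe u

variable {F : Type u} [Field F]

section Chain

variable {V : Type u} [AddCommGroup V] [Module F V]

/-- Chain data for a nilpotent endomorphism: the vectors `N^a (v k)`, `a < d k`, form a basis and
`N^(d k) (v k) = 0`. -/
structure IsChain {ι : Type} [Fintype ι] (N : End F V) (v : ι → V) (d : ι → ℕ) : Prop where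
  pos : ∀ k, 0 < d k
  kill : ∀ k, (N ^ d k) (v k) = 0
  indep : ∀ c : ι → ℕ → F, ∑ k, ∑ a ∈ range (d k), c k a • (N ^ a) (v k) = 0 →
    ∀ k, ∀ a, a < d k → c k a = 0
  card : ∑ k, d k = finrank F V

theorem pow_succ_apply' (N : End F V) (a : ℕ) (x : V) : (N ^ (a + 1)) x = (N ^ a) (N x) := by
  rw [pow_succ, Module.End.mul_apply]

theorem pow_succ_apply (N : End F V) (a : ℕ) (x : V) : (N ^ (a + 1)) x = N ((N ^ a) x) := by
  rw [pow_succ', Module.End.mul_apply]

theorem pow_add_apply (N : End F V) (a b : ℕ) (x : V) : (N ^ (a + b)) x = (N ^ a) ((N ^ b) x) := by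
  rw [pow_add, Module.End.mul_apply]

end Chain

/-- Existence of chains for nilpotent endomorphisms. -/
theorem exists_chain : ∀ (m : ℕ) (V : Type u) [AddCommGroup V] [Module F V] [FiniteDimensional F V]
    (N : End F V), IsNilpotent N → finrank F V = m →
    ∃ (ι : Type) (_ : Fintype ι) (v : ι → V) (d : ι → ℕ), IsChain N v d := by
  intro m
  induction m using Nat.strong_induction_on with
  | _ m ih =>
  intro V _ _ _ N hN hm
  by_cases hm0 : m = 0
  · refine ⟨Empty, inferInstance, fun k => k.elim, fun k => k.elim, ?_⟩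
    refine ⟨fun k => k.elim, fun k => k.elim, ?_, ?_⟩
    · intro c _ k
      exact k.elim
    · simp [hm, hm0]
  have hker : 0 < finrank F (LinearMap.ker N) := by
    rw [Module.finrank_pos_iff_exists_ne_zero]
    by_contra hcon
    push Not at hcon
    obtain ⟨k, hk⟩ := hN
    have hinj : Function.Injective N := by
      rw [← LinearMap.ker_eq_bot, LinearMap.ker_eq_bot']
      intro x hx
      have := hcon ⟨x, hx⟩
      exact congrArg Subtype.val this
    have hinj2 : Function.Injective (N ^ k) := by
      rw [Module.End.coe_pow]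
      exact hinj.iterate k
    have hs : Subsingleton V := by
      refine ⟨fun x y => hinj2 ?_⟩
      rw [hk]
      rfl
    have : finrank F V = 0 := finrank_zero_of_subsingleton
    omega
  have hrn := LinearMap.finrank_range_add_finrank_ker N
  set W := LinearMap.range N with hWdef
  have hW : ∀ x ∈ W, N x ∈ W := fun x _ => LinearMap.mem_range_self N x
  set NW : End F W := N.restrict hW with hNWdef
  have hcoe : ∀ (a : ℕ) (x : W), (((NW ^ a) x : W) : V) = (N ^ a) (x : V) := by
    intro a
    induction a with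
    | zero => intro x; simp
    | succ a iha =>
      intro x
      rw [pow_succ_apply, pow_succ_apply]
      change N (((NW ^ a) x : W) : V) = _
      rw [iha]
  have hNW : IsNilpotent NW := by
    obtain ⟨k, hk⟩ := hN
    refine ⟨k, ?_⟩
    ext x
    rw [hcoe, hk]
    rfl
  obtain ⟨ι, _, w, e, hw⟩ := ih (finrank F W) (by omega) W NW hNW rfl
  choose v hv using fun k => (LinearMap.mem_range.1 (w k).2)
  have hx : ∀ k, (N ^ e k) (v k) ∈ LinearMap.ker N := by
    intro k
    rw [LinearMap.mem_ker, ← pow_succ_apply, pow_succ_apply', hv, ← hcoe, hw.kill]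
    rfl
  have hxw : ∀ k, (N ^ e k) (v k) = (((NW ^ (e k - 1)) (w k) : W) : V) := by
    intro k
    have := hw.pos k
    obtain ⟨c, hc⟩ : ∃ c, e k = c + 1 := ⟨e k - 1, by omega⟩
    rw [hc, pow_succ_apply', hv, hcoe]
    simp
  let x : ι → LinearMap.ker N := fun k => ⟨(N ^ e k) (v k), hx k⟩
  have hxind : LinearIndependent F x := by
    classical
    rw [Fintype.linearIndependent_iff]
    intro g hg k
    have h1 : ∑ k, g k • (NW ^ (e k - 1)) (w k) = 0 := by
      apply Subtype.ext
      have := congrArg Subtype.val hg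
      simp only [Submodule.coe_sum, Submodule.coe_smul] at this ⊢
      simpa [x, hxw] using this
    have h2 := hw.indep (fun k a => if a = e k - 1 then g k else 0) (by
      rw [← h1]
      refine sum_congr rfl (fun k _ => ?_)
      have := hw.pos k
      rw [sum_eq_single (e k - 1)]
      · simp
      · intro a _ ha
        simp [ha]
      · intro ha
        exact absurd (mem_range.2 (by omega)) ha) k (e k - 1) (by have := hw.pos k; omega)
    simpa using h2
  obtain ⟨C', hC'⟩ := Submodule.exists_isCompl (Submodule.span F (Set.range x))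
  let b' := Module.finBasis F C'
  let u : Fin (finrank F C') → V := fun l => ((b' l : C') : LinearMap.ker N)
  have hu : ∀ l, N (u l) = 0 := fun l => ((b' l : C') : LinearMap.ker N).2
  classical
  refine ⟨ι ⊕ Fin (finrank F C'), inferInstance, Sum.elim v u,
    Sum.elim (fun k => e k + 1) (fun _ => 1), ?_, ?_, ?_, ?_⟩
  · rintro (k | l) <;> simp
  · rintro (k | l)
    · simp only [Sum.elim_inl]
      rw [pow_succ_apply]
      exact hx k
    · simp only [Sum.elim_inr, pow_one]
      exact hu l
  · intro c hc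
    simp only [Fintype.sum_sum_type, Sum.elim_inl, Sum.elim_inr, sum_range_one, pow_zero,
      Module.End.one_apply] at hc
    -- Step 1: apply `N`
    have h1 : ∑ k, ∑ a ∈ range (e k), c (Sum.inl k) a • (NW ^ a) (w k) = 0 := by
      apply Subtype.ext
      have h2 := congrArg N hc
      rw [map_add, map_zero, map_sum, map_sum] at h2
      simp only [map_sum, map_smul, hu, smul_zero, sum_const_zero, add_zero] at h2
      simp only [Submodule.coe_sum, Submodule.coe_smul, hcoe, Submodule.coe_zero]
      rw [← h2]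
      refine sum_congr rfl (fun k _ => ?_)
      rw [sum_range_succ]
      have h3 : N ((N ^ e k) (v k)) = 0 := hx k
      rw [h3, smul_zero, add_zero]
      refine sum_congr rfl (fun a _ => ?_)
      rw [← pow_succ_apply, pow_succ_apply', hv]
    have h2 := hw.indep (fun k a => c (Sum.inl k) a) h1
    -- Step 2: the top coefficients
    have h3 : ∑ k, c (Sum.inl k) (e k) • x k +
        ∑ l, c (Sum.inr l) 0 • ((b' l : C') : LinearMap.ker N) = 0 := by
      apply Subtype.ext
      simp only [Submodule.coe_add, Submodule.coe_sum, Submodule.coe_smul, Submodule.coe_zero]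
      rw [← hc]
      congr 1
      refine sum_congr rfl (fun k _ => ?_)
      rw [sum_range_succ, sum_eq_zero, zero_add]
      intro a ha
      rw [h2 k a (mem_range.1 ha), zero_smul]
    have hA : ∑ k, c (Sum.inl k) (e k) • x k ∈ Submodule.span F (Set.range x) :=
      Submodule.sum_mem _ (fun k _ => Submodule.smul_mem _ _ (Submodule.subset_span ⟨k, rfl⟩))
    have hB : ∑ l, c (Sum.inr l) 0 • ((b' l : C') : LinearMap.ker N) ∈ C' :=
      Submodule.sum_mem _ (fun l _ => Submodule.smul_mem _ _ (b' l).2)
    have hA0 : ∑ k, c (Sum.inl k) (e k) • x k = 0 := by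
      have : ∑ k, c (Sum.inl k) (e k) • x k ∈ C' := by
        rw [eq_neg_of_add_eq_zero_left h3]
        exact C'.neg_mem hB
      have h5 := hC'.disjoint
      rw [Submodule.disjoint_def] at h5
      exact h5 _ hA this
    have hB0 : ∑ l, c (Sum.inr l) 0 • b' l = 0 := by
      apply Subtype.ext
      rw [hA0, zero_add] at h3
      simpa using h3
    have hC1 := Fintype.linearIndependent_iff.1 hxind _ hA0
    have hC2 := Fintype.linearIndependent_iff.1 b'.linearIndependent _ hB0
    rintro (k | l) a ha
    · simp only [Sum.elim_inl] at ha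
      rcases Nat.lt_succ_iff_lt_or_eq.1 ha with h | h
      · exact h2 k a h
      · rw [h]
        exact hC1 k
    · simp only [Sum.elim_inr] at ha
      have : a = 0 := by omega
      rw [this]
      exact hC2 l
  · have hfr : finrank F (Submodule.span F (Set.range x)) + finrank F C' =
        finrank F (LinearMap.ker N) := Submodule.finrank_add_eq_of_isCompl hC'
    rw [finrank_span_eq_card hxind] at hfr
    simp only [Fintype.sum_sum_type, Sum.elim_inl, Sum.elim_inr, sum_add_distrib, hw.card]
    simp only [sum_const, card_univ, smul_eq_mul, mul_one, Fintype.card_fin]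
    omega

section ChainFacts

variable {V : Type u} [AddCommGroup V] [Module F V] [FiniteDimensional F V]
variable {ι : Type} [Fintype ι] {N : End F V} {v : ι → V} {d : ι → ℕ}

theorem IsChain.linInd (h : IsChain N v d) :
    LinearIndependent F (fun x : (Σ k, Fin (d k)) => (N ^ (x.2 : ℕ)) (v x.1)) := by
  classical
  rw [Fintype.linearIndependent_iff]
  intro g hg x
  have h1 := h.indep (fun k a => if hh : a < d k then g ⟨k, ⟨a, hh⟩⟩ else 0) (by
    rw [← hg, Fintype.sum_sigma]
    refine sum_congr rfl (fun k _ => ?_)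
    rw [Finset.sum_range]
    refine sum_congr rfl (fun a _ => ?_)
    simp [a.2]) x.1 x.2 x.2.2
  simpa [x.2.2] using h1

theorem IsChain.span_eq (h : IsChain N v d) :
    Submodule.span F (Set.range (fun x : (Σ k, Fin (d k)) => (N ^ (x.2 : ℕ)) (v x.1))) = ⊤ := by
  apply h.linInd.span_eq_top_of_card_eq_finrank'
  rw [Fintype.card_sigma]
  simpa using h.card

theorem IsChain.exists_basis (h : IsChain N v d) :
    ∃ b : Basis (Σ k, Fin (d k)) F V, ∀ x, b x = (N ^ (x.2 : ℕ)) (v x.1) := by
  refine ⟨Basis.mk h.linInd h.span_eq.ge, fun x => ?_⟩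
  rw [Basis.mk_apply]

theorem IsChain.pow_eq_zero (h : IsChain N v d) (k : ι) {a : ℕ} (ha : d k ≤ a) :
    (N ^ a) (v k) = 0 := by
  obtain ⟨c, rfl⟩ := Nat.exists_eq_add_of_le' ha
  rw [pow_add_apply, h.kill, map_zero]

/-- The rank of powers of `N` in terms of the shape. -/
theorem IsChain.finrank_range_pow (h : IsChain N v d) (j : ℕ) :
    finrank F (LinearMap.range (N ^ j)) = ∑ k, (d k - j) := by
  classical
  let f : (Σ k, Fin (d k - j)) → (Σ k, Fin (d k)) :=
    fun x => ⟨x.1, ⟨x.2.1 + j, by have := x.2.2; omega⟩⟩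
  have hf : Function.Injective f := by
    rintro ⟨k, a⟩ ⟨k', a'⟩ hh
    have h1 : k = k' := congrArg Sigma.fst hh
    subst h1
    simp only [f, Sigma.mk.injEq, heq_eq_eq, true_and, Fin.mk.injEq] at hh
    have : a = a' := Fin.ext (by omega)
    rw [this]
  have hL := h.linInd.comp f hf
  have hspan : LinearMap.range (N ^ j) = Submodule.span F (Set.range
      ((fun x : (Σ k, Fin (d k)) => (N ^ (x.2 : ℕ)) (v x.1)) ∘ f)) := by
    apply le_antisymm
    · rw [LinearMap.range_eq_map, ← h.span_eq, LinearMap.map_span, Submodule.span_le]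
      rintro _ ⟨_, ⟨⟨k, a⟩, rfl⟩, rfl⟩
      simp only [SetLike.mem_coe]
      rw [← pow_add_apply]
      by_cases ha : (a : ℕ) + j < d k
      · apply Submodule.subset_span
        refine ⟨⟨k, ⟨a, by omega⟩⟩, ?_⟩
        simp only [Function.comp, f]
        rw [add_comm j]
      · rw [h.pow_eq_zero k (by omega)]
        exact Submodule.zero_mem _
    · rw [Submodule.span_le]
      rintro _ ⟨⟨k, a⟩, rfl⟩
      simp only [Function.comp, f, SetLike.mem_coe, LinearMap.mem_range]
      refine ⟨(N ^ (a : ℕ)) (v k), ?_⟩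
      rw [← pow_add_apply, add_comm]
  rw [hspan, finrank_span_eq_card hL, Fintype.card_sigma]
  simp

/-- Chains with equal shapes give similar endomorphisms. -/
theorem IsChain.similar {V' : Type u} [AddCommGroup V'] [Module F V'] [FiniteDimensional F V']
    {ι' : Type} [Fintype ι'] {N' : End F V'} {v' : ι' → V'} {d' : ι' → ℕ}
    (h : IsChain N v d) (h' : IsChain N' v' d') (e : ι ≃ ι') (he : ∀ k, d' (e k) = d k) :
    ∃ T : V ≃ₗ[F] V', ∀ x, T (N x) = N' (T x) := by
  classical
  obtain ⟨b, hb⟩ := h.exists_basis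
  obtain ⟨b', hb'⟩ := h'.exists_basis
  let E : (Σ k, Fin (d k)) ≃ (Σ k, Fin (d' k)) :=
    Equiv.sigmaCongr e (fun k => finCongr (he k).symm)
  let T := b.equiv b' E
  refine ⟨T, ?_⟩
  have hT : ∀ (k : ι) (a : ℕ), T ((N ^ a) (v k)) = (N' ^ a) (v' (e k)) := by
    intro k a
    by_cases ha : a < d k
    · have h1 := hb ⟨k, ⟨a, ha⟩⟩
      simp only at h1
      rw [← h1]
      have h2 : T (b ⟨k, ⟨a, ha⟩⟩) = b' (E ⟨k, ⟨a, ha⟩⟩) := by
        simp [T]
      rw [h2, hb']
      rfl
    · rw [h.pow_eq_zero k (by omega), h'.pow_eq_zero (e k) (by rw [he]; omega), map_zero]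
  have h1 : ((T : V →ₗ[F] V').comp N) = N'.comp (T : V →ₗ[F] V') := by
    apply b.ext
    rintro ⟨k, a⟩
    simp only [LinearMap.comp_apply, LinearEquiv.coe_coe]
    rw [hb]
    simp only
    rw [← pow_succ_apply, hT, hT, pow_succ_apply]
  intro x
  exact LinearMap.congr_fun h1 x

/-- The shape of a chain in multiset form. -/
theorem IsChain.shape_sum (h : IsChain N v d) :
    ((univ : Finset ι).val.map d).sum = finrank F V := by
  rw [← h.card]
  rfl

end ChainFacts

/-- Existence of a nilpotent with a prescribed shape. -/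
theorem exists_nilp {V : Type u} [AddCommGroup V] [Module F V] [FiniteDimensional F V]
    {ι : Type} [Fintype ι] (d : ι → ℕ) (hpos : ∀ k, 0 < d k) (hsum : ∑ k, d k = finrank F V) :
    ∃ (N : End F V) (v : ι → V), IsChain N v d ∧ IsNilpotent N := by
  classical
  have hcard : Fintype.card (Fin (finrank F V)) = Fintype.card (Σ k, Fin (d k)) := by
    rw [Fintype.card_sigma, Fintype.card_fin]
    simpa using hsum.symm
  let E : Fin (finrank F V) ≃ (Σ k, Fin (d k)) := Fintype.equivOfCardEq hcard
  let b : Basis (Σ k, Fin (d k)) F V := (Module.finBasis F V).reindex E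
  let N : End F V := b.constr F (fun x : (Σ k, Fin (d k)) =>
    if hh : (x.2 : ℕ) + 1 < d x.1 then b ⟨x.1, ⟨x.2 + 1, hh⟩⟩ else 0)
  have hN1 : ∀ (k : ι) (a : ℕ) (ha : a + 1 < d k),
      N (b ⟨k, ⟨a, by omega⟩⟩) = b ⟨k, ⟨a + 1, ha⟩⟩ := by
    intro k a ha
    exact (Basis.constr_basis b F _ _).trans (dif_pos ha)
  have hN2 : ∀ (k : ι) (a : Fin (d k)) (ha : ¬ (a : ℕ) + 1 < d k), N (b ⟨k, a⟩) = 0 := by
    intro k a ha
    exact (Basis.constr_basis b F _ _).trans (dif_neg ha)
  let v : ι → V := fun k => b ⟨k, ⟨0, hpos k⟩⟩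
  have hv : ∀ (k : ι) (a : ℕ) (ha : a < d k), (N ^ a) (v k) = b ⟨k, ⟨a, ha⟩⟩ := by
    intro k a
    induction a with
    | zero => intro _; rfl
    | succ a iha =>
      intro ha
      rw [pow_succ_apply, iha (by omega), hN1 k a ha]
  have hkill : ∀ k, (N ^ d k) (v k) = 0 := by
    intro k
    have := hpos k
    obtain ⟨c, hc⟩ : ∃ c, d k = c + 1 := ⟨d k - 1, by omega⟩
    rw [hc, pow_succ_apply, hv k c (by omega)]
    exact hN2 k ⟨c, by omega⟩ (by simp [hc])
  have hchain : IsChain N v d := by
    refine ⟨hpos, hkill, ?_, hsum⟩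
    intro c hc k a ha
    have h1 := Fintype.linearIndependent_iff.1 b.linearIndependent
      (fun x : (Σ k, Fin (d k)) => c x.1 x.2) (by
        rw [← hc, Fintype.sum_sigma]
        refine sum_congr rfl (fun k _ => ?_)
        rw [Finset.sum_range]
        refine sum_congr rfl (fun a _ => ?_)
        rw [hv k a a.2]) ⟨k, ⟨a, ha⟩⟩
    exact h1
  refine ⟨N, v, hchain, ∑ k, d k, ?_⟩
  apply b.ext
  rintro ⟨k, a⟩
  have h1 : b ⟨k, a⟩ = (N ^ (a : ℕ)) (v k) := (hv k a a.2).symm
  rw [h1, ← pow_add_apply, hchain.pow_eq_zero k]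
  · rfl
  · have := single_le_sum (f := d) (fun _ _ => Nat.zero_le _) (mem_univ k)
    omega

end CfsgLib.H9.Jordan
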