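import Cfsg.Agent.Lib.H9.Jordan
import Cfsg.Agent.Lib.H9.Parab

/-!
Counting the centraliser of a nilpotent endomorphism given by chains.
-/
set_option autoImplicit false

namespace CfsgLib.H9.JordanCent

open Finset Module CfsgLib.H9.Jordan

universe u

variable {F : Type u} [Field F]
variable {V : Type u} [AddCommGroup V] [Module F V] [FiniteDimensional F V]
variable {ι : Type} [Fintype ι] [DecidableEq ι] {N : End F V} {v : ι → V} {d : ι → ℕ}

/-- Coordinate functionals of a chain basis. -/
noncomputable def del (b : Basis (Σ k, Fin (d k)) F V) (l : ι) (a : ℕ) : V →ₗ[F] F :=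
  if h : a < d l then b.coord ⟨l, ⟨a, h⟩⟩ else 0

section

variable (h : IsChain N v d) (b : Basis (Σ k, Fin (d k)) F V)
  (hb : ∀ x, b x = (N ^ (x.2 : ℕ)) (v x.1))

include h hb

theorem del_spec (l k : ι) (a a' : ℕ) :
    del b l a ((N ^ a') (v k)) = if k = l ∧ a' = a ∧ a < d l then 1 else 0 := by
  classical
  by_cases ha' : a' < d k
  · have h1 : (N ^ a') (v k) = b ⟨k, ⟨a', ha'⟩⟩ := (hb ⟨k, ⟨a', ha'⟩⟩).symm
    rw [h1]
    by_cases ha : a < d l
    · simp only [del, ha, dif_pos, Basis.coord_apply, Basis.repr_self, Finsupp.single_apply]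
      by_cases hk : k = l
      · subst hk
        by_cases hh : a' = a
        · subst hh
          simp [ha]
        · have : ¬ ((⟨k, ⟨a', ha'⟩⟩ : Σ k, Fin (d k)) = ⟨k, ⟨a, ha⟩⟩) := by
            intro h2
            simp only [Sigma.mk.injEq, heq_eq_eq, Fin.mk.injEq, true_and] at h2
            exact hh h2
          simp [hh]
      · have : ¬ ((⟨k, ⟨a', ha'⟩⟩ : Σ k, Fin (d k)) = ⟨l, ⟨a, ha⟩⟩) := by
          intro h2
          exact hk (congrArg Sigma.fst h2)
        simp [hk, this]
    · simp [del, ha]
  · rw [h.pow_eq_zero k (by omega), map_zero]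
    rw [if_neg]
    rintro ⟨rfl, rfl, h3⟩
    exact ha' h3

theorem expand (y : V) : y = ∑ k, ∑ a ∈ range (d k), del b k a y • (N ^ a) (v k) := by
  conv_lhs => rw [← b.sum_repr y, Fintype.sum_sigma]
  refine sum_congr rfl (fun k _ => ?_)
  rw [Finset.sum_range]
  refine sum_congr rfl (fun a _ => ?_)
  rw [hb]
  simp [del, a.2]

theorem ext_del {y y' : V} (H : ∀ l a, a < d l → del b l a y = del b l a y') : y = y' := by
  rw [expand h b hb y, expand h b hb y']
  refine sum_congr rfl (fun k _ => sum_congr rfl (fun a ha => ?_))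
  rw [H k a (mem_range.1 ha)]

theorem exists_of_del (f : ι → ℕ → F) : ∃ y : V, ∀ l a, a < d l → del b l a y = f l a := by
  classical
  refine ⟨∑ k, ∑ a ∈ range (d k), f k a • (N ^ a) (v k), ?_⟩
  intro l a ha
  rw [map_sum, sum_eq_single l]
  · rw [map_sum, sum_eq_single a]
    · rw [map_smul, del_spec h b hb]
      simp [ha]
    · intro a' _ ha'
      rw [map_smul, del_spec h b hb]
      simp [ha']
    · intro h1
      exact absurd (mem_range.2 ha) h1
  · intro k _ hk
    rw [map_sum]
    refine sum_eq_zero (fun a' _ => ?_)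
    rw [map_smul, del_spec h b hb]
    simp [hk]
  · intro h1
    exact absurd (mem_univ l) h1

theorem del_pow (y : V) (l : ι) (a m : ℕ) (ham : a + m < d l) :
    del b l (a + m) ((N ^ m) y) = del b l a y := by
  have h1 : (del b l (a + m)).comp (N ^ m) = del b l a := by
    apply b.ext
    rintro ⟨k, a'⟩
    rw [LinearMap.comp_apply, hb]
    simp only
    rw [← pow_add_apply, add_comm m, del_spec h b hb, del_spec h b hb]
    have h2 : a < d l := by omega
    simp only [ham, h2, and_true]
    simp
  exact LinearMap.congr_fun h1 y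

/-- Kernel of a power, in coordinates. -/
theorem pow_eq_zero_iff' (y : V) (m : ℕ) :
    (N ^ m) y = 0 ↔ ∀ l a, a + m < d l → del b l a y = 0 := by
  constructor
  · intro h1 l a ha
    rw [← del_pow h b hb y l a m ha, h1, map_zero]
  · intro h1
    rw [expand h b hb y, map_sum]
    refine sum_eq_zero (fun k _ => ?_)
    rw [map_sum]
    refine sum_eq_zero (fun a _ => ?_)
    rw [map_smul, ← pow_add_apply, add_comm m]
    by_cases ha : a + m < d k
    · rw [h1 k a ha, zero_smul]
    · rw [h.pow_eq_zero k (by omega), smul_zero]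

theorem mem_range_iff (y : V) : y ∈ LinearMap.range N ↔ ∀ l, del b l 0 y = 0 := by
  constructor
  · rintro ⟨z, rfl⟩ l
    have h1 : (del b l 0).comp N = 0 := by
      apply b.ext
      rintro ⟨k, a'⟩
      rw [LinearMap.comp_apply, hb]
      simp only
      rw [← pow_succ_apply, del_spec h b hb]
      simp
    exact LinearMap.congr_fun h1 z
  · intro h1
    rw [expand h b hb y]
    refine Submodule.sum_mem _ (fun k _ => Submodule.sum_mem _ (fun a ha => ?_))
    rcases Nat.eq_zero_or_pos a with rfl | ha0
    · rw [h1 k, zero_smul]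
      exact Submodule.zero_mem _
    · obtain ⟨c, rfl⟩ : ∃ c, a = c + 1 := ⟨a - 1, by omega⟩
      rw [pow_succ_apply]
      exact Submodule.smul_mem _ _ (LinearMap.mem_range_self _ _)

theorem isNilpotent_N : IsNilpotent N := by
  refine ⟨∑ k, d k, ?_⟩
  apply b.ext
  rintro ⟨k, a⟩
  rw [hb]
  simp only
  rw [← pow_add_apply, h.pow_eq_zero k]
  · rfl
  · have := single_le_sum (f := d) (fun _ _ => Nat.zero_le _) (mem_univ k)
    omega

/-- The residue matrix of an endomorphism. -/
theorem unit_iff (T : End F V) (hT : T * N = N * T) :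
    IsUnit T ↔ (Matrix.of (fun l k => del b l 0 (T (v k)))).det ≠ 0 := by
  classical
  set C : Matrix ι ι F := Matrix.of (fun l k => del b l 0 (T (v k))) with hC
  let π : V →ₗ[F] (ι → F) := LinearMap.pi (fun l => del b l 0)
  have hπv : ∀ k, π (v k) = Pi.single k 1 := by
    intro k
    ext l
    have := del_spec h b hb l k 0 0
    rw [pow_zero, Module.End.one_apply] at this
    change del b l 0 (v k) = _
    rw [this]
    simp only [and_true, true_and, h.pos l, Pi.single_apply]
    by_cases hk : k = l
    · simp [hk]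
    · have : ¬ l = k := fun h' => hk h'.symm
      simp [hk, this]
  have hkerπ : ∀ y, π y = 0 ↔ y ∈ LinearMap.range N := by
    intro y
    rw [mem_range_iff h b hb, funext_iff]
    rfl
  have hπT : ∀ y, π (T y) = C.mulVec (π y) := by
    have h1 : π.comp T = C.mulVecLin.comp π := by
      apply b.ext
      rintro ⟨k, a⟩
      rw [LinearMap.comp_apply, LinearMap.comp_apply, hb]
      simp only
      rcases Nat.eq_zero_or_pos (a : ℕ) with ha | ha
      · rw [ha, pow_zero, Module.End.one_apply, hπv]
        ext l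
        simp [hC, π, Matrix.mulVec_single]
      · obtain ⟨c, hc⟩ : ∃ c, (a : ℕ) = c + 1 := ⟨a - 1, by omega⟩
        rw [hc, pow_succ_apply]
        have h2 : T (N ((N ^ c) (v k))) = N (T ((N ^ c) (v k))) := by
          have := LinearMap.congr_fun hT ((N ^ c) (v k))
          simpa [Module.End.mul_apply] using this
        rw [h2, (hkerπ _).2 (LinearMap.mem_range_self _ _), (hkerπ (N _)).2 (LinearMap.mem_range_self _ _),
          map_zero]
    intro y
    exact LinearMap.congr_fun h1 y
  have hπsurj : Function.Surjective π := by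
    intro x
    refine ⟨∑ k, x k • v k, ?_⟩
    rw [map_sum]
    simp only [map_smul, hπv]
    ext l
    simp [Finset.sum_apply, Pi.single_apply]
  have hdet : C.det ≠ 0 ↔ Function.Surjective C.mulVec := by
    rw [Matrix.mulVec_surjective_iff_isUnit, Matrix.isUnit_iff_isUnit_det, isUnit_iff_ne_zero]
  rw [hdet, Module.End.isUnit_iff]
  constructor
  · intro hbij w
    obtain ⟨y, rfl⟩ := hπsurj w
    obtain ⟨z, rfl⟩ := hbij.2 y
    exact ⟨π z, (hπT z).symm⟩
  · intro hCs
    have h1 : ∀ y : V, ∃ z w, y = T z + N w := by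
      intro y
      obtain ⟨x, hx⟩ := hCs (π y)
      obtain ⟨z, rfl⟩ := hπsurj x
      have h2 : π (y - T z) = 0 := by
        rw [map_sub, hπT, hx, sub_self]
      obtain ⟨w, hw⟩ := (hkerπ _).1 h2
      exact ⟨z, w, by rw [hw]; abel⟩
    have hcomm : Commute T N := hT
    have h2 : ∀ j, ∀ y : V, ∃ z w, y = T z + (N ^ j) w := by
      intro j
      induction j with
      | zero =>
        intro y
        exact ⟨0, y, by simp⟩
      | succ j ih =>
        intro y
        obtain ⟨z, w, rfl⟩ := ih y
        obtain ⟨z', w', rfl⟩ := h1 w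
        refine ⟨z + (N ^ j) z', w', ?_⟩
        have h3 : (N ^ j) (T z') = T ((N ^ j) z') := by
          have := LinearMap.congr_fun (hcomm.pow_right j).eq z'
          simpa [Module.End.mul_apply] using this.symm
        rw [map_add, map_add, h3, pow_succ_apply']
        abel
    obtain ⟨m, hm⟩ := isNilpotent_N h b hb
    have hsurj : Function.Surjective T := by
      intro y
      obtain ⟨z, w, hy⟩ := h2 m y
      refine ⟨z, ?_⟩
      rw [hy, hm]
      simp
    exact ⟨LinearMap.injective_iff_surjective.2 hsurj, hsurj⟩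

/-- Commuting endomorphisms are determined by the images of the chain heads. -/
theorem comm_ext {T T' : End F V} (hT : T * N = N * T) (hT' : T' * N = N * T')
    (H : ∀ k, T (v k) = T' (v k)) : T = T' := by
  have hcomm : Commute T N := hT
  have hcomm' : Commute T' N := hT'
  apply b.ext
  rintro ⟨k, a⟩
  rw [hb]
  simp only
  have h1 := LinearMap.congr_fun (hcomm.pow_right (a : ℕ)).eq (v k)
  have h2 := LinearMap.congr_fun (hcomm'.pow_right (a : ℕ)).eq (v k)
  simp only [Module.End.mul_apply] at h1 h2
  rw [h1, h2, H]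

/-- Existence of commuting endomorphisms with prescribed head images. -/
theorem exists_comm (y : ι → V) (hy : ∀ k, (N ^ d k) (y k) = 0) :
    ∃ T : End F V, T * N = N * T ∧ ∀ k, T (v k) = y k := by
  classical
  let T : End F V := b.constr F (fun x : (Σ k, Fin (d k)) => (N ^ (x.2 : ℕ)) (y x.1))
  have hT1 : ∀ (k : ι) (a : ℕ), T ((N ^ a) (v k)) = (N ^ a) (y k) := by
    intro k a
    by_cases ha : a < d k
    · have h1 : (N ^ a) (v k) = b ⟨k, ⟨a, ha⟩⟩ := (hb ⟨k, ⟨a, ha⟩⟩).symm
      rw [h1]
      exact Basis.constr_basis b F _ _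
    · obtain ⟨c, rfl⟩ := Nat.exists_eq_add_of_le' (not_lt.1 ha)
      rw [h.pow_eq_zero k (by omega), map_zero, pow_add_apply, hy, map_zero]
  refine ⟨T, ?_, fun k => by simpa using hT1 k 0⟩
  apply b.ext
  rintro ⟨k, a⟩
  rw [hb]
  simp only [Module.End.mul_apply]
  rw [← pow_succ_apply, hT1, hT1, pow_succ_apply]

end

/-- Coordinates not covered by the residue matrix. -/
def Qq (d : ι → ℕ) : Type :=
  {p : ι × (Σ l, Fin (d l)) // 0 < (p.2.2 : ℕ) ∧ d p.2.1 ≤ (p.2.2 : ℕ) + d p.1}

noncomputable instance : Fintype (Qq d) := by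
  unfold Qq
  classical
  exact inferInstance

/-- Main count: units of the commutant, against invertible block triangular residue matrices. -/
theorem card_comm {L : Type} [Fintype L] [LinearOrder L] (lb : ι → L)
    (hlb : ∀ k l, lb k < lb l ↔ d k < d l) (h : IsChain N v d) :
    Nat.card {T : End F V // T * N = N * T ∧ IsUnit T} =
      Nat.card {C : Matrix ι ι F // C.BlockTriangular lb ∧ C.det ≠ 0} *
        Nat.card (Qq d → F) := by
  classical
  obtain ⟨b, hb⟩ := h.exists_basis
  let Φ : {T : End F V // T * N = N * T ∧ IsUnit T} →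
      {C : Matrix ι ι F // C.BlockTriangular lb ∧ C.det ≠ 0} × (Qq d → F) := fun T =>
    (⟨Matrix.of (fun l k => del b l 0 (T.1 (v k))), by
        intro l k hkl
        have hkl' : d k < d l := (hlb k l).1 hkl
        have h1 : (N ^ d k) (T.1 (v k)) = 0 := by
          have := LinearMap.congr_fun ((show Commute T.1 N from T.2.1).pow_right (d k)).eq (v k)
          simp only [Module.End.mul_apply] at this
          rw [← this, h.kill, map_zero]
        exact (pow_eq_zero_iff' h b hb _ (d k)).1 h1 l 0 (by omega),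
      (unit_iff h b hb T.1 T.2.1).1 T.2.2⟩,
     fun p => del b p.1.2.1 (p.1.2.2 : ℕ) (T.1 (v p.1.1)))
  have hΦ : Function.Bijective Φ := by
    constructor
    · intro T T' hTT
      apply Subtype.ext
      apply comm_ext h b hb T.2.1 T'.2.1
      intro k
      apply ext_del h b hb
      intro l a ha
      have h1 : Matrix.of (fun l k => del b l 0 (T.1 (v k))) =
          Matrix.of (fun l k => del b l 0 (T'.1 (v k))) :=
        congrArg (fun x => x.1.1) hTT
      have h2 : ∀ p : Qq d, del b p.1.2.1 (p.1.2.2 : ℕ) (T.1 (v p.1.1)) =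
          del b p.1.2.1 (p.1.2.2 : ℕ) (T'.1 (v p.1.1)) :=
        fun p => congrFun (congrArg Prod.snd hTT) p
      rcases Nat.eq_zero_or_pos a with rfl | ha0
      · exact congrFun (congrFun h1 l) k
      · by_cases hh : d l ≤ a + d k
        · exact h2 ⟨(k, ⟨l, ⟨a, ha⟩⟩), ha0, hh⟩
        · have h3 : ∀ T : {T : End F V // T * N = N * T ∧ IsUnit T},
              del b l a (T.1 (v k)) = 0 := by
            intro T
            have h1 : (N ^ d k) (T.1 (v k)) = 0 := by
              have := LinearMap.congr_fun ((show Commute T.1 N from T.2.1).pow_right (d k)).eq (v k)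
              simp only [Module.End.mul_apply] at this
              rw [← this, h.kill, map_zero]
            exact (pow_eq_zero_iff' h b hb _ (d k)).1 h1 l a (by omega)
          rw [h3 T, h3 T']
    · rintro ⟨⟨C, hC1, hC2⟩, c⟩
      let f : ι → ι → ℕ → F := fun k l a =>
        if a = 0 then C l k
        else if hh : a < d l ∧ d l ≤ a + d k ∧ 0 < a then
          c ⟨(k, ⟨l, ⟨a, hh.1⟩⟩), hh.2.2, hh.2.1⟩ else 0
      choose y hy using fun k => exists_of_del h b hb (f k)
      have hykill : ∀ k, (N ^ d k) (y k) = 0 := by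
        intro k
        rw [pow_eq_zero_iff' h b hb]
        intro l a ha
        rw [hy k l a (by omega)]
        simp only [f]
        rcases Nat.eq_zero_or_pos a with rfl | ha0
        · simp only [if_true]
          exact hC1 ((hlb k l).2 (by omega))
        · have h1 : a ≠ 0 := by omega
          have h2 : ¬ (a < d l ∧ d l ≤ a + d k ∧ 0 < a) := by omega
          simp [h1, h2]
      obtain ⟨T, hT1, hT2⟩ := exists_comm h b hb y hykill
      have hCeq : Matrix.of (fun l k => del b l 0 (T (v k))) = C := by
        ext l k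
        simp only [Matrix.of_apply, hT2]
        rw [hy k l 0 (h.pos l)]
        simp [f]
      have hTu : IsUnit T := by
        rw [unit_iff h b hb T hT1, hCeq]
        exact hC2
      refine ⟨⟨T, hT1, hTu⟩, ?_⟩
      refine Prod.ext (Subtype.ext hCeq) ?_
      funext p
      obtain ⟨⟨k, ⟨l, a⟩⟩, hp1, hp2⟩ := p
      simp only [Φ, hT2]
      rw [hy k l a a.2]
      have h1 : (a : ℕ) ≠ 0 := by
        simp only at hp1
        omega
      simp only [f, h1, if_false]
      rw [dif_pos ⟨a.2, hp2, hp1⟩]
  rw [Nat.card_congr (Equiv.ofBijective Φ hΦ), Nat.card_prod]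

end CfsgLib.H9.JordanCent
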