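import Cfsg.Agent.Lib.H9.JordanCent
import Cfsg.Prelude.Def_JordanBlocks

/-!
The centraliser order of the unipotent matrix of a given Jordan type.
-/
set_option autoImplicit false
open scoped MatrixGroups

namespace CfsgLib.H9.JordanCent

open Finset Module CfsgLib.H9.Jordan

universe u

variable {F : Type u} [Field F]

/-- Chains from a basis on which `N` is the shift. -/
theorem chain_of_basis {V : Type u} [AddCommGroup V] [Module F V] [FiniteDimensional F V]
    {ι : Type} [Fintype ι] (d : ι → ℕ) (hpos : ∀ k, 0 < d k)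
    (b : Basis (Σ k, Fin (d k)) F V) (N : End F V)
    (hN1 : ∀ (k : ι) (a : ℕ) (ha : a + 1 < d k), N (b ⟨k, ⟨a, by omega⟩⟩) = b ⟨k, ⟨a + 1, ha⟩⟩)
    (hN2 : ∀ (k : ι) (a : Fin (d k)), ¬ (a : ℕ) + 1 < d k → N (b ⟨k, a⟩) = 0) :
    IsChain N (fun k => b ⟨k, ⟨0, hpos k⟩⟩) d := by
  classical
  set v : ι → V := fun k => b ⟨k, ⟨0, hpos k⟩⟩ with hvdef
  have hv : ∀ (k : ι) (a : ℕ) (ha : a < d k), (N ^ a) (v k) = b ⟨k, ⟨a, ha⟩⟩ := by
    intro k a
    induction a with
    | zero => intro _; rfl
    | succ a iha =>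
      intro ha
      rw [pow_succ_apply, iha (by omega), hN1 k a ha]
  have hkill : ∀ k, (N ^ d k) (v k) = 0 := by
    intro k
    have := hpos k
    obtain ⟨c, hc⟩ : ∃ c, d k = c + 1 := ⟨d k - 1, by omega⟩
    rw [hc, pow_succ_apply, hv k c (by omega)]
    exact hN2 k ⟨c, by omega⟩ (by simp [hc])
  refine ⟨hpos, hkill, ?_, ?_⟩
  · intro c hc k a ha
    have h1 := Fintype.linearIndependent_iff.1 b.linearIndependent
      (fun x : (Σ k, Fin (d k)) => c x.1 x.2) (by
        rw [← hc, Fintype.sum_sigma]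
        refine sum_congr rfl (fun k _ => ?_)
        rw [Finset.sum_range]
        refine sum_congr rfl (fun a _ => ?_)
        rw [hv k a a.2]) ⟨k, ⟨a, ha⟩⟩
    exact h1
  · rw [finrank_eq_card_basis b, Fintype.card_sigma]
    simp

section Matrix

variable {t : ℕ} (d : Fin t → ℕ)

/-- Entries of `J - 1`. -/
theorem jordan_sub_one (x y : (k : Fin t) × Fin (d k)) :
    (Cfsg.jordanTypeMatrix d F - 1) x y =
      if x.1 = y.1 ∧ (x.2 : ℕ) = (y.2 : ℕ) + 1 then 1 else 0 := by
  classical
  obtain ⟨l, c⟩ := x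
  obtain ⟨k, a⟩ := y
  simp only [Cfsg.jordanTypeMatrix, Matrix.sub_apply]
  by_cases hlk : l = k
  · subst hlk
    simp only [Matrix.blockDiagonal'_apply_eq, Cfsg.jordanBlock, Matrix.of_apply, true_and]
    by_cases hca : (c : ℕ) = a
    · have h1 : c = a := Fin.ext hca
      subst h1
      simp
    · have h1 : c ≠ a := fun h => hca (congrArg Fin.val h)
      have h2 : (⟨l, c⟩ : (k : Fin t) × Fin (d k)) ≠ ⟨l, a⟩ := by
        intro h
        apply h1
        simpa using h
      rw [Matrix.one_apply_ne h2]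
      simp [hca]
  · have h2 : (⟨l, c⟩ : (k : Fin t) × Fin (d k)) ≠ ⟨k, a⟩ := by
      intro h
      exact hlk (congrArg Sigma.fst h)
    rw [Matrix.one_apply_ne h2, Matrix.blockDiagonal'_apply_ne _ _ _ hlk]
    simp [hlk]

/-- The endomorphism `J - 1`. -/
noncomputable def NJ : End F ((k : Fin t) × Fin (d k) → F) :=
  Matrix.toLinAlgEquiv' (Cfsg.jordanTypeMatrix d F - 1)

theorem isChain_NJ (hpos : ∀ k, 0 < d k) :
    IsChain (NJ (F := F) d)
      (fun k => (Pi.basisFun F ((k : Fin t) × Fin (d k))) ⟨k, ⟨0, hpos k⟩⟩) d := by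
  classical
  have hcol : ∀ y : (k : Fin t) × Fin (d k),
      NJ (F := F) d (Pi.basisFun F _ y) = fun x => (Cfsg.jordanTypeMatrix d F - 1) x y := by
    intro y
    ext x
    simp only [NJ, Pi.basisFun_apply, Matrix.toLinAlgEquiv'_apply, Matrix.mulVec_single_one]
    rfl
  apply chain_of_basis d hpos
  · intro k a ha
    rw [hcol]
    ext x
    rw [jordan_sub_one]
    obtain ⟨l, c⟩ := x
    simp only [Pi.basisFun_apply, Pi.single_apply]
    by_cases hlk : l = k
    · subst hlk
      by_cases hc : (c : ℕ) = a + 1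
      · have h1 : (⟨l, c⟩ : (k : Fin t) × Fin (d k)) = ⟨l, ⟨a + 1, ha⟩⟩ := by
          congr 1
          exact Fin.ext hc
        simp [h1, hc]
      · have h1 : (⟨l, c⟩ : (k : Fin t) × Fin (d k)) ≠ ⟨l, ⟨a + 1, ha⟩⟩ := by
          intro h
          apply hc
          have : c = ⟨a + 1, ha⟩ := by simpa using h
          rw [this]
        simp [hc, h1]
    · have h1 : (⟨l, c⟩ : (k : Fin t) × Fin (d k)) ≠ ⟨k, ⟨a + 1, ha⟩⟩ := by
        intro h
        exact hlk (congrArg Sigma.fst h)
      simp [hlk, h1]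
  · intro k a ha
    rw [hcol]
    ext x
    rw [jordan_sub_one]
    obtain ⟨l, c⟩ := x
    simp only [Pi.zero_apply]
    rw [if_neg]
    rintro ⟨rfl, h2⟩
    have := c.2
    apply ha
    omega

/-- From matrices to endomorphisms. -/
theorem card_units_comm :
    Nat.card {g : GL ((k : Fin t) × Fin (d k)) F //
      (g : Matrix ((k : Fin t) × Fin (d k)) ((k : Fin t) × Fin (d k)) F) * Cfsg.jordanTypeMatrix d F =
        Cfsg.jordanTypeMatrix d F * (g : Matrix ((k : Fin t) × Fin (d k)) ((k : Fin t) × Fin (d k)) F)} =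
    Nat.card {T : End F ((k : Fin t) × Fin (d k) → F) // T * NJ (F := F) d = NJ (F := F) d * T ∧ IsUnit T} := by
  classical
  set J := Cfsg.jordanTypeMatrix d F with hJ
  let φ := Matrix.toLinAlgEquiv' (R := F) (n := (k : Fin t) × Fin (d k))
  have hcomm : ∀ A : Matrix ((k : Fin t) × Fin (d k)) ((k : Fin t) × Fin (d k)) F,
      A * J = J * A ↔ φ A * NJ (F := F) d = NJ (F := F) d * φ A := by
    intro A
    have h1 : NJ (F := F) d = φ (J - 1) := rfl
    rw [h1, ← map_mul, ← map_mul]
    rw [φ.injective.eq_iff, mul_sub, sub_mul, mul_one, one_mul]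
    constructor
    · intro h
      rw [h]
    · intro h
      exact sub_left_injective h
  refine Nat.card_congr (Equiv.ofBijective
    (fun g => ⟨φ g.1.1, (hcomm _).1 g.2, g.1.isUnit.map φ⟩) ⟨?_, ?_⟩)
  · intro g g' h
    apply Subtype.ext
    apply Units.ext
    exact φ.injective (congrArg Subtype.val h)
  · rintro ⟨T, hT1, hT2⟩
    have hA : IsUnit (φ.symm T) := hT2.map φ.symm
    refine ⟨⟨hA.unit, ?_⟩, ?_⟩
    · apply (hcomm _).2
      change φ (φ.symm T) * _ = _ * φ (φ.symm T)
      rw [φ.apply_symm_apply]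
      exact hT1
    · apply Subtype.ext
      exact φ.apply_symm_apply T

end Matrix

section Arithmetic

theorem count_aux (m e : ℕ) (hm : 1 ≤ m) (he : 1 ≤ e) :
    (∑ a : Fin m, if 0 < (a : ℕ) ∧ m ≤ (a : ℕ) + e then 1 else 0) =
      min e m - (if m ≤ e then 1 else 0) := by
  have h1 : (∑ a : Fin m, if 0 < (a : ℕ) ∧ m ≤ (a : ℕ) + e then 1 else 0) =
      ∑ a ∈ range m, if 0 < a ∧ m ≤ a + e then 1 else 0 := by
    rw [Finset.sum_range]
  rw [h1, ← card_filter]
  have h2 : (range m).filter (fun a => 0 < a ∧ m ≤ a + e) = Ico (max 1 (m - e)) m := by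
    ext a
    simp only [mem_filter, mem_range, mem_Ico]
    omega
  rw [h2, Nat.card_Ico]
  split_ifs <;> omega

variable {t : ℕ} (d : Fin t → ℕ)

theorem card_Qq (hpos : ∀ k, 0 < d k) :
    Fintype.card (Qq d) = ∑ k, ∑ l, (min (d k) (d l) - if d l ≤ d k then 1 else 0) := by
  classical
  have h1 : Fintype.card (Qq d) = Fintype.card {p : Fin t × (Σ l, Fin (d l)) //
      0 < (p.2.2 : ℕ) ∧ d p.2.1 ≤ (p.2.2 : ℕ) + d p.1} := by
    apply Fintype.card_congr
    exact Equiv.refl _
  rw [h1, Fintype.card_subtype, card_filter, Fintype.sum_prod_type]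
  refine sum_congr rfl (fun k _ => ?_)
  rw [Fintype.sum_sigma]
  refine sum_congr rfl (fun l _ => ?_)
  exact count_aux (d l) (d k) (hpos l) (hpos k)

theorem sum_fib (S : ℕ) (hS : ∀ k, d k ≤ S) (f : ℕ → ℕ) :
    ∑ k, f (d k) = ∑ i ∈ range (S + 1), (univ.filter (fun k : Fin t => d k = i)).card * f i := by
  classical
  rw [← sum_fiberwise_of_maps_to (s := univ) (t := range (S + 1)) (g := d)
    (fun k _ => mem_range.2 (Nat.lt_succ_of_le (hS k)))]
  refine sum_congr rfl (fun i _ => ?_)
  rw [sum_congr rfl (g := fun _ => f i), sum_const, smul_eq_mul]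
  intro k hk
  rw [(mem_filter.1 hk).2]

theorem exponent_identity (hpos : ∀ k, 0 < d k) (S : ℕ) (hS : ∀ k, d k ≤ S) :
    ∑ k, ∑ l, ((if d l < d k then 1 else 0) + (min (d k) (d l) - if d l ≤ d k then 1 else 0)) =
      2 * (∑ i ∈ range (S + 1), ∑ j ∈ range (S + 1),
        if i < j then i * (univ.filter (fun k : Fin t => d k = i)).card *
          (univ.filter (fun k : Fin t => d k = j)).card else 0) +
      ∑ i ∈ range (S + 1), (i - 1) * (univ.filter (fun k : Fin t => d k = i)).card ^ 2 := by
  classical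
  set a : ℕ → ℕ := fun i => (univ.filter (fun k : Fin t => d k = i)).card with ha
  have ha0 : a 0 = 0 := by
    simp only [ha, card_eq_zero, filter_eq_empty_iff, mem_univ, true_imp_iff]
    intro k
    exact (hpos k).ne'
  have h1 : ∑ k, ∑ l, ((if d l < d k then 1 else 0) + (min (d k) (d l) - if d l ≤ d k then 1 else 0)) =
      ∑ i ∈ range (S + 1), ∑ j ∈ range (S + 1), a i * a j *
        ((if j < i then 1 else 0) + (min i j - if j ≤ i then 1 else 0)) := by
    rw [sum_fib d S hS (fun x => ∑ l, ((if d l < x then 1 else 0) +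
      (min x (d l) - if d l ≤ x then 1 else 0)))]
    refine sum_congr rfl (fun i _ => ?_)
    rw [sum_fib d S hS (fun y => ((if y < i then 1 else 0) +
      (min i y - if y ≤ i then 1 else 0))), mul_sum]
    refine sum_congr rfl (fun j _ => ?_)
    rw [mul_assoc]
  rw [h1]
  have h2 : ∀ i j, a i * a j * ((if j < i then 1 else 0) + (min i j - if j ≤ i then 1 else 0)) =
      (if i < j then i * a i * a j else 0) + (if j < i then j * a j * a i else 0) +
        (if i = j then (i - 1) * a i ^ 2 else 0) := by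
    intro i j
    rcases Nat.eq_zero_or_pos i with rfl | hi
    · rcases Nat.eq_zero_or_pos j with rfl | hj
      · simp [ha0]
      · simp [ha0, hj, hj.ne']
    rcases Nat.eq_zero_or_pos j with rfl | hj
    · simp [ha0, hi, hi.ne']
    rcases lt_trichotomy i j with h | h | h
    · have h3 : ¬ j < i := by omega
      have h4 : ¬ j ≤ i := by omega
      have h5 : i ≠ j := by omega
      have h6 : min i j = i := by omega
      simp only [h, h3, h4, h5, h6, if_true, if_false]
      simp only [zero_add, Nat.sub_zero, add_zero]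
      ring
    · subst h
      simp only [lt_irrefl, le_refl, if_true, if_false, min_self]
      simp only [zero_add]
      ring
    · have h3 : ¬ i < j := by omega
      have h4 : j ≤ i := by omega
      have h5 : i ≠ j := by omega
      have h6 : min i j = j := by omega
      have h7 : 1 + (j - 1) = j := by omega
      simp only [h, h3, h4, h5, h6, if_true, if_false, h7]
      simp only [zero_add, add_zero]
      ring
  simp_rw [h2, sum_add_distrib]
  have h3 : ∑ i ∈ range (S + 1), ∑ j ∈ range (S + 1), (if j < i then j * a j * a i else 0) =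
      ∑ i ∈ range (S + 1), ∑ j ∈ range (S + 1), (if i < j then i * a i * a j else 0) := by
    rw [sum_comm]
  have h4 : ∑ i ∈ range (S + 1), ∑ j ∈ range (S + 1), (if i = j then (i - 1) * a i ^ 2 else 0) =
      ∑ i ∈ range (S + 1), (i - 1) * a i ^ 2 := by
    refine sum_congr rfl (fun i hi => ?_)
    rw [sum_ite_eq, if_pos hi]
  rw [h3, h4]
  ring

end Arithmetic

/-- The centraliser order. -/
theorem main_2581 [Fintype F] {q : ℕ} (hF : Fintype.card F = q) {t : ℕ} (d : Fin t → ℕ)
    (hd : ∀ k, 1 ≤ d k) :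
    Nat.card {g : GL ((k : Fin t) × Fin (d k)) F //
      (g : Matrix ((k : Fin t) × Fin (d k)) ((k : Fin t) × Fin (d k)) F) * Cfsg.jordanTypeMatrix d F =
        Cfsg.jordanTypeMatrix d F * (g : Matrix ((k : Fin t) × Fin (d k)) ((k : Fin t) × Fin (d k)) F)} =
      q ^ (2 * (∑ i ∈ Finset.range (Finset.univ.sup d + 1), ∑ j ∈ Finset.range (Finset.univ.sup d + 1),
        if i < j then i * (Finset.univ.filter (fun k : Fin t => d k = i)).card *
          (Finset.univ.filter (fun k : Fin t => d k = j)).card else 0) +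
        ∑ i ∈ Finset.range (Finset.univ.sup d + 1),
          (i - 1) * (Finset.univ.filter (fun k : Fin t => d k = i)).card ^ 2) *
      ∏ i ∈ Finset.range (Finset.univ.sup d + 1), ∏ j : Fin ((Finset.univ.filter (fun k : Fin t => d k = i)).card),
        (q ^ (Finset.univ.filter (fun k : Fin t => d k = i)).card - q ^ (j : ℕ)) := by
  classical
  subst hF
  set S := univ.sup d with hSdef
  have hS : ∀ k, d k ≤ S := fun k => le_sup (f := d) (mem_univ k)
  have hpos : ∀ k, 0 < d k := hd
  let lb : Fin t → Fin (S + 1) := fun k => ⟨d k, Nat.lt_succ_of_le (hS k)⟩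
  have hlb : ∀ k l, lb k < lb l ↔ d k < d l := fun k l => Iff.rfl
  rw [card_units_comm, card_comm lb hlb (isChain_NJ d hpos), CfsgLib.H9.Parab.card_bt]
  rw [Nat.card_fun, Nat.card_eq_fintype_card (α := F), Nat.card_eq_fintype_card (α := Qq d)]
  have hfib : ∀ a : Fin (S + 1), Fintype.card {k // lb k = a} =
      (univ.filter (fun k : Fin t => d k = a.val)).card := by
    intro a
    rw [Fintype.card_subtype]
    congr 1
    ext k
    simp only [mem_filter, mem_univ, true_and, Fin.ext_iff, lb]
  have hq : 1 ≤ Fintype.card F := Fintype.card_pos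
  have hGL : ∀ a : Fin (S + 1), Nat.card {A : Matrix {i // lb i = a} {i // lb i = a} F // A.det ≠ 0} =
      ∏ j : Fin ((univ.filter (fun k : Fin t => d k = a.val)).card),
        (Fintype.card F ^ (univ.filter (fun k : Fin t => d k = a.val)).card - Fintype.card F ^ (j : ℕ)) := by
    intro a
    rw [CfsgLib.H9.Parab.card_det_ne (F := F) (hfib a), ← CfsgLib.H9.Parab.gl_prod _ hq]
  simp_rw [hGL]
  rw [← Fin.prod_univ_eq_prod_range (fun i => ∏ j : Fin ((univ.filter (fun k : Fin t => d k = i)).card),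
    (Fintype.card F ^ (univ.filter (fun k : Fin t => d k = i)).card - Fintype.card F ^ (j : ℕ))) (S + 1)]
  have hexp : Fintype.card {p : Fin t × Fin t // lb p.1 < lb p.2} + Fintype.card (Qq d) =
      2 * (∑ i ∈ range (S + 1), ∑ j ∈ range (S + 1),
        if i < j then i * (univ.filter (fun k : Fin t => d k = i)).card *
          (univ.filter (fun k : Fin t => d k = j)).card else 0) +
      ∑ i ∈ range (S + 1), (i - 1) * (univ.filter (fun k : Fin t => d k = i)).card ^ 2 := by
    rw [← exponent_identity d hpos S hS, card_Qq d hpos]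
    have h1 : Fintype.card {p : Fin t × Fin t // lb p.1 < lb p.2} =
        ∑ k, ∑ l, (if d l < d k then 1 else 0) := by
      rw [Fintype.card_subtype, card_filter, Fintype.sum_prod_type, sum_comm]
      rfl
    rw [h1, ← sum_add_distrib]
    refine sum_congr rfl (fun k _ => ?_)
    rw [← sum_add_distrib]
  rw [← hexp, pow_add]
  ring

end CfsgLib.H9.JordanCent
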