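import Cfsg.Agent.Lib.H9.JordanReal
import Cfsg.Agent.Lib.H9.JordanCent2
import Cfsg.Agent.Lib.ClassGeo.Symp
import Cfsg.Agent.Lib.ClassGeo.Alt
import Cfsg.Prelude.Def_Classical

/-!
Which Jordan types occur in symplectic and orthogonal groups.
-/
set_option autoImplicit false
open scoped MatrixGroups Matrix

namespace CfsgLib.H9.JordanForm

open Finset Module CfsgLib.H9.Jordan CfsgLib.H9.JordanCent

universe u

variable {F : Type u} [Field F]

section Matrix

variable {Y : Type} [Fintype Y] [DecidableEq Y]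

/-- The endomorphism attached to `A - 1`. -/
noncomputable def NM (A : Matrix Y Y F) : End F (Y → F) :=
  Matrix.toLinAlgEquiv' (A - 1)

variable {t : ℕ} (d : Fin t → ℕ)

/-- Chains for the reindexed Jordan matrix. -/
theorem chain_reindex (hpos : ∀ k, 0 < d k) (e : ((k : Fin t) × Fin (d k)) ≃ Y) :
    ∃ v, IsChain (NM (Matrix.reindex e e (Cfsg.jordanTypeMatrix d F))) v d := by
  classical
  have h := isChain_NJ (F := F) d hpos
  let φ : ((k : Fin t) × Fin (d k) → F) ≃ₗ[F] (Y → F) := LinearEquiv.funCongrLeft F F e.symm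
  refine ⟨_, IsChain.transport h φ ?_⟩
  intro x
  have h1 : Matrix.reindex e e (Cfsg.jordanTypeMatrix d F) - 1 =
      Matrix.reindex e e (Cfsg.jordanTypeMatrix d F - 1) := by
    ext i j
    simp [Matrix.sub_apply, Matrix.one_apply]
  change φ (Matrix.toLinAlgEquiv' (Cfsg.jordanTypeMatrix d F - 1) x) =
    Matrix.toLinAlgEquiv' (Matrix.reindex e e (Cfsg.jordanTypeMatrix d F) - 1) (φ x)
  rw [h1]
  ext y
  simp only [Matrix.toLinAlgEquiv'_apply, φ, LinearEquiv.funCongrLeft_apply, LinearMap.funLeft_apply,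
    Matrix.reindex_apply]
  have h2 : (Cfsg.jordanTypeMatrix d F - 1).submatrix e.symm e.symm *ᵥ (x ∘ e.symm) =
      ((Cfsg.jordanTypeMatrix d F - 1) *ᵥ x) ∘ e.symm := by
    rw [Matrix.submatrix_mulVec_equiv]
    congr 2
    funext a
    simp
  exact (congrFun h2 y).symm

/-- Chains pass along conjugacy of matrices. -/
theorem chain_conj {A A' : Matrix Y Y F} (hc : IsConj A A') {ι : Type} [Fintype ι]
    {v : ι → Y → F} {d' : ι → ℕ} (h : IsChain (NM A) v d') :
    ∃ v', IsChain (NM A') v' d' := by
  classical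
  obtain ⟨c, hc⟩ := hc
  have hc' : (c : Matrix Y Y F) * A = A' * (c : Matrix Y Y F) := hc
  let T : (Y → F) ≃ₗ[F] (Y → F) :=
    LinearEquiv.ofLinear (Matrix.toLin' (c : Matrix Y Y F)) (Matrix.toLin' ((c⁻¹ : (Matrix Y Y F)ˣ) : Matrix Y Y F))
      (by rw [← Matrix.toLin'_mul, c.mul_inv, Matrix.toLin'_one])
      (by rw [← Matrix.toLin'_mul, c.inv_mul, Matrix.toLin'_one])
  refine ⟨_, IsChain.transport h T ?_⟩
  intro x
  change (c : Matrix Y Y F) *ᵥ ((A - 1) *ᵥ x) = (A' - 1) *ᵥ ((c : Matrix Y Y F) *ᵥ x)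
  rw [Matrix.mulVec_mulVec, Matrix.mulVec_mulVec, mul_sub, sub_mul, hc', mul_one, one_mul]

/-- Matrices of the same shape are conjugate. -/
theorem conj_of_shape {A A' : Matrix Y Y F} {s : Multiset ℕ} (h : HasShape (NM A) s)
    (h' : HasShape (NM A') s) : IsConj A A' := by
  classical
  obtain ⟨T, hT⟩ := similar_of_shape h h'
  let φ := (Matrix.toLinAlgEquiv' (R := F) (n := Y)).symm
  let t' : Matrix Y Y F := φ (T : End F (Y → F))
  let s' : Matrix Y Y F := φ (T.symm : End F (Y → F))
  have h1 : t' * s' = 1 := by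
    rw [← map_mul, ← map_one φ]
    congr 1
    apply LinearMap.ext
    intro x
    simp [Module.End.mul_apply]
  have h2 : s' * t' = 1 := by
    rw [← map_mul, ← map_one φ]
    congr 1
    apply LinearMap.ext
    intro x
    simp [Module.End.mul_apply]
  have hcomm : t' * (A - 1) = (A' - 1) * t' := by
    have h3 : (T : End F (Y → F)) * NM A = NM A' * (T : End F (Y → F)) := by
      apply LinearMap.ext
      intro x
      exact hT x
    have h4 := congrArg φ h3
    simp only [map_mul] at h4
    have h5 : φ (NM A) = A - 1 := (Matrix.toLinAlgEquiv' (R := F) (n := Y)).symm_apply_apply _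
    have h6 : φ (NM A') = A' - 1 := (Matrix.toLinAlgEquiv' (R := F) (n := Y)).symm_apply_apply _
    rwa [h5, h6] at h4
  have hcomm2 : t' * A = A' * t' := by
    have h3 : t' * A - t' = A' * t' - t' := by
      have := hcomm
      rw [mul_sub, sub_mul, mul_one, one_mul] at this
      exact this
    exact sub_left_injective h3
  exact ⟨⟨t', s', h1, h2⟩, hcomm2⟩

/-- From an abstract nilpotent to a matrix. -/
theorem exists_matrix {V : Type u} [AddCommGroup V] [Module F V] [FiniteDimensional F V]
    (T : V ≃ₗ[F] (Y → F)) (N : End F V) :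
    ∃ A : Matrix Y Y F, NM A = (T : V →ₗ[F] (Y → F)) ∘ₗ N ∘ₗ (T.symm : (Y → F) →ₗ[F] V) ∧
      ∀ x, A *ᵥ (T x) = T (x + N x) := by
  refine ⟨1 + Matrix.toLinAlgEquiv'.symm ((T : V →ₗ[F] (Y → F)) ∘ₗ N ∘ₗ (T.symm : (Y → F) →ₗ[F] V)), ?_, ?_⟩
  · unfold NM
    rw [add_sub_cancel_left, AlgEquiv.apply_symm_apply]
  · intro x
    rw [Matrix.add_mulVec, Matrix.one_mulVec, map_add]
    congr 1
    have := Matrix.toLinAlgEquiv'_apply (R := F)
      (Matrix.toLinAlgEquiv'.symm ((T : V →ₗ[F] (Y → F)) ∘ₗ N ∘ₗ (T.symm : (Y → F) →ₗ[F] V))) (T x)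
    rw [← this, AlgEquiv.apply_symm_apply]
    simp

end Matrix

theorem count_map_univ {ι : Type} [Fintype ι] (d : ι → ℕ) (j : ℕ) :
    Multiset.count j ((univ : Finset ι).val.map d) = (univ.filter (fun k => d k = j)).card := by
  classical
  rw [Multiset.count_map]
  simp only [Finset.card, Finset.filter_val, eq_comm]

theorem nondeg_of_left {V : Type u} [AddCommGroup V] [Module F V] {B : LinearMap.BilinForm F V}
    (hR : ∀ x y, B x y = 0 → B y x = 0) (h : ∀ x, (∀ y, B x y = 0) → x = 0) : B.Nondegenerate := by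
  refine ⟨h, ?_⟩
  intro y hy
  exact h y (fun x => hR _ _ (hy x))

section Forward

variable {t : ℕ} (d : Fin t → ℕ) (hpos : ∀ k, 0 < d k)

include hpos

/-- Necessity of the parity condition: alternating forms. -/
theorem even_of_alt {Y : Type} [Fintype Y] [DecidableEq Y] {e : ((k : Fin t) × Fin (d k)) ≃ Y}
    {A : Matrix Y Y F} (hc : IsConj (Matrix.reindex e e (Cfsg.jordanTypeMatrix d F)) A)
    {B : LinearMap.BilinForm F (Y → F)} (hB : B.Nondegenerate) (hA : B.IsAlt)
    (hiso : IsIso B (NM A)) (j : ℕ) (hj : Odd j) :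
    Even (univ.filter (fun k : Fin t => d k = j)).card := by
  classical
  obtain ⟨v, hv⟩ := chain_reindex (F := F) d hpos e
  obtain ⟨v', hv'⟩ := chain_conj hc hv
  obtain ⟨r, hr⟩ := hj
  have := wall hB hiso hv' j (by omega) (by
    intro x hx
    subst hr
    simp only [Nat.add_sub_cancel]
    exact halt_alt hiso hA r x hx)
  rwa [Fintype.card_subtype] at this

/-- Necessity of the parity condition: symmetric forms in odd characteristic. -/
theorem even_of_symm {Y : Type} [Fintype Y] [DecidableEq Y] {e : ((k : Fin t) × Fin (d k)) ≃ Y}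
    {A : Matrix Y Y F} (hc : IsConj (Matrix.reindex e e (Cfsg.jordanTypeMatrix d F)) A)
    {B : LinearMap.BilinForm F (Y → F)} (hB : B.Nondegenerate) (hS : ∀ x y, B x y = B y x)
    (h2 : (2 : F) ≠ 0) (hiso : IsIso B (NM A)) (j : ℕ) (hj : Even j) (hj0 : 0 < j) :
    Even (univ.filter (fun k : Fin t => d k = j)).card := by
  classical
  obtain ⟨v, hv⟩ := chain_reindex (F := F) d hpos e
  obtain ⟨v', hv'⟩ := chain_conj hc hv
  have := wall hB hiso hv' j hj0 (by
    intro x hx
    obtain ⟨c, rfl⟩ : ∃ c, j = c + 1 := ⟨j - 1, by omega⟩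
    simp only [Nat.add_sub_cancel]
    refine halt_symm hiso hS h2 c ?_ x hx
    rcases hj with ⟨r, hr⟩
    exact ⟨r - 1, by omega⟩)
  rwa [Fintype.card_subtype] at this

end Forward

/-- The statement of S2582, forward direction included. -/
theorem main_2582 {m t : ℕ} (d : Fin t → ℕ) (hd : ∀ k, 1 ≤ d k) (hsum : ∑ k, d k = 2 * m) :
    (∃ e : ((k : Fin t) × Fin (d k)) ≃ (Fin m ⊕ Fin m), ∃ A : Matrix.symplecticGroup (Fin m) F,
      IsConj (Matrix.reindex e e (Cfsg.jordanTypeMatrix d F))
        (A : Matrix (Fin m ⊕ Fin m) (Fin m ⊕ Fin m) F)) ↔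
      ∀ j : ℕ, Odd j → Even (Finset.univ.filter (fun k : Fin t => d k = j)).card := by
  classical
  have hpos : ∀ k, 0 < d k := hd
  let Bs : LinearMap.BilinForm F (Fin m ⊕ Fin m → F) := Matrix.toBilin' (Matrix.J (Fin m) F)
  have hBs : ∀ x y, Bs x y = Cfsg.sympForm m F x y := fun x y => by
    simp only [Bs, Cfsg.sympForm, Matrix.toBilin'_apply']
  constructor
  · rintro ⟨e, A, hc⟩ j hj
    have hA : Bs.IsAlt := fun x => by rw [hBs]; exact CfsgLib.ClassGeo.symp_self x
    apply even_of_alt d hpos hc (B := Bs) _ hA _ j hj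
    · apply nondeg_of_left
      · intro x y h
        rw [hBs] at h ⊢
        rw [CfsgLib.ClassGeo.symp_skew, h, neg_zero]
      · intro x hx
        exact CfsgLib.ClassGeo.symp_nondeg' (fun y => by rw [← hBs]; exact hx y)
    · intro x y
      rw [hBs, hBs]
      have h1 : ∀ z, z + NM (A : Matrix (Fin m ⊕ Fin m) (Fin m ⊕ Fin m) F) z =
          (A : Matrix (Fin m ⊕ Fin m) (Fin m ⊕ Fin m) F) *ᵥ z := by
        intro z
        change z + (((A : Matrix (Fin m ⊕ Fin m) (Fin m ⊕ Fin m) F) - 1) *ᵥ z) = _
        rw [Matrix.sub_mulVec, Matrix.one_mulVec]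
        abel
      rw [h1, h1]
      exact (CfsgLib.ClassGeo.mem_sp_iff _).1 A.2 x y
  · intro h
    have hs : Rz F true ((univ : Finset (Fin t)).val.map d) := by
      apply rz_alt
      · intro a ha
        obtain ⟨k, _, rfl⟩ := Multiset.mem_map.1 ha
        exact hpos k
      · intro j hj
        rw [count_map_univ]
        exact h j hj
    obtain ⟨V, _, _, _, B, N, hn, hk, hi, hsh⟩ := hs
    have hfr : finrank F V = 2 * m := by
      rw [hsh.finrank_eq, ← hsum]
      rfl
    have hAlt : B.IsAlt := hk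
    have hskew : ∀ a c, B a c = - B c a := fun a c => (hAlt.neg_eq c a).symm
    obtain ⟨m', k, b, hef, hee, hff, hr, hdim⟩ := CfsgLib.ClassGeo.exists_alt_basis hAlt
    have hk0 : k = 0 := by
      by_contra hk0
      have j0 : Fin k := ⟨0, by omega⟩
      exact b.ne_zero (Sum.inr j0) (hn _ (hr j0))
    subst hk0
    have hmm : m' = m := by omega
    subst hmm
    let b' : Basis (Fin m' ⊕ Fin m') F V := b.reindex (Equiv.sumEmpty _ _)
    have hb' : ∀ x, b' x = b (Sum.inl x) := by
      intro x
      simp [b']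
    let T : V ≃ₗ[F] (Fin m' ⊕ Fin m' → F) := b'.equivFun
    have hTb : ∀ x, T (b' x) = Pi.single x 1 := fun x => by
      ext y
      simp [T, Basis.equivFun_apply, Pi.single_apply, Finsupp.single_apply, eq_comm]
    have hform : ∀ x y, Cfsg.sympForm m' F (T x) (T y) = - B x y := by
      have h1 : (Bs.compl₁₂ (T : V →ₗ[F] _) (T : V →ₗ[F] _)) = - B := by
        apply b'.ext
        intro x
        apply b'.ext
        intro y
        simp only [LinearMap.compl₁₂_apply, LinearEquiv.coe_coe, LinearMap.neg_apply]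
        rw [hTb, hTb, hBs, CfsgLib.ClassGeo.symp_apply, hb', hb']
        rcases x with i | i <;> rcases y with j | j
        · rw [hee]
          simp
        · rw [hef]
          simp [Pi.single_apply, eq_comm]
        · rw [hskew, hef]
          simp [Pi.single_apply, eq_comm]
        · rw [hff]
          simp
      intro x y
      have := LinearMap.congr_fun (LinearMap.congr_fun h1 x) y
      rw [← hBs]
      exact this
    obtain ⟨A, hA1, hA2⟩ := exists_matrix T N
    have hA3 : A ∈ Matrix.symplecticGroup (Fin m') F := by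
      rw [CfsgLib.ClassGeo.mem_sp_iff]
      intro u w
      obtain ⟨x, rfl⟩ := T.surjective u
      obtain ⟨y, rfl⟩ := T.surjective w
      rw [hA2, hA2, hform, hform, hi]
    have hcard : Fintype.card ((k : Fin t) × Fin (d k)) = Fintype.card (Fin m' ⊕ Fin m') := by
      rw [Fintype.card_sigma]
      simp only [Fintype.card_fin, Fintype.card_sum]
      omega
    let e : ((k : Fin t) × Fin (d k)) ≃ (Fin m' ⊕ Fin m') := Fintype.equivOfCardEq hcard
    refine ⟨e, ⟨A, hA3⟩, ?_⟩
    obtain ⟨v, hv⟩ := chain_reindex (F := F) d hpos e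
    apply conj_of_shape (hasShape_of_chain hv)
    have h1 : HasShape (NM A) ((univ : Finset (Fin t)).val.map d) := by
      apply hsh.transport T
      intro x
      rw [hA1]
      simp
    exact h1

/-- An isometry of a quadratic form gives an isometry of the polar form. -/
theorem iso_polar {Y : Type} [Fintype Y] [DecidableEq Y] (Q : QuadraticForm F (Y → F))
    (A : Matrix Y Y F) (hA : ∀ u, Q (A *ᵥ u) = Q u) :
    IsIso (QuadraticMap.polarBilin Q) (NM A) := by
  intro x y
  have h1 : ∀ z, z + NM A z = A *ᵥ z := by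
    intro z
    change z + ((A - 1) *ᵥ z) = _
    rw [Matrix.sub_mulVec, Matrix.one_mulVec]
    abel
  rw [h1, h1]
  simp only [QuadraticMap.polarBilin_apply_apply, QuadraticMap.polar]
  rw [← Matrix.mulVec_add, hA, hA, hA]

/-- The statement of S2583. -/
theorem main_2583 [Fintype F] (h2 : (2 : F) ≠ 0) {n t : ℕ} (d : Fin t → ℕ) (hd : ∀ k, 1 ≤ d k)
    (hsum : ∑ k, d k = n) :
    (∃ Q : QuadraticForm F (Fin n → F), (QuadraticMap.polarBilin Q).Nondegenerate ∧
      ∃ e : ((k : Fin t) × Fin (d k)) ≃ Fin n, ∃ A : ↥(Cfsg.isometryGroup F ⇑Q),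
        IsConj (Matrix.reindex e e (Cfsg.jordanTypeMatrix d F))
          ((A : Matrix.GeneralLinearGroup (Fin n) F) : Matrix (Fin n) (Fin n) F)) ↔
      ∀ j : ℕ, Even j → 0 < j → Even (Finset.univ.filter (fun k : Fin t => d k = j)).card := by
  classical
  have hpos : ∀ k, 0 < d k := hd
  constructor
  · rintro ⟨Q, hQ, e, A, hc⟩ j hj hj0
    apply even_of_symm d hpos hc hQ _ h2 _ j hj hj0
    · intro x y
      exact QuadraticMap.polar_comm Q x y
    · apply iso_polar
      intro u
      exact A.2 u u
  · intro h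
    have hs : Rz F false ((univ : Finset (Fin t)).val.map d) := by
      apply rz_sym h2
      · intro a ha
        obtain ⟨k, _, rfl⟩ := Multiset.mem_map.1 ha
        exact hpos k
      · intro j hj hj0
        rw [count_map_univ]
        exact h j hj hj0
    obtain ⟨V, _, _, _, B, N, hn, hk, hi, hsh⟩ := hs
    have hSym : ∀ x y, B x y = B y x := hk
    have hfr : finrank F V = finrank F (Fin n → F) := by
      rw [hsh.finrank_eq, finrank_fin_fun, ← hsum]
      rfl
    let T : V ≃ₗ[F] (Fin n → F) := LinearEquiv.ofFinrankEq _ _ hfr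
    let C : LinearMap.BilinForm F (Fin n → F) :=
      B.compl₁₂ (T.symm : (Fin n → F) →ₗ[F] V) (T.symm : (Fin n → F) →ₗ[F] V)
    have hC : ∀ x y, C x y = B (T.symm x) (T.symm y) := fun x y => rfl
    let Q : QuadraticForm F (Fin n → F) := LinearMap.BilinMap.toQuadraticMap ((2⁻¹ : F) • C)
    have hQ : ∀ x, Q x = 2⁻¹ * B (T.symm x) (T.symm x) := fun x => rfl
    have hpolar : QuadraticMap.polarBilin Q = C := by
      rw [LinearMap.BilinMap.polarBilin_toQuadraticMap]
      apply LinearMap.ext
      intro x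
      apply LinearMap.ext
      intro y
      simp only [LinearMap.add_apply, LinearMap.smul_apply, LinearMap.flip_apply, smul_eq_mul, hC]
      rw [hSym (T.symm y) (T.symm x)]
      field_simp
      ring
    obtain ⟨A, hA1, hA2⟩ := exists_matrix T N
    have hnil : IsNilpotent (A - 1) := by
      have h3 : IsNilpotent (NM A) := by
        have : HasShape (NM A) ((univ : Finset (Fin t)).val.map d) := by
          apply hsh.transport T
          intro x
          rw [hA1]
          simp
        exact this.1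
      obtain ⟨k, hk⟩ := h3
      refine ⟨k, ?_⟩
      apply (Matrix.toLinAlgEquiv' (R := F) (n := Fin n)).injective
      rw [map_pow, map_zero]
      exact hk
    have hunit : IsUnit A := by
      have := hnil.isUnit_one_add
      simpa using this
    have hiso : hunit.unit ∈ Cfsg.isometryGroup F ⇑Q := by
      intro u _
      change Q (A *ᵥ u) = Q u
      obtain ⟨x, rfl⟩ := T.surjective u
      rw [hA2, hQ, hQ]
      simp only [LinearEquiv.symm_apply_apply]
      rw [hi]
    have hcard : Fintype.card ((k : Fin t) × Fin (d k)) = Fintype.card (Fin n) := by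
      rw [Fintype.card_sigma]
      simp only [Fintype.card_fin]
      exact hsum
    let e : ((k : Fin t) × Fin (d k)) ≃ Fin n := Fintype.equivOfCardEq hcard
    refine ⟨Q, ?_, e, ⟨hunit.unit, hiso⟩, ?_⟩
    · rw [hpolar]
      apply nondeg_of_left
      · intro x y h3
        rw [hC] at h3 ⊢
        rw [hSym, h3]
      · intro x hx
        have := hn (T.symm x) (fun y => by
          have := hx (T y)
          rw [hC] at this
          simpa using this)
        simpa using this
    · obtain ⟨v, hv⟩ := chain_reindex (F := F) d hpos e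
      apply conj_of_shape (hasShape_of_chain hv)
      have h1 : HasShape (NM A) ((univ : Finset (Fin t)).val.map d) := by
        apply hsh.transport T
        intro x
        rw [hA1]
        simp
      exact h1

end CfsgLib.H9.JordanForm
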