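import Cfsg.Agent.Lib.H9.JordanForms

/-!
Characteristic two: every unipotent isometry of an alternating form preserves a quadratic form
with that polar form (Dye).
-/
set_option autoImplicit false
open scoped MatrixGroups Matrix

namespace CfsgLib.H9.JordanForm

open Finset Module CfsgLib.H9.Jordan CfsgLib.H9.JordanCent

universe u

variable {F : Type u} [Field F]

/-- Dye's quadratic form for a unipotent isometry in characteristic two. -/
theorem exists_quad (h2 : (2 : F) = 0) {V : Type u} [AddCommGroup V] [Module F V]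
    [FiniteDimensional F V] {B : LinearMap.BilinForm F V} {N : End F V} (hA : B.IsAlt)
    (hiso : IsIso B N) (hnil : IsNilpotent N) :
    ∃ Q : QuadraticForm F V, QuadraticMap.polarBilin Q = B ∧ ∀ x, Q (x + N x) = Q x := by
  classical
  have hneg : ∀ a : F, -a = a := by
    intro a
    have : a + a = 0 := by
      rw [← two_mul, h2, zero_mul]
    exact neg_eq_of_add_eq_zero_left this
  have hadd : ∀ a : F, a + a = 0 := fun a => by rw [← two_mul, h2, zero_mul]
  have hsymm : ∀ a c, B a c = B c a := fun a c => by
    have := hA.neg_eq c a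
    rw [hneg] at this
    exact this.symm
  obtain ⟨ι, _, v, d, hc⟩ := exists_chain (finrank F V) V N hnil rfl
  obtain ⟨b, hb⟩ := hc.exists_basis
  let E : (Σ k, Fin (d k)) ≃ Fin (Fintype.card (Σ k, Fin (d k))) := Fintype.equivFin _
  let q : (Σ k, Fin (d k)) → F := fun x =>
    if (x.2 : ℕ) = 0 then 0 else B ((N ^ ((x.2 : ℕ) - 1)) (v x.1)) ((N ^ (x.2 : ℕ)) (v x.1))
  let c : (Σ k, Fin (d k)) → (Σ k, Fin (d k)) → F := fun x y =>
    if E x < E y then B (b x) (b y) else if x = y then q x else 0
  let C : LinearMap.BilinForm F V := b.constr F (fun x => b.constr F (c x))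
  have hC : ∀ x y, C (b x) (b y) = c x y := by
    intro x y
    simp only [C, Basis.constr_basis]
  let Q : QuadraticForm F V := LinearMap.BilinMap.toQuadraticMap C
  have hQb : ∀ x, Q (b x) = q x := by
    intro x
    change C (b x) (b x) = q x
    rw [hC]
    simp [c]
  have hpolar : QuadraticMap.polarBilin Q = B := by
    rw [LinearMap.BilinMap.polarBilin_toQuadraticMap]
    apply b.ext
    intro x
    apply b.ext
    intro y
    simp only [LinearMap.add_apply, LinearMap.flip_apply, hC, c]
    rcases lt_trichotomy (E x) (E y) with hxy | hxy | hxy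
    · have h1 : ¬ E y < E x := not_lt.2 hxy.le
      have h3 : ¬ y = x := fun h => by
        rw [h] at hxy
        exact lt_irrefl _ hxy
      simp [hxy, h1, h3]
    · have h1 : x = y := E.injective hxy
      subst h1
      simp only [lt_irrefl, if_false, if_true]
      rw [hadd, hA.self_eq_zero]
    · have h1 : ¬ E x < E y := not_lt.2 hxy.le
      have h3 : ¬ x = y := fun h => by
        rw [h] at hxy
        exact lt_irrefl _ hxy
      simp only [h1, h3, hxy, if_false, if_true, zero_add]
      exact hsymm _ _
  have hQadd : ∀ a e, Q (a + e) = Q a + Q e + B a e := by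
    intro a e
    have : B a e = Q (a + e) - Q a - Q e := by
      rw [← hpolar]
      rfl
    rw [this]
    ring
  refine ⟨Q, hpolar, ?_⟩
  -- the defect is additive
  let D : V →+ F := AddMonoidHom.mk' (fun x => Q (x + N x) - Q x) (by
    intro x y
    have h1 : x + y + N (x + y) = (x + N x) + (y + N y) := by
      rw [map_add]
      abel
    rw [h1, hQadd, hQadd x y, hiso x y]
    ring)
  have hD : ∀ x, D x = Q (x + N x) - Q x := fun x => rfl
  have hDsmul : ∀ (t : F) x, D (t • x) = t * t * D x := by
    intro t x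
    rw [hD, hD, map_smul, ← smul_add, QuadraticMap.map_smul, QuadraticMap.map_smul]
    simp only [smul_eq_mul]
    ring
  have hDb : ∀ x, D (b x) = 0 := by
    rintro ⟨k, a⟩
    rw [hD, hb]
    simp only
    rw [← pow_succ_apply, hQadd]
    by_cases ha : (a : ℕ) + 1 < d k
    · have h1 : (N ^ ((a : ℕ) + 1)) (v k) = b ⟨k, ⟨(a : ℕ) + 1, ha⟩⟩ :=
        (hb ⟨k, ⟨(a : ℕ) + 1, ha⟩⟩).symm
      have h3 : Q ((N ^ ((a : ℕ) + 1)) (v k)) = B ((N ^ (a : ℕ)) (v k)) ((N ^ ((a : ℕ) + 1)) (v k)) := by
        rw [h1, hQb]
        simp [q]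
        rw [← h1]
      rw [h3]
      have := hadd (B ((N ^ (a : ℕ)) (v k)) ((N ^ ((a : ℕ) + 1)) (v k)))
      linear_combination this
    · rw [hc.pow_eq_zero k (a := (a : ℕ) + 1) (by omega)]
      simp
  intro x
  have hx : D x = 0 := by
    rw [← b.sum_repr x, map_sum]
    refine sum_eq_zero (fun i _ => ?_)
    rw [hDsmul, hDb, mul_zero]
  rw [hD] at hx
  exact sub_eq_zero.1 hx

/-- The statement of S2584. -/
theorem main_2584 [CharP F 2] {m t : ℕ} (d : Fin t → ℕ) (hd : ∀ k, 1 ≤ d k)
    (hsum : ∑ k, d k = 2 * m) :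
    (∃ Q : QuadraticForm F (Fin (2 * m) → F), (QuadraticMap.polarBilin Q).Nondegenerate ∧
      ∃ e : ((k : Fin t) × Fin (d k)) ≃ Fin (2 * m), ∃ A : ↥(Cfsg.isometryGroup F ⇑Q),
        IsConj (Matrix.reindex e e (Cfsg.jordanTypeMatrix d F))
          ((A : Matrix.GeneralLinearGroup (Fin (2 * m)) F) : Matrix (Fin (2 * m)) (Fin (2 * m)) F)) ↔
      ∀ j : ℕ, Odd j → Even (Finset.univ.filter (fun k : Fin t => d k = j)).card := by
  classical
  have hpos : ∀ k, 0 < d k := hd
  have h2 : (2 : F) = 0 := CharTwo.two_eq_zero
  constructor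
  · rintro ⟨Q, hQ, e, A, hc⟩ j hj
    apply even_of_alt d hpos hc hQ _ _ j hj
    · intro x
      simp only [QuadraticMap.polarBilin_apply_apply, QuadraticMap.polar_self]
      simp [h2]
    · apply iso_polar
      intro u
      exact A.2 u u
  · intro h
    have hs : Rz F true ((univ : Finset (Fin t)).val.map d) := by
      apply rz_alt
      · intro a ha
        obtain ⟨k, _, rfl⟩ := Multiset.mem_map.1 ha
        exact hpos k
      · intro j hj
        rw [count_map_univ]
        exact h j hj
    obtain ⟨V, _, _, _, B, N, hn, hk, hi, hsh⟩ := hs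
    have hAlt : B.IsAlt := hk
    have hskew : ∀ a c, B a c = - B c a := fun a c => (hAlt.neg_eq c a).symm
    obtain ⟨Q₀, hQ₀, hQ₁⟩ := exists_quad h2 hAlt hi hsh.1
    have hfr : finrank F V = finrank F (Fin (2 * m) → F) := by
      rw [hsh.finrank_eq, finrank_fin_fun, ← hsum]
      rfl
    let T : V ≃ₗ[F] (Fin (2 * m) → F) := LinearEquiv.ofFinrankEq _ _ hfr
    let Q : QuadraticForm F (Fin (2 * m) → F) := Q₀.comp (T.symm : (Fin (2 * m) → F) →ₗ[F] V)
    have hQ : ∀ x, Q x = Q₀ (T.symm x) := fun x => rfl
    have hpolar : ∀ x y, QuadraticMap.polarBilin Q x y = B (T.symm x) (T.symm y) := by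
      intro x y
      rw [← hQ₀]
      simp only [QuadraticMap.polarBilin_apply_apply, QuadraticMap.polar, hQ, map_add]
    obtain ⟨A, hA1, hA2⟩ := exists_matrix T N
    have hnil : IsNilpotent (A - 1) := by
      have h3 : IsNilpotent (NM A) := by
        have : HasShape (NM A) ((univ : Finset (Fin t)).val.map d) := by
          apply hsh.transport T
          intro x
          rw [hA1]
          simp
        exact this.1
      obtain ⟨k, hk⟩ := h3
      refine ⟨k, ?_⟩
      apply (Matrix.toLinAlgEquiv' (R := F) (n := Fin (2 * m))).injective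
      rw [map_pow, map_zero]
      exact hk
    have hunit : IsUnit A := by
      have := hnil.isUnit_one_add
      simpa using this
    have hiso : hunit.unit ∈ Cfsg.isometryGroup F ⇑Q := by
      intro u _
      change Q (A *ᵥ u) = Q u
      obtain ⟨x, rfl⟩ := T.surjective u
      rw [hA2, hQ, hQ]
      simp only [LinearEquiv.symm_apply_apply]
      exact hQ₁ x
    have hcard : Fintype.card ((k : Fin t) × Fin (d k)) = Fintype.card (Fin (2 * m)) := by
      rw [Fintype.card_sigma]
      simp only [Fintype.card_fin]
      exact hsum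
    let e : ((k : Fin t) × Fin (d k)) ≃ Fin (2 * m) := Fintype.equivOfCardEq hcard
    refine ⟨Q, ?_, e, ⟨hunit.unit, hiso⟩, ?_⟩
    · apply nondeg_of_left
      · intro x y h3
        rw [hpolar] at h3 ⊢
        rw [hskew, h3, neg_zero]
      · intro x hx
        have := hn (T.symm x) (fun y => by
          have := hx (T y)
          rw [hpolar] at this
          simpa using this)
        simpa using this
    · obtain ⟨v, hv⟩ := chain_reindex (F := F) d hpos e
      apply conj_of_shape (hasShape_of_chain hv)
      have h1 : HasShape (NM A) ((univ : Finset (Fin t)).val.map d) := by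
        apply hsh.transport T
        intro x
        rw [hA1]
        simp
      exact h1

end CfsgLib.H9.JordanForm
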