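import Mathlib

/-! Counting nilpotent matrices over a finite field via the Fitting decomposition. -/

namespace CfsgLib.H9.NilCount

open Module LinearMap

universe u

variable {F : Type u} [Field F] [Finite F]

section Basic

variable {V W : Type u} [AddCommGroup V] [Module F V] [FiniteDimensional F V]
  [AddCommGroup W] [Module F W] [FiniteDimensional F W]

omit [Finite F] in
theorem finrank_eq_of_equiv (e : V ≃ₗ[F] W) : finrank F V = finrank F W := e.finrank_eq

theorem finite_hom : Finite (V →ₗ[F] W) := Module.finite_of_finite F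

theorem finite_iso : Finite (V ≃ₗ[F] W) := by
  haveI := finite_hom (F := F) (V := V) (W := W)
  exact Finite.of_injective (fun e => (e : V →ₗ[F] W)) (fun a b h => LinearEquiv.toLinearMap_injective h)

variable (F) in
/-- The order of the general linear group in terms of linear equivalences. -/
noncomputable def gg (k : ℕ) : ℕ := Nat.card ((Fin k → F) ≃ₗ[F] (Fin k → F))

variable (F) in
/-- The number of nilpotent endomorphisms. -/
noncomputable def NN (k : ℕ) : ℕ := Nat.card {B : End F (Fin k → F) // IsNilpotent B}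

theorem card_iso (k : ℕ) (h1 : finrank F V = k) (h2 : finrank F W = k) :
    Nat.card (V ≃ₗ[F] W) = gg F k := by
  let e₁ : V ≃ₗ[F] (Fin k → F) := LinearEquiv.ofFinrankEq _ _ (by simp [h1])
  let e₂ : W ≃ₗ[F] (Fin k → F) := LinearEquiv.ofFinrankEq _ _ (by simp [h2])
  refine Nat.card_congr
    { toFun := fun φ => e₁.symm.trans (φ.trans e₂)
      invFun := fun ψ => e₁.trans (ψ.trans e₂.symm)
      left_inv := fun φ => by ext x; simp
      right_inv := fun ψ => by ext x; simp }

theorem card_nil (k : ℕ) (h1 : finrank F V = k) :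
    Nat.card {B : End F V // IsNilpotent B} = NN F k := by
  let e : V ≃ₗ[F] (Fin k → F) := LinearEquiv.ofFinrankEq _ _ (by simp [h1])
  let R := e.conjRingEquiv (σ₁₂ := RingHom.id F)
  refine Nat.card_congr (Equiv.subtypeEquiv R.toEquiv fun B => ?_)
  constructor
  · intro h
    exact h.map R
  · intro h
    have h2 := IsNilpotent.map h R.symm
    have h3 : R.symm (R.toEquiv B) = B := R.symm_apply_apply B
    rwa [h3] at h2

end Basic

section Fitting

variable {V : Type u} [AddCommGroup V] [Module F V] [FiniteDimensional F V]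

/-- The nilpotent part. -/
def Nl (A : End F V) : Submodule F V := ⨆ n, ker (A ^ n)

/-- The invertible part. -/
def Rg (A : End F V) : Submodule F V := ⨅ n, range (A ^ n)

omit [Finite F] in
theorem fit_compl (A : End F V) : IsCompl (Nl A) (Rg A) :=
  LinearMap.isCompl_iSup_ker_pow_iInf_range_pow A

omit [Finite F] in
theorem nil_on (A : End F V) : ∃ e : ℕ, ∀ x ∈ Nl A, (A ^ e) x = 0 := by
  obtain ⟨e, he⟩ := Filter.eventually_atTop.1 (LinearMap.eventually_iSup_ker_pow_eq A)
  refine ⟨e, fun x hx => ?_⟩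
  have h1 := he e le_rfl
  have h2 : x ∈ ker (A ^ e) := by
    rw [← h1]; exact hx
  exact h2

omit [Finite F] in
theorem mem_Nl_of (A : End F V) (x : V) (j : ℕ) (h : (A ^ j) x = 0) : x ∈ Nl A :=
  Submodule.mem_iSup_of_mem j h

omit [Finite F] in
theorem Nl_inv (A : End F V) (x : V) (hx : x ∈ Nl A) : A x ∈ Nl A := by
  obtain ⟨e, he⟩ := nil_on A
  refine mem_Nl_of A _ e ?_
  have h1 : (A ^ e) (A x) = A ((A ^ e) x) := by
    rw [← Module.End.mul_apply, ← Module.End.mul_apply, pow_mul_comm']
  rw [h1, he x hx, map_zero]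

omit [Finite F] in
theorem Rg_inv (A : End F V) (x : V) (hx : x ∈ Rg A) : A x ∈ Rg A := by
  rw [Rg, Submodule.mem_iInf] at hx ⊢
  intro n
  obtain ⟨y, rfl⟩ := hx n
  refine ⟨A y, ?_⟩
  rw [← Module.End.mul_apply, ← Module.End.mul_apply, pow_mul_comm']

omit [Finite F] in
/-- Characterisation of the Fitting decomposition. -/
theorem fit_char (A : End F V) (U' W' : Submodule F V) (h : IsCompl U' W')
    (h1 : ∀ x ∈ U', ∃ j : ℕ, (A ^ j) x = 0) (h2 : ∀ y ∈ W', ∃ z ∈ W', A z = y) :
    U' = Nl A ∧ W' = Rg A := by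
  have hU : U' ≤ Nl A := by
    intro x hx
    obtain ⟨j, hj⟩ := h1 x hx
    exact mem_Nl_of A x j hj
  have hW : W' ≤ Rg A := by
    intro y hy
    rw [Rg, Submodule.mem_iInf]
    intro j
    have : ∀ j : ℕ, ∀ y ∈ W', ∃ z ∈ W', (A ^ j) z = y := by
      intro j
      induction j with
      | zero => exact fun y hy => ⟨y, hy, rfl⟩
      | succ j ih =>
        intro y hy
        obtain ⟨z, hz, hzy⟩ := h2 y hy
        obtain ⟨w, hw, hwz⟩ := ih z hz
        refine ⟨w, hw, ?_⟩
        rw [pow_succ', Module.End.mul_apply, hwz, hzy]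
    obtain ⟨z, -, hz⟩ := this j y hy
    exact ⟨z, hz⟩
  have d1 := Submodule.finrank_add_eq_of_isCompl h
  have d2 := Submodule.finrank_add_eq_of_isCompl (fit_compl A)
  have d3 := Submodule.finrank_mono hU
  have d4 := Submodule.finrank_mono hW
  exact ⟨Submodule.eq_of_le_of_finrank_eq hU (by omega), Submodule.eq_of_le_of_finrank_eq hW (by omega)⟩

end Fitting

section Pairs

variable {V V₁ V₂ : Type u} [AddCommGroup V] [Module F V] [FiniteDimensional F V]
  [AddCommGroup V₁] [Module F V₁] [FiniteDimensional F V₁]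
  [AddCommGroup V₂] [Module F V₂] [FiniteDimensional F V₂]

/-- The image of the first factor. -/
def Ua (θ : (V₁ × V₂) ≃ₗ[F] V) : Submodule F V := ker ((snd F V₁ V₂) ∘ₗ θ.symm.toLinearMap)

/-- The image of the second factor. -/
def Wa (θ : (V₁ × V₂) ≃ₗ[F] V) : Submodule F V := ker ((fst F V₁ V₂) ∘ₗ θ.symm.toLinearMap)

omit [Finite F] [FiniteDimensional F V] [FiniteDimensional F V₁] [FiniteDimensional F V₂] in
theorem mem_Ua (θ : (V₁ × V₂) ≃ₗ[F] V) (x : V) : x ∈ Ua θ ↔ (θ.symm x).2 = 0 := Iff.rfl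

omit [Finite F] [FiniteDimensional F V] [FiniteDimensional F V₁] [FiniteDimensional F V₂] in
theorem mem_Wa (θ : (V₁ × V₂) ≃ₗ[F] V) (x : V) : x ∈ Wa θ ↔ (θ.symm x).1 = 0 := Iff.rfl

omit [Finite F] [FiniteDimensional F V] [FiniteDimensional F V₁] [FiniteDimensional F V₂] in
theorem compl_UW (θ : (V₁ × V₂) ≃ₗ[F] V) : IsCompl (Ua θ) (Wa θ) := by
  constructor
  · rw [Submodule.disjoint_def]
    intro x h1 h2
    have h3 : θ.symm x = 0 := Prod.ext h2 h1
    simpa using h3
  · rw [codisjoint_iff, eq_top_iff]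
    intro x _
    have e : x = θ ((θ.symm x).1, 0) + θ (0, (θ.symm x).2) := by
      rw [← map_add]
      simp
    rw [e]
    refine Submodule.add_mem_sup ?_ ?_
    · rw [mem_Ua]; simp
    · rw [mem_Wa]; simp

omit [Finite F] [FiniteDimensional F V] in
theorem finrank_Ua (θ : (V₁ × V₂) ≃ₗ[F] V) : finrank F (Ua θ) = finrank F V₁ := by
  have h1 : Ua θ = range (θ.toLinearMap ∘ₗ inl F V₁ V₂) := by
    ext x
    rw [mem_Ua]
    constructor
    · intro h
      refine ⟨(θ.symm x).1, ?_⟩
      have : ((θ.symm x).1, (0 : V₂)) = θ.symm x := Prod.ext rfl h.symm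
      simp [this]
    · rintro ⟨a, rfl⟩
      simp
  rw [h1]
  exact LinearMap.finrank_range_of_inj (by
    intro a b hab
    have : (a, (0 : V₂)) = (b, 0) := θ.injective hab
    exact congrArg Prod.fst this)

/-- The map sending block data to an endomorphism. -/
def fA (θ : (V₁ × V₂) ≃ₗ[F] V) (B : End F V₁) (C : V₂ ≃ₗ[F] V₂) : End F V :=
  θ.toLinearMap ∘ₗ (B.prodMap C.toLinearMap) ∘ₗ θ.symm.toLinearMap

omit [Finite F] [FiniteDimensional F V] [FiniteDimensional F V₁] [FiniteDimensional F V₂] in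
theorem fA_apply (θ : (V₁ × V₂) ≃ₗ[F] V) (B : End F V₁) (C : V₂ ≃ₗ[F] V₂) (a : V₁) (b : V₂) :
    fA θ B C (θ (a, b)) = θ (B a, C b) := by
  simp [fA]

omit [Finite F] [FiniteDimensional F V] [FiniteDimensional F V₁] [FiniteDimensional F V₂] in
theorem fA_pow (θ : (V₁ × V₂) ≃ₗ[F] V) (B : End F V₁) (C : V₂ ≃ₗ[F] V₂) (j : ℕ) (a : V₁) (b : V₂) :
    ((fA θ B C) ^ j) (θ (a, b)) = θ ((B ^ j) a, ((C.toLinearMap : End F V₂) ^ j) b) := by
  induction j generalizing a b with
  | zero => rfl
  | succ j ih =>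
    rw [pow_succ, Module.End.mul_apply, fA_apply, ih, pow_succ, pow_succ]
    rfl

omit [Finite F] [FiniteDimensional F V₁] [FiniteDimensional F V₂] in
theorem fA_char (θ : (V₁ × V₂) ≃ₗ[F] V) (B : End F V₁) (hB : IsNilpotent B) (C : V₂ ≃ₗ[F] V₂) :
    Ua θ = Nl (fA θ B C) ∧ Wa θ = Rg (fA θ B C) := by
  obtain ⟨e, he⟩ := hB
  refine fit_char _ _ _ (compl_UW θ) ?_ ?_
  · intro x hx
    refine ⟨e, ?_⟩
    have h1 : x = θ ((θ.symm x).1, 0) := by
      have : ((θ.symm x).1, (0 : V₂)) = θ.symm x := Prod.ext rfl hx.symm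
      rw [this]; simp
    rw [h1, fA_pow, he]
    simp
  · intro y hy
    have h1 : y = θ (0, (θ.symm y).2) := by
      have : ((0 : V₁), (θ.symm y).2) = θ.symm y := Prod.ext hy.symm rfl
      rw [this]; simp
    refine ⟨θ (0, C.symm (θ.symm y).2), ?_, ?_⟩
    · rw [mem_Wa]; simp
    · rw [fA_apply, map_zero]
      simp only [LinearEquiv.apply_symm_apply]
      exact h1.symm

/-- The set of identifications with prescribed images. -/
def SS (U W : Submodule F V) : Type u :=
  {θ : (V₁ × V₂) ≃ₗ[F] V // Ua θ = U ∧ Wa θ = W}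

/-- Counting identifications. -/
theorem card_SS (U W : Submodule F V) (h : IsCompl U W) (k m : ℕ) (hk : finrank F V₁ = k) (hm : finrank F V₂ = m)
    (hU : finrank F U = k) (hW : finrank F W = m) :
    Nat.card (SS (F := F) (V₁ := V₁) (V₂ := V₂) U W) = gg F k * gg F m := by
  classical
  haveI := finite_iso (F := F) (V := V₁) (W := U)
  haveI := finite_iso (F := F) (V := V₂) (W := W)
  let T : (V₁ ≃ₗ[F] U) × (V₂ ≃ₗ[F] W) → (V₁ × V₂) ≃ₗ[F] V := fun p =>
    (p.1.prodCongr p.2).trans (Submodule.prodEquivOfIsCompl U W h)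
  have hT : ∀ p a b, T p (a, b) = (p.1 a : V) + (p.2 b : V) := fun p a b => rfl
  have hdisj : ∀ x : V, x ∈ U → x ∈ W → x = 0 := fun x h1 h2 =>
    (Submodule.disjoint_def.1 h.1) x h1 h2
  have hTU : ∀ p, Ua (T p) = U := by
    intro p
    ext x
    obtain ⟨⟨a, b⟩, rfl⟩ := (T p).surjective x
    rw [mem_Ua]
    simp only [LinearEquiv.symm_apply_apply]
    rw [hT]
    constructor
    · intro h1
      have h2 : b = 0 := h1
      subst h2
      simp
    · intro h1
      have h2 : (p.2 b : V) ∈ U := by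
        have := U.sub_mem h1 (p.1 a).2
        simpa using this
      have h3 := hdisj _ h2 (p.2 b).2
      have h4 : p.2 b = 0 := Subtype.ext h3
      exact (map_eq_zero_iff _ p.2.injective).1 h4
  have hTW : ∀ p, Wa (T p) = W := by
    intro p
    ext x
    obtain ⟨⟨a, b⟩, rfl⟩ := (T p).surjective x
    rw [mem_Wa]
    simp only [LinearEquiv.symm_apply_apply]
    rw [hT]
    constructor
    · intro h1
      have h2 : a = 0 := h1
      subst h2
      simp
    · intro h1
      have h2 : (p.1 a : V) ∈ W := by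
        have := W.sub_mem h1 (p.2 b).2
        simpa using this
      have h3 := hdisj _ (p.1 a).2 h2
      have h4 : p.1 a = 0 := Subtype.ext h3
      exact (map_eq_zero_iff _ p.1.injective).1 h4
  let Φ : (V₁ ≃ₗ[F] U) × (V₂ ≃ₗ[F] W) → SS (F := F) (V₁ := V₁) (V₂ := V₂) U W :=
    fun p => ⟨T p, hTU p, hTW p⟩
  have hΦ : Function.Bijective Φ := by
    constructor
    · intro p p' hp
      have h1 : T p = T p' := congrArg Subtype.val hp
      have h2 : ∀ a b, T p (a, b) = T p' (a, b) := fun a b => by rw [h1]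
      refine Prod.ext ?_ ?_
      · ext a
        have := h2 a 0
        rw [hT, hT] at this
        simpa using this
      · ext b
        have := h2 0 b
        rw [hT, hT] at this
        simpa using this
    · rintro ⟨θ, hU', hW'⟩
      let α₀ : V₁ →ₗ[F] U := LinearMap.codRestrict U (θ.toLinearMap ∘ₗ inl F V₁ V₂) (fun a => by
        rw [← hU', mem_Ua]; simp)
      let β₀ : V₂ →ₗ[F] W := LinearMap.codRestrict W (θ.toLinearMap ∘ₗ inr F V₁ V₂) (fun b => by
        rw [← hW', mem_Wa]; simp)
      have hα : Function.Bijective α₀ := by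
        constructor
        · intro a a' haa
          have h1 : θ (a, 0) = θ (a', 0) := congrArg Subtype.val haa
          exact congrArg Prod.fst (θ.injective h1)
        · rintro ⟨x, hx⟩
          have hx' : x ∈ Ua θ := by rw [hU']; exact hx
          refine ⟨(θ.symm x).1, Subtype.ext ?_⟩
          have : ((θ.symm x).1, (0 : V₂)) = θ.symm x := Prod.ext rfl hx'.symm
          change θ ((θ.symm x).1, 0) = x
          rw [this]; simp
      have hβ : Function.Bijective β₀ := by
        constructor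
        · intro a a' haa
          have h1 : θ (0, a) = θ (0, a') := congrArg Subtype.val haa
          exact congrArg Prod.snd (θ.injective h1)
        · rintro ⟨x, hx⟩
          have hx' : x ∈ Wa θ := by rw [hW']; exact hx
          refine ⟨(θ.symm x).2, Subtype.ext ?_⟩
          have : ((0 : V₁), (θ.symm x).2) = θ.symm x := Prod.ext hx'.symm rfl
          change θ (0, (θ.symm x).2) = x
          rw [this]; simp
      refine ⟨(LinearEquiv.ofBijective α₀ hα, LinearEquiv.ofBijective β₀ hβ), Subtype.ext ?_⟩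
      refine LinearEquiv.ext ?_
      rintro ⟨a, b⟩
      change θ (a, 0) + θ (0, b) = θ (a, b)
      rw [← map_add]
      simp
  rw [← Nat.card_congr (Equiv.ofBijective Φ hΦ), Nat.card_prod, card_iso k hk hU, card_iso m hm hW]

/-- Description of the fibres. -/
theorem card_fiber_fA (A : End F V) (k m : ℕ) (hk : finrank F V₁ = k) (hm : finrank F V₂ = m)
    (hV : finrank F V = k + m) (hA : finrank F (Nl A) = k) :
    Nat.card {t : ((V₁ × V₂) ≃ₗ[F] V) × {B : End F V₁ // IsNilpotent B} × (V₂ ≃ₗ[F] V₂) //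
      fA t.1 t.2.1.1 t.2.2 = A} = gg F k * gg F m := by
  classical
  have hc := fit_compl A
  have hW : finrank F (Rg A) = m := by
    have := Submodule.finrank_add_eq_of_isCompl hc
    omega
  rw [← card_SS (V₁ := V₁) (V₂ := V₂) (Nl A) (Rg A) hc k m hk hm hA hW]
  let Ψ : {t : ((V₁ × V₂) ≃ₗ[F] V) × {B : End F V₁ // IsNilpotent B} × (V₂ ≃ₗ[F] V₂) //
      fA t.1 t.2.1.1 t.2.2 = A} → SS (F := F) (V₁ := V₁) (V₂ := V₂) (Nl A) (Rg A) := fun t =>
    ⟨t.1.1, by
      have := fA_char t.1.1 t.1.2.1.1 t.1.2.1.2 t.1.2.2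
      rw [t.2] at this
      exact this⟩
  refine Nat.card_congr (Equiv.ofBijective Ψ ⟨?_, ?_⟩)
  · rintro ⟨⟨θ, ⟨B, hB⟩, C⟩, h1⟩ ⟨⟨θ', ⟨B', hB'⟩, C'⟩, h2⟩ h3
    have h4 : θ = θ' := congrArg Subtype.val h3
    subst h4
    have h5 : fA θ B C = fA θ B' C' := h1.trans h2.symm
    have h6 : ∀ a b, θ (B a, C b) = θ (B' a, C' b) := by
      intro a b
      rw [← fA_apply, ← fA_apply, h5]
    have hBB : B = B' := by
      ext a
      have := θ.injective (h6 a 0)
      exact congrArg Prod.fst this
    have hCC : C = C' := by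
      ext b
      have := θ.injective (h6 0 b)
      exact congrArg Prod.snd this
    subst hBB
    subst hCC
    rfl
  · rintro ⟨θ, hU, hW'⟩
    let B₀ : End F V₁ := (fst F V₁ V₂) ∘ₗ θ.symm.toLinearMap ∘ₗ A ∘ₗ θ.toLinearMap ∘ₗ inl F V₁ V₂
    let C₀ : End F V₂ := (snd F V₁ V₂) ∘ₗ θ.symm.toLinearMap ∘ₗ A ∘ₗ θ.toLinearMap ∘ₗ inr F V₁ V₂
    have hu : ∀ a, θ (a, (0 : V₂)) ∈ Nl A := by
      intro a
      rw [← hU, mem_Ua]; simp
    have hw : ∀ b, θ ((0 : V₁), b) ∈ Rg A := by
      intro b
      rw [← hW', mem_Wa]; simp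
    have F1 : ∀ a, A (θ (a, (0 : V₂))) = θ (B₀ a, 0) := by
      intro a
      have h1 : A (θ (a, 0)) ∈ Ua θ := by
        rw [hU]; exact Nl_inv A _ (hu a)
      have h2 : (B₀ a, (0 : V₂)) = θ.symm (A (θ (a, 0))) := Prod.ext rfl h1.symm
      rw [h2]; simp
    have F2 : ∀ b, A (θ ((0 : V₁), b)) = θ (0, C₀ b) := by
      intro b
      have h1 : A (θ (0, b)) ∈ Wa θ := by
        rw [hW']; exact Rg_inv A _ (hw b)
      have h2 : ((0 : V₁), C₀ b) = θ.symm (A (θ (0, b))) := Prod.ext h1.symm rfl
      rw [h2]; simp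
    have hB₀ : IsNilpotent B₀ := by
      obtain ⟨e, he⟩ := nil_on A
      refine ⟨e, ?_⟩
      have h1 : ∀ j a, (A ^ j) (θ (a, (0 : V₂))) = θ ((B₀ ^ j) a, 0) := by
        intro j
        induction j with
        | zero => intro a; rfl
        | succ j ih =>
          intro a
          rw [pow_succ, Module.End.mul_apply, F1, ih, pow_succ]
          rfl
      ext a
      have h2 := he _ (hu a)
      rw [h1] at h2
      have h3 : ((B₀ ^ e) a, (0 : V₂)) = 0 := by
        simpa using h2
      simpa using congrArg Prod.fst h3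
    have hC₀ : Function.Injective C₀ := by
      rw [← LinearMap.ker_eq_bot, LinearMap.ker_eq_bot']
      intro b hb
      have h1 : A (θ (0, b)) = 0 := by
        rw [F2, hb]; simp
      have h2 : θ ((0 : V₁), b) ∈ Nl A := mem_Nl_of A _ 1 (by simpa using h1)
      have h3 := (Submodule.disjoint_def.1 hc.1) _ h2 (hw b)
      have h4 : ((0 : V₁), b) = 0 := by simpa using h3
      exact congrArg Prod.snd h4
    let C := LinearEquiv.ofInjectiveEndo C₀ hC₀
    refine ⟨⟨(θ, ⟨B₀, hB₀⟩, C), ?_⟩, Subtype.ext rfl⟩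
    ext x
    obtain ⟨⟨a, b⟩, rfl⟩ := θ.surjective x
    change fA θ B₀ C (θ (a, b)) = A (θ (a, b))
    rw [fA_apply]
    have e1 : ((a, b) : V₁ × V₂) = (a, 0) + (0, b) := by simp
    rw [e1, map_add, map_add, F1, F2, ← map_add]
    simp
    rfl

theorem card_fiber_zero (A : End F V) (k : ℕ) (hk : finrank F V₁ = k) (hA : finrank F (Nl A) ≠ k) :
    Nat.card {t : ((V₁ × V₂) ≃ₗ[F] V) × {B : End F V₁ // IsNilpotent B} × (V₂ ≃ₗ[F] V₂) //
      fA t.1 t.2.1.1 t.2.2 = A} = 0 := by
  haveI : IsEmpty {t : ((V₁ × V₂) ≃ₗ[F] V) × {B : End F V₁ // IsNilpotent B} × (V₂ ≃ₗ[F] V₂) //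
      fA t.1 t.2.1.1 t.2.2 = A} := by
    constructor
    rintro ⟨⟨θ, ⟨B, hB⟩, C⟩, h1⟩
    have := (fA_char θ B hB C).1
    rw [h1] at this
    apply hA
    rw [← this, finrank_Ua, hk]
  exact Nat.card_of_isEmpty

/-- The count for a fixed size of the nilpotent part. -/
theorem count_k (k m : ℕ) (hk : finrank F V₁ = k) (hm : finrank F V₂ = m) (hV : finrank F V = k + m) :
    gg F (k + m) * NN F k * gg F m = Nat.card {A : End F V // finrank F (Nl A) = k} * (gg F k * gg F m) := by
  classical
  haveI := finite_hom (F := F) (V := V) (W := V)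
  haveI := finite_iso (F := F) (V := V₁ × V₂) (W := V)
  haveI := finite_iso (F := F) (V := V₂) (W := V₂)
  haveI := finite_hom (F := F) (V := V₁) (W := V₁)
  haveI : Fintype (End F V) := Fintype.ofFinite _
  have hT : Nat.card (((V₁ × V₂) ≃ₗ[F] V) × {B : End F V₁ // IsNilpotent B} × (V₂ ≃ₗ[F] V₂)) =
      gg F (k + m) * NN F k * gg F m := by
    rw [Nat.card_prod, Nat.card_prod, card_iso (k + m) (by rw [Module.finrank_prod, hk, hm]) hV,
      card_nil k hk, card_iso m hm hm, mul_assoc]
  rw [← hT]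
  let f : ((V₁ × V₂) ≃ₗ[F] V) × {B : End F V₁ // IsNilpotent B} × (V₂ ≃ₗ[F] V₂) → End F V :=
    fun t => fA t.1 t.2.1.1 t.2.2
  rw [← Nat.card_congr (Equiv.sigmaFiberEquiv f), Nat.card_sigma]
  have h1 : ∀ A : End F V, Nat.card {t // f t = A} =
      if finrank F (Nl A) = k then gg F k * gg F m else 0 := by
    intro A
    split_ifs with h
    · exact card_fiber_fA A k m hk hm hV h
    · exact card_fiber_zero A k hk h
  rw [Finset.sum_congr rfl (fun A _ => h1 A), Finset.sum_ite, Finset.sum_const_zero, add_zero,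
    Finset.sum_const, smul_eq_mul, Nat.card_eq_fintype_card, Fintype.card_subtype]

end Pairs

section Numeric

variable (F) in
theorem gg_eq (k : ℕ) : gg F k = Nat.card (Matrix.GeneralLinearGroup (Fin k) F) := by
  classical
  refine Nat.card_congr ?_
  exact ((Matrix.GeneralLinearGroup.toLin (n := Fin k) (R := F)).trans
    (LinearMap.GeneralLinearGroup.generalLinearEquiv F (Fin k → F))).symm.toEquiv

variable (F) in
theorem gg_pos (k : ℕ) : 0 < gg F k := by
  haveI := finite_iso (F := F) (V := Fin k → F) (W := Fin k → F)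
  exact Nat.card_pos

theorem gg_succ (k : ℕ) : gg F (k + 1) =
    gg F k * (Nat.card F ^ k * (Nat.card F ^ (k + 1) - 1)) := by
  classical
  haveI : Fintype F := Fintype.ofFinite F
  rw [gg_eq, gg_eq, Matrix.card_GL_field, Matrix.card_GL_field, Fin.prod_univ_succ, Nat.card_eq_fintype_card]
  simp only [Fin.val_zero, pow_zero, Fin.val_succ]
  have h1 : ∀ i : Fin k, Fintype.card F ^ (k + 1) - Fintype.card F ^ ((i : ℕ) + 1) =
      Fintype.card F * (Fintype.card F ^ k - Fintype.card F ^ (i : ℕ)) := by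
    intro i
    rw [Nat.mul_sub, pow_succ' _ k, pow_succ' _ (i : ℕ)]
  rw [Finset.prod_congr rfl (fun i _ => h1 i), Finset.prod_mul_distrib, Finset.prod_const, Finset.card_univ,
    Fintype.card_fin]
  ring

/-- The sum identity. -/
theorem sum_identity (n : ℕ) :
    ∑ k ∈ Finset.range (n + 1), ((NN F k : ℚ) / gg F k) = (Nat.card F : ℚ) ^ (n ^ 2) / gg F n := by
  classical
  let V := Fin n → F
  haveI := finite_hom (F := F) (V := V) (W := V)
  haveI : Fintype (End F V) := Fintype.ofFinite _
  have hc : ∀ k ∈ Finset.range (n + 1), (Nat.card {A : End F V // finrank F (Nl A) = k} : ℚ) =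
      (gg F n : ℚ) * ((NN F k : ℚ) / gg F k) := by
    intro k hk
    have hk' : k ≤ n := Nat.lt_succ_iff.1 (Finset.mem_range.1 hk)
    obtain ⟨m, rfl⟩ : ∃ m, n = k + m := ⟨n - k, by omega⟩
    have h1 := count_k (F := F) (V := V) (V₁ := Fin k → F) (V₂ := Fin m → F) k m (by simp) (by simp)
      (by simp [V])
    have h2 : (0 : ℚ) < gg F k := by exact_mod_cast gg_pos F k
    have h3 : (0 : ℚ) < gg F m := by exact_mod_cast gg_pos F m
    have h4 : ((gg F (k + m) : ℚ)) * NN F k * gg F m =
        (Nat.card {A : End F V // finrank F (Nl A) = k} : ℚ) * (gg F k * gg F m) := by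
      exact_mod_cast h1
    field_simp
    have h5 : (Nat.card {A : End F V // finrank F (Nl A) = k} : ℚ) * gg F k = gg F (k + m) * NN F k := by
      have : ((Nat.card {A : End F V // finrank F (Nl A) = k} : ℚ) * gg F k - gg F (k + m) * NN F k) * gg F m = 0 := by
        linear_combination -h4
      rcases mul_eq_zero.1 this with h6 | h6
      · linarith
      · exact absurd h6 h3.ne'
    linarith
  have hsum : ∑ k ∈ Finset.range (n + 1), Nat.card {A : End F V // finrank F (Nl A) = k} = Nat.card (End F V) := by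
    rw [Nat.card_eq_fintype_card (α := End F V), ← Finset.card_univ]
    rw [Finset.card_eq_sum_card_fiberwise (f := fun A : End F V => finrank F (Nl A))
      (t := Finset.range (n + 1))]
    · refine Finset.sum_congr rfl fun k _ => ?_
      rw [Nat.card_eq_fintype_card, Fintype.card_subtype]
    · intro A _
      have h := Submodule.finrank_le (Nl A)
      have h2 : finrank F V = n := by simp [V]
      simp only [Finset.coe_range, Set.mem_Iio]
      omega
  have hE : Nat.card (End F V) = Nat.card F ^ (n ^ 2) := by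
    rw [Module.natCard_eq_pow_finrank (K := F)]
    congr 1
    have h2 : finrank F V = n := by simp [V]
    change finrank F (V →ₗ[F] V) = _
    rw [Module.finrank_linearMap, h2, sq]
  have h0 : (0 : ℚ) < gg F n := by exact_mod_cast gg_pos F n
  have hq : (∑ k ∈ Finset.range (n + 1), (Nat.card {A : End F V // finrank F (Nl A) = k} : ℚ)) =
      (Nat.card F : ℚ) ^ (n ^ 2) := by
    have := congrArg (fun x : ℕ => (x : ℚ)) (hsum.trans hE)
    push_cast at this
    exact this
  rw [Finset.sum_congr rfl hc, ← Finset.mul_sum] at hq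
  field_simp
  linarith

/-- Number of nilpotent endomorphisms. -/
theorem NN_eq (n : ℕ) : NN F n = Nat.card F ^ (n * (n - 1)) := by
  have hqq : 2 ≤ Nat.card F := Finite.one_lt_card
  cases n with
  | zero =>
    have h := sum_identity (F := F) 0
    simp only [zero_add, Finset.range_one, Finset.sum_singleton] at h
    have h0 : (0 : ℚ) < gg F 0 := by exact_mod_cast gg_pos F 0
    field_simp at h
    simp at h
    simpa using h
  | succ n =>
    have h1 := sum_identity (F := F) (n + 1)
    have h2 := sum_identity (F := F) n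
    rw [Finset.sum_range_succ, h2] at h1
    have h3 : (0 : ℚ) < gg F n := by exact_mod_cast gg_pos F n
    have h4 : (gg F (n + 1) : ℚ) = gg F n * ((Nat.card F : ℚ) ^ n * ((Nat.card F : ℚ) ^ (n + 1) - 1)) := by
      rw [gg_succ]
      push_cast
      rw [Nat.cast_sub (Nat.one_le_pow _ _ (by omega))]
      push_cast
      rfl
    have h5 : (0 : ℚ) < gg F (n + 1) := by exact_mod_cast gg_pos F (n + 1)
    have h6 : (NN F (n + 1) : ℚ) = (Nat.card F : ℚ) ^ ((n + 1) ^ 2) -
        (Nat.card F : ℚ) ^ (n ^ 2) * ((Nat.card F : ℚ) ^ n * ((Nat.card F : ℚ) ^ (n + 1) - 1)) := by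
      have h7 : (NN F (n + 1) : ℚ) / gg F (n + 1) = (Nat.card F : ℚ) ^ ((n + 1) ^ 2) / gg F (n + 1) -
          (Nat.card F : ℚ) ^ (n ^ 2) / gg F n := by
        linarith
      rw [div_eq_iff h5.ne'] at h7
      rw [h7, sub_mul, div_mul_cancel₀ _ h5.ne', h4]
      field_simp
    have h8 : ((NN F (n + 1) : ℕ) : ℚ) = ((Nat.card F ^ ((n + 1) * n) : ℕ) : ℚ) := by
      rw [h6]
      push_cast
      have e1 : (n + 1) ^ 2 = n ^ 2 + n + (n + 1) := by ring
      have e2 : (n + 1) * n = n ^ 2 + n := by ring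
      rw [e1, e2]
      ring
    have h9 := Nat.cast_injective h8
    simpa using h9

end Numeric

section Final

theorem order_iff {F : Type u} [Field F] [Fintype F] (p : ℕ) [Fact p.Prime] [CharP F p] (n : ℕ)
    (g : Matrix.GeneralLinearGroup (Fin n) F) :
    (∃ k : ℕ, orderOf g = p ^ k) ↔ IsNilpotent ((g : Matrix (Fin n) (Fin n) F) - 1) := by
  classical
  have hp : p.Prime := Fact.out
  rcases Nat.eq_zero_or_pos n with rfl | hn
  · constructor
    · intro _
      exact ⟨0, Subsingleton.elim _ _⟩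
    · intro _
      refine ⟨0, ?_⟩
      have : g = 1 := Subsingleton.elim _ _
      rw [this]
      simp
  haveI : Nonempty (Fin n) := ⟨⟨0, hn⟩⟩
  haveI : CharP (Matrix (Fin n) (Fin n) F) p := Matrix.charP _
  constructor
  · rintro ⟨k, hk⟩
    refine ⟨p ^ k, ?_⟩
    rw [sub_pow_char_pow_of_commute p k (Commute.one_right _), one_pow, sub_eq_zero]
    have : g ^ (p ^ k) = 1 := by rw [← hk]; exact pow_orderOf_eq_one g
    rw [← Units.val_pow_eq_pow_val, this, Units.val_one]
  · rintro ⟨j, hj⟩
    have hlt : j ≤ p ^ j := (Nat.lt_pow_self hp.one_lt).le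
    have h1 : ((g : Matrix (Fin n) (Fin n) F) - 1) ^ (p ^ j) = 0 := by
      rw [← Nat.sub_add_cancel hlt, pow_add, hj, mul_zero]
    rw [sub_pow_char_pow_of_commute p j (Commute.one_right _), one_pow, sub_eq_zero] at h1
    have h2 : g ^ (p ^ j) = 1 := Units.ext (by rw [Units.val_pow_eq_pow_val, h1, Units.val_one])
    have h3 := orderOf_dvd_of_pow_eq_one h2
    obtain ⟨k, -, hk⟩ := (Nat.dvd_prime_pow hp).1 h3
    exact ⟨k, hk⟩

/-- The main theorem. -/
theorem main_2315 {F : Type u} [Field F] [Fintype F] (p : ℕ) [Fact p.Prime] [CharP F p] (n : ℕ) :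
    Nat.card {g : Matrix.GeneralLinearGroup (Fin n) F // ∃ k : ℕ, orderOf g = p ^ k} =
      Fintype.card F ^ (n * (n - 1)) := by
  classical
  rw [← Nat.card_eq_fintype_card, ← NN_eq]
  let e := Matrix.toLinAlgEquiv' (R := F) (n := Fin n)
  have hinj : ∀ (M : Matrix (Fin n) (Fin n) F), IsNilpotent (e M) ↔ IsNilpotent M := by
    intro M
    constructor
    · intro h
      have h2 := IsNilpotent.map h e.symm
      rwa [e.symm_apply_apply] at h2
    · intro h
      exact h.map e
  unfold NN
  refine Nat.card_congr ?_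
  refine
    { toFun := fun g => ⟨e ((g.1 : Matrix (Fin n) (Fin n) F) - 1), (hinj _).2 ((order_iff p n g.1).1 g.2)⟩
      invFun := fun B => ⟨(IsNilpotent.isUnit_one_add ((hinj (e.symm B.1)).1 (by
          rw [e.apply_symm_apply]; exact B.2))).unit, (order_iff p n _).2 (by
            simp only [IsUnit.unit_spec, add_sub_cancel_left]
            exact (hinj (e.symm B.1)).1 (by rw [e.apply_symm_apply]; exact B.2))⟩
      left_inv := fun g => by
        apply Subtype.ext
        apply Units.ext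
        simp
      right_inv := fun B => by
        apply Subtype.ext
        simp }

end Final

end CfsgLib.H9.NilCount
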