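import Cfsg.Agent.Lib.H9.Jordan
import Cfsg.Agent.Lib.H9.NilCount

/-!
Unipotent conjugacy classes of `GL_n` and partitions of `n`.
-/
set_option autoImplicit false
open scoped MatrixGroups

namespace CfsgLib.H9.JordanGL

open Finset Module CfsgLib.H9.Jordan

universe u

variable {F : Type u} [Field F] {n : ℕ}

/-- The endomorphism attached to `g - 1`. -/
noncomputable def Nn (g : GL (Fin n) F) : End F (Fin n → F) :=
  Matrix.toLinAlgEquiv' ((g : Matrix (Fin n) (Fin n) F) - 1)

/-- `g - 1` has chains of shape given by the partition `μ`. -/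
def Rel (g : GL (Fin n) F) (μ : n.Partition) : Prop :=
  ∃ (ι : Type) (_ : Fintype ι) (v : ι → Fin n → F) (d : ι → ℕ),
    IsChain (Nn g) v d ∧ (univ : Finset ι).val.map d = μ.parts

theorem nilp_iff (g : GL (Fin n) F) :
    IsNilpotent (Nn g) ↔ IsNilpotent ((g : Matrix (Fin n) (Fin n) F) - 1) := by
  constructor
  · rintro ⟨k, hk⟩
    refine ⟨k, ?_⟩
    apply (Matrix.toLinAlgEquiv' (R := F) (n := Fin n)).injective
    rw [map_pow, map_zero]
    exact hk
  · intro h
    exact h.map (Matrix.toLinAlgEquiv' (R := F) (n := Fin n))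

theorem exists_rel (g : GL (Fin n) F) (hg : IsNilpotent ((g : Matrix (Fin n) (Fin n) F) - 1)) :
    ∃ μ : n.Partition, Rel g μ := by
  obtain ⟨ι, _, v, d, h⟩ := exists_chain n (Fin n → F) (Nn g) ((nilp_iff g).2 hg) (by simp)
  refine ⟨⟨(univ : Finset ι).val.map d, ?_, ?_⟩, ι, inferInstance, v, d, h, rfl⟩
  · intro i hi
    obtain ⟨k, _, rfl⟩ := Multiset.mem_map.1 hi
    exact h.pos k
  · rw [h.shape_sum]
    simp

/-- A unipotent element with prescribed shape. -/
theorem exists_of_partition (μ : n.Partition) :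
    ∃ g : GL (Fin n) F, IsNilpotent ((g : Matrix (Fin n) (Fin n) F) - 1) ∧ Rel g μ := by
  classical
  let l := μ.parts.toList
  let d : Fin l.length → ℕ := l.get
  have hmap : (univ : Finset (Fin l.length)).val.map d = μ.parts := by
    rw [Fin.univ_val_map]
    have : List.ofFn d = l := List.ofFn_get l
    rw [this]
    exact Multiset.coe_toList _
  have hpos : ∀ k, 0 < d k := by
    intro k
    apply μ.parts_pos
    rw [← hmap]
    exact Multiset.mem_map_of_mem d (mem_univ k)
  have hsum : ∑ k, d k = finrank F (Fin n → F) := by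
    have h1 : ∑ k, d k = ((univ : Finset (Fin l.length)).val.map d).sum := rfl
    rw [h1, hmap, μ.parts_sum]
    simp
  obtain ⟨N, v, hch, hnil⟩ := exists_nilp (F := F) (V := Fin n → F) d hpos hsum
  let A : Matrix (Fin n) (Fin n) F := (Matrix.toLinAlgEquiv' (R := F) (n := Fin n)).symm N
  have hA : IsNilpotent A := hnil.map (Matrix.toLinAlgEquiv' (R := F) (n := Fin n)).symm
  have hu : IsUnit (1 + A) := hA.isUnit_one_add
  let g : GL (Fin n) F := hu.unit
  have hg : (g : Matrix (Fin n) (Fin n) F) = 1 + A := rfl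
  have hg2 : (g : Matrix (Fin n) (Fin n) F) - 1 = A := by rw [hg]; abel
  have hNg : Nn g = N := by
    unfold Nn
    rw [hg2]
    exact (Matrix.toLinAlgEquiv' (R := F) (n := Fin n)).apply_symm_apply N
  refine ⟨g, by rw [hg2]; exact hA, Fin l.length, inferInstance, v, d, ?_, hmap⟩
  rw [hNg]
  exact hch

/-- Equality of shape multisets yields a matching of the index types. -/
theorem exists_equiv {ι ι' : Type} [Fintype ι] [Fintype ι'] (d : ι → ℕ) (d' : ι' → ℕ)
    (h : (univ : Finset ι).val.map d = (univ : Finset ι').val.map d') :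
    ∃ e : ι ≃ ι', ∀ k, d' (e k) = d k := by
  classical
  have hc : ∀ c : ℕ, Fintype.card {k // d k = c} = Fintype.card {k // d' k = c} := by
    intro c
    have h1 : ∀ {κ : Type} [Fintype κ] (f : κ → ℕ),
        Fintype.card {k // f k = c} = Multiset.count c ((univ : Finset κ).val.map f) := by
      intro κ _ f
      rw [Multiset.count_map, Fintype.card_subtype]
      simp only [Finset.card, Finset.filter_val, eq_comm]
    rw [h1, h1, h]
  have e : ∀ c : ℕ, {k // d k = c} ≃ {k // d' k = c} := fun c => Fintype.equivOfCardEq (hc c)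
  refine ⟨Equiv.ofFiberEquiv e, fun k => ?_⟩
  exact Equiv.ofFiberEquiv_map e k

theorem conj_of_rel {g g' : GL (Fin n) F} {μ : n.Partition} (h : Rel g μ) (h' : Rel g' μ) :
    IsConj g g' := by
  classical
  obtain ⟨ι, _, v, d, hch, hm⟩ := h
  obtain ⟨ι', _, v', d', hch', hm'⟩ := h'
  obtain ⟨e, he⟩ := exists_equiv d d' (hm.trans hm'.symm)
  obtain ⟨T, hT⟩ := hch.similar hch' e he
  let φ := (Matrix.toLinAlgEquiv' (R := F) (n := Fin n)).symm
  let t' : Matrix (Fin n) (Fin n) F := φ (T : End F (Fin n → F))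
  let s' : Matrix (Fin n) (Fin n) F := φ (T.symm : End F (Fin n → F))
  have h1 : t' * s' = 1 := by
    rw [← map_mul, ← map_one φ]
    congr 1
    ext x i
    simp [Module.End.mul_apply]
  have h2 : s' * t' = 1 := by
    rw [← map_mul, ← map_one φ]
    congr 1
    ext x i
    simp [Module.End.mul_apply]
  let t : GL (Fin n) F := ⟨t', s', h1, h2⟩
  have hcomm : t' * ((g : Matrix (Fin n) (Fin n) F) - 1) = ((g' : Matrix (Fin n) (Fin n) F) - 1) * t' := by
    have h3 : (T : End F (Fin n → F)) * Nn g = Nn g' * (T : End F (Fin n → F)) := by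
      apply LinearMap.ext
      intro x
      exact hT x
    have h4 := congrArg φ h3
    simp only [map_mul] at h4
    have h5 : φ (Nn g) = (g : Matrix (Fin n) (Fin n) F) - 1 :=
      (Matrix.toLinAlgEquiv' (R := F) (n := Fin n)).symm_apply_apply _
    have h6 : φ (Nn g') = (g' : Matrix (Fin n) (Fin n) F) - 1 :=
      (Matrix.toLinAlgEquiv' (R := F) (n := Fin n)).symm_apply_apply _
    rwa [h5, h6] at h4
  have hcomm2 : t' * (g : Matrix (Fin n) (Fin n) F) = (g' : Matrix (Fin n) (Fin n) F) * t' := by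
    have h3 : t' * (g : Matrix (Fin n) (Fin n) F) - t' = (g' : Matrix (Fin n) (Fin n) F) * t' - t' := by
      have := hcomm
      rw [mul_sub, sub_mul, mul_one, one_mul] at this
      exact this
    exact sub_left_injective h3
  rw [isConj_iff]
  refine ⟨t, ?_⟩
  apply Units.ext
  change t' * (g : Matrix (Fin n) (Fin n) F) * s' = (g' : Matrix (Fin n) (Fin n) F)
  rw [hcomm2, mul_assoc, h1, mul_one]

/-- The rank of the powers of `g - 1` is read off from the shape. -/
theorem rank_pow_of_rel {g : GL (Fin n) F} {μ : n.Partition} (h : Rel g μ) (j : ℕ) :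
    (((g : Matrix (Fin n) (Fin n) F) - 1) ^ j).rank = (μ.parts.map (fun a => a - j)).sum := by
  obtain ⟨ι, _, v, d, hch, hm⟩ := h
  have h1 := hch.finrank_range_pow j
  have h2 : (Nn g) ^ j = Matrix.toLinAlgEquiv' (((g : Matrix (Fin n) (Fin n) F) - 1) ^ j) := by
    rw [map_pow]
    rfl
  rw [← hm, Multiset.map_map]
  change _ = ∑ k, (d k - j)
  rw [← h1, h2]
  rfl

/-- Rank of powers is a conjugacy invariant. -/
theorem rank_pow_conj {g g' : GL (Fin n) F} (h : IsConj g g') (j : ℕ) :
    (((g : Matrix (Fin n) (Fin n) F) - 1) ^ j).rank =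
      (((g' : Matrix (Fin n) (Fin n) F) - 1) ^ j).rank := by
  obtain ⟨c, rfl⟩ := isConj_iff.1 h
  have h1 : (((c * g * c⁻¹ : GL (Fin n) F) : Matrix (Fin n) (Fin n) F) - 1) =
      (c : Matrix (Fin n) (Fin n) F) * ((g : Matrix (Fin n) (Fin n) F) - 1) *
        ((c⁻¹ : GL (Fin n) F) : Matrix (Fin n) (Fin n) F) := by
    have h2 : (c : Matrix (Fin n) (Fin n) F) * ((c⁻¹ : GL (Fin n) F) : Matrix (Fin n) (Fin n) F) = 1 :=
      c.mul_inv
    rw [mul_sub, sub_mul, mul_one, h2]
    rfl
  rw [h1, Units.conj_pow]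
  have hu1 : IsUnit ((c : Matrix (Fin n) (Fin n) F)).det :=
    (Matrix.isUnit_iff_isUnit_det _).1 c.isUnit
  have hu2 : IsUnit (((c⁻¹ : GL (Fin n) F) : Matrix (Fin n) (Fin n) F)).det :=
    (Matrix.isUnit_iff_isUnit_det _).1 (c⁻¹).isUnit
  rw [Matrix.rank_mul_eq_left_of_isUnit_det _ _ hu2, Matrix.rank_mul_eq_right_of_isUnit_det _ _ hu1]

theorem sum_sub_succ (s : Multiset ℕ) (j : ℕ) :
    (s.map (fun a => a - j)).sum = (s.map (fun a => a - (j + 1))).sum +
      Multiset.card (s.filter (fun a => j < a)) := by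
  induction s using Multiset.induction with
  | empty => simp
  | cons a s ih =>
    simp only [Multiset.map_cons, Multiset.sum_cons, Multiset.filter_cons]
    by_cases h : j < a
    · simp only [h, if_true, Multiset.singleton_add, Multiset.card_cons]
      omega
    · simp only [h, if_false, Multiset.zero_add]
      omega

theorem card_filter_succ (s : Multiset ℕ) (j : ℕ) :
    Multiset.card (s.filter (fun a => j < a)) = Multiset.card (s.filter (fun a => j + 1 < a)) +
      Multiset.count (j + 1) s := by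
  induction s using Multiset.induction with
  | empty => simp
  | cons a s ih =>
    simp only [Multiset.filter_cons, Multiset.count_cons]
    by_cases h : a = j + 1
    · subst h
      simp
      omega
    · by_cases h2 : j < a
      · have h3 : j + 1 < a := by omega
        simp [h2, h3, h, Ne.symm h]
        omega
      · have h3 : ¬ j + 1 < a := by omega
        simp [h2, h3, h, Ne.symm h]
        omega

theorem eq_of_sum_sub (s s' : Multiset ℕ) (hs : ∀ a ∈ s, 0 < a) (hs' : ∀ a ∈ s', 0 < a)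
    (h : ∀ j : ℕ, (s.map (fun a => a - j)).sum = (s'.map (fun a => a - j)).sum) : s = s' := by
  have h1 : ∀ j, Multiset.card (s.filter (fun a => j < a)) =
      Multiset.card (s'.filter (fun a => j < a)) := by
    intro j
    have h2 := sum_sub_succ s j
    have h3 := sum_sub_succ s' j
    rw [h j, h (j + 1)] at h2
    omega
  ext a
  rcases Nat.eq_zero_or_pos a with rfl | ha
  · rw [Multiset.count_eq_zero_of_notMem (fun h0 => lt_irrefl _ (hs 0 h0)),
      Multiset.count_eq_zero_of_notMem (fun h0 => lt_irrefl _ (hs' 0 h0))]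
  · obtain ⟨j, rfl⟩ : ∃ j, a = j + 1 := ⟨a - 1, by omega⟩
    have h2 := card_filter_succ s j
    have h3 := card_filter_succ s' j
    rw [h1 j, h1 (j + 1)] at h2
    omega

theorem eq_of_rel_conj {g g' : GL (Fin n) F} {μ μ' : n.Partition} (h : Rel g μ) (h' : Rel g' μ')
    (hc : IsConj g g') : μ = μ' := by
  apply Nat.Partition.ext
  apply eq_of_sum_sub _ _ (fun a ha => μ.parts_pos ha) (fun a ha => μ'.parts_pos ha)
  intro j
  rw [← rank_pow_of_rel h, ← rank_pow_of_rel h', rank_pow_conj hc]

theorem rank_eq_zero_iff' (A : Matrix (Fin n) (Fin n) F) : A.rank = 0 ↔ A = 0 := by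
  constructor
  · intro h
    have h1 : LinearMap.range A.mulVecLin = ⊥ := Submodule.finrank_eq_zero.1 h
    have h2 : A.mulVecLin = 0 := LinearMap.range_eq_bot.1 h1
    apply (Matrix.toLin' (R := F) (m := Fin n) (n := Fin n)).injective
    rw [map_zero, Matrix.toLin'_apply']
    exact h2
  · rintro rfl
    exact Matrix.rank_zero

/-- `(g-1)^j = 0` iff all parts are at most `j`. -/
theorem pow_zero_iff {g : GL (Fin n) F} {μ : n.Partition} (h : Rel g μ) (j : ℕ) :
    ((g : Matrix (Fin n) (Fin n) F) - 1) ^ j = 0 ↔ ∀ a ∈ μ.parts, a ≤ j := by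
  rw [← rank_eq_zero_iff', rank_pow_of_rel h, Multiset.sum_eq_zero_iff]
  constructor
  · intro h1 a ha
    have := h1 (a - j) (Multiset.mem_map_of_mem _ ha)
    omega
  · intro h1 x hx
    obtain ⟨a, ha, rfl⟩ := Multiset.mem_map.1 hx
    have := h1 a ha
    omega

section Counts

variable [Fintype F] (p : ℕ) [Fact p.Prime] [CharP F p]

/-- Unipotent classes and partitions. -/
theorem main_2317 (n : ℕ) :
    Nat.card {C : ConjClasses (Matrix.GeneralLinearGroup (Fin n) F) //
      ∃ g : Matrix.GeneralLinearGroup (Fin n) F, (∃ k : ℕ, orderOf g = p ^ k) ∧ ConjClasses.mk g = C} =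
      Fintype.card (Nat.Partition n) := by
  classical
  choose gg hg1 hg2 using fun μ : n.Partition => exists_of_partition (F := F) μ
  let ψ : n.Partition → {C : ConjClasses (Matrix.GeneralLinearGroup (Fin n) F) //
      ∃ g : Matrix.GeneralLinearGroup (Fin n) F, (∃ k : ℕ, orderOf g = p ^ k) ∧ ConjClasses.mk g = C} :=
    fun μ => ⟨ConjClasses.mk (gg μ), gg μ, (CfsgLib.H9.NilCount.order_iff p n _).2 (hg1 μ), rfl⟩
  have hψ : Function.Bijective ψ := by
    constructor
    · intro μ μ' h
      have h1 : ConjClasses.mk (gg μ) = ConjClasses.mk (gg μ') := congrArg Subtype.val h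
      exact eq_of_rel_conj (hg2 μ) (hg2 μ') (ConjClasses.mk_eq_mk_iff_isConj.1 h1)
    · rintro ⟨C, g, hg, rfl⟩
      obtain ⟨μ, hμ⟩ := exists_rel g ((CfsgLib.H9.NilCount.order_iff p n _).1 hg)
      refine ⟨μ, Subtype.ext ?_⟩
      exact ConjClasses.mk_eq_mk_iff_isConj.2 (conj_of_rel (hg2 μ) hμ)
  rw [← Nat.card_congr (Equiv.ofBijective ψ hψ), Nat.card_eq_fintype_card]

theorem pow_char_iff (g : GL (Fin n) F) :
    g ^ p = 1 ↔ ((g : Matrix (Fin n) (Fin n) F) - 1) ^ p = 0 := by
  classical
  rcases Nat.eq_zero_or_pos n with rfl | hn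
  · have h1 : g ^ p = 1 := Subsingleton.elim _ _
    have h2 : ((g : Matrix (Fin 0) (Fin 0) F) - 1) ^ p = 0 := Subsingleton.elim _ _
    exact ⟨fun _ => h2, fun _ => h1⟩
  · have : Nonempty (Fin n) := ⟨⟨0, hn⟩⟩
    have : CharP (Matrix (Fin n) (Fin n) F) p := Matrix.charP p
    have h1 : ((g : Matrix (Fin n) (Fin n) F) - 1) ^ p = (g : Matrix (Fin n) (Fin n) F) ^ p - 1 := by
      rw [sub_pow_char_of_commute p (Commute.one_right _), one_pow]
    rw [h1, sub_eq_zero]
    constructor
    · intro h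
      have := congrArg (fun x : GL (Fin n) F => (x : Matrix (Fin n) (Fin n) F)) h
      simpa using this
    · intro h
      apply Units.ext
      simpa using h

/-- The partition into ones. -/
def ones (n : ℕ) : n.Partition :=
  ⟨Multiset.replicate n 1, fun {i} hi => by rw [Multiset.eq_of_mem_replicate hi]; exact Nat.one_pos,
    by simp⟩

theorem eq_ones (μ : n.Partition) (h : ∀ a ∈ μ.parts, a ≤ 1) : μ = ones n := by
  apply Nat.Partition.ext
  have h1 : ∀ a ∈ μ.parts, a = 1 := fun a ha => by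
    have := h a ha
    have := μ.parts_pos ha
    omega
  have h2 := Multiset.eq_replicate_card.2 h1
  have h3 : Multiset.card μ.parts = n := by
    have h4 := μ.parts_sum
    rw [h2, Multiset.sum_replicate] at h4
    simpa using h4
  rw [h2, h3]
  simp [ones]

/-- Classes of elements of order `p` and partitions with parts at most `p`. -/
theorem main_2570 (n : ℕ) :
    Nat.card {C : ConjClasses (GL (Fin n) F) // ∃ g : GL (Fin n) F, ConjClasses.mk g = C ∧ orderOf g = p} =
      (Finset.univ.filter (fun μ : Nat.Partition n => ∀ a ∈ μ.parts, a ≤ p)).card - 1 := by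
  classical
  have hp : p.Prime := Fact.out
  choose gg hg1 hg2 using fun μ : n.Partition => exists_of_partition (F := F) μ
  have horder : ∀ (g : GL (Fin n) F) (μ : n.Partition), Rel g μ →
      (orderOf g = p ↔ (∀ a ∈ μ.parts, a ≤ p) ∧ ¬ ∀ a ∈ μ.parts, a ≤ 1) := by
    intro g μ hg
    have h1 := pow_zero_iff hg p
    have h2 := pow_zero_iff hg 1
    rw [pow_one, sub_eq_zero] at h2
    rw [orderOf_eq_prime_iff]
    constructor
    · rintro ⟨h3, h4⟩
      refine ⟨h1.1 ((pow_char_iff p g).1 h3), fun h5 => h4 ?_⟩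
      apply Units.ext
      exact h2.2 h5
    · rintro ⟨h3, h4⟩
      refine ⟨(pow_char_iff p g).2 (h1.2 h3), fun h5 => h4 (h2.1 ?_)⟩
      rw [h5]
      rfl
  let A : n.Partition → Prop := fun μ => (∀ a ∈ μ.parts, a ≤ p) ∧ ¬ ∀ a ∈ μ.parts, a ≤ 1
  let ψ : {μ : n.Partition // A μ} → {C : ConjClasses (GL (Fin n) F) //
      ∃ g : GL (Fin n) F, ConjClasses.mk g = C ∧ orderOf g = p} :=
    fun μ => ⟨ConjClasses.mk (gg μ.1), gg μ.1, rfl, (horder _ _ (hg2 μ.1)).2 μ.2⟩
  have hψ : Function.Bijective ψ := by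
    constructor
    · intro μ μ' h
      have h1 : ConjClasses.mk (gg μ.1) = ConjClasses.mk (gg μ'.1) := congrArg Subtype.val h
      exact Subtype.ext (eq_of_rel_conj (hg2 μ.1) (hg2 μ'.1) (ConjClasses.mk_eq_mk_iff_isConj.1 h1))
    · rintro ⟨C, g, rfl, hg⟩
      have hnil : IsNilpotent ((g : Matrix (Fin n) (Fin n) F) - 1) :=
        ⟨p, (pow_char_iff p g).1 (by rw [← hg]; exact pow_orderOf_eq_one g)⟩
      obtain ⟨μ, hμ⟩ := exists_rel g hnil
      refine ⟨⟨μ, (horder g μ hμ).1 hg⟩, Subtype.ext ?_⟩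
      exact ConjClasses.mk_eq_mk_iff_isConj.2 (conj_of_rel (hg2 μ) hμ)
  rw [← Nat.card_congr (Equiv.ofBijective ψ hψ), Nat.card_eq_fintype_card, Fintype.card_subtype]
  have hmem : ones n ∈ Finset.univ.filter (fun μ : Nat.Partition n => ∀ a ∈ μ.parts, a ≤ p) := by
    simp only [mem_filter, mem_univ, true_and]
    intro a ha
    have : a = 1 := Multiset.eq_of_mem_replicate ha
    have := hp.two_le
    omega
  rw [← card_erase_of_mem hmem]
  congr 1
  ext μ
  simp only [mem_filter, mem_univ, true_and, mem_erase, A]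
  constructor
  · rintro ⟨h1, h2⟩
    refine ⟨?_, h1⟩
    rintro rfl
    apply h2
    intro a ha
    have : a = 1 := Multiset.eq_of_mem_replicate ha
    omega
  · rintro ⟨h1, h2⟩
    exact ⟨h2, fun h3 => h1 (eq_ones μ h3)⟩

end Counts

end CfsgLib.H9.JordanGL
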