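import Cfsg.Agent.Lib.H9.JordanWall
import Cfsg.Agent.Lib.H9.JordanGL

/-!
Unipotent isometries with prescribed Jordan shape.
-/
set_option autoImplicit false

namespace CfsgLib.H9.JordanForm

open Finset Module CfsgLib.H9.Jordan CfsgLib.H9.JordanCent

universe u

variable {F : Type u} [Field F]

section Shape

variable {V : Type u} [AddCommGroup V] [Module F V] [FiniteDimensional F V]

/-- `N` is nilpotent with the rank sequence of the Jordan shape `s`. -/
def HasShape (N : End F V) (s : Multiset ℕ) : Prop :=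
  IsNilpotent N ∧ ∀ j, finrank F (LinearMap.range (N ^ j)) = (s.map (fun a => a - j)).sum

theorem hasShape_of_chain {ι : Type} [Fintype ι] {N : End F V} {v : ι → V} {d : ι → ℕ}
    (h : IsChain N v d) : HasShape N ((univ : Finset ι).val.map d) := by
  classical
  obtain ⟨b, hb⟩ := h.exists_basis
  refine ⟨isNilpotent_N h b hb, fun j => ?_⟩
  rw [h.finrank_range_pow, Multiset.map_map]
  rfl

theorem HasShape.finrank_eq {N : End F V} {s : Multiset ℕ} (h : HasShape N s) :
    finrank F V = s.sum := by
  have := h.2 0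
  simp only [Nat.sub_zero, Multiset.map_id'] at this
  rw [← this]
  have h1 : LinearMap.range (N ^ 0) = ⊤ := by
    rw [pow_zero]
    exact LinearMap.range_id
  rw [h1, finrank_top]

theorem similar_of_shape {V' : Type u} [AddCommGroup V'] [Module F V'] [FiniteDimensional F V']
    {N : End F V} {N' : End F V'} {s : Multiset ℕ} (h : HasShape N s) (h' : HasShape N' s) :
    ∃ T : V ≃ₗ[F] V', ∀ x, T (N x) = N' (T x) := by
  classical
  obtain ⟨ι, _, v, d, hc⟩ := exists_chain (finrank F V) V N h.1 rfl
  obtain ⟨ι', _, v', d', hc'⟩ := exists_chain (finrank F V') V' N' h'.1 rfl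
  have hs1 := hasShape_of_chain hc
  have hs2 := hasShape_of_chain hc'
  have heq : (univ : Finset ι).val.map d = (univ : Finset ι').val.map d' := by
    apply CfsgLib.H9.JordanGL.eq_of_sum_sub
    · intro a ha
      obtain ⟨k, _, rfl⟩ := Multiset.mem_map.1 ha
      exact hc.pos k
    · intro a ha
      obtain ⟨k, _, rfl⟩ := Multiset.mem_map.1 ha
      exact hc'.pos k
    · intro j
      rw [← hs1.2 j, ← hs2.2 j, h.2 j, h'.2 j]
  obtain ⟨e, he⟩ := CfsgLib.H9.JordanGL.exists_equiv d d' heq
  exact hc.similar hc' e he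

/-- Shapes transported along a similarity. -/
theorem HasShape.transport {V' : Type u} [AddCommGroup V'] [Module F V'] [FiniteDimensional F V']
    {N : End F V} {N' : End F V'} {s : Multiset ℕ} (h : HasShape N s) (T : V ≃ₗ[F] V')
    (hT : ∀ x, T (N x) = N' (T x)) : HasShape N' s := by
  have hpow : ∀ (a : ℕ) (x : V), T ((N ^ a) x) = (N' ^ a) (T x) := by
    intro a
    induction a with
    | zero => intro x; simp
    | succ a ih =>
      intro x
      rw [pow_succ_apply, hT, ih, pow_succ_apply]
  refine ⟨?_, fun j => ?_⟩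
  · obtain ⟨k, hk⟩ := h.1
    refine ⟨k, ?_⟩
    apply LinearMap.ext
    intro x
    have := hpow k (T.symm x)
    rw [hk] at this
    simp only [LinearEquiv.apply_symm_apply] at this
    rw [← this]
    simp
  · have h1 : (LinearMap.range (N ^ j)).map (T : V →ₗ[F] V') = LinearMap.range (N' ^ j) := by
      ext x
      constructor
      · rintro ⟨_, ⟨y, rfl⟩, rfl⟩
        exact ⟨T y, (hpow j y).symm⟩
      · rintro ⟨y, rfl⟩
        refine ⟨(N ^ j) (T.symm y), ⟨_, rfl⟩, ?_⟩
        change T ((N ^ j) (T.symm y)) = _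
        rw [hpow]
        simp
    rw [← h.2 j, ← h1]
    exact T.finrank_map_eq _

/-- A single chain from a one-dimensional kernel. -/
theorem shape_of_ker_one {N : End F V} (hN : IsNilpotent N) (h1 : finrank F (LinearMap.ker N) = 1) :
    HasShape N {finrank F V} := by
  classical
  obtain ⟨ι, _, v, d, hc⟩ := exists_chain (finrank F V) V N hN rfl
  have hr := hc.finrank_range_pow 1
  rw [pow_one] at hr
  have hrn := LinearMap.finrank_range_add_finrank_ker N
  have hsum : ∑ k, (d k - 1) + Fintype.card ι = ∑ k, d k := by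
    have : ∀ k, d k - 1 + 1 = d k := fun k => by have := hc.pos k; omega
    calc ∑ k, (d k - 1) + Fintype.card ι = ∑ k, (d k - 1 + 1) := by
          rw [sum_add_distrib]
          simp
      _ = ∑ k, d k := sum_congr rfl (fun k _ => this k)
  have hcard : Fintype.card ι = 1 := by
    have := hc.card
    omega
  obtain ⟨k₀, hk₀⟩ := Fintype.card_eq_one_iff.1 hcard
  have hd : d k₀ = finrank F V := by
    rw [← hc.card, sum_eq_single k₀]
    · intro k _ hk
      exact absurd (hk₀ k) hk
    · intro h
      exact absurd (mem_univ _) h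
  have hs := hasShape_of_chain hc
  have hm : (univ : Finset ι).val.map d = {finrank F V} := by
    have h2 : (univ : Finset ι) = {k₀} := by
      ext k
      simp [hk₀ k]
    rw [h2]
    simp [hd]
  rwa [hm] at hs

end Shape

section Prod

variable {V₁ V₂ : Type u} [AddCommGroup V₁] [Module F V₁] [FiniteDimensional F V₁]
  [AddCommGroup V₂] [Module F V₂] [FiniteDimensional F V₂]

theorem finrank_submodule_prod (S : Submodule F V₁) (T : Submodule F V₂) :
    finrank F (S.prod T) = finrank F S + finrank F T := by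
  let e : (S.prod T) ≃ₗ[F] S × T :=
    { toFun := fun x => (⟨x.1.1, x.2.1⟩, ⟨x.1.2, x.2.2⟩)
      invFun := fun y => ⟨(y.1.1, y.2.1), ⟨y.1.2, y.2.2⟩⟩
      map_add' := fun _ _ => rfl
      map_smul' := fun _ _ => rfl
      left_inv := fun _ => rfl
      right_inv := fun _ => rfl }
  rw [e.finrank_eq, Module.finrank_prod]

theorem prodMap_pow' (f : End F V₁) (g : End F V₂) (j : ℕ) :
    (f.prodMap g : End F (V₁ × V₂)) ^ j = (f ^ j).prodMap (g ^ j) := by
  induction j with
  | zero =>
    rw [pow_zero, pow_zero, pow_zero]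
    exact LinearMap.prodMap_one.symm
  | succ j ih =>
    rw [pow_succ, pow_succ, pow_succ, ih, LinearMap.prodMap_mul]

theorem HasShape.prod {N₁ : End F V₁} {N₂ : End F V₂} {s₁ s₂ : Multiset ℕ}
    (h₁ : HasShape N₁ s₁) (h₂ : HasShape N₂ s₂) :
    HasShape (N₁.prodMap N₂ : End F (V₁ × V₂)) (s₁ + s₂) := by
  constructor
  · obtain ⟨k₁, hk₁⟩ := h₁.1
    obtain ⟨k₂, hk₂⟩ := h₂.1
    refine ⟨k₁ + k₂, ?_⟩
    rw [prodMap_pow', pow_add, pow_add, hk₁, hk₂]
    simp
  · intro j
    rw [prodMap_pow', LinearMap.range_prodMap, finrank_submodule_prod, h₁.2, h₂.2, Multiset.map_add,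
      Multiset.sum_add]

end Prod

/-- The kind of form: alternating or symmetric. -/
def Kd {V : Type u} [AddCommGroup V] [Module F V] (κ : Bool) (B : LinearMap.BilinForm F V) : Prop :=
  match κ with
  | true => B.IsAlt
  | false => ∀ x y, B x y = B y x

/-- Realisability of a Jordan shape by an isometry of a non-degenerate form. -/
def Rz (F : Type u) [Field F] (κ : Bool) (s : Multiset ℕ) : Prop :=
  ∃ (V : Type u) (_ : AddCommGroup V) (_ : Module F V) (_ : FiniteDimensional F V)
    (B : LinearMap.BilinForm F V) (N : End F V),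
    (∀ x, (∀ y, B x y = 0) → x = 0) ∧ Kd κ B ∧ IsIso B N ∧ HasShape N s

theorem rz_zero (κ : Bool) : Rz F κ 0 := by
  refine ⟨PUnit, inferInstance, inferInstance, inferInstance, 0, 0, ?_, ?_, ?_, ?_, ?_⟩
  · intro x _
    rfl
  · cases κ
    · intro x y
      rfl
    · intro x
      rfl
  · intro x y
    rfl
  · exact ⟨1, rfl⟩
  · intro j
    simp only [Multiset.map_zero, Multiset.sum_zero]
    exact finrank_zero_of_subsingleton

theorem rz_add {κ : Bool} {s₁ s₂ : Multiset ℕ} (h₁ : Rz F κ s₁) (h₂ : Rz F κ s₂) :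
    Rz F κ (s₁ + s₂) := by
  obtain ⟨V₁, _, _, _, B₁, N₁, hn₁, hk₁, hi₁, hs₁⟩ := h₁
  obtain ⟨V₂, _, _, _, B₂, N₂, hn₂, hk₂, hi₂, hs₂⟩ := h₂
  let B : LinearMap.BilinForm F (V₁ × V₂) :=
    B₁.compl₁₂ (LinearMap.fst F V₁ V₂) (LinearMap.fst F V₁ V₂) +
      B₂.compl₁₂ (LinearMap.snd F V₁ V₂) (LinearMap.snd F V₁ V₂)
  have hB : ∀ x y : V₁ × V₂, B x y = B₁ x.1 y.1 + B₂ x.2 y.2 := fun x y => rfl
  refine ⟨V₁ × V₂, inferInstance, inferInstance, inferInstance, B, N₁.prodMap N₂, ?_, ?_, ?_,
    hs₁.prod hs₂⟩
  · rintro ⟨x₁, x₂⟩ hx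
    have h1 : x₁ = 0 := hn₁ x₁ (fun y => by
      have := hx (y, 0)
      rw [hB] at this
      simpa using this)
    have h2 : x₂ = 0 := hn₂ x₂ (fun y => by
      have := hx (0, y)
      rw [hB] at this
      simpa using this)
    rw [h1, h2]
    rfl
  · cases κ
    · intro x y
      rw [hB, hB, hk₁ x.1 y.1, hk₂ x.2 y.2]
    · intro x
      rw [hB, hk₁ x.1, hk₂ x.2]
      simp
  · rintro ⟨x₁, x₂⟩ ⟨y₁, y₂⟩
    rw [hB, hB]
    have h1 := hi₁ x₁ y₁
    have h2 := hi₂ x₂ y₂
    simp only [Prod.fst_add, Prod.snd_add, LinearMap.prodMap_apply]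
    rw [h1, h2]

section Dual

variable {W : Type u} [AddCommGroup W] [Module F W] [FiniteDimensional F W]

/-- Data attached to a nilpotent endomorphism `N₀`: `T = 1 + N₀`, its inverse, and `R = T⁻¹ - 1`. -/
structure TData (N₀ : End F W) where
  Ti : End F W
  h1 : Ti * (1 + N₀) = 1
  h2 : (1 + N₀) * Ti = 1

theorem exists_tdata {N₀ : End F W} (h : IsNilpotent N₀) : Nonempty (TData N₀) := by
  have hu : IsUnit (1 + N₀) := h.isUnit_one_add
  exact ⟨⟨(hu.unit⁻¹ : (End F W)ˣ), hu.unit.inv_mul, hu.unit.mul_inv⟩⟩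

variable {N₀ : End F W} (D : TData N₀)

/-- `R = T⁻¹ - 1`. -/
def TData.R : End F W := D.Ti - 1

theorem TData.Ti_T (y : W) : D.Ti (y + N₀ y) = y := by
  have := LinearMap.congr_fun D.h1 y
  simpa [Module.End.mul_apply] using this

theorem TData.comm : Commute D.Ti N₀ := by
  have h1 : Commute (1 + N₀) N₀ := (Commute.one_left _).add_left (Commute.refl _)
  have h2 : D.Ti * N₀ = D.Ti * (N₀ * ((1 + N₀) * D.Ti)) := by rw [D.h2, mul_one]
  have h3 : N₀ * D.Ti = (D.Ti * (1 + N₀)) * (N₀ * D.Ti) := by rw [D.h1, one_mul]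
  change D.Ti * N₀ = N₀ * D.Ti
  rw [h2, h3]
  have h4 : N₀ * ((1 + N₀) * D.Ti) = (1 + N₀) * (N₀ * D.Ti) := by
    rw [← mul_assoc, ← mul_assoc, h1.eq]
  rw [h4, mul_assoc]

theorem TData.R_eq : D.R = (-D.Ti) * N₀ := by
  have h1 : D.Ti * (1 + N₀) = 1 := D.h1
  have h2 : D.Ti + D.Ti * N₀ = 1 := by rw [← mul_one D.Ti, mul_assoc, one_mul, ← mul_add]; exact h1
  unfold TData.R
  rw [neg_mul, ← h2]
  abel

theorem TData.R_nil (h : IsNilpotent N₀) : IsNilpotent D.R := by
  rw [D.R_eq]
  have hc : Commute (-D.Ti) N₀ := D.comm.neg_left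
  exact hc.isNilpotent_mul_left h

theorem TData.dualMap_pow_apply (j : ℕ) (φ : Dual F W) (x : W) :
    (((D.R.dualMap : End F (Dual F W)) ^ j) φ) x = φ ((D.R ^ j) x) := by
  induction j generalizing x with
  | zero => rfl
  | succ j ih =>
    rw [pow_succ_apply, pow_succ_apply']
    change (((D.R.dualMap : End F (Dual F W)) ^ j) φ) (D.R x) = _
    rw [ih]

theorem TData.dualMap_pow (j : ℕ) : (D.R.dualMap : End F (Dual F W)) ^ j = (D.R ^ j).dualMap := by
  ext φ x
  exact D.dualMap_pow_apply j φ x

theorem TData.finrank_range_R_pow (j : ℕ) :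
    finrank F (LinearMap.range (D.R ^ j)) = finrank F (LinearMap.range (N₀ ^ j)) := by
  have hc : Commute (-D.Ti) N₀ := D.comm.neg_left
  rw [D.R_eq, hc.mul_pow]
  have hinj : Function.Injective ((-D.Ti) ^ j) := by
    have hu : IsUnit (-D.Ti) := by
      have : IsUnit D.Ti := ⟨⟨D.Ti, 1 + N₀, D.h1, D.h2⟩, rfl⟩
      exact this.neg
    exact ((Module.End.isUnit_iff _).1 (hu.pow j)).1
  have h1 : LinearMap.range ((-D.Ti) ^ j * N₀ ^ j) =
      (LinearMap.range (N₀ ^ j)).map ((-D.Ti) ^ j) := by
    exact LinearMap.range_comp _ _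
  rw [h1]
  exact (Submodule.equivMapOfInjective _ hinj _).finrank_eq.symm

theorem TData.finrank_dual (j : ℕ) :
    finrank F (LinearMap.range ((D.R.dualMap : End F (Dual F W)) ^ j)) =
      finrank F (LinearMap.range (N₀ ^ j)) := by
  rw [D.dualMap_pow, LinearMap.finrank_range_dualMap_eq_finrank_range, D.finrank_range_R_pow]

theorem TData.dual_nil (h : IsNilpotent N₀) : IsNilpotent (D.R.dualMap : End F (Dual F W)) := by
  obtain ⟨k, hk⟩ := D.R_nil h
  refine ⟨k, ?_⟩
  rw [D.dualMap_pow, hk]
  ext φ x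
  simp

/-- The hyperbolic form on `W × W*`, with a sign. -/
noncomputable def BB (σ : F) : LinearMap.BilinForm F (W × Dual F W) :=
  LinearMap.mk₂ F (fun x y => x.2 y.1 + σ * (y.2 x.1))
    (fun x x' y => by simp only [Prod.fst_add, Prod.snd_add, map_add, LinearMap.add_apply]; ring)
    (fun c x y => by
      simp only [Prod.smul_fst, Prod.smul_snd, map_smul, LinearMap.smul_apply, smul_eq_mul]; ring)
    (fun x y y' => by
      simp only [Prod.fst_add, Prod.snd_add, map_add, LinearMap.add_apply]; ring)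
    (fun c x y => by
      simp only [Prod.smul_fst, Prod.smul_snd, map_smul, LinearMap.smul_apply, smul_eq_mul]; ring)

omit [FiniteDimensional F W] in
theorem BB_apply (σ : F) (x y : W × Dual F W) : BB σ x y = x.2 y.1 + σ * (y.2 x.1) := rfl

theorem BB_nondeg (σ : F) (hσ : σ ≠ 0) (x : W × Dual F W) (h : ∀ y, BB σ x y = 0) : x = 0 := by
  obtain ⟨w, φ⟩ := x
  have h1 : φ = 0 := by
    ext y
    have := h (y, 0)
    rw [BB_apply] at this
    simpa using this
  have h2 : w = 0 := by
    rw [← Module.forall_dual_apply_eq_zero_iff F]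
    intro χ
    have := h (0, χ)
    rw [BB_apply] at this
    simpa [hσ] using this
  rw [h1, h2]
  rfl

theorem iso_pair (σ : F) :
    IsIso (BB σ) (N₀.prodMap D.R.dualMap : End F (W × Dual F W)) := by
  rintro ⟨w, φ⟩ ⟨y, χ⟩
  have h1 : ∀ (ψ : Dual F W) (a : W), (ψ + D.R.dualMap ψ) (a + N₀ a) = ψ a := by
    intro ψ a
    change ψ (a + N₀ a) + ψ (D.R (a + N₀ a)) = ψ a
    rw [← map_add]
    congr 1
    have : a + N₀ a + D.R (a + N₀ a) = D.Ti (a + N₀ a) := by
      simp [TData.R]
    rw [this, D.Ti_T]
  simp only [BB_apply, Prod.fst_add, Prod.snd_add, LinearMap.prodMap_apply]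
  rw [h1, h1]

theorem rz_pair (κ : Bool) {s : Multiset ℕ} (h : HasShape N₀ s) :
    Rz F κ (s + s) := by
  obtain ⟨D⟩ := exists_tdata h.1
  let σ : F := match κ with
    | true => -1
    | false => 1
  have hσ : σ ≠ 0 := by
    cases κ
    · exact one_ne_zero
    · exact neg_ne_zero.2 one_ne_zero
  refine ⟨W × Dual F W, inferInstance, inferInstance, inferInstance, BB σ,
    N₀.prodMap D.R.dualMap, BB_nondeg σ hσ, ?_, iso_pair D σ, ?_⟩
  · cases κ
    · intro x y
      rw [BB_apply, BB_apply]
      change _ + 1 * _ = _ + 1 * _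
      ring
    · intro x
      rw [BB_apply]
      change _ + -1 * _ = _
      ring
  · apply HasShape.prod h
    refine ⟨D.dual_nil h.1, fun j => ?_⟩
    rw [D.finrank_dual, h.2]

end Dual

section Block

variable {W W' : Type u} [AddCommGroup W] [Module F W] [AddCommGroup W'] [Module F W']

theorem nilp_block (N : End F (W × W')) (N₀ : End F W) (N' : End F W')
    (h1 : ∀ x, (N x).2 = N' x.2) (h2 : ∀ w, N (w, 0) = (N₀ w, 0))
    (h3 : IsNilpotent N₀) (h4 : IsNilpotent N') : IsNilpotent N := by
  obtain ⟨k, hk⟩ := h3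
  obtain ⟨k', hk'⟩ := h4
  have hsnd : ∀ i x, ((N ^ i) x).2 = (N' ^ i) x.2 := by
    intro i
    induction i with
    | zero => intro x; rfl
    | succ i ih =>
      intro x
      rw [pow_succ_apply, h1, ih, pow_succ_apply]
  have hfst : ∀ i w, (N ^ i) (w, (0 : W')) = ((N₀ ^ i) w, (0 : W')) := by
    intro i
    induction i with
    | zero => intro w; rfl
    | succ i ih =>
      intro w
      rw [pow_succ_apply, ih, h2, pow_succ_apply]
  refine ⟨k + k', ?_⟩
  apply LinearMap.ext
  intro x
  rw [pow_add_apply]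
  have h5 : (N ^ k') x = (((N ^ k') x).1, (0 : W')) := by
    refine Prod.ext rfl ?_
    rw [hsnd, hk']
    rfl
  rw [h5, hfst, hk]
  rfl

end Block

section Twist

variable {W : Type u} [AddCommGroup W] [Module F W] [FiniteDimensional F W]
variable {N₀ : End F W} {z : W} {ψ : Dual F W}

theorem TData.N_of_R (D : TData N₀) (φ : Dual F W) (hφ : D.R.dualMap φ = 0) (x : W) :
    φ (N₀ x) = 0 := by
  have h1 : D.R (x + N₀ x) = - N₀ x := by
    simp only [TData.R, LinearMap.sub_apply, Module.End.one_apply, D.Ti_T]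
    abel
  have h2 : φ (D.R (x + N₀ x)) = 0 := by
    have := LinearMap.congr_fun hφ (x + N₀ x)
    exact this
  rw [h1, map_neg, neg_eq_zero] at h2
  exact h2

theorem TData.add_R (D : TData N₀) (φ : Dual F W) (a : W) :
    (φ + D.R.dualMap φ) (a + N₀ a) = φ a := by
  change φ (a + N₀ a) + φ (D.R (a + N₀ a)) = φ a
  rw [← map_add]
  congr 1
  have : a + N₀ a + D.R (a + N₀ a) = D.Ti (a + N₀ a) := by
    simp [TData.R]
  rw [this, D.Ti_T]

/-- The twisted nilpotent on `W × W*` (a single chain of length `2 dim W`). -/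
noncomputable def NA (D : TData N₀) (z : W) : End F (W × Dual F W) :=
  { toFun := fun x => (N₀ x.1 + x.2 z • (z + N₀ z), D.R.dualMap x.2)
    map_add' := fun x y => by
      refine Prod.ext ?_ ?_
      · simp only [Prod.fst_add, Prod.snd_add, map_add, LinearMap.add_apply, add_smul]
        abel
      · simp
    map_smul' := fun c x => by
      refine Prod.ext ?_ ?_
      · simp only [Prod.smul_fst, Prod.smul_snd, map_smul, LinearMap.smul_apply, smul_eq_mul,
          RingHom.id_apply, smul_add, mul_smul]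
      · simp }

theorem iso_NA (D : TData N₀) (z : W) : IsIso (BB (-1 : F)) (NA D z) := by
  rintro ⟨w, φ⟩ ⟨y, χ⟩
  simp only [BB_apply]
  change ((φ + D.R.dualMap φ) (y + (N₀ y + χ z • (z + N₀ z)))) +
      (-1) * ((χ + D.R.dualMap χ) (w + (N₀ w + φ z • (z + N₀ z)))) = φ y + (-1) * χ w
  have key : ∀ (φ : Dual F W) (a : W) (t : F),
      (φ + D.R.dualMap φ) (a + N₀ a + t • (z + N₀ z)) = φ a + t * φ z := by
    intro φ a t
    rw [map_add, map_smul, D.add_R, D.add_R, smul_eq_mul]
  rw [← add_assoc y, ← add_assoc w, key, key]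
  ring

theorem ker_NA (D : TData N₀) (hψ1 : ψ z = 1) (hψ2 : ∀ x, ψ (N₀ x) = 0)
    (hφ : ∀ φ : Dual F W, (∀ x, φ (N₀ x) = 0) → φ = φ z • ψ)
    (hker : finrank F (LinearMap.ker N₀) = 1) :
    finrank F (LinearMap.ker (NA D z)) = 1 := by
  have h1 : LinearMap.ker (NA D z) =
      (LinearMap.ker N₀).map (LinearMap.inl F W (Dual F W)) := by
    ext ⟨w, φ⟩
    constructor
    · intro h
      have h2 : (NA D z (w, φ)) = 0 := h
      have h3 : N₀ w + φ z • (z + N₀ z) = 0 := congrArg Prod.fst h2
      have h4 : D.R.dualMap φ = 0 := congrArg Prod.snd h2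
      have h5 := hφ φ (D.N_of_R φ h4)
      have h6 := congrArg ψ h3
      simp only [map_add, map_smul, hψ1, hψ2, map_zero, smul_eq_mul, add_zero, zero_add, mul_one] at h6
      rw [h6, zero_smul] at h5
      rw [h6, zero_smul, add_zero] at h3
      exact ⟨w, h3, by rw [h5]; rfl⟩
    · rintro ⟨w', hw', h⟩
      have h2 : w' = w := congrArg Prod.fst h
      have h3 : (0 : Dual F W) = φ := congrArg Prod.snd h
      subst h2
      subst h3
      have h4 : N₀ w' = 0 := hw'
      refine Prod.ext ?_ ?_
      · simp [NA, h4]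
      · simp [NA]
  rw [h1, ← hker]
  exact (Submodule.equivMapOfInjective _ LinearMap.inl_injective _).finrank_eq.symm

theorem nil_NA (D : TData N₀) (hnil : IsNilpotent N₀) (z : W) : IsNilpotent (NA D z) := by
  apply nilp_block (NA D z) N₀ D.R.dualMap (fun x => rfl) _ hnil (D.dual_nil hnil)
  intro w
  refine Prod.ext ?_ ?_
  · simp [NA]
  · simp [NA]

/-- Even blocks in the symplectic case. -/
theorem rz_even (hnil : IsNilpotent N₀) (hψ1 : ψ z = 1) (hψ2 : ∀ x, ψ (N₀ x) = 0)
    (hφ : ∀ φ : Dual F W, (∀ x, φ (N₀ x) = 0) → φ = φ z • ψ)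
    (hker : finrank F (LinearMap.ker N₀) = 1) :
    Rz F true {2 * finrank F W} := by
  obtain ⟨D⟩ := exists_tdata hnil
  refine ⟨W × Dual F W, inferInstance, inferInstance, inferInstance, BB (-1 : F), NA D z,
    BB_nondeg _ (neg_ne_zero.2 one_ne_zero), ?_, iso_NA D z, ?_⟩
  · intro x
    rw [BB_apply]
    ring
  · have := shape_of_ker_one (nil_NA D hnil z) (ker_NA D hψ1 hψ2 hφ hker)
    rwa [Module.finrank_prod, Subspace.dual_finrank_eq, ← two_mul] at this

/-- The symmetric form on `W × (F × W*)`. -/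
noncomputable def BS : LinearMap.BilinForm F (W × (F × Dual F W)) :=
  LinearMap.mk₂ F (fun x y => x.2.2 y.1 + y.2.2 x.1 + x.2.1 * y.2.1)
    (fun x x' y => by
      simp only [Prod.fst_add, Prod.snd_add, map_add, LinearMap.add_apply]; ring)
    (fun c x y => by
      simp only [Prod.smul_fst, Prod.smul_snd, map_smul, LinearMap.smul_apply, smul_eq_mul]; ring)
    (fun x y y' => by
      simp only [Prod.fst_add, Prod.snd_add, map_add, LinearMap.add_apply]; ring)
    (fun c x y => by
      simp only [Prod.smul_fst, Prod.smul_snd, map_smul, LinearMap.smul_apply, smul_eq_mul]; ring)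

omit [FiniteDimensional F W] in
theorem BS_apply (x y : W × (F × Dual F W)) : BS x y = x.2.2 y.1 + y.2.2 x.1 + x.2.1 * y.2.1 := rfl

/-- The twisted nilpotent on `W × (F × W*)` (a single chain of length `2 dim W + 1`). -/
noncomputable def NS (D : TData N₀) (z : W) (h : F) : End F (W × (F × Dual F W)) :=
  { toFun := fun x => (N₀ x.1 + (x.2.1 - h * x.2.2 z) • (z + N₀ z), (- x.2.2 z, D.R.dualMap x.2.2))
    map_add' := fun x y => by
      refine Prod.ext ?_ (Prod.ext ?_ ?_)
      · simp only [Prod.fst_add, Prod.snd_add, map_add, LinearMap.add_apply]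
        rw [show x.2.1 + y.2.1 - h * (x.2.2 z + y.2.2 z) = (x.2.1 - h * x.2.2 z) + (y.2.1 - h * y.2.2 z) by ring,
          add_smul]
        abel
      · simp only [Prod.fst_add, Prod.snd_add, map_add, LinearMap.add_apply]
        ring
      · simp
    map_smul' := fun c x => by
      refine Prod.ext ?_ (Prod.ext ?_ ?_)
      · change N₀ (c • x.1) + (c * x.2.1 - h * (c * x.2.2 z)) • (z + N₀ z) =
          c • (N₀ x.1 + (x.2.1 - h * x.2.2 z) • (z + N₀ z))
        rw [map_smul, show c * x.2.1 - h * (c * x.2.2 z) = c * (x.2.1 - h * x.2.2 z) by ring, mul_smul,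
          smul_add c (N₀ x.1)]
      · simp only [Prod.smul_fst, Prod.smul_snd, map_smul, LinearMap.smul_apply, smul_eq_mul,
          RingHom.id_apply]
        ring
      · simp }

theorem iso_NS (D : TData N₀) (z : W) (h : F) (h2 : 2 * h = 1) : IsIso (BS (F := F) (W := W)) (NS D z h) := by
  rintro ⟨w, c, φ⟩ ⟨y, e, χ⟩
  simp only [BS_apply]
  change ((φ + D.R.dualMap φ) (y + (N₀ y + (e - h * χ z) • (z + N₀ z)))) +
      ((χ + D.R.dualMap χ) (w + (N₀ w + (c - h * φ z) • (z + N₀ z)))) +
      (c + - φ z) * (e + - χ z) = φ y + χ w + c * e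
  have key : ∀ (φ : Dual F W) (a : W) (t : F),
      (φ + D.R.dualMap φ) (a + N₀ a + t • (z + N₀ z)) = φ a + t * φ z := by
    intro φ a t
    rw [map_add, map_smul, D.add_R, D.add_R, smul_eq_mul]
  rw [← add_assoc y, ← add_assoc w, key, key]
  linear_combination (-(φ z) * (χ z)) * h2

theorem ker_NS (D : TData N₀) (hψ1 : ψ z = 1) (hψ2 : ∀ x, ψ (N₀ x) = 0)
    (hφ : ∀ φ : Dual F W, (∀ x, φ (N₀ x) = 0) → φ = φ z • ψ)
    (hker : finrank F (LinearMap.ker N₀) = 1) (h : F) :
    finrank F (LinearMap.ker (NS D z h)) = 1 := by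
  have h1 : LinearMap.ker (NS D z h) =
      (LinearMap.ker N₀).map (LinearMap.inl F W (F × Dual F W)) := by
    ext ⟨w, c, φ⟩
    constructor
    · intro hh
      have h2 : (NS D z h (w, c, φ)) = 0 := hh
      have h3 : N₀ w + (c - h * φ z) • (z + N₀ z) = 0 := congrArg Prod.fst h2
      have h4 : - φ z = 0 := congrArg (fun x => x.2.1) h2
      have h4' : φ z = 0 := neg_eq_zero.1 h4
      have h5 : D.R.dualMap φ = 0 := congrArg (fun x => x.2.2) h2
      have h6 := hφ φ (D.N_of_R φ h5)
      rw [h4', zero_smul] at h6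
      rw [h4', mul_zero, sub_zero] at h3
      have h7 := congrArg ψ h3
      simp only [map_add, map_smul, hψ1, hψ2, map_zero, smul_eq_mul, add_zero, zero_add, mul_one] at h7
      rw [h7, zero_smul, add_zero] at h3
      refine ⟨w, h3, ?_⟩
      rw [h6, h7]
      rfl
    · rintro ⟨w', hw', hh⟩
      have h2 : w' = w := congrArg Prod.fst hh
      have h3 : (0 : F) = c := congrArg (fun x => x.2.1) hh
      have h3' : (0 : Dual F W) = φ := congrArg (fun x => x.2.2) hh
      subst h2
      subst h3
      subst h3'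
      have h4 : N₀ w' = 0 := hw'
      refine Prod.ext ?_ (Prod.ext ?_ ?_)
      · simp [NS, h4]
      · simp [NS]
      · simp [NS]
  rw [h1, ← hker]
  exact (Submodule.equivMapOfInjective _ LinearMap.inl_injective _).finrank_eq.symm

theorem nil_NS (D : TData N₀) (hnil : IsNilpotent N₀) (z : W) (h : F) : IsNilpotent (NS D z h) := by
  let N' : End F (F × Dual F W) :=
    { toFun := fun x => (- x.2 z, D.R.dualMap x.2)
      map_add' := fun x y => by
        refine Prod.ext ?_ ?_
        · change -((x.2 + y.2) z) = -(x.2 z) + -(y.2 z)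
          simp only [LinearMap.add_apply]
          ring
        · simp
      map_smul' := fun c x => by
        refine Prod.ext ?_ ?_
        · simp
        · simp }
  have hN' : IsNilpotent N' := by
    apply nilp_block N' 0 D.R.dualMap (fun x => rfl) _ ⟨1, by simp⟩ (D.dual_nil hnil)
    intro w
    refine Prod.ext ?_ ?_
    · simp [N']
    · simp [N']
  apply nilp_block (NS D z h) N₀ N' (fun x => rfl) _ hnil hN'
  intro w
  refine Prod.ext ?_ (Prod.ext ?_ ?_)
  · simp [NS]
  · simp [NS]
  · simp [NS]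

/-- Odd blocks in the orthogonal case. -/
theorem rz_odd (h2 : (2 : F) ≠ 0) (hnil : IsNilpotent N₀) (hψ1 : ψ z = 1) (hψ2 : ∀ x, ψ (N₀ x) = 0)
    (hφ : ∀ φ : Dual F W, (∀ x, φ (N₀ x) = 0) → φ = φ z • ψ)
    (hker : finrank F (LinearMap.ker N₀) = 1) :
    Rz F false {2 * finrank F W + 1} := by
  obtain ⟨D⟩ := exists_tdata hnil
  refine ⟨W × (F × Dual F W), inferInstance, inferInstance, inferInstance, BS, NS D z (2⁻¹), ?_, ?_,
    iso_NS D z _ (mul_inv_cancel₀ h2), ?_⟩
  · rintro ⟨w, c, φ⟩ hx
    have h3 : φ = 0 := by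
      ext y
      have := hx (y, 0, 0)
      rw [BS_apply] at this
      simpa using this
    have h4 : c = 0 := by
      have := hx (0, 1, 0)
      rw [BS_apply] at this
      simpa using this
    have h5 : w = 0 := by
      rw [← Module.forall_dual_apply_eq_zero_iff F]
      intro χ
      have := hx (0, 0, χ)
      rw [BS_apply] at this
      simpa using this
    rw [h3, h4, h5]
    rfl
  · intro x y
    rw [BS_apply, BS_apply]
    ring
  · have := shape_of_ker_one (nil_NS D hnil z (2⁻¹ : F)) (ker_NS D hψ1 hψ2 hφ hker (2⁻¹ : F))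
    rwa [Module.finrank_prod, Module.finrank_prod, Subspace.dual_finrank_eq, Module.finrank_self,
      show finrank F W + (1 + finrank F W) = 2 * finrank F W + 1 by ring] at this

end Twist

/-- A single chain on `F^n` with coordinate data. -/
theorem exists_single (n : ℕ) (hn : 0 < n) :
    ∃ (N₀ : End F (Fin n → F)) (z : Fin n → F) (ψ : Dual F (Fin n → F)),
      IsNilpotent N₀ ∧ ψ z = 1 ∧ (∀ x, ψ (N₀ x) = 0) ∧
      (∀ φ : Dual F (Fin n → F), (∀ x, φ (N₀ x) = 0) → φ = φ z • ψ) ∧
      finrank F (LinearMap.ker N₀) = 1 ∧ HasShape N₀ {n} := by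
  classical
  obtain ⟨N₀, v, hch, hnil⟩ := exists_nilp (F := F) (V := Fin n → F) (ι := Unit) (fun _ => n)
    (fun _ => hn) (by simp)
  obtain ⟨b, hb⟩ := hch.exists_basis
  have hz : del b () 0 (v ()) = 1 := by
    have := del_spec hch b hb () () 0 0
    rw [pow_zero, Module.End.one_apply] at this
    rw [this]
    simp [hn]
  have hrg : ∀ x, del b () 0 (N₀ x) = 0 := fun x =>
    (mem_range_iff hch b hb _).1 ⟨x, rfl⟩ ()
  have hker : finrank F (LinearMap.ker N₀) = 1 := by
    have h1 := hch.finrank_range_pow 1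
    rw [pow_one] at h1
    have h2 := LinearMap.finrank_range_add_finrank_ker N₀
    simp only [Module.finrank_fin_fun, Finset.univ_unique, Finset.sum_singleton] at h1 h2
    omega
  refine ⟨N₀, v (), del b () 0, hnil, hz, hrg, ?_, hker, ?_⟩
  · intro φ hφ
    apply b.ext
    rintro ⟨⟨⟩, a⟩
    rw [hb]
    simp only
    rcases Nat.eq_zero_or_pos (a : ℕ) with ha | ha
    · rw [ha, pow_zero, Module.End.one_apply, LinearMap.smul_apply, hz]
      simp
    · obtain ⟨c, hc⟩ : ∃ c, (a : ℕ) = c + 1 := ⟨a - 1, by omega⟩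
      rw [hc, pow_succ_apply, hφ, LinearMap.smul_apply, hrg]
      simp
  · have := shape_of_ker_one hnil hker
    rwa [Module.finrank_fin_fun] at this

theorem rz_one : Rz F false {1} := by
  refine ⟨F, inferInstance, inferInstance, inferInstance, LinearMap.mul F F, 0, ?_, ?_, ?_, ?_⟩
  · intro x hx
    have := hx 1
    simpa using this
  · intro x y
    simp [mul_comm]
  · intro x y
    simp
  · have h1 : finrank F (LinearMap.ker (0 : End F F)) = 1 := by
      rw [LinearMap.ker_zero, finrank_top, Module.finrank_self]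
    have := shape_of_ker_one (F := F) (V := F) (N := 0) ⟨1, by simp⟩ h1
    rwa [Module.finrank_self] at this

/-- Realising shapes with odd parts paired by alternating forms. -/
theorem rz_alt (s : Multiset ℕ) (hpos : ∀ a ∈ s, 0 < a)
    (hodd : ∀ j, Odd j → Even (s.count j)) : Rz F true s := by
  classical
  induction h : Multiset.card s using Nat.strong_induction_on generalizing s with
  | _ c ih =>
  rcases Multiset.empty_or_exists_mem s with rfl | ⟨a, ha⟩
  · exact rz_zero _
  · have ha0 := hpos a ha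
    have hcard : Multiset.card (s.erase a) + 1 = c := by
      rw [Multiset.card_erase_of_mem ha, ← h]
      have := Multiset.card_pos_iff_exists_mem.2 ⟨a, ha⟩
      simp only [Nat.pred_eq_sub_one]
      omega
    by_cases hev : Even a
    · obtain ⟨n, hn⟩ := even_iff_two_dvd.1 hev
      have h1 : Rz F true (s.erase a) := by
        refine ih _ (by omega) _ (fun b hb => hpos b (Multiset.mem_of_mem_erase hb)) ?_ rfl
        intro j hj
        have hne : j ≠ a := by
          rintro rfl
          exact (Nat.not_even_iff_odd.2 hj) hev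
        rw [Multiset.count_erase_of_ne hne]
        exact hodd j hj
      obtain ⟨N₀, z, ψ, hnil, h2, h3, h4, h5, -⟩ := exists_single (F := F) n (by omega)
      have h6 := rz_even hnil h2 h3 h4 h5
      rw [Module.finrank_fin_fun, ← hn] at h6
      have h7 := rz_add h6 h1
      rwa [Multiset.singleton_add, Multiset.cons_erase ha] at h7
    · have hodda : Odd a := Nat.not_even_iff_odd.1 hev
      have hc := hodd a hodda
      have hc1 : 0 < s.count a := Multiset.count_pos.2 ha
      have ha' : a ∈ s.erase a := by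
        rw [← Multiset.count_pos, Multiset.count_erase_self]
        rcases hc with ⟨k, hk⟩
        omega
      have hcard2 : Multiset.card ((s.erase a).erase a) + 1 = Multiset.card (s.erase a) := by
        rw [Multiset.card_erase_of_mem ha']
        have := Multiset.card_pos_iff_exists_mem.2 ⟨a, ha'⟩
        simp only [Nat.pred_eq_sub_one]
        omega
      have h1 : Rz F true ((s.erase a).erase a) := by
        refine ih _ (by omega) _ (fun b hb => hpos b (Multiset.mem_of_mem_erase
          (Multiset.mem_of_mem_erase hb))) ?_ rfl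
        intro j hj
        by_cases hne : j = a
        · subst hne
          rw [Multiset.count_erase_self, Multiset.count_erase_self]
          rcases hc with ⟨k, hk⟩
          refine ⟨k - 1, ?_⟩
          omega
        · rw [Multiset.count_erase_of_ne hne, Multiset.count_erase_of_ne hne]
          exact hodd j hj
      obtain ⟨N₀, z, ψ, hnil, h2, h3, h4, h5, h6⟩ := exists_single (F := F) a ha0
      have h7 := rz_pair true h6
      have h8 := rz_add h7 h1
      have h9 : ({a} : Multiset ℕ) + {a} + ((s.erase a).erase a) = s := by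
        rw [add_assoc, Multiset.singleton_add, Multiset.singleton_add, Multiset.cons_erase ha',
          Multiset.cons_erase ha]
      rwa [h9] at h8

/-- Realising shapes with even parts paired by symmetric forms. -/
theorem rz_sym (h2F : (2 : F) ≠ 0) (s : Multiset ℕ) (hpos : ∀ a ∈ s, 0 < a)
    (heven : ∀ j, Even j → 0 < j → Even (s.count j)) : Rz F false s := by
  classical
  induction h : Multiset.card s using Nat.strong_induction_on generalizing s with
  | _ c ih =>
  rcases Multiset.empty_or_exists_mem s with rfl | ⟨a, ha⟩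
  · exact rz_zero _
  · have ha0 := hpos a ha
    have hcard : Multiset.card (s.erase a) + 1 = c := by
      rw [Multiset.card_erase_of_mem ha, ← h]
      have := Multiset.card_pos_iff_exists_mem.2 ⟨a, ha⟩
      simp only [Nat.pred_eq_sub_one]
      omega
    by_cases hev : Even a
    · have hc := heven a hev ha0
      have hc1 : 0 < s.count a := Multiset.count_pos.2 ha
      have ha' : a ∈ s.erase a := by
        rw [← Multiset.count_pos, Multiset.count_erase_self]
        rcases hc with ⟨k, hk⟩
        omega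
      have hcard2 : Multiset.card ((s.erase a).erase a) + 1 = Multiset.card (s.erase a) := by
        rw [Multiset.card_erase_of_mem ha']
        have := Multiset.card_pos_iff_exists_mem.2 ⟨a, ha'⟩
        simp only [Nat.pred_eq_sub_one]
        omega
      have h1 : Rz F false ((s.erase a).erase a) := by
        refine ih _ (by omega) _ (fun b hb => hpos b (Multiset.mem_of_mem_erase
          (Multiset.mem_of_mem_erase hb))) ?_ rfl
        intro j hj hj0
        by_cases hne : j = a
        · subst hne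
          rw [Multiset.count_erase_self, Multiset.count_erase_self]
          rcases hc with ⟨k, hk⟩
          refine ⟨k - 1, ?_⟩
          omega
        · rw [Multiset.count_erase_of_ne hne, Multiset.count_erase_of_ne hne]
          exact heven j hj hj0
      obtain ⟨N₀, z, ψ, hnil, h2, h3, h4, h5, h6⟩ := exists_single (F := F) a ha0
      have h7 := rz_pair false h6
      have h8 := rz_add h7 h1
      have h9 : ({a} : Multiset ℕ) + {a} + ((s.erase a).erase a) = s := by
        rw [add_assoc, Multiset.singleton_add, Multiset.singleton_add, Multiset.cons_erase ha',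
          Multiset.cons_erase ha]
      rwa [h9] at h8
    · have h1 : Rz F false (s.erase a) := by
        refine ih _ (by omega) _ (fun b hb => hpos b (Multiset.mem_of_mem_erase hb)) ?_ rfl
        intro j hj hj0
        have hne : j ≠ a := by
          rintro rfl
          exact hev hj
        rw [Multiset.count_erase_of_ne hne]
        exact heven j hj hj0
      have h6 : Rz F false {a} := by
        obtain ⟨n, hn⟩ := Nat.not_even_iff_odd.1 hev
        rcases Nat.eq_zero_or_pos n with rfl | hn0
        · rw [hn]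
          exact rz_one
        · obtain ⟨N₀, z, ψ, hnil, h2, h3, h4, h5, -⟩ := exists_single (F := F) n hn0
          have h7 := rz_odd h2F hnil h2 h3 h4 h5
          rwa [Module.finrank_fin_fun, ← hn] at h7
      have h7 := rz_add h6 h1
      rwa [Multiset.singleton_add, Multiset.cons_erase ha] at h7

end CfsgLib.H9.JordanForm
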