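import Cfsg.Agent.Lib.H9.JordanCent
import Cfsg.Agent.Lib.H9.AltRank

/-!
Wall's form: multiplicities of Jordan blocks of a unipotent isometry.
-/
set_option autoImplicit false

namespace CfsgLib.H9.JordanForm

open Finset Module CfsgLib.H9.Jordan CfsgLib.H9.JordanCent

universe u

variable {F : Type u} [Field F]
variable {V : Type u} [AddCommGroup V] [Module F V] [FiniteDimensional F V]

/-- `1 + N` is an isometry of `B`. -/
def IsIso (B : LinearMap.BilinForm F V) (N : End F V) : Prop :=
  ∀ x y, B (x + N x) (y + N y) = B x y

variable {B : LinearMap.BilinForm F V} {N : End F V}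

theorem iso_expand (h : IsIso B N) (a y : V) : B a (N y) + B (N a) y + B (N a) (N y) = 0 := by
  have := h a y
  simp only [map_add, LinearMap.add_apply] at this
  linear_combination this

theorem perp (h : IsIso B N) : ∀ (i : ℕ) (a : V), (N ^ i) a = 0 → ∀ w, B a ((N ^ i) w) = 0 := by
  intro i
  induction i with
  | zero =>
    intro a ha w
    simp only [pow_zero, Module.End.one_apply] at ha
    simp [ha]
  | succ i ih =>
    intro a ha w
    have h1 : (N ^ i) (N a) = 0 := by
      rw [← pow_succ_apply']
      exact ha
    have h2 := iso_expand h a ((N ^ i) w)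
    rw [ih (N a) h1 w] at h2
    have h3 : N ((N ^ i) w) = (N ^ i) (N w) := by
      rw [← pow_succ_apply, pow_succ_apply']
    rw [h3, ih (N a) h1 (N w)] at h2
    rw [pow_succ_apply, h3]
    simpa using h2

theorem sign_form (h : IsIso B N) (L : ℕ) (x : V) (hx : (N ^ (L + 1)) x = 0) :
    ∀ i, i ≤ L → B ((N ^ i) x) ((N ^ (L - i)) x) = (-1) ^ i * B x ((N ^ L) x) := by
  intro i
  induction i with
  | zero => simp
  | succ i ih =>
    intro hi
    have h1 := ih (by omega)
    obtain ⟨k, hk⟩ : ∃ k, L - i = k + 1 := ⟨L - i - 1, by omega⟩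
    have hk2 : L - (i + 1) = k := by omega
    rw [hk2]
    rw [hk] at h1
    have h2 := iso_expand h ((N ^ i) x) ((N ^ k) x)
    rw [← pow_succ_apply N i x, ← pow_succ_apply N k x, h1] at h2
    have h3 : (N ^ (k + 1)) ((N ^ (i + 1)) x) = 0 := by
      rw [← pow_add_apply, show k + 1 + (i + 1) = L + 1 by omega]
      exact hx
    rw [perp h (k + 1) _ h3 x] at h2
    rw [pow_succ (-1 : F) i]
    linear_combination h2

/-- Alternating case: odd block sizes. -/
theorem halt_alt (h : IsIso B N) (hA : B.IsAlt) (r : ℕ) (x : V) (hx : (N ^ (2 * r + 1)) x = 0) :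
    B x ((N ^ (2 * r)) x) = 0 := by
  have h1 := sign_form h (2 * r) x hx r (by omega)
  rw [show 2 * r - r = r by omega, hA.self_eq_zero] at h1
  have h2 : ((-1 : F) ^ r) ≠ 0 := pow_ne_zero _ (by simp)
  exact (mul_eq_zero.1 h1.symm).resolve_left h2

/-- Symmetric case in odd characteristic: even block sizes. -/
theorem halt_symm (h : IsIso B N) (hS : ∀ x y, B x y = B y x) (h2 : (2 : F) ≠ 0) (L : ℕ) (hL : Odd L)
    (x : V) (hx : (N ^ (L + 1)) x = 0) : B x ((N ^ L) x) = 0 := by
  have h1 := sign_form h L x hx L le_rfl
  rw [Nat.sub_self, pow_zero, Module.End.one_apply, hS, hL.neg_one_pow] at h1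
  have h3 : 2 * B x ((N ^ L) x) = 0 := by linear_combination h1
  exact (mul_eq_zero.1 h3).resolve_left h2

variable {ι : Type} [Fintype ι] [DecidableEq ι] {v : ι → V} {d : ι → ℕ}

/-- The Wall form: multiplicities are even when the form is alternating. -/
theorem wall (hB : B.Nondegenerate) (hiso : IsIso B N) (h : IsChain N v d) (j : ℕ) (hj : 0 < j)
    (halt : ∀ x, (N ^ j) x = 0 → B x ((N ^ (j - 1)) x) = 0) :
    Even (Fintype.card {k // d k = j}) := by
  classical
  obtain ⟨b, hb⟩ := h.exists_basis
  obtain ⟨j', rfl⟩ : ∃ j', j = j' + 1 := ⟨j - 1, by omega⟩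
  simp only [Nat.add_sub_cancel] at halt
  let G : Matrix {k // d k = j' + 1} {k // d k = j' + 1} F :=
    Matrix.of fun k l => B (v k.1) ((N ^ j') (v l.1))
  have hkill : ∀ l : {k // d k = j' + 1}, (N ^ (j' + 1)) (v l.1) = 0 := by
    intro l
    have := h.kill l.1
    rwa [l.2] at this
  have hS : ∀ c : {k // d k = j' + 1} → F, c ⬝ᵥ (G.mulVec c) = 0 := by
    intro c
    have h1 := halt (∑ k, c k • v k.1) (by
      rw [map_sum]
      exact sum_eq_zero (fun k _ => by rw [map_smul, hkill, smul_zero]))
    rw [← h1]
    simp only [dotProduct, Matrix.mulVec, G, Matrix.of_apply, map_sum, map_smul, LinearMap.sum_apply,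
      LinearMap.smul_apply, smul_eq_mul, mul_sum]
    rw [sum_comm]
    refine sum_congr rfl (fun k _ => sum_congr rfl (fun l _ => ?_))
    ring
  have heven := CfsgLib.H9.AltRank.even_rank G hS
  have hinj : Function.Injective G.mulVec := by
    have hlin : ∀ c, G.mulVec c = 0 → c = 0 := by
      intro c hc
      by_contra hne
      obtain ⟨l₀, hl₀⟩ : ∃ l, c l ≠ 0 := by
        by_contra hcon
        push Not at hcon
        exact hne (funext hcon)
      set z : V := ∑ l, c l • (N ^ j') (v l.1) with hz
      clear_value z
      have hz1 : ∀ k : {k // d k = j' + 1}, B (v k.1) z = 0 := by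
        intro k
        have := congrFun hc k
        simp only [Matrix.mulVec, dotProduct, G, Matrix.of_apply, Pi.zero_apply] at this
        rw [hz, map_sum, ← this]
        refine sum_congr rfl (fun l _ => ?_)
        rw [map_smul, smul_eq_mul, mul_comm]
      have hz2 : N z = 0 := by
        rw [hz, map_sum]
        refine sum_eq_zero (fun l _ => ?_)
        rw [map_smul, ← pow_succ_apply, hkill, smul_zero]
      have ha : ∀ y, B (N y) z = 0 := by
        intro y
        have := iso_expand hiso y z
        rw [hz2] at this
        simpa using this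
      have hnot : z ∉ LinearMap.range (N ^ (j' + 1)) := by
        rintro ⟨w, hw⟩
        have h1 : del b l₀.1 j' z = c l₀ := by
          rw [hz, map_sum, sum_eq_single l₀]
          · rw [map_smul, del_spec h b hb]
            have := l₀.2
            simp [this]
          · intro l _ hl
            rw [map_smul, del_spec h b hb]
            have : ¬ (l.1 = l₀.1) := fun h' => hl (Subtype.ext h')
            simp [this]
          · intro h'
            exact absurd (mem_univ _) h'
        have h2 : (del b l₀.1 j').comp (N ^ (j' + 1)) = 0 := by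
          apply b.ext
          rintro ⟨k, a⟩
          rw [LinearMap.comp_apply, hb]
          simp only
          rw [← pow_add_apply, del_spec h b hb]
          have : ¬ (j' + 1 + (a : ℕ) = j') := by omega
          simp [this]
        have h3 := LinearMap.congr_fun h2 w
        simp only [LinearMap.comp_apply, LinearMap.zero_apply] at h3
        rw [hw, h1] at h3
        exact hl₀ h3
      set K := LinearMap.ker (N ^ (j' + 1)) with hK
      have hle : LinearMap.range (N ^ (j' + 1)) ≤ B.orthogonal K := by
        rintro _ ⟨w, rfl⟩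
        rw [LinearMap.BilinForm.mem_orthogonal_iff]
        intro n hn
        exact perp hiso (j' + 1) n hn w
      have heq : LinearMap.range (N ^ (j' + 1)) = B.orthogonal K := by
        apply Submodule.eq_of_le_of_finrank_eq hle
        rw [LinearMap.BilinForm.finrank_orthogonal hB]
        have := LinearMap.finrank_range_add_finrank_ker (N ^ (j' + 1))
        rw [← hK] at this
        omega
      rw [heq, LinearMap.BilinForm.mem_orthogonal_iff] at hnot
      push Not at hnot
      obtain ⟨y, hy, hy2⟩ := hnot
      apply hy2
      change B y z = 0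
      have hy3 : ∀ l a, a + (j' + 1) < d l → del b l a y = 0 :=
        (pow_eq_zero_iff' h b hb y (j' + 1)).1 hy
      rw [expand h b hb y, map_sum, LinearMap.sum_apply]
      refine sum_eq_zero (fun k _ => ?_)
      rw [map_sum, LinearMap.sum_apply]
      refine sum_eq_zero (fun a ha' => ?_)
      rw [map_smul, LinearMap.smul_apply]
      rcases Nat.eq_zero_or_pos a with rfl | ha0
      · rcases lt_trichotomy (d k) (j' + 1) with h1 | h1 | h1
        · have h2 : (N ^ j') (v k) = 0 := h.pow_eq_zero k (by omega)
          have h3 : B ((N ^ 0) (v k)) z = 0 := by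
            rw [pow_zero, Module.End.one_apply, hz, map_sum]
            refine sum_eq_zero (fun l _ => ?_)
            rw [map_smul, perp hiso j' _ h2, smul_zero]
          rw [h3, smul_zero]
        · have h3 := hz1 ⟨k, h1⟩
          rw [pow_zero, Module.End.one_apply]
          simp only at h3
          rw [h3, smul_zero]
        · rw [hy3 k 0 (by omega), zero_smul]
      · obtain ⟨c', rfl⟩ : ∃ c', a = c' + 1 := ⟨a - 1, by omega⟩
        rw [pow_succ_apply, ha, smul_zero]
    intro c c' hcc
    have h1 : G.mulVec (c - c') = 0 := by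
      rw [Matrix.mulVec_sub, hcc, sub_self]
    exact sub_eq_zero.1 (hlin _ h1)
  have hunit : IsUnit G := Matrix.mulVec_injective_iff_isUnit.1 hinj
  rw [Matrix.rank_of_isUnit G hunit] at heven
  exact heven

/-- Chains transported along a similarity. -/
theorem IsChain.transport {V' : Type u} [AddCommGroup V'] [Module F V'] [FiniteDimensional F V']
    {N' : End F V'} (h : IsChain N v d) (T : V ≃ₗ[F] V') (hT : ∀ x, T (N x) = N' (T x)) :
    IsChain N' (fun k => T (v k)) d := by
  have hpow : ∀ (a : ℕ) (x : V), T ((N ^ a) x) = (N' ^ a) (T x) := by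
    intro a
    induction a with
    | zero => intro x; simp
    | succ a ih =>
      intro x
      rw [pow_succ_apply, hT, ih, pow_succ_apply]
  refine ⟨h.pos, ?_, ?_, ?_⟩
  · intro k
    rw [← hpow, h.kill, map_zero]
  · intro c hc
    apply h.indep c
    apply T.injective
    rw [map_zero, ← hc, map_sum]
    refine sum_congr rfl (fun k _ => ?_)
    rw [map_sum]
    refine sum_congr rfl (fun a _ => ?_)
    rw [map_smul, hpow]
  · rw [h.card, T.finrank_eq]

end CfsgLib.H9.JordanForm
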