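import Mathlib

/-! Normal subgroups of multiply transitive groups: a transport-free formulation. -/

set_option autoImplicit false

namespace CfsgLib.H9.KNormal

open MulAction SubMulAction

universe u v

variable {G : Type u} {X : Type v} [Group G] [MulAction G X]

/-- `k`-transitivity of a subgroup, phrased inside the big group. -/
def KT (N : Subgroup G) (X : Type v) [MulAction G X] (k : ℕ) : Prop :=
  ∀ x y : Fin k ↪ X, ∃ n ∈ N, ∀ i, n • x i = y i

theorem kt_iff (N : Subgroup G) (k : ℕ) : IsMultiplyPretransitive N X k ↔ KT N X k := by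
  constructor
  · intro h x y
    obtain ⟨⟨n, hn⟩, hxy⟩ := h.exists_smul_eq x y
    exact ⟨n, hn, fun i => DFunLike.congr_fun hxy i⟩
  · intro h
    constructor
    intro x y
    obtain ⟨n, hn, hxy⟩ := h x y
    exact ⟨⟨n, hn⟩, Function.Embedding.ext hxy⟩

theorem kt_one_iff (N : Subgroup G) : KT N X 1 ↔ ∀ x y : X, ∃ n ∈ N, n • x = y := by
  constructor
  · intro h x y
    obtain ⟨n, hn, hxy⟩ := h (⟨fun _ => x, fun i j _ => Subsingleton.elim i j⟩)
      (⟨fun _ => y, fun i j _ => Subsingleton.elim i j⟩)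
    exact ⟨n, hn, hxy 0⟩
  · intro h x y
    obtain ⟨n, hn, hxy⟩ := h (x 0) (y 0)
    refine ⟨n, hn, fun i => ?_⟩
    rw [Subsingleton.elim i 0]
    exact hxy

/-- Transitivity plus `m`-transitivity of the point stabiliser on the rest gives
`m + 1`-transitivity. -/
theorem kt_succ {N : Subgroup G} (htr : ∀ x y : X, ∃ n ∈ N, n • x = y) {a : X} {m : ℕ}
    (h : KT (N.subgroupOf (stabilizer G a)) (ofStabilizer G a) m) : KT N X (m + 1) := by
  intro x y
  obtain ⟨n₁, hn₁, h₁⟩ := htr (x 0) a
  obtain ⟨n₂, hn₂, h₂⟩ := htr (y 0) a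
  have hx : ∀ i : Fin m, n₁ • x i.succ ∈ ofStabilizer G a := by
    intro i
    rw [mem_ofStabilizer_iff, ← h₁]
    intro h'
    have := x.injective (MulAction.injective n₁ h')
    exact (Fin.succ_ne_zero i) this
  have hy : ∀ i : Fin m, n₂ • y i.succ ∈ ofStabilizer G a := by
    intro i
    rw [mem_ofStabilizer_iff, ← h₂]
    intro h'
    have := y.injective (MulAction.injective n₂ h')
    exact (Fin.succ_ne_zero i) this
  let x' : Fin m ↪ ofStabilizer G a := ⟨fun i => ⟨_, hx i⟩, by
    intro i j hij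
    have h1 := congrArg Subtype.val hij
    have h2 := x.injective (MulAction.injective n₁ h1)
    exact Fin.succ_injective _ h2⟩
  let y' : Fin m ↪ ofStabilizer G a := ⟨fun i => ⟨_, hy i⟩, by
    intro i j hij
    have h1 := congrArg Subtype.val hij
    have h2 := y.injective (MulAction.injective n₂ h1)
    exact Fin.succ_injective _ h2⟩
  obtain ⟨u, hu, hxy⟩ := h x' y'
  have hua : (u : G) • a = a := u.2
  have hxy' : ∀ i : Fin m, (u : G) • (n₁ • x i.succ) = n₂ • y i.succ := fun i =>
    congrArg Subtype.val (hxy i)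
  have huN : (u : G) ∈ N := hu
  refine ⟨n₂⁻¹ * (u : G) * n₁, N.mul_mem (N.mul_mem (N.inv_mem hn₂) huN) hn₁, fun i => ?_⟩
  refine Fin.cases ?_ (fun j => ?_) i
  · rw [mul_smul, mul_smul, h₁, hua, inv_smul_eq_iff, h₂]
  · rw [mul_smul, mul_smul, hxy', inv_smul_smul]

/-- The point stabiliser acts faithfully on the remaining points. -/
theorem faithful_ofStabilizer [FaithfulSMul G X] (a : X) :
    FaithfulSMul (stabilizer G a) (ofStabilizer G a) := by
  constructor
  intro g h hgh
  apply Subtype.ext
  apply FaithfulSMul.eq_of_smul_eq_smul (α := X)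
  intro x
  by_cases hx : x = a
  · subst hx
    have h1 : (g : G) • x = x := g.2
    have h2 : (h : G) • x = x := h.2
    rw [h1, h2]
  · exact congrArg Subtype.val (hgh ⟨x, (mem_ofStabilizer_iff _ _).mpr hx⟩)

/-- A non-trivial normal subgroup of a primitive group is transitive. -/
theorem transitive_of_primitive [FaithfulSMul G X] (hG : IsPreprimitive G X) (N : Subgroup G)
    [N.Normal] (hN : N ≠ ⊥) : ∀ x y : X, ∃ n ∈ N, n • x = y := by
  intro x y
  have hfix : fixedPoints N X ≠ Set.univ := by
    intro h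
    apply hN
    rw [eq_bot_iff]
    intro n hn
    rw [Subgroup.mem_bot]
    apply FaithfulSMul.eq_of_smul_eq_smul (α := X)
    intro z
    have : z ∈ fixedPoints N X := h ▸ Set.mem_univ z
    rw [one_smul]
    exact this ⟨n, hn⟩
  haveI : IsQuasiPreprimitive G X := inferInstance
  have := IsQuasiPreprimitive.isPretransitive_of_normal (G := G) (X := X) hfix
  obtain ⟨⟨n, hn⟩, hxy⟩ := this.exists_smul_eq x y
  exact ⟨n, hn, hxy⟩

/-- The subgroup of a normal subgroup fixing a point is normal in the stabiliser. -/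
instance normal_subgroupOf (N : Subgroup G) [N.Normal] (a : X) :
    (N.subgroupOf (stabilizer G a)).Normal := Subgroup.Normal.subgroupOf inferInstance _

/-- Non-triviality of the induced subgroup. -/
theorem subgroupOf_ne_bot_iff (N : Subgroup G) (a : X) :
    N.subgroupOf (stabilizer G a) ≠ ⊥ ↔ ∃ n ∈ N, n • a = a ∧ n ≠ 1 := by
  rw [Ne, Subgroup.eq_bot_iff_forall]
  push Not
  constructor
  · rintro ⟨⟨n, hn⟩, h1, h2⟩
    refine ⟨n, h1, hn, fun h => h2 (Subtype.ext h)⟩
  · rintro ⟨n, h1, h2, h3⟩
    exact ⟨⟨n, h2⟩, h1, fun h => h3 (congrArg Subtype.val h)⟩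

/-! ### Moving few points -/

theorem ex2 {k : ℕ} [Finite X] (hk : 2 ≤ k) (hc : k ≤ Nat.card X) (hG : IsMultiplyPretransitive G X k)
    {a b a' b' : X} (hab : a ≠ b) (hab' : a' ≠ b') : ∃ g : G, g • a = a' ∧ g • b = b' := by
  haveI := hG
  have h2 : IsMultiplyPretransitive G X 2 := isMultiplyPretransitive_of_le (n := k) hk hc
  rw [is_two_pretransitive_iff] at h2
  exact h2 hab hab'

theorem ex3 {k : ℕ} [Finite X] (hk : 3 ≤ k) (hc : k ≤ Nat.card X) (hG : IsMultiplyPretransitive G X k)
    {a b c a' b' c' : X} (hab : a ≠ b) (hac : a ≠ c) (hbc : b ≠ c) (hab' : a' ≠ b') (hac' : a' ≠ c')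
    (hbc' : b' ≠ c') : ∃ g : G, g • a = a' ∧ g • b = b' ∧ g • c = c' := by
  haveI := hG
  have h3 : IsMultiplyPretransitive G X 3 := isMultiplyPretransitive_of_le (n := k) hk hc
  let x : Fin 3 ↪ X := ⟨![a, b, c], by
    intro i j hij
    fin_cases i <;> fin_cases j <;> simp_all [eq_comm]⟩
  let y : Fin 3 ↪ X := ⟨![a', b', c'], by
    intro i j hij
    fin_cases i <;> fin_cases j <;> simp_all [eq_comm]⟩
  obtain ⟨g, hg⟩ := h3.exists_smul_eq x y
  refine ⟨g, ?_, ?_, ?_⟩
  · exact DFunLike.congr_fun hg (0 : Fin 3)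
  · exact DFunLike.congr_fun hg (1 : Fin 3)
  · exact DFunLike.congr_fun hg (2 : Fin 3)

theorem ex4 {k : ℕ} [Finite X] (hk : 4 ≤ k) (hc : k ≤ Nat.card X) (hG : IsMultiplyPretransitive G X k)
    {a b c d a' b' c' d' : X} (hab : a ≠ b) (hac : a ≠ c) (had : a ≠ d) (hbc : b ≠ c) (hbd : b ≠ d)
    (hcd : c ≠ d) (hab' : a' ≠ b') (hac' : a' ≠ c') (had' : a' ≠ d') (hbc' : b' ≠ c') (hbd' : b' ≠ d')
    (hcd' : c' ≠ d') : ∃ g : G, g • a = a' ∧ g • b = b' ∧ g • c = c' ∧ g • d = d' := by
  haveI := hG
  have h4 : IsMultiplyPretransitive G X 4 := isMultiplyPretransitive_of_le (n := k) hk hc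
  let x : Fin 4 ↪ X := ⟨![a, b, c, d], by
    intro i j hij
    fin_cases i <;> fin_cases j <;> simp_all [eq_comm]⟩
  let y : Fin 4 ↪ X := ⟨![a', b', c', d'], by
    intro i j hij
    fin_cases i <;> fin_cases j <;> simp_all [eq_comm]⟩
  obtain ⟨g, hg⟩ := h4.exists_smul_eq x y
  refine ⟨g, ?_, ?_, ?_, ?_⟩
  · exact DFunLike.congr_fun hg (0 : Fin 4)
  · exact DFunLike.congr_fun hg (1 : Fin 4)
  · exact DFunLike.congr_fun hg (2 : Fin 4)
  · exact DFunLike.congr_fun hg (3 : Fin 4)

/-- A finite set with more than `S.card` points has a point outside `S`. -/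
theorem exists_not_mem [Finite X] (S : Finset X) (h : S.card < Nat.card X) : ∃ x, x ∉ S := by
  classical
  by_contra hcon
  push Not at hcon
  haveI := Fintype.ofFinite X
  have : S = Finset.univ := Finset.eq_univ_iff_forall.mpr hcon
  rw [this, Finset.card_univ, Nat.card_eq_fintype_card] at h
  exact lt_irrefl _ h

/-- Two conjugates agree if they agree at the base point of a regular normal subgroup. -/
theorem reg_eq {N : Subgroup G} {a : X} (hreg : ∀ n ∈ N, n • a = a → n = 1) {u v : G} (hu : u ∈ N)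
    (hv : v ∈ N) (h : u • a = v • a) : u = v := by
  have : v⁻¹ * u = 1 := hreg _ (N.mul_mem (N.inv_mem hv) hu) (by rw [mul_smul, h, inv_smul_smul])
  exact (inv_mul_eq_one.mp this).symm

/-- An exponent two group is abelian. -/
theorem comm_of_exp_two {N : Subgroup G} (h : ∀ n ∈ N, n ^ 2 = 1) {m n : G} (hm : m ∈ N) (hn : n ∈ N) :
    m * n = n * m := by
  have h1 := h _ (N.mul_mem hm hn)
  have h2 := h _ hm
  have h3 := h _ hn
  rw [pow_two] at h1 h2 h3
  calc m * n = m * (m * n * (m * n)) * n := by rw [h1, mul_one]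
    _ = (m * m) * n * m * (n * n) := by group
    _ = n * m := by rw [h2, h3]; group

/-- The regular case in `3`-transitive groups. -/
theorem regular_exp_two [Finite X] {k : ℕ} (hk : 3 ≤ k) (hdeg : k < Nat.card X)
    (hG : IsMultiplyPretransitive G X k) (N : Subgroup G) [hNn : N.Normal]
    (htr : ∀ x y : X, ∃ n ∈ N, n • x = y) {a : X} (hreg : ∀ n ∈ N, n • a = a → n = 1) :
    ∀ n ∈ N, n ^ 2 = 1 := by
  classical
  intro u hu
  by_contra hne
  have hu1 : u ≠ 1 := by
    rintro rfl
    exact hne (one_pow 2)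
  have huinv : u ≠ u⁻¹ := by
    intro h
    apply hne
    rw [pow_two]
    nth_rewrite 2 [h]
    simp
  have hb : u • a ≠ a := fun h => hu1 (hreg u hu h)
  have hc : u⁻¹ • a ≠ a := fun h => hu1 (by simpa using hreg _ (N.inv_mem hu) h)
  have hbc : u • a ≠ u⁻¹ • a := fun h => huinv (reg_eq hreg hu (N.inv_mem hu) h)
  obtain ⟨e, he⟩ := exists_not_mem ({a, u • a, u⁻¹ • a} : Finset X) (by
    refine lt_of_le_of_lt Finset.card_le_three ?_
    omega)
  simp only [Finset.mem_insert, Finset.mem_singleton, not_or] at he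
  obtain ⟨g, hga, hgb, hgc⟩ := ex3 hk hdeg.le hG (a := a) (b := u • a) (c := u⁻¹ • a) (a' := a)
    (b' := u • a) (c' := e) hb.symm hc.symm hbc hb.symm (Ne.symm he.1) (Ne.symm he.2.1)
  -- conjugation
  have hconj : g * u * g⁻¹ = u := by
    apply reg_eq hreg (hNn.conj_mem u hu g) hu
    rw [mul_smul, mul_smul, inv_smul_eq_iff.mpr hga.symm, hgb]
  have hconj2 : (g * u⁻¹ * g⁻¹) • a = e := by
    rw [mul_smul, mul_smul, inv_smul_eq_iff.mpr hga.symm, hgc]
  have h3 : g * u⁻¹ * g⁻¹ = u⁻¹ := by
    have : g * u⁻¹ * g⁻¹ = (g * u * g⁻¹)⁻¹ := by group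
    rw [this, hconj]
  rw [h3] at hconj2
  exact he.2.2 hconj2.symm

/-- Point stabilisers abelian of exponent two, transitive on the rest: impossible in degree `≥ 4`. -/
theorem false_of_sharp_exp_two [Finite X] [FaithfulSMul G X] {N : Subgroup G}
    (htr : ∀ x y : X, ∃ n ∈ N, n • x = y) {a : X}
    (hcomm : ∀ m ∈ N, ∀ n ∈ N, m • a = a → n • a = a → m * n = n * m)
    (hexp : ∀ n ∈ N, n • a = a → n ^ 2 = 1)
    (htra : ∀ x y : X, x ≠ a → y ≠ a → ∃ n ∈ N, n • a = a ∧ n • x = y)
    (hcard : 4 ≤ Nat.card X) : False := by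
  classical
  -- an element of `N` with two fixed points is trivial
  have h2fix : ∀ w ∈ N, ∀ x y : X, x ≠ y → w • x = x → w • y = y → w = 1 := by
    intro w hw x y hxy hwx hwy
    obtain ⟨m, hm, hma⟩ := htr a x
    let w' := m⁻¹ * w * m
    have hw' : w' ∈ N := N.mul_mem (N.mul_mem (N.inv_mem hm) hw) hm
    have hw'a : w' • a = a := by
      simp only [w', mul_smul, hma, hwx]
      rw [← hma, inv_smul_smul]
    let p := m⁻¹ • y
    have hpa : p ≠ a := by
      intro h
      apply hxy
      have : y = m • a := by rw [← h, smul_inv_smul]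
      rw [this, hma]
    have hw'p : w' • p = p := by
      simp only [w', p, mul_smul, smul_inv_smul, hwy]
    have hw'1 : w' = 1 := by
      apply FaithfulSMul.eq_of_smul_eq_smul (α := X)
      intro z
      rw [one_smul]
      by_cases hz : z = a
      · rw [hz, hw'a]
      · obtain ⟨t, ht, hta, htp⟩ := htra p z hpa hz
        rw [← htp, ← mul_smul, hcomm w' hw' t ht hw'a hta, mul_smul, hw'p]
    have : w = m * w' * m⁻¹ := by simp only [w']; group
    rw [this, hw'1]
    simp
  -- four points
  obtain ⟨c, hc⟩ := exists_not_mem ({a} : Finset X) (by simp; omega)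
  obtain ⟨x, hx⟩ := exists_not_mem ({a, c} : Finset X) (by
    refine lt_of_le_of_lt Finset.card_le_two ?_
    omega)
  obtain ⟨y, hy⟩ := exists_not_mem ({a, c, x} : Finset X) (by
    refine lt_of_le_of_lt Finset.card_le_three ?_
    omega)
  simp only [Finset.mem_insert, Finset.mem_singleton, not_or] at hc hx hy
  obtain ⟨n, hn, hna⟩ := htr a c
  -- `u` in `N_a` interchanging `x, y`
  obtain ⟨u, hu, hua, hux⟩ := htra x y hx.1 hy.1
  have huy : u • y = x := by
    have h1 := hexp u hu hua
    rw [← hux, ← mul_smul, ← pow_two, h1, one_smul]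
  -- `v` in `N_c` interchanging `x, y`
  have hx' : n⁻¹ • x ≠ a := by
    intro h
    apply hx.2
    rw [← hna, ← h, smul_inv_smul]
  have hy' : n⁻¹ • y ≠ a := by
    intro h
    apply hy.2.1
    rw [← hna, ← h, smul_inv_smul]
  obtain ⟨u', hu', hu'a, hu'x⟩ := htra _ _ hx' hy'
  have hu'y : u' • (n⁻¹ • y) = n⁻¹ • x := by
    have h1 := hexp u' hu' hu'a
    rw [← hu'x, ← mul_smul, ← pow_two, h1, one_smul]
  let v := n * u' * n⁻¹
  have hv : v ∈ N := N.mul_mem (N.mul_mem hn hu') (N.inv_mem hn)
  have hvc : v • c = c := by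
    simp only [v, mul_smul]
    rw [← hna, inv_smul_smul, hu'a]
  have hvx : v • x = y := by
    simp only [v, mul_smul]
    rw [hu'x, smul_inv_smul]
  have hvy : v • y = x := by
    simp only [v, mul_smul]
    rw [hu'y, smul_inv_smul]
  have hxy : x ≠ y := fun h => hy.2.2 h.symm
  have huv : v⁻¹ * u = 1 := h2fix _ (N.mul_mem (N.inv_mem hv) hu) x y hxy
    (by rw [mul_smul, hux, inv_smul_eq_iff, hvx]) (by rw [mul_smul, huy, inv_smul_eq_iff, hvy])
  have huv' : u = v := (inv_mul_eq_one.mp huv).symm
  have hu1 : u = 1 := h2fix u hu a c (Ne.symm hc) hua (by rw [huv']; exact hvc)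
  rw [hu1, one_smul] at hux
  exact hxy hux

/-- Jordan's theorem on normal subgroups of multiply transitive groups. -/
theorem jordan (k : ℕ) : ∀ {G : Type u} {X : Type v} [Group G] [MulAction G X] [Finite X]
    [FaithfulSMul G X] (_ : k + 2 < Nat.card X) (_ : IsMultiplyPretransitive G X (k + 2))
    (N : Subgroup G) [N.Normal] (_ : N ≠ ⊥),
    KT N X (k + 1) ∨ (k = 1 ∧ (∀ m ∈ N, ∀ n ∈ N, m * n = n * m) ∧ ∀ n ∈ N, n ^ 2 = 1) := by
  induction k with
  | zero =>
    intro G X _ _ _ _ hdeg hG N _ hN
    left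
    have hprim : IsPreprimitive G X := isPreprimitive_of_is_two_pretransitive hG
    exact (kt_one_iff N).mpr (transitive_of_primitive hprim N hN)
  | succ k ih =>
    intro G X _ _ _ _ hdeg hG N _ hN
    classical
    haveI := hG
    have hG2 : IsMultiplyPretransitive G X 2 :=
      isMultiplyPretransitive_of_le (n := k + 1 + 2) (by omega) (by omega)
    have hprim : IsPreprimitive G X := isPreprimitive_of_is_two_pretransitive hG2
    have htr := transitive_of_primitive hprim N hN
    have hnon : Nonempty X := by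
      by_contra h
      rw [not_nonempty_iff] at h
      rw [Nat.card_of_isEmpty] at hdeg
      omega
    obtain ⟨a⟩ := hnon
    by_cases hreg : ∀ n ∈ N, n • a = a → n = 1
    · -- the regular case
      have hexp := regular_exp_two (k := k + 1 + 2) (by omega) hdeg hG N htr hreg
      rcases Nat.eq_zero_or_pos k with rfl | hkpos
      · right
        exact ⟨rfl, fun m hm n hn => comm_of_exp_two hexp hm hn, hexp⟩
      · exfalso
        -- five points
        have h5 : 5 ≤ Nat.card X := by omega
        obtain ⟨b, hb⟩ := exists_not_mem ({a} : Finset X) (by simp; omega)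
        obtain ⟨c, hc⟩ := exists_not_mem ({a, b} : Finset X) (by
          refine lt_of_le_of_lt Finset.card_le_two ?_
          omega)
        simp only [Finset.mem_insert, Finset.mem_singleton, not_or] at hb hc
        obtain ⟨x, hx, hxa⟩ := htr a b
        obtain ⟨y, hy, hya⟩ := htr a c
        have hd : (x * y) • a ≠ a := by
          intro h
          have h1 : x * y = 1 := hreg _ (N.mul_mem hx hy) h
          have h2 := hexp x hx
          have h3 : y = x := by
            rw [pow_two] at h2
            exact mul_left_cancel (h1.trans h2.symm)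
          rw [h3, hxa] at hya
          exact hc.2 hya.symm
        have hd1 : (x * y) • a ≠ b := by
          intro h
          rw [mul_smul, hya, ← hxa] at h
          exact hc.1 (MulAction.injective x h)
        have hd2 : (x * y) • a ≠ c := by
          intro h
          rw [comm_of_exp_two hexp hx hy, mul_smul, hxa, ← hya] at h
          exact hb (MulAction.injective y h)
        obtain ⟨e, he⟩ := exists_not_mem ({a, b, c, (x * y) • a} : Finset X) (by
          refine lt_of_le_of_lt Finset.card_le_four ?_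
          omega)
        simp only [Finset.mem_insert, Finset.mem_singleton, not_or] at he
        obtain ⟨g, hga, hgb, hgc, hgd⟩ := ex4 (k := k + 1 + 2) (by omega) hdeg.le hG
          (a := a) (b := b) (c := c) (d := (x * y) • a) (a' := a) (b' := b) (c' := c) (d' := e)
          (Ne.symm hb) (Ne.symm hc.1) (Ne.symm hd) (Ne.symm hc.2) (Ne.symm hd1) (Ne.symm hd2)
          (Ne.symm hb) (Ne.symm hc.1) (Ne.symm he.1) (Ne.symm hc.2) (Ne.symm he.2.1) (Ne.symm he.2.2.1)
        have hNn : N.Normal := inferInstance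
        have hgx : g * x * g⁻¹ = x := by
          apply reg_eq hreg (hNn.conj_mem x hx g) hx
          rw [mul_smul, mul_smul, inv_smul_eq_iff.mpr hga.symm, hxa, hgb]
        have hgy : g * y * g⁻¹ = y := by
          apply reg_eq hreg (hNn.conj_mem y hy g) hy
          rw [mul_smul, mul_smul, inv_smul_eq_iff.mpr hga.symm, hya, hgc]
        have hgxy : g * (x * y) * g⁻¹ = x * y := by
          have : g * (x * y) * g⁻¹ = (g * x * g⁻¹) * (g * y * g⁻¹) := by group
          rw [this, hgx, hgy]
        have h1 : (g * (x * y) * g⁻¹) • a = e := by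
          rw [mul_smul, mul_smul, inv_smul_eq_iff.mpr hga.symm, hgd]
        rw [hgxy] at h1
        exact he.2.2.2 h1.symm
    · -- the non-regular case
      push Not at hreg
      obtain ⟨n₀, hn₀, hn₀a, hn₀1⟩ := hreg
      haveI : IsPretransitive G X := by
        constructor
        intro x y
        obtain ⟨n, _, h⟩ := htr x y
        exact ⟨n, h⟩
      have hG' : IsMultiplyPretransitive (stabilizer G a) (ofStabilizer G a) (k + 2) :=
        SubMulAction.ofStabilizer.isMultiplyPretransitive.mp hG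
      have hcard' := nat_card_ofStabilizer_add_one_eq (G := G) a
      haveI hfaith := faithful_ofStabilizer (G := G) a
      have hN' : N.subgroupOf (stabilizer G a) ≠ ⊥ :=
        (subgroupOf_ne_bot_iff N a).mpr ⟨n₀, hn₀, hn₀a, hn₀1⟩
      rcases ih (G := stabilizer G a) (X := ofStabilizer G a) (by omega) hG'
        (N.subgroupOf (stabilizer G a)) hN' with h | ⟨rfl, hc, he⟩
      · left
        exact kt_succ htr h
      · exfalso
        have hG2' : IsMultiplyPretransitive (stabilizer G a) (ofStabilizer G a) 2 :=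
          isMultiplyPretransitive_of_le (n := 1 + 2) (by omega) (by omega)
        have hprim' : IsPreprimitive (stabilizer G a) (ofStabilizer G a) :=
          isPreprimitive_of_is_two_pretransitive hG2'
        have htr' := transitive_of_primitive hprim' _ hN'
        refine false_of_sharp_exp_two (N := N) (a := a) htr ?_ ?_ ?_ (by omega)
        · intro m hm n hn hma hna
          have := hc ⟨m, hma⟩ (by exact hm) ⟨n, hna⟩ (by exact hn)
          exact congrArg Subtype.val this
        · intro n hn hna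
          have := he ⟨n, hna⟩ (by exact hn)
          exact congrArg Subtype.val this
        · intro x y hx hy
          obtain ⟨u, hu, huxy⟩ := htr' ⟨x, (mem_ofStabilizer_iff _ _).mpr hx⟩
            ⟨y, (mem_ofStabilizer_iff _ _).mpr hy⟩
          exact ⟨u, hu, u.2, congrArg Subtype.val huxy⟩

end CfsgLib.H9.KNormal
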