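import Cfsg.Agent.Lib.H9.KNormal

/-! Normal subgroups of multiply primitive groups. -/

set_option autoImplicit false

namespace CfsgLib.H9.KNormal

open MulAction SubMulAction
open scoped Pointwise

universe u v

theorem prim_regular_false {G : Type u} {X : Type v} [Group G] [MulAction G X] [Finite X]
    [FaithfulSMul G X] (hG3 : IsMultiplyPreprimitive G X 3) (hcard : 5 ≤ Nat.card X)
    (N : Subgroup G) [hNn : N.Normal] (htr : ∀ x y : X, ∃ n ∈ N, n • x = y) (a : X)
    (hsr : ∀ n ∈ N, n • a = a → ∀ b, b ≠ a → n • b = b → n = 1)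
    (htra : ∀ x y : X, x ≠ a → y ≠ a → ∃ n ∈ N, n • a = a ∧ n • x = y) : False := by
  classical
  have hexp : ∀ u ∈ N, u • a = a → u ^ 2 = 1 := by
    intro u hu hua
    by_contra hne
    obtain ⟨b, hb⟩ := exists_not_mem ({a} : Finset X) (by simp; omega)
    simp only [Finset.mem_singleton] at hb
    have heq : ∀ w₁ ∈ N, ∀ w₂ ∈ N, w₁ • a = a → w₂ • a = a → w₁ • b = w₂ • b → w₁ = w₂ := by
      intro w₁ h₁ w₂ h₂ ha₁ ha₂ hb₁
      have : w₂⁻¹ * w₁ = 1 := hsr _ (N.mul_mem (N.inv_mem h₂) h₁)
        (by rw [mul_smul, ha₁, inv_smul_eq_iff, ha₂]) b hb (by rw [mul_smul, hb₁, inv_smul_smul])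
      exact (inv_mul_eq_one.mp this).symm
    have hu1 : u ≠ 1 := by
      rintro rfl
      exact hne (one_pow 2)
    have huinva : u⁻¹ • a = a := by rw [inv_smul_eq_iff, hua]
    have hub : u • b ≠ b := fun h => hu1 (hsr u hu hua b hb h)
    have hub' : u⁻¹ • b ≠ b := fun h => hub (by rw [inv_smul_eq_iff] at h; exact h.symm)
    have hua' : u • b ≠ a := by
      intro h
      apply hb
      rw [← hua] at h
      exact MulAction.injective u h
    have hua'' : u⁻¹ • b ≠ a := by
      intro h
      apply hb
      rw [inv_smul_eq_iff] at h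
      rw [h, hua]
    have hcd : u • b ≠ u⁻¹ • b := by
      intro h
      have h1 : u = u⁻¹ := heq u hu u⁻¹ (N.inv_mem hu) hua huinva h
      apply hne
      rw [pow_two]
      nth_rewrite 2 [h1]
      simp
    -- the block
    let s : Set X := {a, b}
    have hs : s.encard + 1 = ((3 : ℕ) : ℕ∞) := by
      have : s.encard = 2 := Set.encard_pair (Ne.symm hb)
      rw [this]
      norm_num
    haveI := hG3
    have hprim := IsMultiplyPreprimitive.isPreprimitive_ofFixingSubgroup G 3 hs
    have hmem : ∀ x : X, x ≠ a → x ≠ b → x ∈ ofFixingSubgroup G s := by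
      intro x h1 h2
      rw [mem_ofFixingSubgroup_iff]
      simp [s, h1, h2]
    let c : ofFixingSubgroup G s := ⟨u • b, hmem _ hua' hub⟩
    let d : ofFixingSubgroup G s := ⟨u⁻¹ • b, hmem _ hua'' hub'⟩
    have hcd' : c ≠ d := fun h => hcd (congrArg Subtype.val h)
    let B : Set (ofFixingSubgroup G s) := {c, d}
    have hblock : IsBlock (fixingSubgroup G s) B := by
      rw [isBlock_iff_smul_eq_of_mem]
      rintro ⟨g, hg⟩ y hy hgy
      have hga : g • a = a := (mem_fixingSubgroup_iff G).mp hg a (by simp [s])
      have hgb : g • b = b := (mem_fixingSubgroup_iff G).mp hg b (by simp [s])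
      let v := g * u * g⁻¹
      have hv : v ∈ N := hNn.conj_mem u hu g
      have hva : v • a = a := by
        simp only [v, mul_smul]
        rw [inv_smul_eq_iff.mpr hga.symm, hua, hga]
      have hvinva : v⁻¹ • a = a := by rw [inv_smul_eq_iff, hva]
      have hgc : g • (u • b) = v • b := by
        simp only [v, mul_smul]
        rw [inv_smul_eq_iff.mpr hgb.symm]
      have hgd : g • (u⁻¹ • b) = v⁻¹ • b := by
        have : v⁻¹ = g * u⁻¹ * g⁻¹ := by simp only [v]; group
        rw [this]
        simp only [mul_smul]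
        rw [inv_smul_eq_iff.mpr hgb.symm]
      have hcase : v = u ∨ v = u⁻¹ := by
        have h1 : (g • (y : X)) = u • b ∨ (g • (y : X)) = u⁻¹ • b := by
          rcases hgy with h | h
          · exact Or.inl (congrArg Subtype.val h)
          · exact Or.inr (congrArg Subtype.val h)
        have h2 : (y : X) = u • b ∨ (y : X) = u⁻¹ • b := by
          rcases hy with h | h
          · exact Or.inl (congrArg Subtype.val h)
          · exact Or.inr (congrArg Subtype.val h)
        have hvN' := N.inv_mem hv
        have huN' := N.inv_mem hu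
        rcases h2 with h2 | h2 <;> rw [h2] at h1
        · rw [hgc] at h1
          rcases h1 with h1 | h1
          · exact Or.inl (heq v hv u hu hva hua h1)
          · exact Or.inr (heq v hv u⁻¹ huN' hva huinva h1)
        · rw [hgd] at h1
          rcases h1 with h1 | h1
          · right
            have := heq v⁻¹ hvN' u hu hvinva hua h1
            rw [← this]; simp
          · left
            have := heq v⁻¹ hvN' u⁻¹ huN' hvinva huinva h1
            simpa using this
      have hgcY : ∀ w : ofFixingSubgroup G s, (w : X) = v • b →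
          (⟨g, hg⟩ : fixingSubgroup G s) • c = w := fun w hw => Subtype.ext (hgc.trans hw.symm)
      have hgdY : ∀ w : ofFixingSubgroup G s, (w : X) = v⁻¹ • b →
          (⟨g, hg⟩ : fixingSubgroup G s) • d = w := fun w hw => Subtype.ext (hgd.trans hw.symm)
      rcases hcase with h | h
      · rw [Set.smul_set_insert, Set.smul_set_singleton, hgcY c (by rw [h]),
          hgdY d (by rw [h])]
      · rw [Set.smul_set_insert, Set.smul_set_singleton, hgcY d (by rw [h]),
          hgdY c (by rw [h, inv_inv])]
        exact Set.pair_comm _ _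
    rcases hprim.isTrivialBlock_of_isBlock hblock with h | h
    · exact hcd' (h (by simp [B]) (by simp [B]))
    · obtain ⟨x, hx⟩ := exists_not_mem ({a, b, u • b, u⁻¹ • b} : Finset X) (by
        refine lt_of_le_of_lt Finset.card_le_four ?_
        omega)
      simp only [Finset.mem_insert, Finset.mem_singleton, not_or] at hx
      have hxB : (⟨x, hmem x hx.1 hx.2.1⟩ : ofFixingSubgroup G s) ∈ B := by
        rw [h]; exact Set.mem_univ _
      rcases hxB with h' | h'
      · exact hx.2.2.1 (congrArg Subtype.val h')
      · exact hx.2.2.2 (congrArg Subtype.val h')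
  refine false_of_sharp_exp_two (N := N) (a := a) htr ?_ hexp htra (by omega)
  intro m hm n hn hma hna
  exact comm_of_exp_two (N := N ⊓ stabilizer G a) (fun w hw => hexp w hw.1 hw.2) ⟨hm, hma⟩ ⟨hn, hna⟩

/-- Non-trivial non-regular normal subgroups of `k`-primitive groups are `k`-transitive. -/
theorem prim_trans (m : ℕ) : ∀ {G : Type u} {X : Type v} [Group G] [MulAction G X] [Finite X]
    [FaithfulSMul G X] (_ : m + 3 ≤ Nat.card X) (_ : IsMultiplyPreprimitive G X (m + 1))
    (N : Subgroup G) [N.Normal] (_ : N ≠ ⊥) (_ : ∃ a : X, ∃ n ∈ N, n • a = a ∧ n ≠ 1),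
    KT N X (m + 1) := by
  induction m with
  | zero =>
    intro G X _ _ _ _ hdeg hG N _ hN _
    have hprim : IsPreprimitive G X := (is_one_preprimitive_iff G X).mp hG
    exact (kt_one_iff N).mpr (transitive_of_primitive hprim N hN)
  | succ m ih =>
    intro G X _ _ _ _ hdeg hG N _ hN hnr
    classical
    haveI := hG
    have hT : IsMultiplyPretransitive G X (m + 2) := hG.isMultiplyPretransitive
    have hG2 : IsMultiplyPretransitive G X 2 :=
      isMultiplyPretransitive_of_le (n := m + 2) (by omega) (by omega)
    have hprim : IsPreprimitive G X := isPreprimitive_of_is_two_pretransitive hG2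
    have htr := transitive_of_primitive hprim N hN
    obtain ⟨a, n₀, hn₀, hn₀a, hn₀1⟩ := hnr
    haveI : IsPretransitive G X := hprim.toIsPretransitive
    have hG' : IsMultiplyPreprimitive (stabilizer G a) (ofStabilizer G a) (m + 1) :=
      isMultiplyPreprimitive_ofStabilizer G X (n := m + 1)
    have hcard' := nat_card_ofStabilizer_add_one_eq (G := G) a
    haveI hfaith := faithful_ofStabilizer (G := G) a
    have hN' : N.subgroupOf (stabilizer G a) ≠ ⊥ :=
      (subgroupOf_ne_bot_iff N a).mpr ⟨n₀, hn₀, hn₀a, hn₀1⟩
    have hprim' : IsPreprimitive (stabilizer G a) (ofStabilizer G a) := by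
      have := isMultiplyPreprimitive_of_le (stabilizer G a) (ofStabilizer G a) hG'
        (m := 1) (by omega) (by rw [ENat.card_eq_coe_natCard]; exact_mod_cast (by omega))
      exact (is_one_preprimitive_iff _ _).mp this
    have htr' := transitive_of_primitive hprim' _ hN'
    rcases Nat.eq_zero_or_pos m with rfl | hm
    · exact kt_succ htr ((kt_one_iff _).mpr htr')
    by_cases hnr' : ∃ b : ofStabilizer G a, ∃ n ∈ N.subgroupOf (stabilizer G a), n • b = b ∧ n ≠ 1
    · exact kt_succ htr (ih (by omega) hG' _ hN' hnr')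
    · exfalso
      push Not at hnr'
      have hG3 : IsMultiplyPreprimitive G X 3 :=
        isMultiplyPreprimitive_of_le G X hG (m := 3) (by omega)
          (by rw [ENat.card_eq_coe_natCard]; exact_mod_cast (by omega))
      refine prim_regular_false hG3 (by omega) N htr a ?_ ?_
      · intro n hn hna b hb hnb
        have := hnr' ⟨b, (mem_ofStabilizer_iff _ _).mpr hb⟩ ⟨n, hna⟩ (by exact hn)
          (Subtype.ext hnb)
        exact congrArg Subtype.val this
      · intro x y hx hy
        obtain ⟨u, hu, huxy⟩ := htr' ⟨x, (mem_ofStabilizer_iff _ _).mpr hx⟩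
          ⟨y, (mem_ofStabilizer_iff _ _).mpr hy⟩
        exact ⟨u, hu, u.2, congrArg Subtype.val huxy⟩

end CfsgLib.H9.KNormal
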