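import Mathlib

/-! The Lang–Steinberg theorem for the general linear group, via fixed vectors of semilinear maps. -/

set_option autoImplicit false
set_option linter.unusedVariables false
set_option linter.unusedSectionVars false
set_option linter.unusedSimpArgs false
set_option linter.style.haveILetI false

namespace CfsgLib.H9.LangGL

open Polynomial Module

variable {K : Type*} [Field K] [IsAlgClosed K] {Q : ℕ} {τ : K →+* K}

/-- Additive polynomials of the recursion. -/
noncomputable def P (c : ℕ → K) (Q : ℕ) : ℕ → K[X]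
  | 0 => C (c 0) * X ^ Q
  | i + 1 => (P c Q i) ^ Q + C (c (i + 1)) * X ^ Q

theorem natDegree_P (hQ : 2 ≤ Q) (c : ℕ → K) (h0 : c 0 ≠ 0) (i : ℕ) :
    (P c Q i).natDegree = Q ^ (i + 1) := by
  induction i with
  | zero =>
    simp only [P]
    rw [natDegree_C_mul_X_pow _ _ h0]; simp
  | succ i ih =>
    simp only [P]
    have h1 : ((P c Q i) ^ Q).natDegree = Q ^ (i + 1 + 1) := by
      rw [natDegree_pow, ih]; ring
    have hlt : (C (c (i + 1)) * X ^ Q : K[X]).natDegree < ((P c Q i) ^ Q).natDegree := by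
      rw [h1]
      refine lt_of_le_of_lt (natDegree_C_mul_X_pow_le _ _) ?_
      calc Q = Q ^ 1 := (pow_one Q).symm
        _ < Q ^ (i + 1 + 1) := Nat.pow_lt_pow_right (by omega) (by omega)
    rw [natDegree_add_eq_left_of_natDegree_lt hlt, h1]

theorem X2_dvd_P (hQ : 2 ≤ Q) (c : ℕ → K) (i : ℕ) : (X : K[X]) ^ 2 ∣ P c Q i := by
  have hX : (X : K[X]) ^ 2 ∣ X ^ Q := pow_dvd_pow _ hQ
  induction i with
  | zero =>
    simp only [P]
    exact Dvd.dvd.mul_left hX _
  | succ i ih =>
    simp only [P]
    refine dvd_add ?_ (Dvd.dvd.mul_left hX _)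
    exact ih.trans (dvd_pow_self _ (by omega))

/-- Non-zero solution of the fixed point equation. -/
theorem exists_fixed_value (hQ : 2 ≤ Q) (c : ℕ → K) (h0 : c 0 ≠ 0) (k : ℕ) :
    ∃ y : K, y ≠ 0 ∧ (P c Q k).eval y = y := by
  obtain ⟨T, hT⟩ := X2_dvd_P (K := K) hQ c k
  have hdeg := natDegree_P hQ c h0 k
  have hT0 : T ≠ 0 := by
    rintro rfl
    rw [mul_zero] at hT
    rw [hT, natDegree_zero] at hdeg
    have : 0 < Q ^ (k + 1) := by positivity
    omega
  let S : K[X] := X * T - 1
  have hS : S.degree ≠ 0 := by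
    intro h
    have h1 : (X * T : K[X]).natDegree = T.natDegree + 1 := by
      rw [mul_comm, natDegree_mul_X hT0]
    have h2 : S.natDegree = 0 := natDegree_eq_of_degree_eq_some h
    have h3 : (X * T : K[X]).natDegree = S.natDegree := by
      have hS1 : S = X * T - C 1 := by simp [S]
      rw [hS1, natDegree_sub_C]
    omega
  obtain ⟨y, hy⟩ := IsAlgClosed.exists_root S hS
  have hy' : y * T.eval y - 1 = 0 := by
    have := hy
    simp only [S, IsRoot.def, eval_sub, eval_mul, eval_X, eval_one] at this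
    exact this
  have hy0 : y ≠ 0 := by
    rintro rfl
    simp at hy'
  refine ⟨y, hy0, ?_⟩
  rw [hT, eval_mul, eval_pow, eval_X]
  have : y * T.eval y = 1 := by linear_combination hy'
  calc y ^ 2 * T.eval y = y * (y * T.eval y) := by ring
    _ = y := by rw [this, mul_one]

variable {V : Type*} [AddCommGroup V] [Module K V] [FiniteDimensional K V]

/-- The key lemma: a nonzero fixed vector. -/
theorem exists_fixed (hQ : 2 ≤ Q) (hτ : ∀ c, τ c = c ^ Q) (φ : V →ₛₗ[τ] V) (hφ : Function.Injective φ)
    (v₀ : V) (hv₀ : v₀ ≠ 0) : ∃ u : V, u ≠ 0 ∧ φ u = u := by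
  classical
  let v : ℕ → V := fun i => φ^[i] v₀
  have hvs : ∀ i, v (i + 1) = φ (v i) := fun i => Function.iterate_succ_apply' _ _ _
  let W : ℕ → Submodule K V := fun m => Submodule.span K (v '' (Finset.range m : Set ℕ))
  have hWmono : ∀ m, W m ≤ W (m + 1) := by
    intro m
    apply Submodule.span_mono
    apply Set.image_mono
    intro i hi
    simp at hi ⊢
    omega
  have hex : ∃ m, v m ∈ W m := by
    by_contra hall
    push Not at hall
    have hlt : ∀ m, m ≤ finrank K (W m) := by
      intro m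
      induction m with
      | zero => simp
      | succ m ih =>
        have hltW : W m < W (m + 1) := by
          refine lt_of_le_of_ne (hWmono m) ?_
          intro heq
          apply hall m
          rw [heq]
          apply Submodule.subset_span
          exact ⟨m, by simp, rfl⟩
        have := Submodule.finrank_lt_finrank_of_lt hltW
        omega
    have h1 := hlt (finrank K V + 1)
    have h2 := Submodule.finrank_le (W (finrank K V + 1))
    omega
  let m := Nat.find hex
  have hm : v m ∈ W m := Nat.find_spec hex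
  have hmin : ∀ j, j < m → v j ∉ W j := fun j hj => Nat.find_min hex hj
  have hm0 : m ≠ 0 := by
    intro h0
    rw [h0] at hm
    simp only [W, Finset.range_zero, Finset.coe_empty, Set.image_empty, Submodule.span_empty, Submodule.mem_bot] at hm
    exact hv₀ hm
  obtain ⟨k, hk⟩ := Nat.exists_eq_succ_of_ne_zero hm0
  rw [hk] at hm
  obtain ⟨c, hc⟩ := (Submodule.mem_span_image_finset_iff_exists_fun' K).1 hm
  have hc0 : c 0 ≠ 0 := by
    intro hc0
    have hroot : ∀ a : K, ∃ d, τ d = a := fun a => by
      obtain ⟨z, hz⟩ := IsAlgClosed.exists_pow_nat_eq a (n := Q) (by omega)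
      exact ⟨z, by rw [hτ, hz]⟩
    choose d hd using hroot
    have h1 : φ (∑ i ∈ Finset.range k, d (c (i + 1)) • v i) = φ (v k) := by
      rw [map_sum]
      simp only [map_smulₛₗ, hd]
      rw [← hvs k, ← hc, Finset.sum_range_succ', hc0, zero_smul, add_zero]
      exact Finset.sum_congr rfl (fun i _ => by rw [hvs])
    have h2 := hφ h1
    apply hmin k (by omega)
    rw [← h2]
    exact (Submodule.mem_span_image_finset_iff_exists_fun' K).2 ⟨_, rfl⟩
  obtain ⟨y, hy0, hy⟩ := exists_fixed_value hQ c hc0 k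
  let x : ℕ → K := fun i => (P c Q i).eval y
  have hx0 : x 0 = c 0 * y ^ Q := by simp [x, P]
  have hxs : ∀ i, x (i + 1) = x i ^ Q + c (i + 1) * y ^ Q := by
    intro i; simp [x, P]
  have hxk : x k = y := hy
  refine ⟨∑ i ∈ Finset.range (k + 1), x i • v i, ?_, ?_⟩
  · intro h0
    rw [Finset.sum_range_succ, hxk] at h0
    apply hmin k (by omega)
    have h1 : v k = y⁻¹ • (-(∑ i ∈ Finset.range k, x i • v i)) := by
      have h2 : y • v k = -(∑ i ∈ Finset.range k, x i • v i) := by
        rw [eq_neg_iff_add_eq_zero, add_comm]; exact h0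
      rw [← h2, smul_smul, inv_mul_cancel₀ hy0, one_smul]
    rw [h1]
    refine Submodule.smul_mem _ _ (Submodule.neg_mem _ (Submodule.sum_mem _ ?_))
    intro i hi
    exact Submodule.smul_mem _ _ (Submodule.subset_span ⟨i, by simpa using hi, rfl⟩)
  · rw [map_sum]
    simp only [map_smulₛₗ, hτ, ← hvs]
    rw [Finset.sum_range_succ, hxk, ← hc, Finset.smul_sum, Finset.sum_range_succ' _ k,
      Finset.sum_range_succ' (fun i => x i • v i) k, hx0]
    have h2 : ∑ i ∈ Finset.range k, x (i + 1) • v (i + 1) =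
        ∑ i ∈ Finset.range k, x i ^ Q • v (i + 1) +
          ∑ i ∈ Finset.range k, y ^ Q • c (i + 1) • v (i + 1) := by
      rw [← Finset.sum_add_distrib]
      refine Finset.sum_congr rfl (fun i _ => ?_)
      rw [hxs, add_smul, smul_smul, mul_comm (c (i + 1))]
    rw [h2, smul_smul (y ^ Q) (c 0), mul_comm (y ^ Q) (c 0)]
    abel

/-- The fixed vectors span. -/
theorem span_fixed_eq_top (hQ : 2 ≤ Q) (hτ : ∀ c, τ c = c ^ Q) (φ : V →ₛₗ[τ] V)
    (hφ : Function.Injective φ) : Submodule.span K {u : V | φ u = u} = ⊤ := by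
  classical
  set S := Submodule.span K {u : V | φ u = u} with hS
  by_contra hne
  obtain ⟨w, hw⟩ : ∃ w, w ∉ S := by
    by_contra hall
    push Not at hall
    exact hne ((Submodule.eq_top_iff').2 hall)
  have hroot : ∀ a : K, ∃ d, τ d = a := fun a => by
    obtain ⟨z, hz⟩ := IsAlgClosed.exists_pow_nat_eq a (n := Q) (by omega)
    exact ⟨z, by rw [hτ, hz]⟩
  have hSφ : S ≤ S.comap φ := by
    rw [hS, Submodule.span_le]
    intro u hu
    simp only [SetLike.mem_coe, Submodule.mem_comap]
    rw [show φ u = u from hu]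
    exact Submodule.subset_span hu
  have hSsurj : ∀ s ∈ S, ∃ s' ∈ S, φ s' = s := by
    intro s hs
    induction hs using Submodule.span_induction with
    | mem u hu => exact ⟨u, Submodule.subset_span hu, hu⟩
    | zero => exact ⟨0, S.zero_mem, map_zero _⟩
    | add a b _ _ ha hb =>
      obtain ⟨a', ha', rfl⟩ := ha
      obtain ⟨b', hb', rfl⟩ := hb
      exact ⟨a' + b', S.add_mem ha' hb', map_add _ _ _⟩
    | smul a b _ hb =>
      obtain ⟨b', hb', rfl⟩ := hb
      obtain ⟨d, rfl⟩ := hroot a
      exact ⟨d • b', S.smul_mem _ hb', map_smulₛₗ _ _ _⟩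
  let φbar : (V ⧸ S) →ₛₗ[τ] (V ⧸ S) := S.mapQ S φ hSφ
  have hφbar : Function.Injective φbar := by
    rw [injective_iff_map_eq_zero]
    intro a ha
    obtain ⟨a, rfl⟩ := Submodule.Quotient.mk_surjective S a
    have h1 : φ a ∈ S := by
      have : Submodule.Quotient.mk (φ a) = (0 : V ⧸ S) := ha
      exact (Submodule.Quotient.mk_eq_zero S).1 this
    obtain ⟨s', hs', hs2⟩ := hSsurj _ h1
    have := hφ hs2
    rw [← this]
    exact (Submodule.Quotient.mk_eq_zero S).2 hs'
  have hw0 : Submodule.Quotient.mk w ≠ (0 : V ⧸ S) := by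
    intro h
    exact hw ((Submodule.Quotient.mk_eq_zero S).1 h)
  obtain ⟨u, hu0, hu⟩ := exists_fixed hQ hτ φbar hφbar _ hw0
  obtain ⟨w', rfl⟩ := Submodule.Quotient.mk_surjective S u
  have h1 : φ w' - w' ∈ S := by
    have : Submodule.Quotient.mk (φ w') = (Submodule.Quotient.mk w' : V ⧸ S) := hu
    exact (Submodule.Quotient.eq S).1 this
  have hsolve : ∀ a : K, ∃ b : K, b ^ Q - b = a := by
    intro a
    let p : K[X] := X ^ Q - (X + C a)
    have hdeg : p.degree ≠ 0 := by
      have h1 : (X + C a : K[X]).degree < (X ^ Q : K[X]).degree := by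
        rw [degree_X_add_C, degree_X_pow]
        exact_mod_cast (by omega : 1 < Q)
      simp only [p]
      rw [degree_sub_eq_left_of_degree_lt h1, degree_X_pow]
      exact_mod_cast (by omega : Q ≠ 0)
    obtain ⟨b, hb⟩ := IsAlgClosed.exists_root p hdeg
    refine ⟨b, ?_⟩
    have hb' := hb
    simp only [p, IsRoot.def, eval_sub, eval_pow, eval_X, eval_add, eval_C] at hb'
    linear_combination hb'
  have hsol : ∀ s ∈ S, ∀ a : K, ∃ t ∈ S, φ t - t = a • s := by
    intro s hs
    induction hs using Submodule.span_induction with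
    | mem u hu =>
      intro a
      obtain ⟨b, hb⟩ := hsolve a
      refine ⟨b • u, S.smul_mem _ (Submodule.subset_span hu), ?_⟩
      rw [map_smulₛₗ, show φ u = u from hu, hτ, ← sub_smul, hb]
    | zero =>
      intro a
      exact ⟨0, S.zero_mem, by simp⟩
    | add a b _ _ ha hb =>
      intro c
      obtain ⟨t₁, ht₁, h₁⟩ := ha c
      obtain ⟨t₂, ht₂, h₂⟩ := hb c
      refine ⟨t₁ + t₂, S.add_mem ht₁ ht₂, ?_⟩
      rw [map_add, smul_add, ← h₁, ← h₂]
      abel
    | smul a b _ hb =>
      intro c
      obtain ⟨t, ht, h⟩ := hb (c * a)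
      exact ⟨t, ht, by rw [h, smul_smul]⟩
  obtain ⟨t, ht, h2⟩ := hsol _ h1 1
  rw [one_smul] at h2
  have hfix : φ (w' - t) = w' - t := by
    rw [map_sub]
    have : φ t = t + (φ w' - w') := by rw [← h2]; abel
    rw [this]; abel
  have hmem : w' - t ∈ S := Submodule.subset_span hfix
  have : w' ∈ S := by
    have := S.add_mem hmem ht
    simpa using this
  exact hu0 ((Submodule.Quotient.mk_eq_zero S).2 this)

/-- The Lang–Steinberg theorem for `GL_n`. -/
theorem main (p : ℕ) [Fact p.Prime] [CharP K p] (f : ℕ) (hf : 1 ≤ f) (n : ℕ) (g : GL (Fin n) K) :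
    ∃ x : GL (Fin n) K, g = x * (Matrix.GeneralLinearGroup.map (iterateFrobenius K p f) x)⁻¹ := by
  classical
  set τ : K →+* K := iterateFrobenius K p f with hτdef
  have hpp : p.Prime := Fact.out
  have hQ : 2 ≤ p ^ f := by
    calc 2 ≤ p := hpp.two_le
      _ = p ^ 1 := (pow_one p).symm
      _ ≤ p ^ f := Nat.pow_le_pow_right hpp.pos hf
  have hτ : ∀ c, τ c = c ^ (p ^ f) := fun c => iterateFrobenius_def p f c
  let φ : (Fin n → K) →ₛₗ[τ] (Fin n → K) :=
    { toFun := fun v => (g : Matrix (Fin n) (Fin n) K).mulVec (fun i => τ (v i))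
      map_add' := by
        intro a b
        rw [← Matrix.mulVec_add]
        congr 1
        ext i
        simp
      map_smul' := by
        intro a b
        rw [← Matrix.mulVec_smul]
        congr 1
        ext i
        simp }
  have hφv : ∀ v, φ v = (g : Matrix (Fin n) (Fin n) K).mulVec (fun i => τ (v i)) := fun v => rfl
  have hφ : Function.Injective φ := by
    intro a b hab
    rw [hφv, hφv] at hab
    have h1 := Matrix.mulVec_injective_of_isUnit g.isUnit hab
    ext i
    exact τ.injective (congrFun h1 i)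
  have htop := span_fixed_eq_top hQ hτ φ hφ
  obtain ⟨b, hbsub, hbspan, hbli⟩ := exists_linearIndependent K {u : Fin n → K | φ u = u}
  let B := Module.Basis.mk hbli (by
    rw [Subtype.range_coe, hbspan, htop])
  let e := B.indexEquiv (Pi.basisFun K (Fin n))
  let B' := B.reindex e
  have hB' : ∀ j, φ (B' j) = B' j := by
    intro j
    have : B' j = ((e.symm j : b) : Fin n → K) := by
      simp [B', B]
    rw [this]
    exact hbsub (e.symm j).2
  let X : Matrix (Fin n) (Fin n) K := (Pi.basisFun K (Fin n)).toMatrix B'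
  have hX : ∀ i j, X i j = B' j i := by
    intro i j
    simp [X, Module.Basis.toMatrix_apply]
  let x : GL (Fin n) K := ⟨X, B'.toMatrix (Pi.basisFun K (Fin n)),
    Module.Basis.toMatrix_mul_toMatrix_flip _ _, Module.Basis.toMatrix_mul_toMatrix_flip _ _⟩
  refine ⟨x, ?_⟩
  rw [eq_mul_inv_iff_mul_eq]
  apply Units.ext
  ext i j
  have h1 := congrFun (hB' j) i
  rw [hφv] at h1
  change ((g : Matrix (Fin n) (Fin n) K) * (X.map τ)) i j = X i j
  rw [hX, ← h1, Matrix.mul_apply]
  simp only [Matrix.mulVec, dotProduct, Matrix.map_apply, hX]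

end CfsgLib.H9.LangGL
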