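import Mathlib

/-! Small linear algebra tools. -/

set_option autoImplicit false

namespace CfsgLib.H9.LinTools

open Matrix

theorem exists_equiv {F : Type*} [Field F] {V : Type*} [AddCommGroup V] [Module F V] [FiniteDimensional F V]
    (U₁ U₂ : Submodule F V) (h : Module.finrank F U₁ = Module.finrank F U₂) :
    ∃ e : V ≃ₗ[F] V, ∀ x ∈ U₁, e x ∈ U₂ := by
  obtain ⟨W₁, hW₁⟩ := Submodule.exists_isCompl U₁
  obtain ⟨W₂, hW₂⟩ := Submodule.exists_isCompl U₂
  have h1 := Submodule.finrank_add_eq_of_isCompl hW₁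
  have h2 := Submodule.finrank_add_eq_of_isCompl hW₂
  have h3 : Module.finrank F W₁ = Module.finrank F W₂ := by omega
  let eU := LinearEquiv.ofFinrankEq U₁ U₂ h
  let eW := LinearEquiv.ofFinrankEq W₁ W₂ h3
  let e₁ := Submodule.prodEquivOfIsCompl U₁ W₁ hW₁
  let e₂ := Submodule.prodEquivOfIsCompl U₂ W₂ hW₂
  refine ⟨e₁.symm ≪≫ₗ (eU.prodCongr eW) ≪≫ₗ e₂, fun x hx => ?_⟩
  have h4 : e₁.symm x = (⟨x, hx⟩, 0) := by
    rw [LinearEquiv.symm_apply_eq]
    simp [e₁]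
  simp only [LinearEquiv.trans_apply, h4]
  simp [e₂, Submodule.coe_prodEquivOfIsCompl]


end CfsgLib.H9.LinTools
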