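import Mathlib

/-! A theorem on sets whose complement has a pointwise stabilizer transitive on the set. -/

set_option autoImplicit false
set_option linter.unusedVariables false
set_option linter.unusedSectionVars false

namespace CfsgLib.H9.Marg

open scoped Pointwise
open MulAction

variable {G Ω : Type*} [Group G] [MulAction G Ω]

/-- Sets on which the pointwise stabilizer of the complement is transitive. -/
def IsJ (G : Type*) {Ω : Type*} [Group G] [MulAction G Ω] (J : Set Ω) : Prop :=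
  ∀ x ∈ J, ∀ y ∈ J, ∃ g : G, (∀ z, z ∉ J → g • z = z) ∧ g • x = y

theorem isJ_union {J₁ J₂ : Set Ω} (h₁ : IsJ G J₁) (h₂ : IsJ G J₂) (h : (J₁ ∩ J₂).Nonempty) :
    IsJ G (J₁ ∪ J₂) := by
  obtain ⟨w, hw₁, hw₂⟩ := h
  have key : ∀ x ∈ J₁ ∪ J₂, ∃ g : G, (∀ z, z ∉ J₁ ∪ J₂ → g • z = z) ∧ g • w = x := by
    rintro x (hx | hx)
    · obtain ⟨g, hg, hgx⟩ := h₁ w hw₁ x hx
      exact ⟨g, fun z hz => hg z (fun h => hz (Or.inl h)), hgx⟩
    · obtain ⟨g, hg, hgx⟩ := h₂ w hw₂ x hx
      exact ⟨g, fun z hz => hg z (fun h => hz (Or.inr h)), hgx⟩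
  intro x hx y hy
  obtain ⟨a, ha, hax⟩ := key x hx
  obtain ⟨b, hb, hby⟩ := key y hy
  refine ⟨b * a⁻¹, ?_, ?_⟩
  · intro z hz
    rw [mul_smul, inv_smul_eq_iff.2 (ha z hz).symm, hb z hz]
  · rw [mul_smul, ← hax, inv_smul_smul, hby]

theorem isJ_smul {J : Set Ω} (h : IsJ G J) (g : G) : IsJ G (g • J) := by
  intro x hx y hy
  rw [Set.mem_smul_set_iff_inv_smul_mem] at hx hy
  obtain ⟨a, ha, hax⟩ := h _ hx _ hy
  refine ⟨g * a * g⁻¹, ?_, ?_⟩
  · intro z hz
    rw [Set.mem_smul_set_iff_inv_smul_mem] at hz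
    rw [mul_smul, mul_smul, ha _ hz, smul_inv_smul]
  · rw [mul_smul, mul_smul, hax, smul_inv_smul]

theorem ncard_smul (g : G) (s : Set Ω) : (g • s).ncard = s.ncard := by
  rw [← Set.image_smul]
  exact Set.ncard_image_of_injective _ (MulAction.injective g)

variable [Finite Ω]

theorem exists_max (m : ℕ) (Γ : Set Ω) (hΓ : IsJ G Γ) (h2 : 2 ≤ Γ.ncard) (hm : m ≤ Γᶜ.ncard) :
    ∃ C : Set Ω, IsJ G C ∧ 2 ≤ C.ncard ∧ m ≤ Cᶜ.ncard ∧
      ∀ g : G, (C ∩ g • C).Nonempty → g • C = C ∨ (C ∪ g • C)ᶜ.ncard < m := by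
  let F : Set (Set Ω) := {J | IsJ G J ∧ 2 ≤ J.ncard ∧ m ≤ Jᶜ.ncard}
  obtain ⟨C, hC, hmax⟩ := Set.exists_max_image F Set.ncard (Set.toFinite F) ⟨Γ, hΓ, h2, hm⟩
  refine ⟨C, hC.1, hC.2.1, hC.2.2, ?_⟩
  intro g hg
  by_contra hcon
  push Not at hcon
  obtain ⟨h1, h2'⟩ := hcon
  have hU : C ∪ g • C ∈ F := ⟨isJ_union hC.1 (isJ_smul hC.1 g) hg,
    le_trans hC.2.1 (Set.ncard_le_ncard Set.subset_union_left (Set.toFinite _)), h2'⟩
  have hle := hmax _ hU
  have heq : C = C ∪ g • C := Set.eq_of_subset_of_ncard_le Set.subset_union_left hle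
  have hsub : g • C ⊆ C := by
    intro t ht
    have h3 : t ∈ C ∪ g • C := Or.inr ht
    rwa [← heq] at h3
  exact h1 (Set.eq_of_subset_of_ncard_le hsub (by rw [ncard_smul]))

theorem card_compl (s : Set Ω) : s.ncard + sᶜ.ncard = Nat.card Ω :=
  Set.ncard_add_ncard_compl s

/-- The line argument. -/
theorem steiner (T2 : ∀ a b c d : Ω, a ≠ b → c ≠ d → ∃ g : G, g • a = c ∧ g • b = d)
    (X : Set Ω) (hX3 : 3 ≤ X.ncard) (hXu : X ≠ Set.univ)
    (hX : ∀ g : G, g • X = X ∨ (g • X ∩ X).ncard ≤ 1)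
    (Γ : Set Ω) (hΓ : IsJ G Γ) (h2 : 2 ≤ Γ.ncard) (hk : 2 * Γ.ncard ≤ Nat.card Ω) : False := by
  let IsL : Set Ω → Prop := fun L => ∃ g : G, L = g • X
  have hex : ∀ y z : Ω, y ≠ z → ∃ L, IsL L ∧ y ∈ L ∧ z ∈ L := by
    intro y z hyz
    obtain ⟨p, hp, q, hq, hpq⟩ := (Set.one_lt_ncard (Set.toFinite X)).1 (by omega : 1 < X.ncard)
    obtain ⟨g, hg1, hg2⟩ := T2 p q y z hpq hyz
    refine ⟨g • X, ⟨g, rfl⟩, ?_, ?_⟩
    · rw [← hg1]
      exact Set.smul_mem_smul_set hp
    · rw [← hg2]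
      exact Set.smul_mem_smul_set hq
  have huniq : ∀ L L', IsL L → IsL L' → ∀ y z, y ≠ z → y ∈ L → z ∈ L → y ∈ L' → z ∈ L' → L = L' := by
    rintro _ _ ⟨a, rfl⟩ ⟨b, rfl⟩ y z hyz hy hz hy' hz'
    rcases hX (a⁻¹ * b) with h | h
    · rw [mul_smul, inv_smul_eq_iff] at h
      exact h.symm
    · exfalso
      have hm : ∀ t, t ∈ a • X → t ∈ b • X → a⁻¹ • t ∈ (a⁻¹ * b) • X ∩ X := by
        intro t ht ht'
        refine ⟨?_, Set.mem_smul_set_iff_inv_smul_mem.1 ht⟩
        rw [mul_smul]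
        exact Set.smul_mem_smul_set ht'
      have h1 : 1 < ((a⁻¹ * b) • X ∩ X).ncard := by
        apply (Set.one_lt_ncard (Set.toFinite _)).2
        refine ⟨a⁻¹ • y, hm y hy hy', a⁻¹ • z, hm z hz hz', ?_⟩
        intro he
        exact hyz (MulAction.injective _ he)
      omega
  have hthird : ∀ L, IsL L → ∀ y z, y ∈ L → z ∈ L → ∃ w ∈ L, w ≠ y ∧ w ≠ z := by
    rintro _ ⟨g, rfl⟩ y z hy hz
    by_contra hcon
    push Not at hcon
    have hsub : g • X ⊆ {y, z} := by
      intro w hw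
      by_cases hwy : w = y
      · exact Or.inl hwy
      · exact Or.inr (hcon w hw hwy)
    have h1 := Set.ncard_le_ncard hsub (Set.toFinite _)
    rw [ncard_smul] at h1
    have h3 := Set.ncard_insert_le y ({z} : Set Ω)
    rw [Set.ncard_singleton] at h3
    omega
  have hinv : ∀ L, IsL L → ∀ y z, y ≠ z → y ∉ Γ → z ∉ Γ → y ∈ L → z ∈ L → ∀ x ∈ Γ, x ∈ L → Γ ⊆ L := by
    intro L hL y z hyz hy hz hyL hzL x hxΓ hxL x' hx'
    obtain ⟨h, hfix, hx⟩ := hΓ x hxΓ x' hx'
    have hL' : IsL (h • L) := by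
      obtain ⟨g, rfl⟩ := hL
      exact ⟨h * g, by rw [mul_smul]⟩
    have hyL' : y ∈ h • L := by
      have := Set.smul_mem_smul_set (a := h) hyL
      rwa [hfix y hy] at this
    have hzL' : z ∈ h • L := by
      have := Set.smul_mem_smul_set (a := h) hzL
      rwa [hfix z hz] at this
    have hE : h • L = L := huniq _ _ hL' hL y z hyz hyL' hzL' hyL hzL
    rw [← hE, ← hx]
    exact Set.smul_mem_smul_set hxL
  have hLu : ∀ L, IsL L → ∃ t, t ∉ L := by
    rintro _ ⟨g, rfl⟩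
    by_contra hcon
    push Not at hcon
    apply hXu
    ext t
    simp only [Set.mem_univ, iff_true]
    have := hcon (g • t)
    exact (Set.smul_mem_smul_set_iff).1 this
  by_cases hcase : ∃ L, IsL L ∧ ∃ y z, y ≠ z ∧ y ∉ Γ ∧ z ∉ Γ ∧ y ∈ L ∧ z ∈ L ∧ ∃ x ∈ Γ, x ∈ L
  · obtain ⟨L, hL, y, z, hyz, hy, hz, hyL, hzL, x, hxΓ, hxL⟩ := hcase
    have hsub := hinv L hL y z hyz hy hz hyL hzL x hxΓ hxL
    obtain ⟨t, ht⟩ := hLu L hL
    have htx : x ≠ t := fun h => ht (h ▸ hxL)
    obtain ⟨L', hL', hxL', htL'⟩ := hex x t htx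
    obtain ⟨w, hwL', hwx, hwt⟩ := hthird L' hL' x t hxL' htL'
    have hwL : w ∉ L := by
      intro hw
      have hE := huniq L L' hL hL' w x hwx hw hxL hwL' hxL'
      exact ht (hE ▸ htL')
    have hsub' := hinv L' hL' t w (Ne.symm hwt) (fun h => ht (hsub h)) (fun h => hwL (hsub h)) htL' hwL'
      x hxΓ hxL'
    obtain ⟨x2, hx2, hne⟩ := Set.exists_ne_of_one_lt_ncard (by omega : 1 < Γ.ncard) x
    have hE := huniq L L' hL hL' x x2 (Ne.symm hne) hxL (hsub hx2) hxL' (hsub' hx2)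
    exact ht (hE ▸ htL')
  · obtain ⟨x, hx⟩ : Γ.Nonempty := by
      apply Set.nonempty_of_ncard_ne_zero
      omega
    have hU : ∀ y, y ∉ Γ → ∃ w, w ∈ Γ ∧ w ≠ x ∧ ∃ L, IsL L ∧ x ∈ L ∧ y ∈ L ∧ w ∈ L := by
      intro y hy
      have hxy : x ≠ y := fun h => hy (h ▸ hx)
      obtain ⟨L, hL, hxL, hyL⟩ := hex x y hxy
      obtain ⟨w, hwL, hwx, hwy⟩ := hthird L hL x y hxL hyL
      have hwΓ : w ∈ Γ := by
        by_contra hw
        exact hcase ⟨L, hL, y, w, Ne.symm hwy, hy, hw, hyL, hwL, x, hx, hxL⟩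
      exact ⟨w, hwΓ, hwx, L, hL, hxL, hyL, hwL⟩
    choose! f hf1 hf2 hf3 using hU
    have hinj : Set.InjOn f Γᶜ := by
      intro y hy y' hy' he
      by_contra hne
      obtain ⟨L, hL, hxL, hyL, hwL⟩ := hf3 y hy
      obtain ⟨L', hL', hxL', hyL', hwL'⟩ := hf3 y' hy'
      rw [← he] at hwL'
      have hE := huniq L L' hL hL' x (f y) (Ne.symm (hf2 y hy)) hxL hwL hxL' hwL'
      exact hcase ⟨L, hL, y, y', hne, hy, hy', hyL, hE ▸ hyL', x, hx, hxL⟩
    have hle : Γᶜ.ncard ≤ (Γ \ {x}).ncard :=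
      Set.ncard_le_ncard_of_injOn f (fun y hy => ⟨hf1 y hy, hf2 y hy⟩) hinj (Set.toFinite _)
    rw [Set.ncard_sdiff_singleton_of_mem hx] at hle
    have := card_compl Γ
    omega

theorem two_pre (hprim : IsPreprimitive G Ω) {Γ : Set Ω} (hΓ : IsJ G Γ) (h2 : 2 ≤ Γ.ncard)
    (hc : 1 ≤ Γᶜ.ncard) : ∀ a b c d : Ω, a ≠ b → c ≠ d → ∃ g : G, g • a = c ∧ g • b = d := by
  obtain ⟨C, hC, hC2, hC1, hfact⟩ := exists_max (G := G) 1 Γ hΓ h2 hc
  by_cases h1 : Cᶜ.ncard = 1
  · obtain ⟨a₀, ha₀⟩ := Set.ncard_eq_one.1 h1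
    have hmem : ∀ z, z ∉ C ↔ z = a₀ := by
      intro z
      have : z ∈ Cᶜ ↔ z = a₀ := by rw [ha₀]; rfl
      exact this
    intro a b c d hab hcd
    obtain ⟨g₁, hg₁⟩ := MulAction.exists_smul_eq G a a₀
    obtain ⟨g₂, hg₂⟩ := MulAction.exists_smul_eq G c a₀
    have hb : g₁ • b ∈ C := by
      by_contra hb
      have h := (hmem _).1 hb
      rw [← hg₁] at h
      exact hab (MulAction.injective _ h).symm
    have hd : g₂ • d ∈ C := by
      by_contra hb
      have h := (hmem _).1 hb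
      rw [← hg₂] at h
      exact hcd (MulAction.injective _ h).symm
    obtain ⟨h, hfix, hh⟩ := hC _ hb _ hd
    refine ⟨g₂⁻¹ * h * g₁, ?_, ?_⟩
    · rw [mul_smul, mul_smul, hg₁, hfix a₀ ((hmem _).2 rfl), inv_smul_eq_iff, hg₂]
    · rw [mul_smul, mul_smul, hh, inv_smul_smul]
  · exfalso
    have hC1' : 2 ≤ Cᶜ.ncard := by omega
    by_cases hlarge : Nat.card Ω < 2 * C.ncard
    · have hblock : IsBlock G Cᶜ := by
        rw [isBlock_iff_smul_eq_or_disjoint]
        intro g
        have hne : (C ∩ g • C).Nonempty := by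
          by_contra hcon
          have hem := Set.not_nonempty_iff_eq_empty.1 hcon
          have h3 := Set.ncard_union_add_ncard_inter C (g • C)
          rw [hem, ncard_smul, Set.ncard_empty] at h3
          have h4 := card_compl (C ∪ g • C)
          omega
        rcases hfact g hne with h | h
        · left
          rw [Set.smul_set_compl, h]
        · right
          rw [Set.smul_set_compl, Set.disjoint_iff_inter_eq_empty, ← Set.compl_union, Set.union_comm]
          have : (C ∪ g • C)ᶜ.ncard = 0 := by omega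
          exact (Set.ncard_eq_zero (Set.toFinite _)).1 this
      rcases hprim.isTrivialBlock_of_isBlock hblock with h | h
      · have := Set.ncard_le_one_iff_subsingleton.2 h
        omega
      · have h0 : C = ∅ := Set.compl_univ_iff.1 h
        rw [h0, Set.ncard_empty] at hC2
        omega
    · have hnb : ¬ IsBlock G C := by
        intro hblock
        rcases hprim.isTrivialBlock_of_isBlock hblock with h | h
        · have := Set.ncard_le_one_iff_subsingleton.2 h
          omega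
        · rw [h, Set.compl_univ, Set.ncard_empty] at hC1
          omega
      rw [isBlock_iff_smul_eq_or_disjoint] at hnb
      push Not at hnb
      obtain ⟨g, hg1, hg2⟩ := hnb
      have hne : (C ∩ g • C).Nonempty := by
        rw [Set.inter_comm]
        exact Set.not_disjoint_iff_nonempty_inter.1 hg2
      rcases hfact g hne with h | h
      · exact hg1 h
      · have h3 := Set.ncard_union_add_ncard_inter C (g • C)
        rw [ncard_smul] at h3
        have h4 := card_compl (C ∪ g • C)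
        have h5 : 0 < (C ∩ g • C).ncard := (Set.ncard_pos (Set.toFinite _)).2 hne
        omega

theorem main_aux (hprim : IsPreprimitive G Ω) (Γ : Set Ω) (h1 : 1 < Γ.ncard)
    (h2 : 2 * Γ.ncard ≤ Nat.card Ω) (htr : IsJ G Γ) :
    ∃ a₀ b₀ : Ω, a₀ ≠ b₀ ∧ IsJ G ({a₀, b₀} : Set Ω)ᶜ := by
  have hc := card_compl Γ
  have T2 := two_pre hprim htr (by omega) (by omega : 1 ≤ Γᶜ.ncard)
  obtain ⟨C, hC, hC2, hC1, hfact⟩ := exists_max (G := G) 2 Γ htr (by omega) (by omega)
  by_cases h3 : Cᶜ.ncard = 2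
  · obtain ⟨a₀, b₀, hne, hab⟩ := Set.ncard_eq_two.1 h3
    refine ⟨a₀, b₀, hne, ?_⟩
    rw [← hab, compl_compl]
    exact hC
  · exfalso
    have h3' : 3 ≤ Cᶜ.ncard := by omega
    have hcC := card_compl C
    by_cases hlarge : Nat.card Ω < 2 * C.ncard
    · refine steiner T2 Cᶜ h3' ?_ ?_ Γ htr (by omega) h2
      · intro h
        have h0 : C = ∅ := Set.compl_univ_iff.1 h
        rw [h0, Set.ncard_empty] at hC2
        omega
      · intro g
        have hne : (C ∩ g • C).Nonempty := by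
          by_contra hcon
          have hem := Set.not_nonempty_iff_eq_empty.1 hcon
          have h3 := Set.ncard_union_add_ncard_inter C (g • C)
          rw [hem, ncard_smul, Set.ncard_empty] at h3
          have h4 := card_compl (C ∪ g • C)
          omega
        rcases hfact g hne with h | h
        · left
          rw [Set.smul_set_compl, h]
        · right
          rw [Set.smul_set_compl, ← Set.compl_union, Set.union_comm]
          omega
    · have hnb : ¬ IsBlock G C := by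
        intro hblock
        rcases hprim.isTrivialBlock_of_isBlock hblock with h | h
        · have := Set.ncard_le_one_iff_subsingleton.2 h
          omega
        · rw [h, Set.compl_univ, Set.ncard_empty] at hC1
          omega
      rw [isBlock_iff_smul_eq_or_disjoint] at hnb
      push Not at hnb
      obtain ⟨g, hg1, hg2⟩ := hnb
      have hne : (C ∩ g • C).Nonempty := by
        rw [Set.inter_comm]
        exact Set.not_disjoint_iff_nonempty_inter.1 hg2
      have hbig : Nat.card Ω ≤ 2 * C.ncard := by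
        rcases hfact g hne with h | h
        · exact absurd h hg1
        · have h3 := Set.ncard_union_add_ncard_inter C (g • C)
          rw [ncard_smul] at h3
          have h4 := card_compl (C ∪ g • C)
          have h5 : 0 < (C ∩ g • C).ncard := (Set.ncard_pos (Set.toFinite _)).2 hne
          omega
      refine steiner T2 C (by omega) ?_ ?_ C hC hC2 (by omega)
      · intro h
        rw [h, Set.compl_univ, Set.ncard_empty] at hC1
        omega
      · intro g'
        by_cases hm : (C ∩ g' • C).Nonempty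
        · rcases hfact g' hm with h | h
          · exact Or.inl h
          · right
            have h3 := Set.ncard_union_add_ncard_inter C (g' • C)
            rw [ncard_smul] at h3
            have h4 := card_compl (C ∪ g' • C)
            rw [Set.inter_comm]
            omega
        · right
          have hem := Set.not_nonempty_iff_eq_empty.1 hm
          rw [Set.inter_comm, hem, Set.ncard_empty]
          omega

theorem main {G Ω : Type*} [Group G] [Finite G] [MulAction G Ω] [FaithfulSMul G Ω] [Finite Ω]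
    (hprim : MulAction.IsPreprimitive G Ω) (Γ : Set Ω) (h1 : 1 < Γ.ncard)
    (h2 : 2 * Γ.ncard ≤ Nat.card Ω)
    (htr : ∀ x ∈ Γ, ∀ y ∈ Γ, ∃ g : G, (∀ z ∉ Γ, g • z = z) ∧ g • x = y) :
    MulAction.IsMultiplyPretransitive G Ω 3 := by
  have hc := card_compl Γ
  have T2 := two_pre hprim (G := G) htr (by omega) (by omega : 1 ≤ Γᶜ.ncard)
  obtain ⟨a₀, b₀, hne, hJ⟩ := main_aux hprim Γ h1 h2 htr
  refine ⟨fun x y => ?_⟩
  have hx01 : x 0 ≠ x 1 := fun h => by simpa using x.injective h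
  have hx02 : x 0 ≠ x 2 := fun h => by simpa using x.injective h
  have hx12 : x 1 ≠ x 2 := fun h => by simpa using x.injective h
  have hy01 : y 0 ≠ y 1 := fun h => by simpa using y.injective h
  have hy02 : y 0 ≠ y 2 := fun h => by simpa using y.injective h
  have hy12 : y 1 ≠ y 2 := fun h => by simpa using y.injective h
  obtain ⟨g₁, h11, h12⟩ := T2 (x 0) (x 1) a₀ b₀ hx01 hne
  obtain ⟨g₂, h21, h22⟩ := T2 (y 0) (y 1) a₀ b₀ hy01 hne
  have hmem₁ : g₁ • x 2 ∈ ({a₀, b₀} : Set Ω)ᶜ := by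
    rintro (h | h)
    · rw [← h11] at h
      exact hx02 (MulAction.injective _ h).symm
    · rw [← h12] at h
      exact hx12 (MulAction.injective _ h).symm
  have hmem₂ : g₂ • y 2 ∈ ({a₀, b₀} : Set Ω)ᶜ := by
    rintro (h | h)
    · rw [← h21] at h
      exact hy02 (MulAction.injective _ h).symm
    · rw [← h22] at h
      exact hy12 (MulAction.injective _ h).symm
  obtain ⟨h, hfix, hh⟩ := hJ _ hmem₁ _ hmem₂
  have ha : h • a₀ = a₀ := hfix a₀ (by simp)
  have hb : h • b₀ = b₀ := hfix b₀ (by simp)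
  refine ⟨g₂⁻¹ * h * g₁, ?_⟩
  ext i
  show (g₂⁻¹ * h * g₁) • x i = y i
  fin_cases i
  · show (g₂⁻¹ * h * g₁) • x 0 = y 0
    rw [mul_smul, mul_smul, h11, ha, inv_smul_eq_iff, h21]
  · show (g₂⁻¹ * h * g₁) • x 1 = y 1
    rw [mul_smul, mul_smul, h12, hb, inv_smul_eq_iff, h22]
  · show (g₂⁻¹ * h * g₁) • x 2 = y 2
    rw [mul_smul, mul_smul, hh, inv_smul_smul]

end CfsgLib.H9.Marg
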