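import Mathlib.Tactic
import Mathlib.Algebra.Group.MinimalAxioms
import Cfsg.Prelude.Def_Perm
import Cfsg.Agent.Lib.H9.Sharp2

/-! The near-field structure attached to a sharply doubly transitive action. -/

namespace CfsgLib.H9.Sharp2

open MulAction

variable {T X : Type*} [Group T] [MulAction T X]

/-- The near-field of a sharply doubly transitive action. -/
theorem exists_nearField (h : IsSharp2 T X) [Finite X] [Nontrivial X] :
    ∃ _ : Cfsg.NearField X, (∀ g : T, ∃ a b : X, a ≠ 0 ∧ ∀ x : X, g • x = x * a + b) ∧
      (∀ a b : X, a ≠ 0 → ∃ g : T, ∀ x : X, g • x = x * a + b) := by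
  classical
  obtain ⟨o, e, hoe⟩ := exists_pair_ne X
  -- translations
  have htex : ∀ y : X, ∃ u : T, u ∈ kernel h ∧ u • o = y := fun y =>
    (kernel_regular h o y).exists
  choose t ht1 ht2 using htex
  have htu : ∀ (y : X) (u : T), u ∈ kernel h → u • o = y → u = t y := by
    intro y u hu huy
    exact (kernel_regular h o y).unique ⟨hu, huy⟩ ⟨ht1 y, ht2 y⟩
  -- multiplications
  have hmex : ∀ a : X, a ≠ o → ∃ u : T, u • o = o ∧ u • e = a := fun a ha =>
    h.trans hoe (Ne.symm ha)
  let m : X → T := fun a => if ha : a ≠ o then Classical.choose (hmex a ha) else 1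
  have hm1 : ∀ a : X, m a • o = o := by
    intro a
    by_cases ha : a ≠ o
    · simp only [m, dif_pos ha]
      exact (Classical.choose_spec (hmex a ha)).1
    · have h1 : m a = 1 := dif_neg ha
      rw [h1, one_smul]
  have hm2 : ∀ a : X, a ≠ o → m a • e = a := by
    intro a ha
    simp only [m, dif_pos ha]
    exact (Classical.choose_spec (hmex a ha)).2
  have hmu : ∀ (a : X) (u : T), a ≠ o → u • o = o → u • e = a → u = m a := by
    intro a u ha h1 h2
    exact h.eq_of_two hoe (h1.trans (hm1 a).symm) (h2.trans (hm2 a ha).symm)
  let add' : X → X → X := fun x y => t y • x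
  let mul' : X → X → X := fun x a => if a = o then o else m a • x
  have ht0 : t o = 1 := (htu o 1 (Subgroup.one_mem _) (one_smul _ _)).symm
  have hme : m e = 1 := (hmu e 1 (Ne.symm hoe) (one_smul _ _) (one_smul _ _)).symm
  have hadd : ∀ y z, t (t z • y) = t z * t y := by
    intro y z
    symm
    apply htu
    · exact (kernel h).mul_mem (ht1 z) (ht1 y)
    · rw [mul_smul, ht2]
  have hne : ∀ (u : T) (x : X), x ≠ o → u • o = o → u • x ≠ o := by
    intro u x hx huo hc
    exact hx (MulAction.injective u (hc.trans huo.symm))
  have hmm : ∀ a b, a ≠ o → b ≠ o → m (m b • a) = m b * m a := by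
    intro a b ha hb
    symm
    apply hmu
    · exact hne _ _ ha (hm1 b)
    · rw [mul_smul, hm1, hm1]
    · rw [mul_smul, hm2 a ha]
  letI iadd : Add X := ⟨add'⟩
  letI izero : Zero X := ⟨o⟩
  letI ineg : Neg X := ⟨fun x => (t x)⁻¹ • o⟩
  have hadd_assoc : ∀ x y z : X, x + y + z = x + (y + z) := by
    intro x y z
    change t z • t y • x = t (t z • y) • x
    rw [hadd, mul_smul]
  have hzero_add : ∀ x : X, 0 + x = x := by
    intro x
    exact ht2 x
  have hneg_add : ∀ x : X, -x + x = 0 := by
    intro x
    change t x • (t x)⁻¹ • o = o
    rw [smul_inv_smul]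
  let ag : AddGroup X := AddGroup.ofLeftAxioms hadd_assoc hzero_add hneg_add
  let mn : Monoid X :=
    { mul := mul'
      one := e
      mul_assoc := by
        intro x a b
        change mul' (mul' x a) b = mul' x (mul' a b)
        by_cases hb : b = o
        · simp [mul', hb]
        by_cases ha : a = o
        · simp [mul', ha, hb, hm1]
        have hmab : m b • a ≠ o := hne _ _ ha (hm1 b)
        simp only [mul', if_neg ha, if_neg hb, if_neg hmab]
        rw [hmm a b ha hb, mul_smul]
      one_mul := by
        intro a
        change mul' e a = a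
        by_cases ha : a = o
        · simp [mul', ha]
        · simp only [mul', if_neg ha]
          exact hm2 a ha
      mul_one := by
        intro a
        change mul' a e = a
        simp only [mul', if_neg (Ne.symm hoe), hme, one_smul] }
  let nf : Cfsg.NearField X :=
    { ag, mn with
      right_distrib := by
        intro x y c
        change mul' (t y • x) c = t (mul' y c) • mul' x c
        by_cases hc : c = o
        · simp only [mul', if_pos hc, ht0, one_smul]
        · simp only [mul', if_neg hc]
          have : t (m c • y) = m c * t y * (m c)⁻¹ := by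
            symm
            apply htu
            · exact (kernel_normal h).conj_mem _ (ht1 y) _
            · have : (m c)⁻¹ • o = o := by rw [inv_smul_eq_iff, hm1]
              rw [mul_smul, mul_smul, this, ht2]
          rw [this, mul_smul, mul_smul, inv_smul_smul]
      mul_zero := by
        intro a
        change mul' a o = o
        simp [mul']
      zero_ne_one := hoe
      exists_inv := by
        intro a ha
        have ha' : a ≠ o := ha
        refine ⟨(m a)⁻¹ • e, ?_, ?_⟩
        · have hb : (m a)⁻¹ • e ≠ o := by
            apply hne _ _ (Ne.symm hoe)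
            rw [inv_smul_eq_iff, hm1]
          change mul' a ((m a)⁻¹ • e) = e
          simp only [mul', if_neg hb]
          have : m ((m a)⁻¹ • e) = (m a)⁻¹ := by
            symm
            apply hmu _ _ hb
            · rw [inv_smul_eq_iff, hm1]
            · rfl
          rw [this, inv_smul_eq_iff, hm2 a ha']
        · change mul' ((m a)⁻¹ • e) a = e
          simp only [mul', if_neg ha']
          rw [smul_inv_smul] }
  refine ⟨nf, ?_, ?_⟩
  · intro g
    set b := g • o with hb
    have hu : (t b)⁻¹ * g ∈ stabilizer T o := by
      rw [mem_stabilizer_iff, mul_smul, inv_smul_eq_iff, ht2]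
    set a := ((t b)⁻¹ * g) • e with ha
    have ha' : a ≠ o := hne _ _ (Ne.symm hoe) hu
    refine ⟨a, b, ha', fun x => ?_⟩
    have hma : (t b)⁻¹ * g = m a := hmu a _ ha' hu rfl
    change g • x = t b • (mul' x a)
    simp only [mul', if_neg ha']
    rw [← hma, ← mul_smul, mul_inv_cancel_left]
  · intro a b ha
    have ha' : a ≠ o := ha
    refine ⟨t b * m a, fun x => ?_⟩
    change _ = t b • (mul' x a)
    simp only [mul', if_neg ha']
    rw [mul_smul]

end CfsgLib.H9.Sharp2
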