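import Mathlib
import Cfsg.Agent.Lib.SS.FPF
import Cfsg.Agent.Lib.H9.Zass

/-! Linear groups regular on the non-zero vectors: the maximal normal abelian subgroup. -/

set_option autoImplicit false
set_option linter.unusedVariables false
set_option linter.unusedSectionVars false
set_option linter.unusedSimpArgs false
set_option linter.style.haveILetI false

namespace CfsgLib.H9.NearLin

open Module

variable {p : ℕ} [hp : Fact p.Prime] {V : Type*} [AddCommGroup V] [Module (ZMod p) V] [Finite V]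

theorem finite_equiv : Finite (V ≃ₗ[ZMod p] V) :=
  Finite.of_injective (fun e : V ≃ₗ[ZMod p] V => (e : V → V)) (fun _ _ h => LinearEquiv.ext (congrFun h))

variable (H : Subgroup (V ≃ₗ[ZMod p] V))
  (hreg : ∀ v w : V, v ≠ 0 → w ≠ 0 → ∃! h : H, (h : V ≃ₗ[ZMod p] V) v = w)

include hreg in
theorem free_of_reg (h : H) (v : V) (hv : v ≠ 0) (hh : (h : V ≃ₗ[ZMod p] V) v = v) : h = 1 :=
  (hreg v v hv hv).unique hh rfl

/-- The action on `Multiplicative V`. -/
def cAct (A : Subgroup H) : A →* MulAut (Multiplicative V) where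
  toFun a := AddEquiv.toMultiplicative (((a : H) : V ≃ₗ[ZMod p] V).toAddEquiv)
  map_one' := by
    ext x
    rfl
  map_mul' a b := by
    ext x
    rfl

include hreg in
theorem isCyclic_A [Nontrivial V] (A : Subgroup H) (hAc : IsMulCommutative A) : IsCyclic A := by
  haveI : Finite (V ≃ₗ[ZMod p] V) := finite_equiv
  haveI : Nontrivial (Multiplicative V) := inferInstanceAs (Nontrivial V)
  apply CfsgLib.SS.isCyclic_of_fpf_comm (cAct H A)
  · intro a b
    exact hAc.is_comm.comm a b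
  · intro a ha v hv
    by_contra hne
    apply ha
    apply Subtype.ext
    have hv0 : Multiplicative.toAdd v ≠ 0 := hne
    exact free_of_reg H hreg (a : H) (Multiplicative.toAdd v) hv0 (congrArg Multiplicative.toAdd hv)

include hreg in
/-- Main statement S0684. -/
theorem main_0684 (hI : ∀ A : Subgroup H, A.Normal → IsCyclic A → ∃ W : Submodule (ZMod p) V, W ≠ ⊥ ∧ W ≠ ⊤ ∧
      ∀ a ∈ A, ∀ v ∈ W, ((a : H) : V ≃ₗ[ZMod p] V) v ∈ W) (A : Subgroup H) (hAn : A.Normal)
    (hAc : IsMulCommutative A) :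
    IsCyclic A ∧ ∃ W : Submodule (ZMod p) V, W ≠ ⊥ ∧ W ≠ ⊤ ∧ (∀ a ∈ A, ∀ v ∈ W, ((a : H) : V ≃ₗ[ZMod p] V) v ∈ W) ∧
      (∀ W' : Submodule (ZMod p) V, W' ≤ W → (∀ a ∈ A, ∀ v ∈ W', ((a : H) : V ≃ₗ[ZMod p] V) v ∈ W') → W' = ⊥ ∨ W' = W) ∧
      Nat.card A ∣ p ^ Module.finrank (ZMod p) W - 1 := by
  classical
  haveI : Finite (V ≃ₗ[ZMod p] V) := finite_equiv
  haveI : Nontrivial V := by
    obtain ⟨W, h1, -, -⟩ := hI ⊥ inferInstance inferInstance
    obtain ⟨v, -, hv⟩ := W.ne_bot_iff.1 h1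
    exact ⟨⟨v, 0, hv⟩⟩
  have hcyc := isCyclic_A H hreg A hAc
  refine ⟨hcyc, ?_⟩
  obtain ⟨W₀, h1, h2, h3⟩ := hI A hAn hcyc
  let S : Set (Submodule (ZMod p) V) := {W | W ≠ ⊥ ∧ W ≤ W₀ ∧ ∀ a ∈ A, ∀ v ∈ W, ((a : H) : V ≃ₗ[ZMod p] V) v ∈ W}
  have hSf : S.Finite := Set.toFinite S
  obtain ⟨W, hW⟩ := hSf.exists_minimal ⟨W₀, h1, le_refl _, h3⟩
  obtain ⟨⟨hW1, hW2, hW3⟩, hmin⟩ := hW
  refine ⟨W, hW1, ?_, hW3, ?_, ?_⟩
  · rintro rfl
    exact h2 (top_le_iff.1 hW2)
  · intro W' hle hinv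
    by_cases hb : W' = ⊥
    · exact Or.inl hb
    · right
      exact le_antisymm hle (hmin ⟨hb, hle.trans hW2, hinv⟩ hle)
  · -- free action on the non-zero vectors of `W`
    let X : Set V := (W : Set V) \ {0}
    have hdvd : Nat.card A ∣ Nat.card X := by
      apply CfsgLib.H9.Zass.dvd_card_of_free X
      · rintro a v ⟨hv1, hv2⟩
        refine ⟨hW3 a a.2 v hv1, ?_⟩
        intro h0
        apply hv2
        have h4 : ((a : H) : V ≃ₗ[ZMod p] V) v = 0 := h0
        exact ((a : H) : V ≃ₗ[ZMod p] V).map_eq_zero_iff.1 h4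
      · rintro a v ⟨hv1, hv2⟩ hfix
        apply Subtype.ext
        exact free_of_reg H hreg (a : H) v hv2 hfix
    have hcard : Nat.card X = p ^ finrank (ZMod p) W - 1 := by
      have h4 : Nat.card W = p ^ finrank (ZMod p) W := by
        have := Module.natCard_eq_pow_finrank (K := ZMod p) (V := W)
        rwa [Nat.card_zmod] at this
      rw [← h4, Nat.card_coe_set_eq]
      change ((W : Set V) \ {0}).ncard = _
      rw [Set.ncard_sdiff_singleton_of_mem (W.zero_mem), ← Nat.card_coe_set_eq]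
      rfl
    rwa [hcard] at hdvd

end CfsgLib.H9.NearLin
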