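import Mathlib
import Cfsg.Agent.Lib.H9.NearLin
import Cfsg.Agent.Lib.H9.KerDim
import Cfsg.Agent.Lib.H9.Semis
import Cfsg.Agent.Lib.H9.SimpleTools

/-! Linear groups regular on the non-zero vectors: the centraliser of a maximal normal abelian subgroup. -/

set_option autoImplicit false
set_option linter.unusedVariables false
set_option linter.unusedSectionVars false
set_option linter.unusedSimpArgs false
set_option linter.style.haveILetI false

namespace CfsgLib.H9.NearLin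

open Module Polynomial
open CfsgLib.H9.KerDim (aeval_comm_apply aeval_mul_apply exists_ann deg_le_finrank_ker KK)

section Poly

variable {F V : Type*} [Field F] [AddCommGroup V] [Module F V]

/-- Polynomials and intertwiners. -/
theorem aeval_intertwine {T T' G : Module.End F V} (h : T' * G = G * T) (e : F[X]) (w : V) :
    aeval T' e (G w) = G (aeval T e w) := by
  have hpow : ∀ k : ℕ, T' ^ k * G = G * T ^ k := by
    intro k
    induction k with
    | zero => simp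
    | succ k ih =>
      rw [pow_succ, mul_assoc, h, ← mul_assoc, ih, mul_assoc, ← pow_succ]
  induction e using Polynomial.induction_on' with
  | add p q hp hq =>
    simp only [map_add, LinearMap.add_apply, hp, hq]
  | monomial k c =>
    simp only [aeval_monomial, Module.End.mul_apply]
    have h1 := LinearMap.congr_fun (hpow k) w
    simp only [Module.End.mul_apply] at h1
    rw [h1]
    simp [Module.algebraMap_end_apply]

/-- Two distinct monic irreducibles cannot annihilate a non-zero vector. -/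
theorem eq_of_two_ann (T : Module.End F V) {e g : F[X]} (he : Irreducible e) (hg : Irreducible g) (hem : e.Monic)
    (hgm : g.Monic) {y : V} (hy : y ≠ 0) (h1 : aeval T e y = 0) (h2 : aeval T g y = 0) : e = g := by
  by_contra hne
  have hnd : ¬ e ∣ g := by
    intro hd
    exact hne (eq_of_monic_of_associated hem hgm ((he.dvd_irreducible_iff_associated hg).1 hd))
  obtain ⟨s, t, hst⟩ := (he.coprime_iff_not_dvd).2 hnd
  apply hy
  have h3 := congrArg (fun q => aeval T q y) hst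
  simp only [map_add, map_mul, map_one, LinearMap.add_apply, Module.End.mul_apply, h1, h2, map_zero, add_zero,
    Module.End.one_apply] at h3
  exact h3.symm

end Poly

variable {p : ℕ} [hp : Fact p.Prime] {V : Type*} [AddCommGroup V] [Module (ZMod p) V] [Finite V]

/-- As an endomorphism. -/
def en (e : V ≃ₗ[ZMod p] V) : Module.End (ZMod p) V := (e : V →ₗ[ZMod p] V)

@[simp] theorem en_apply (e : V ≃ₗ[ZMod p] V) (v : V) : en e v = e v := rfl

theorem en_mul (e e' : V ≃ₗ[ZMod p] V) : en (e * e') = en e * en e' := rfl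

variable (H : Subgroup (V ≃ₗ[ZMod p] V))
  (hreg : ∀ v w : V, v ≠ 0 → w ≠ 0 → ∃! h : H, (h : V ≃ₗ[ZMod p] V) v = w)

section Min

variable {H} (A : Subgroup H) (hAn : A.Normal) (hAc : IsMulCommutative A)
  {W : Submodule (ZMod p) V} (hW0 : W ≠ ⊥) (hWinv : ∀ a ∈ A, ∀ v ∈ W, ((a : H) : V ≃ₗ[ZMod p] V) v ∈ W)
  (hWmin : ∀ W' : Submodule (ZMod p) V, W' ≤ W → (∀ a ∈ A, ∀ v ∈ W', ((a : H) : V ≃ₗ[ZMod p] V) v ∈ W') → W' = ⊥ ∨ W' = W)

theorem comm_A (hAc : IsMulCommutative A) (b c : A) :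
    Commute (en ((b : H) : V ≃ₗ[ZMod p] V)) (en ((c : H) : V ≃ₗ[ZMod p] V)) := by
  have h1 : b * c = c * b := hAc.is_comm.comm b c
  have h2 : ((b * c : A) : H) = ((c * b : A) : H) := congrArg _ h1
  have h3 : (((b * c : A) : H) : V ≃ₗ[ZMod p] V) = (((c * b : A) : H) : V ≃ₗ[ZMod p] V) := congrArg _ h2
  show en _ * en _ = en _ * en _
  rw [← en_mul, ← en_mul]
  exact congrArg en h3

theorem aeval_mem {b : A} (hWinv : ∀ a ∈ A, ∀ v ∈ W, ((a : H) : V ≃ₗ[ZMod p] V) v ∈ W) (q : (ZMod p)[X]) {w : V}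
    (hw : w ∈ W) : aeval (en ((b : H) : V ≃ₗ[ZMod p] V)) q w ∈ W := by
  induction q using Polynomial.induction_on' with
  | add p q hp hq =>
    simp only [map_add, LinearMap.add_apply]
    exact W.add_mem hp hq
  | monomial k c =>
    rw [aeval_monomial]
    simp only [Module.End.mul_apply]
    have h1 : (en ((b : H) : V ≃ₗ[ZMod p] V) ^ k) w ∈ W := by
      induction k with
      | zero => simpa using hw
      | succ k ih =>
        rw [pow_succ', Module.End.mul_apply]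
        exact hWinv b b.2 _ ih
    rw [Module.algebraMap_end_apply]
    exact W.smul_mem c h1

include hAc hW0 hWinv hWmin in
/-- Each element acts on a minimal invariant subspace with irreducible minimal polynomial. -/
theorem exists_irr (b : A) : ∃ e : (ZMod p)[X], Irreducible e ∧ e.Monic ∧
    ∀ w ∈ W, aeval (en ((b : H) : V ≃ₗ[ZMod p] V)) e w = 0 := by
  classical
  obtain ⟨w₀, hw₀, hw₀0⟩ := W.ne_bot_iff.1 hW0
  have hint : IsIntegral (ZMod p) (en ((b : H) : V ≃ₗ[ZMod p] V)) := Algebra.IsIntegral.isIntegral _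
  obtain ⟨f, q, hf, hfm, -, hq0, hq1⟩ := exists_ann (en ((b : H) : V ≃ₗ[ZMod p] V)) w₀ hw₀0 _ (minpoly (ZMod p) (en ((b : H) : V ≃ₗ[ZMod p] V))) le_rfl
    (minpoly.ne_zero hint) (by rw [minpoly.aeval]; rfl)
  refine ⟨f, hf, hfm, ?_⟩
  have hinv : ∀ a ∈ A, ∀ v ∈ W ⊓ LinearMap.ker (aeval (en ((b : H) : V ≃ₗ[ZMod p] V)) f), ((a : H) : V ≃ₗ[ZMod p] V) v ∈
      W ⊓ LinearMap.ker (aeval (en ((b : H) : V ≃ₗ[ZMod p] V)) f) := by
    rintro a ha v ⟨hv1, hv2⟩
    refine ⟨hWinv a ha v hv1, ?_⟩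
    have hv2' : aeval (en ((b : H) : V ≃ₗ[ZMod p] V)) f v = 0 := hv2
    show aeval (en ((b : H) : V ≃ₗ[ZMod p] V)) f _ = 0
    have h1 := aeval_comm_apply (comm_A A hAc b ⟨a, ha⟩) f v
    simp only [en_apply] at h1
    rw [h1, hv2', map_zero]
  rcases hWmin _ inf_le_left hinv with h | h
  · exfalso
    have hz : aeval (en ((b : H) : V ≃ₗ[ZMod p] V)) q w₀ ∈ W ⊓ LinearMap.ker (aeval (en ((b : H) : V ≃ₗ[ZMod p] V)) f) :=
      ⟨aeval_mem A hWinv q hw₀, hq1⟩
    rw [h] at hz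
    exact hq0 hz
  · intro w hw
    rw [← h] at hw
    exact hw.2

include hreg in
/-- Every non-zero vector is annihilated by an irreducible polynomial in `a`. -/
theorem ann_irr [Nontrivial V] (hAn : A.Normal) (hAc : IsMulCommutative A) (hW0 : W ≠ ⊥)
    (hWinv : ∀ a ∈ A, ∀ v ∈ W, ((a : H) : V ≃ₗ[ZMod p] V) v ∈ W)
    (hWmin : ∀ W' : Submodule (ZMod p) V, W' ≤ W → (∀ a ∈ A, ∀ v ∈ W', ((a : H) : V ≃ₗ[ZMod p] V) v ∈ W') → W' = ⊥ ∨ W' = W)
    (a : A) (x : V) (hx : x ≠ 0) :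
    ∃ e : (ZMod p)[X], Irreducible e ∧ e.Monic ∧ aeval (en ((a : H) : V ≃ₗ[ZMod p] V)) e x = 0 := by
  obtain ⟨w₀, hw₀, hw₀0⟩ := W.ne_bot_iff.1 hW0
  obtain ⟨h, hh, -⟩ := hreg w₀ x hw₀0 hx
  let b : A := ⟨h⁻¹ * a * h, by
    have := hAn.conj_mem (a : H) a.2 h⁻¹
    simpa using this⟩
  obtain ⟨e, he, hem, hek⟩ := exists_irr A hAc hW0 hWinv hWmin b
  refine ⟨e, he, hem, ?_⟩
  have h1 : en ((a : H) : V ≃ₗ[ZMod p] V) * en ((h : H) : V ≃ₗ[ZMod p] V) =
      en ((h : H) : V ≃ₗ[ZMod p] V) * en ((b : H) : V ≃ₗ[ZMod p] V) := by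
    rw [← en_mul, ← en_mul]
    congr 1
    have h2 : (a : H) * h = h * (b : H) := by
      simp [b, mul_assoc]
    exact congrArg (fun z : H => (z : V ≃ₗ[ZMod p] V)) h2
  have h3 := aeval_intertwine h1 e w₀
  simp only [en_apply] at h3
  rw [hh] at h3
  rw [h3, hek w₀ hw₀, map_zero]

include hreg in
/-- Homogeneity. -/
theorem homog [Nontrivial V] (hAn : A.Normal) (hAc : IsMulCommutative A) (hW0 : W ≠ ⊥)
    (hWinv : ∀ a ∈ A, ∀ v ∈ W, ((a : H) : V ≃ₗ[ZMod p] V) v ∈ W)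
    (hWmin : ∀ W' : Submodule (ZMod p) V, W' ≤ W → (∀ a ∈ A, ∀ v ∈ W', ((a : H) : V ≃ₗ[ZMod p] V) v ∈ W') → W' = ⊥ ∨ W' = W)
    (a : A) {f : (ZMod p)[X]} (hf : Irreducible f) (hfm : f.Monic)
    (hfW : ∀ w ∈ W, aeval (en ((a : H) : V ≃ₗ[ZMod p] V)) f w = 0) (x : V) :
    aeval (en ((a : H) : V ≃ₗ[ZMod p] V)) f x = 0 := by
  set T := en ((a : H) : V ≃ₗ[ZMod p] V) with hT
  by_cases hxW : x ∈ W
  · exact hfW x hxW
  by_contra hne
  have hx0 : x ≠ 0 := by
    rintro rfl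
    exact hxW W.zero_mem
  obtain ⟨w₀, hw₀, hw₀0⟩ := W.ne_bot_iff.1 hW0
  have hsum : x + w₀ ≠ 0 := by
    intro h0
    apply hxW
    rw [eq_neg_of_add_eq_zero_left h0]
    exact W.neg_mem hw₀
  obtain ⟨g, hg, hgm, hgx⟩ := ann_irr hreg A hAn hAc hW0 hWinv hWmin a x hx0
  obtain ⟨e, he, hem, hex⟩ := ann_irr hreg A hAn hAc hW0 hWinv hWmin a _ hsum
  -- `x' = f x` is killed by `g` and `e`
  have h1 : aeval T e (aeval T f x) = 0 := by
    have h2 : aeval T f (aeval T e (x + w₀)) = 0 := by rw [hex, map_zero]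
    rw [← aeval_mul_apply, mul_comm, aeval_mul_apply, map_add, hfW w₀ hw₀, add_zero] at h2
    exact h2
  have h3 : aeval T g (aeval T f x) = 0 := by
    rw [← aeval_mul_apply, mul_comm, aeval_mul_apply, hgx, map_zero]
  have heg : e = g := eq_of_two_ann T he hg hem hgm hne h1 h3
  have h4 : aeval T e w₀ = 0 := by
    rw [map_add] at hex
    rw [heg] at hex ⊢
    rw [hgx, zero_add] at hex
    exact hex
  have hef : e = f := eq_of_two_ann T he hf hem hfm hw₀0 h4 (hfW w₀ hw₀)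
  apply hne
  rw [← hef, heg]
  exact hgx

include hreg in
/-- Root bound. -/
theorem card_roots_le [Nontrivial V] (hW0 : W ≠ ⊥) (a : A) (hgen : ∀ c : A, ∃ j : ℕ, c = a ^ j)
    {f : (ZMod p)[X]} (hf : Irreducible f) (hfm : f.Monic)
    (hfW : ∀ w ∈ W, aeval (en ((a : H) : V ≃ₗ[ZMod p] V)) f w = 0) :
    Nat.card {c : A // aeval (en ((c : H) : V ≃ₗ[ZMod p] V)) f = 0} ≤ f.natDegree := by
  classical
  haveI : Fact (Irreducible f) := ⟨hf⟩
  obtain ⟨w₀, hw₀, hw₀0⟩ := W.ne_bot_iff.1 hW0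
  set T := en ((a : H) : V ≃ₗ[ZMod p] V) with hT
  have hpow : ∀ j : ℕ, en ((((a ^ j : A) : H)) : V ≃ₗ[ZMod p] V) = T ^ j := by
    intro j
    induction j with
    | zero => rfl
    | succ j ih =>
      rw [pow_succ, pow_succ, ← ih]
      rfl
  choose jj hjj using hgen
  let K := AdjoinRoot f
  let ξ : K := AdjoinRoot.root f
  have hdvd : ∀ q : (ZMod p)[X], aeval T q w₀ = 0 → f ∣ q := by
    intro q hq
    by_contra hnd
    obtain ⟨s, t, hst⟩ := (hf.coprime_iff_not_dvd).2 hnd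
    apply hw₀0
    have h3 := congrArg (fun r => aeval T r w₀) hst
    simp only [map_add, map_mul, map_one, LinearMap.add_apply, Module.End.mul_apply, hfW w₀ hw₀, hq, map_zero, add_zero,
      Module.End.one_apply] at h3
    exact h3.symm
  have hkill : ∀ q : (ZMod p)[X], f ∣ q → aeval T q w₀ = 0 := by
    rintro q ⟨r, rfl⟩
    rw [mul_comm, aeval_mul_apply, hfW w₀ hw₀, map_zero]
  have hξ : ∀ q : (ZMod p)[X], aeval ξ q = 0 ↔ f ∣ q := by
    intro q
    rw [AdjoinRoot.aeval_eq, AdjoinRoot.mk_eq_zero]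
  let φ : {c : A // aeval (en ((c : H) : V ≃ₗ[ZMod p] V)) f = 0} → K := fun c => ξ ^ jj c.1
  have hφroot : ∀ c, φ c ∈ (f.map (algebraMap (ZMod p) K)).roots.toFinset := by
    intro c
    rw [Multiset.mem_toFinset, mem_roots (Polynomial.map_ne_zero hf.ne_zero), IsRoot.def, eval_map_algebraMap]
    have h1 : aeval (ξ ^ jj c.1) f = aeval ξ (f.comp (X ^ jj c.1)) := by
      rw [aeval_comp]
      simp
    change aeval (ξ ^ jj c.1) f = 0
    rw [h1, hξ]
    apply hdvd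
    rw [aeval_comp]
    have h2 := c.2
    rw [hjj c.1, hpow] at h2
    simp only [map_pow, aeval_X]
    rw [h2]
    rfl
  have hφinj : Function.Injective φ := by
    intro c c' hcc
    have h1 : (ξ ^ jj c.1 - ξ ^ jj c'.1) = 0 := sub_eq_zero.2 hcc
    have h2 : aeval ξ ((X : (ZMod p)[X]) ^ jj c.1 - X ^ jj c'.1) = 0 := by
      simpa using h1
    have h3 := hkill _ ((hξ _).1 h2)
    simp only [map_sub, map_pow, aeval_X, LinearMap.sub_apply] at h3
    rw [← hpow, ← hpow, ← hjj, ← hjj] at h3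
    have h4 := sub_eq_zero.1 h3
    simp only [en_apply] at h4
    -- free action
    have h5 : (((c.1 : H) : V ≃ₗ[ZMod p] V)⁻¹ * ((c'.1 : H) : V ≃ₗ[ZMod p] V)) w₀ = w₀ := by
      change ((c.1 : H) : V ≃ₗ[ZMod p] V)⁻¹ (((c'.1 : H) : V ≃ₗ[ZMod p] V) w₀) = w₀
      rw [← h4]
      exact ((c.1 : H) : V ≃ₗ[ZMod p] V).symm_apply_apply w₀
    have h6 : ((c.1 : H)⁻¹ * (c'.1 : H) : H) = 1 := free_of_reg H hreg _ w₀ hw₀0 h5
    apply Subtype.ext
    apply Subtype.ext
    exact inv_mul_eq_one.1 h6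
  haveI : Finite (V ≃ₗ[ZMod p] V) := finite_equiv
  have h7 : Nat.card {c : A // aeval (en ((c : H) : V ≃ₗ[ZMod p] V)) f = 0} ≤
      Nat.card ((f.map (algebraMap (ZMod p) K)).roots.toFinset : Finset K) :=
    Nat.card_le_card_of_injective (fun c => (⟨φ c, hφroot c⟩ : ((f.map (algebraMap (ZMod p) K)).roots.toFinset : Finset K)))
      (fun c c' h => hφinj (congrArg Subtype.val h))
  have h8 : Nat.card ((f.map (algebraMap (ZMod p) K)).roots.toFinset : Finset K) = _ :=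
    Nat.card_eq_fintype_card.trans (Fintype.card_coe _)
  rw [h8] at h7
  refine h7.trans ((Multiset.toFinset_card_le _).trans ?_)
  refine (Polynomial.card_roots' _).trans ?_
  rw [natDegree_map]

end Min

/-- The order of a regular group. -/
theorem card_H (hreg : ∀ v w : V, v ≠ 0 → w ≠ 0 → ∃! h : H, (h : V ≃ₗ[ZMod p] V) v = w) [Nontrivial V] :
    Nat.card H = p ^ finrank (ZMod p) V - 1 := by
  classical
  obtain ⟨v₀, hv₀⟩ := exists_ne (0 : V)
  let φ : H → {v : V // v ≠ 0} := fun h => ⟨(h : V ≃ₗ[ZMod p] V) v₀, fun h0 => hv₀ (((h : V ≃ₗ[ZMod p] V).map_eq_zero_iff).1 h0)⟩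
  have hφ : Function.Bijective φ := by
    constructor
    · intro h h' hh
      have h1 : (h : V ≃ₗ[ZMod p] V) v₀ = (h' : V ≃ₗ[ZMod p] V) v₀ := congrArg Subtype.val hh
      exact (hreg v₀ _ hv₀ (φ h').2).unique h1 rfl
    · rintro ⟨w, hw⟩
      obtain ⟨h, hh, -⟩ := hreg v₀ w hv₀ hw
      exact ⟨h, Subtype.ext hh⟩
  rw [Nat.card_congr (Equiv.ofBijective φ hφ)]
  have h4 : Nat.card V = p ^ finrank (ZMod p) V := by
    have := Module.natCard_eq_pow_finrank (K := ZMod p) (V := V)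
    rwa [Nat.card_zmod] at this
  rw [← h4]
  have h5 : Nat.card {v : V // v ≠ 0} = (({0} : Set V)ᶜ).ncard := by
    rw [← Nat.card_coe_set_eq]
    rfl
  rw [h5, Set.ncard_compl, Set.ncard_singleton]

/-- The doubling of the dimension. -/
theorem two_mul_le (hreg : ∀ v w : V, v ≠ 0 → w ≠ 0 → ∃! h : H, (h : V ≃ₗ[ZMod p] V) v = w)
    (A : Subgroup H) (hAn : A.Normal) {W : Submodule (ZMod p) V} (hW0 : W ≠ ⊥) (hW1 : W ≠ ⊤)
    (hWinv : ∀ a ∈ A, ∀ v ∈ W, ((a : H) : V ≃ₗ[ZMod p] V) v ∈ W)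
    (hWmin : ∀ W' : Submodule (ZMod p) V, W' ≤ W → (∀ a ∈ A, ∀ v ∈ W', ((a : H) : V ≃ₗ[ZMod p] V) v ∈ W') → W' = ⊥ ∨ W' = W) :
    2 * finrank (ZMod p) W ≤ finrank (ZMod p) V := by
  obtain ⟨w₀, hw₀, hw₀0⟩ := W.ne_bot_iff.1 hW0
  obtain ⟨v, hv⟩ : ∃ v, v ∉ W := by
    by_contra hno
    push Not at hno
    exact hW1 (eq_top_iff.2 (fun x _ => hno x))
  have hv0 : v ≠ 0 := by
    rintro rfl
    exact hv W.zero_mem
  obtain ⟨h, hh, -⟩ := hreg w₀ v hw₀0 hv0
  let e := (h : V ≃ₗ[ZMod p] V)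
  let W₁ := W.map (e : V →ₗ[ZMod p] V)
  have hvW₁ : v ∈ W₁ := ⟨w₀, hw₀, hh⟩
  have hinv₁ : ∀ a ∈ A, ∀ x ∈ W₁, ((a : H) : V ≃ₗ[ZMod p] V) x ∈ W₁ := by
    rintro a ha _ ⟨y, hy, rfl⟩
    have hb := hAn.conj_mem a ha h⁻¹
    refine ⟨((h⁻¹ * a * h⁻¹⁻¹ : H) : V ≃ₗ[ZMod p] V) y, hWinv _ hb y hy, ?_⟩
    simp only [inv_inv]
    change (h : V ≃ₗ[ZMod p] V) (((h⁻¹ * a * h : H) : V ≃ₗ[ZMod p] V) y) = _
    have h2 : ((h * (h⁻¹ * a * h) : H)) = (a : H) * h := by group
    have h3 := congrArg (fun z : H => (z : V ≃ₗ[ZMod p] V) y) h2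
    exact h3
  have hinf : ∀ a ∈ A, ∀ x ∈ W ⊓ W₁, ((a : H) : V ≃ₗ[ZMod p] V) x ∈ W ⊓ W₁ := by
    rintro a ha x ⟨hx1, hx2⟩
    exact ⟨hWinv a ha x hx1, hinv₁ a ha x hx2⟩
  have hfr : finrank (ZMod p) W₁ = finrank (ZMod p) W := LinearEquiv.finrank_map_eq e W
  have hdisj : Disjoint W W₁ := by
    rw [disjoint_iff]
    rcases hWmin _ inf_le_left hinf with h1 | h1
    · exact h1
    · exfalso
      have hle : W ≤ W₁ := inf_eq_left.1 h1
      have := Submodule.eq_of_le_of_finrank_eq hle hfr.symm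
      apply hv
      rw [this]
      exact hvW₁
  have := Submodule.finrank_add_finrank_le_of_disjoint hdisj
  rw [hfr] at this
  omega

include hreg in
/-- Main statement S0685. -/
theorem main_0685 (hI : ∀ A : Subgroup H, A.Normal → IsCyclic A → ∃ W : Submodule (ZMod p) V, W ≠ ⊥ ∧ W ≠ ⊤ ∧
      ∀ a ∈ A, ∀ v ∈ W, ((a : H) : V ≃ₗ[ZMod p] V) v ∈ W) (A : Subgroup H) (hAn : A.Normal)
    (hAc : IsMulCommutative A) (hAmax : ∀ B : Subgroup H, B.Normal → IsMulCommutative B → A ≤ B → B = A) :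
    A < Subgroup.centralizer (A : Set H) ∧ ¬ IsMulCommutative (Subgroup.centralizer (A : Set H)) := by
  classical
  haveI : Finite (V ≃ₗ[ZMod p] V) := finite_equiv
  haveI : Nontrivial V := by
    obtain ⟨W, h1, -, -⟩ := hI ⊥ inferInstance inferInstance
    obtain ⟨v, -, hv⟩ := W.ne_bot_iff.1 h1
    exact ⟨⟨v, 0, hv⟩⟩
  have hle : A ≤ Subgroup.centralizer (A : Set H) := by
    intro x hx
    rw [Subgroup.mem_centralizer_iff]
    intro y hy
    have := hAc.is_comm.comm (⟨y, hy⟩ : A) ⟨x, hx⟩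
    exact congrArg Subtype.val this
  suffices hna : ¬ IsMulCommutative (Subgroup.centralizer (A : Set H)) by
    refine ⟨lt_of_le_of_ne hle ?_, hna⟩
    intro h
    apply hna
    rw [← h]
    exact hAc
  intro hcomm
  haveI := hAn
  haveI hCn : (Subgroup.centralizer (A : Set H)).Normal := Subgroup.normal_centralizer
  have hCA : Subgroup.centralizer (A : Set H) = A := hAmax _ hCn hcomm hle
  obtain ⟨hcyc, W, hW0, hW1, hWinv, hWmin, hcardA⟩ := main_0684 H hreg hI A hAn hAc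
  obtain ⟨a, hgen⟩ := hcyc.exists_generator
  have hgen' : ∀ c : A, ∃ j : ℕ, c = a ^ j := by
    intro c
    obtain ⟨j, hj⟩ := (mem_powers_iff_mem_zpowers).2 (hgen c)
    exact ⟨j, hj.symm⟩
  obtain ⟨f, hf, hfm, hfW⟩ := exists_irr A hAc hW0 hWinv hWmin a
  have hfV := homog hreg A hAn hAc hW0 hWinv hWmin a hf hfm hfW
  have hroots := card_roots_le hreg A hW0 a hgen' hf hfm hfW
  have hdeg : f.natDegree ≤ finrank (ZMod p) W := by
    obtain ⟨w₀, hw₀, hw₀0⟩ := W.ne_bot_iff.1 hW0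
    have hWa : ∀ x ∈ W, en ((a : H) : V ≃ₗ[ZMod p] V) x ∈ W := fun x hx => hWinv a a.2 x hx
    let T' := (en ((a : H) : V ≃ₗ[ZMod p] V)).restrict hWa
    have h1 : aeval T' f (⟨w₀, hw₀⟩ : W) = 0 := by
      apply Subtype.ext
      rw [CfsgLib.H9.Semis.aeval_restrict]
      exact hfW w₀ hw₀
    have h2 := deg_le_finrank_ker T' hf (u := (⟨w₀, hw₀⟩ : W)) (by
      intro h0
      exact hw₀0 (congrArg Subtype.val h0)) h1
    exact h2.trans (Submodule.finrank_le _)
  -- conjugation action of `H` on `A`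
  letI : MulAction H A := MulAction.compHom A (MulAut.conjNormal (H := A))
  have hsmul : ∀ (h : H) (c : A), ((h • c : A) : H) = h * c * h⁻¹ := fun h c => rfl
  have horb := CfsgLib.H9.card_orbit_mul_card_stabilizer' (H := H) (X := A) a
  have hstab : Nat.card (MulAction.stabilizer H a) ≤ Nat.card A := by
    apply Subgroup.card_le_of_le
    intro h hh
    rw [← hCA, Subgroup.mem_centralizer_iff]
    intro y hy
    have h1 : h • a = a := hh
    have h2 : (h : H) * a * h⁻¹ = a := congrArg Subtype.val h1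
    obtain ⟨j, hj⟩ := hgen' ⟨y, hy⟩
    have h3 : y = (a : H) ^ j := by
      have := congrArg Subtype.val hj
      simpa using this
    rw [h3]
    have h4 : h * (a : H) = a * h := by
      calc h * (a : H) = (h * a * h⁻¹) * h := by group
        _ = a * h := by rw [h2]
    exact ((Commute.pow_left h4.symm j)).eq.symm ▸ rfl
  have horbit : Nat.card (MulAction.orbit H a) ≤ Nat.card {c : A // aeval (en ((c : H) : V ≃ₗ[ZMod p] V)) f = 0} := by
    apply Nat.card_le_card_of_injective (fun c : MulAction.orbit H a => (⟨c.1, by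
      obtain ⟨h, hh⟩ := c.2
      have h1 : ((c.1 : A) : H) = h * a * h⁻¹ := by
        rw [← hh]
        rfl
      ext x
      have h2 : en (((c.1 : A) : H) : V ≃ₗ[ZMod p] V) * en ((h : H) : V ≃ₗ[ZMod p] V) =
          en ((h : H) : V ≃ₗ[ZMod p] V) * en ((a : H) : V ≃ₗ[ZMod p] V) := by
        rw [← en_mul, ← en_mul]
        congr 1
        rw [h1]
        have h5 : (h * a * h⁻¹ * h : H) = h * a := by group
        exact congrArg (fun z : H => (z : V ≃ₗ[ZMod p] V)) h5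
      have h3 := aeval_intertwine h2 f (((h : H) : V ≃ₗ[ZMod p] V)⁻¹ x)
      simp only [en_apply] at h3
      have h4 : ((h : H) : V ≃ₗ[ZMod p] V) (((h : H) : V ≃ₗ[ZMod p] V)⁻¹ x) = x :=
        ((h : H) : V ≃ₗ[ZMod p] V).apply_symm_apply x
      rw [h4] at h3
      rw [h3, hfV, map_zero]
      rfl⟩ : {c : A // aeval (en ((c : H) : V ≃ₗ[ZMod p] V)) f = 0}))
    intro c c' hh
    have h9 := congrArg (fun z : {c : A // aeval (en ((c : H) : V ≃ₗ[ZMod p] V)) f = 0} => (z : A)) hh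
    exact Subtype.ext h9
  have hcH := card_H H hreg
  have h2k := two_mul_le H hreg A hAn hW0 hW1 hWinv hWmin
  set k := finrank (ZMod p) W with hk
  set d := finrank (ZMod p) V with hd
  have hA_le : Nat.card A ≤ p ^ k - 1 := by
    apply Nat.le_of_dvd _ hcardA
    have hk0 : 0 < k := Nat.pos_of_ne_zero (fun h => hW0 (Submodule.finrank_eq_zero.1 h))
    have hpp : p.Prime := Fact.out
    have : 2 ^ k ≤ p ^ k := Nat.pow_le_pow_left hpp.two_le k
    have h3 : 2 ≤ 2 ^ k := by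
      calc 2 = 2 ^ 1 := rfl
        _ ≤ 2 ^ k := Nat.pow_le_pow_right (by norm_num) hk0
    omega
  have hmain : p ^ d - 1 ≤ k * (p ^ k - 1) := by
    rw [← hcH, ← horb]
    calc _ ≤ f.natDegree * Nat.card A := Nat.mul_le_mul (horbit.trans hroots) hstab
      _ ≤ _ := Nat.mul_le_mul hdeg hA_le
  have hpp : p.Prime := Fact.out
  have hk0 : 0 < k := Nat.pos_of_ne_zero (fun h => hW0 (Submodule.finrank_eq_zero.1 h))
  have hlow : p ^ (2 * k) ≤ p ^ d := Nat.pow_le_pow_right hpp.pos h2k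
  have h1 : k < p ^ k := Nat.lt_pow_self hpp.one_lt
  have h2 : 1 ≤ p ^ k := Nat.one_le_pow _ _ hpp.pos
  obtain ⟨P, hP⟩ : ∃ P, p ^ k = P + 1 := ⟨p ^ k - 1, by omega⟩
  have h3 : p ^ (2 * k) = (P + 1) * (P + 1) := by
    rw [two_mul, pow_add, hP]
  rw [hP] at hmain h1
  rw [h3] at hlow
  simp only [Nat.add_sub_cancel] at hmain
  have hP0 : 0 < P := by
    have : 2 ≤ p ^ k := by
      calc 2 ≤ p := hpp.two_le
        _ = p ^ 1 := (pow_one p).symm
        _ ≤ p ^ k := Nat.pow_le_pow_right hpp.pos hk0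
    omega
  have h5 : (P + 1) * (P + 1) - 1 ≤ p ^ d - 1 := Nat.sub_le_sub_right hlow 1
  have h6 : (P + 1) * (P + 1) - 1 = P * (P + 2) := by
    have : (P + 1) * (P + 1) = P * (P + 2) + 1 := by ring
    omega
  rw [h6] at h5
  have h7 : P * (P + 2) ≤ k * P := h5.trans hmain
  rw [mul_comm] at h7
  have h8 := Nat.le_of_mul_le_mul_right h7 hP0
  omega

end CfsgLib.H9.NearLin
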