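import Mathlib

/-! No sharply 2-transitive set of semilinear collineations of projective space. -/

set_option autoImplicit false
set_option linter.unusedVariables false
set_option linter.unusedSectionVars false
set_option linter.unusedSimpArgs false
set_option linter.style.haveILetI false

namespace CfsgLib.H9.NoSharp

open Module

variable {F : Type*} [Field F] [Finite F] {V : Type*} [AddCommGroup V] [Module F V] [Finite V]

/-- A projective point lies in the subspace. -/
def On (U : Submodule F V) (p : Projectivization F V) : Prop := p.rep ∈ U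

theorem on_mk (U : Submodule F V) (v : V) (hv : v ≠ 0) :
    On U (Projectivization.mk F v hv) ↔ v ∈ U := by
  obtain ⟨a, ha⟩ := Projectivization.exists_smul_eq_mk_rep F v hv
  unfold On
  rw [← ha]
  exact U.smul_mem_iff' a

/-- The points of a subspace as a projective space. -/
noncomputable def ptsEquiv (U : Submodule F V) :
    Projectivization F U ≃ {p : Projectivization F V // On U p} :=
  Equiv.ofBijective
    (fun p => ⟨Projectivization.map U.subtype U.injective_subtype p, by
      induction p using Projectivization.ind with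
      | h v hv =>
        rw [Projectivization.map_mk, on_mk]
        exact v.2⟩)
    (by
      constructor
      · intro a b hab
        exact Projectivization.map_injective U.subtype U.injective_subtype (congrArg Subtype.val hab)
      · rintro ⟨p, hp⟩
        have hrep := p.rep_nonzero
        have hrep' : (⟨p.rep, hp⟩ : U) ≠ 0 := by
          intro h
          exact hrep (congrArg Subtype.val h)
        refine ⟨Projectivization.mk F ⟨p.rep, hp⟩ hrep', ?_⟩
        apply Subtype.ext
        simp only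
        rw [Projectivization.map_mk]
        exact p.mk_rep)

/-- A nonzero subspace has `≡ 1` points modulo `q`. -/
theorem card_pts (U : Submodule F V) (hU : ∃ v ∈ U, v ≠ 0) (q : ℕ) (hq : Nat.card F = q) :
    ((Nat.card {p : Projectivization F V // On U p} : ℕ) : ZMod q) = 1 := by
  classical
  rw [← Nat.card_congr (ptsEquiv U)]
  have h1 : Nat.card U = Nat.card (Projectivization F U) * (Nat.card F - 1) + 1 :=
    Projectivization.card' F U
  have hq1 : 1 ≤ q := by
    rw [← hq]; exact Nat.card_pos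
  have h2 : Nat.card U = Nat.card F ^ finrank F U := Module.natCard_eq_pow_finrank (K := F) (V := U)
  have hd : finrank F U ≠ 0 := by
    obtain ⟨v, hv, hv0⟩ := hU
    intro h0
    haveI : Finite U := inferInstance
    have hsub := Submodule.finrank_eq_zero.1 h0
    rw [hsub] at hv
    exact hv0 ((Submodule.mem_bot F).1 hv)
  have h3 : ((Nat.card U : ℕ) : ZMod q) = 0 := by
    rw [h2, hq]
    rw [Nat.cast_pow, ZMod.natCast_self, zero_pow hd]
  rw [h1, hq] at h3
  push_cast at h3
  rw [Nat.cast_sub hq1, ZMod.natCast_self] at h3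
  simp only [Nat.cast_one] at h3
  linear_combination -h3

/-- The main theorem. -/
theorem main (n : ℕ) (hn : 3 ≤ n) (S : Set (Equiv.Perm (Projectivization F (Fin n → F))))
    (hS : ∀ s ∈ S, ∃ (σ : F ≃+* F) (f : (Fin n → F) →ₛₗ[(σ : F →+* F)] (Fin n → F)) (hf : Function.Injective f),
      ∀ x, s x = Projectivization.map f hf x)
    (hall : ∀ a b c d : Projectivization F (Fin n → F), a ≠ b → c ≠ d →
        ∃! s, s ∈ S ∧ s a = c ∧ s b = d) : False := by
  classical
  have hq2 : 2 ≤ Nat.card F := Finite.one_lt_card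
  set q := Nat.card F with hq
  let i₀ : Fin n := ⟨0, by omega⟩
  let i₁ : Fin n := ⟨1, by omega⟩
  have hi : i₁ ≠ i₀ := by
    intro h
    have := congrArg Fin.val h
    simp [i₀, i₁] at this
  let W₀ : Submodule F (Fin n → F) := LinearMap.ker (LinearMap.proj i₀)
  have memW : ∀ v, v ∈ W₀ ↔ v i₀ = 0 := by
    intro v
    simp [W₀]
  let e₀ : Fin n → F := Pi.single i₀ 1
  have he₀ : e₀ ≠ 0 := by
    intro h
    have := congrFun h i₀
    simp [e₀] at this
  let P : Projectivization F (Fin n → F) := Projectivization.mk F e₀ he₀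
  have hP : ¬ On W₀ P := by
    rw [on_mk, memW]
    simp [e₀]
  let e₁ : Fin n → F := Pi.single i₁ 1
  have he₁ : e₁ ≠ 0 := by
    intro h
    have := congrFun h i₁
    simp [e₁] at this
  have he₁W : e₁ ∈ W₀ := by
    rw [memW]
    simp [e₁, hi.symm]
  have hH : ((Nat.card {p // On W₀ p} : ℕ) : ZMod q) = 1 := card_pts W₀ ⟨e₁, he₁W, he₁⟩ q rfl
  have hN : ((Nat.card (Projectivization F (Fin n → F)) : ℕ) : ZMod q) = 1 := by
    have h1 := card_pts (⊤ : Submodule F (Fin n → F)) ⟨e₁, trivial, he₁⟩ q rfl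
    have e : {p : Projectivization F (Fin n → F) // On ⊤ p} ≃ Projectivization F (Fin n → F) :=
      Equiv.subtypeUnivEquiv (fun p => (trivial : p.rep ∈ (⊤ : Submodule F (Fin n → F))))
    rwa [Nat.card_congr e] at h1
  let b₀ : Projectivization F (Fin n → F) := Projectivization.mk F e₁ he₁
  have hb₀ : On W₀ b₀ := (on_mk W₀ e₁ he₁).2 he₁W
  have hneP : ∀ p, On W₀ p → p ≠ P := by
    rintro p hp rfl
    exact hP hp
  let S' := {s : Equiv.Perm (Projectivization F (Fin n → F)) // s ∈ S ∧ s P = P}
  -- size of `S'`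
  have hS'card : Nat.card S' + 1 = Nat.card (Projectivization F (Fin n → F)) := by
    have e : S' ≃ {p // p ≠ P} := by
      refine Equiv.ofBijective (fun s => ⟨s.1 b₀, ?_⟩) ⟨?_, ?_⟩
      · intro h
        have h2 : s.1 b₀ = s.1 P := by rw [h, s.2.2]
        exact hneP b₀ hb₀ (s.1.injective h2)
      · intro s t hst
        have h1 := congrArg Subtype.val hst
        simp only at h1
        obtain ⟨u, -, huniq⟩ := hall P b₀ P (s.1 b₀) (hneP b₀ hb₀).symm (by
          intro h
          have h2 : s.1 b₀ = s.1 P := by rw [← h, s.2.2]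
          exact hneP b₀ hb₀ (s.1.injective h2))
        apply Subtype.ext
        rw [huniq s.1 ⟨s.2.1, s.2.2, rfl⟩, huniq t.1 ⟨t.2.1, t.2.2, h1.symm⟩]
      · rintro ⟨y, hy⟩
        obtain ⟨u, ⟨hu1, hu2, hu3⟩, -⟩ := hall P b₀ P y (hneP b₀ hb₀).symm hy.symm
        exact ⟨⟨u, hu1, hu2⟩, Subtype.ext hu3⟩
    rw [Nat.card_congr e]
    haveI : Fintype (Projectivization F (Fin n → F)) := Fintype.ofFinite _
    rw [Nat.card_eq_fintype_card, Nat.card_eq_fintype_card, Fintype.card_subtype_compl]
    simp only [Fintype.card_subtype_eq]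
    have : 0 < Fintype.card (Projectivization F (Fin n → F)) := Fintype.card_pos_iff.2 ⟨P⟩
    omega
  have hS'0 : ((Nat.card S' : ℕ) : ZMod q) = 0 := by
    have h1 : ((Nat.card S' + 1 : ℕ) : ZMod q) = 1 := by rw [hS'card, hN]
    push_cast at h1
    simpa using h1
  -- double count
  let e2 : (Σ s : S', {x : {p // On W₀ p} // On W₀ (s.1 x.1)}) ≃ {p // On W₀ p} × {p // On W₀ p} := by
    refine Equiv.ofBijective (fun z => (z.2.1, ⟨z.1.1 z.2.1.1, z.2.2⟩)) ⟨?_, ?_⟩
    · rintro ⟨s, x, hx⟩ ⟨t, y, hy⟩ h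
      simp only [Prod.mk.injEq] at h
      obtain ⟨h1, h2⟩ := h
      subst h1
      have h3 : s.1 x.1 = t.1 x.1 := congrArg Subtype.val h2
      obtain ⟨u, -, huniq⟩ := hall P x.1 P (s.1 x.1) (hneP _ x.2).symm (hneP _ (by exact hx)).symm
      have hst : s = t := by
        apply Subtype.ext
        rw [huniq s.1 ⟨s.2.1, s.2.2, rfl⟩, huniq t.1 ⟨t.2.1, t.2.2, h3.symm⟩]
      subst hst
      rfl
    · rintro ⟨x, y⟩
      obtain ⟨u, ⟨hu1, hu2, hu3⟩, -⟩ := hall P x.1 P y.1 (hneP _ x.2).symm (hneP _ y.2).symm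
      refine ⟨⟨⟨u, hu1, hu2⟩, ⟨x, ?_⟩⟩, ?_⟩
      · change On W₀ (u x.1)
        rw [hu3]; exact y.2
      · apply Prod.ext
        · rfl
        · exact Subtype.ext hu3
  have hterm : ∀ s : S', ((Nat.card {x : {p // On W₀ p} // On W₀ (s.1 x.1)} : ℕ) : ZMod q) = 1 := by
    intro s
    obtain ⟨σ, f, hf, hfs⟩ := hS s.1 s.2.1
    have hfin : Finite (F × F) := inferInstance
    have hne : ∃ v ∈ W₀ ⊓ W₀.comap f, v ≠ 0 := by
      let g : (Fin n → F) → F × F := fun v => (v i₀, f v i₀)
      have hcard : Nat.card (F × F) < Nat.card (Fin n → F) := by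
        rw [Nat.card_prod, Nat.card_fun, Nat.card_fin, ← hq]
        calc q * q = q ^ 2 := by ring
          _ < q ^ n := Nat.pow_lt_pow_right (by omega) (by omega)
      haveI : Fintype (F × F) := Fintype.ofFinite _
      haveI : Fintype (Fin n → F) := Fintype.ofFinite _
      rw [Nat.card_eq_fintype_card, Nat.card_eq_fintype_card] at hcard
      obtain ⟨a, b, hab, hg⟩ := Fintype.exists_ne_map_eq_of_card_lt g hcard
      have h1 : a i₀ = b i₀ := congrArg Prod.fst hg
      have h2 : f a i₀ = f b i₀ := congrArg Prod.snd hg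
      refine ⟨a - b, ⟨?_, ?_⟩, sub_ne_zero.2 hab⟩
      · show a - b ∈ W₀
        rw [memW]; simp [h1]
      · show f (a - b) ∈ W₀
        rw [memW, map_sub]; simp [h2]
    have h1 := card_pts (W₀ ⊓ W₀.comap f) hne q rfl
    rw [← h1]
    congr 1
    apply Nat.card_congr
    refine (Equiv.subtypeSubtypeEquivSubtypeInter (fun p => On W₀ p) (fun p => On W₀ (s.1 p))).trans (Equiv.subtypeEquivRight ?_)
    intro p
    have h2 : On W₀ (s.1 p) ↔ f p.rep ∈ W₀ := by
      conv_lhs => rw [← p.mk_rep]
      rw [hfs, Projectivization.map_mk, on_mk]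
    rw [h2]
    rfl
  have hsum : ((Nat.card {p // On W₀ p} * Nat.card {p // On W₀ p} : ℕ) : ZMod q) = 0 := by
    haveI : Fintype S' := Fintype.ofFinite _
    rw [← Nat.card_prod, ← Nat.card_congr e2, Nat.card_sigma, Nat.cast_sum]
    rw [Finset.sum_congr rfl (fun s _ => hterm s)]
    rw [Finset.sum_const, nsmul_one, Finset.card_univ, ← Nat.card_eq_fintype_card, hS'0]
  rw [Nat.cast_mul, hH, one_mul] at hsum
  have h3 : ((1 : ℕ) : ZMod q) = 0 := by simpa using hsum
  rw [ZMod.natCast_eq_zero_iff] at h3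
  have := Nat.le_of_dvd one_pos h3
  omega

end CfsgLib.H9.NoSharp
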