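import Cfsg.Prelude.Def_Classical
import Mathlib

/-! Orthogonal sums and `Ω`. -/

set_option autoImplicit false
set_option linter.unusedVariables false
set_option linter.style.haveILetI false

namespace CfsgLib.H9.OmegaSum

open Cfsg Matrix

variable {F : Type*} [Field F] {k l : ℕ}

/-- Block diagonal embedding of general linear groups. -/
def blockGL : GL (Fin k) F × GL (Fin l) F →* GL (Fin k ⊕ Fin l) F where
  toFun p :=
    { val := Matrix.fromBlocks (p.1 : Matrix (Fin k) (Fin k) F) 0 0 (p.2 : Matrix (Fin l) (Fin l) F)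
      inv := Matrix.fromBlocks ((p.1⁻¹ : GL (Fin k) F) : Matrix (Fin k) (Fin k) F) 0 0
        ((p.2⁻¹ : GL (Fin l) F) : Matrix (Fin l) (Fin l) F)
      val_inv := by
        rw [Matrix.fromBlocks_multiply]
        simp [Matrix.fromBlocks_one]
      inv_val := by
        rw [Matrix.fromBlocks_multiply]
        simp [Matrix.fromBlocks_one] }
  map_one' := by
    apply Units.ext
    simp [Matrix.fromBlocks_one]
  map_mul' := by
    intro a b
    apply Units.ext
    simp [Matrix.fromBlocks_multiply]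

theorem blockGL_val (p : GL (Fin k) F × GL (Fin l) F) :
    ((blockGL p : GL (Fin k ⊕ Fin l) F) : Matrix (Fin k ⊕ Fin l) (Fin k ⊕ Fin l) F) =
      Matrix.fromBlocks (p.1 : Matrix (Fin k) (Fin k) F) 0 0 (p.2 : Matrix (Fin l) (Fin l) F) := rfl

/-- The orthogonal sum. -/
def sumQ (Q₁ : (Fin k → F) → F) (Q₂ : (Fin l → F) → F) : (Fin k ⊕ Fin l → F) → F :=
  fun v => Q₁ (v ∘ Sum.inl) + Q₂ (v ∘ Sum.inr)

theorem block_mulVec_inl (a : Matrix (Fin k) (Fin k) F) (b : Matrix (Fin l) (Fin l) F) (v : Fin k ⊕ Fin l → F) :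
    (Matrix.fromBlocks a 0 0 b *ᵥ v) ∘ Sum.inl = a *ᵥ (v ∘ Sum.inl) := by
  rw [Matrix.fromBlocks_mulVec]
  ext i
  simp

theorem block_mulVec_inr (a : Matrix (Fin k) (Fin k) F) (b : Matrix (Fin l) (Fin l) F) (v : Fin k ⊕ Fin l → F) :
    (Matrix.fromBlocks a 0 0 b *ᵥ v) ∘ Sum.inr = b *ᵥ (v ∘ Sum.inr) := by
  rw [Matrix.fromBlocks_mulVec]
  ext i
  simp

/-- Direct sum of isometries. -/
def sumIso (Q₁ : (Fin k → F) → F) (Q₂ : (Fin l → F) → F) :
    isometryGroup F Q₁ × isometryGroup F Q₂ →* isometryGroup F (sumQ Q₁ Q₂) where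
  toFun p := ⟨blockGL (p.1.1, p.2.1), by
    intro u v
    show sumQ Q₁ Q₂ (((blockGL (p.1.1, p.2.1) : GL (Fin k ⊕ Fin l) F) : Matrix (Fin k ⊕ Fin l) (Fin k ⊕ Fin l) F) *ᵥ u) = sumQ Q₁ Q₂ u
    rw [blockGL_val, sumQ, block_mulVec_inl, block_mulVec_inr]
    have h1 := p.1.2 (u ∘ Sum.inl) 0
    have h2 := p.2.2 (u ∘ Sum.inr) 0
    simp only [sumQ]
    exact congrArg₂ (· + ·) h1 h2⟩
  map_one' := by
    apply Subtype.ext
    exact map_one blockGL
  map_mul' := by
    intro a b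
    apply Subtype.ext
    exact map_mul blockGL (a.1.1, a.2.1) (b.1.1, b.2.1)

theorem map_commutator_mem {G H : Type*} [Group G] [Group H] (f : G →* H) {g : G} (hg : g ∈ commutator G) :
    f g ∈ commutator H := by
  have h1 : (commutator G).map f ≤ commutator H := by
    rw [commutator_def, commutator_def, Subgroup.map_commutator]
    exact Subgroup.commutator_mono le_top le_top
  exact h1 (Subgroup.mem_map_of_mem f hg)

theorem sum_mem_omega (Q₁ : (Fin k → F) → F) (Q₂ : (Fin l → F) → F)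
    (g₁ : isometryGroup F Q₁) (g₂ : isometryGroup F Q₂) (hg₁ : g₁ ∈ Omega F Q₁) (hg₂ : g₂ ∈ Omega F Q₂) :
    sumIso Q₁ Q₂ (g₁, g₂) ∈ Omega F (sumQ Q₁ Q₂) := by
  have h1 : ((g₁, g₂) : isometryGroup F Q₁ × isometryGroup F Q₂) = (g₁, 1) * (1, g₂) := by simp
  rw [h1, map_mul]
  apply Subgroup.mul_mem
  · exact map_commutator_mem ((sumIso Q₁ Q₂).comp (MonoidHom.inl _ _)) hg₁
  · exact map_commutator_mem ((sumIso Q₁ Q₂).comp (MonoidHom.inr _ _)) hg₂

end CfsgLib.H9.OmegaSum
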