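import Mathlib
import Cfsg.Agent.Lib.ClassGeo.Forms

/-! Non-alternating symmetric forms in characteristic two have orthonormal bases. -/

set_option autoImplicit false
set_option linter.unusedVariables false
set_option linter.unusedSectionVars false
set_option linter.unusedSimpArgs false
set_option linter.style.haveILetI false

namespace CfsgLib.H9.OrthChar2

open Module CfsgLib.ClassGeo

variable {F V : Type*} [Field F] [Finite F] [CharP F 2] [AddCommGroup V] [Module F V]
  [FiniteDimensional F V]

theorem two_zero : (2 : F) = 0 := by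
  have := CharP.cast_eq_zero F 2
  exact_mod_cast this

theorem exists_sqrt (a : F) : ∃ s : F, s * s = a := by
  haveI := Fintype.ofFinite F
  have := FiniteField.isSquare_of_char_two (F := F) (ringChar.eq F 2)
  obtain ⟨s, hs⟩ := FiniteField.isSquare_of_char_two (F := F) (ringChar.eq F 2) a
  exact ⟨s, hs.symm⟩

theorem exists_orthonormal {B : LinearMap.BilinForm F V} (hS : ∀ x y, B x y = B y x) :
    ∀ (n : ℕ) (U : Submodule F V), finrank F U = n → NondegOn B U → (∃ v ∈ U, B v v ≠ 0) →
      ∃ b : Fin n → V, (∀ i, b i ∈ U) ∧ ∀ i j, B (b i) (b j) = if i = j then 1 else 0 := by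
  have hperp : ∀ x y, B x y = 0 → B y x = 0 := fun x y h => by rw [← hS, h]
  -- normalised vector
  have hnorm : ∀ (U : Submodule F V) (v : V), v ∈ U → B v v ≠ 0 → ∃ v' ∈ U, B v' v' = 1 := by
    intro U v hv hvv
    obtain ⟨s, hs⟩ := exists_sqrt (B v v)
    have hs0 : s ≠ 0 := by
      rintro rfl
      apply hvv
      rw [← hs, mul_zero]
    refine ⟨s⁻¹ • v, U.smul_mem _ hv, ?_⟩
    simp only [map_smul, LinearMap.smul_apply, smul_eq_mul, ← hs]
    field_simp
  intro n
  induction n with
  | zero =>
    intro U _ _ _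
    exact ⟨fun i => i.elim0, fun i => i.elim0, fun i => i.elim0⟩
  | succ n ih =>
    intro U hU hN hex
    obtain ⟨v₀, hv₀, hvv₀⟩ := hex
    obtain ⟨v, hv, hvv⟩ := hnorm U v₀ hv₀ hvv₀
    -- extension of a family from a complement
    have hext : ∀ v' ∈ U, B v' v' = 1 → (n = 0 ∨ ∃ u ∈ U ⊓ LinearMap.ker (B v'), B u u ≠ 0) →
        ∃ b : Fin (n + 1) → V, (∀ i, b i ∈ U) ∧ ∀ i j, B (b i) (b j) = if i = j then 1 else 0 := by
      intro v' hv' hvv' hcase
      have hfr : finrank F ↥(U ⊓ LinearMap.ker (B v')) = n := by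
        have := finrank_inf_ker_add_one U (B v') v' hv' (by rw [hvv']; exact one_ne_zero)
        omega
      have hN' := hN.perp hperp v' hv' (by rw [hvv']; exact one_ne_zero)
      have hfam : ∃ b : Fin n → V, (∀ i, b i ∈ U ⊓ LinearMap.ker (B v')) ∧
          ∀ i j, B (b i) (b j) = if i = j then 1 else 0 := by
        rcases hcase with h0 | hc
        · subst h0
          exact ⟨fun i => i.elim0, fun i => i.elim0, fun i => i.elim0⟩
        · exact ih _ hfr hN' hc
      obtain ⟨b, hb, hbB⟩ := hfam
      have hb1 : ∀ i, B v' (b i) = 0 := fun i => (hb i).2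
      have hb2 : ∀ i, B (b i) v' = 0 := fun i => hperp _ _ (hb1 i)
      refine ⟨Fin.cons v' b, ?_, ?_⟩
      · intro i
        refine Fin.cases ?_ (fun j => ?_) i
        · simpa using hv'
        · simpa using (hb j).1
      · intro i j
        refine Fin.cases ?_ (fun i' => ?_) i <;> refine Fin.cases ?_ (fun j' => ?_) j
        · simp [hvv']
        · simp [hb1, Fin.succ_ne_zero, (Fin.succ_ne_zero j').symm]
        · simp [hb2, Fin.succ_ne_zero]
        · simp [hbB]
    by_cases hn0 : n = 0
    · exact hext v hv hvv (Or.inl hn0)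
    by_cases hc : ∃ u ∈ U ⊓ LinearMap.ker (B v), B u u ≠ 0
    · exact hext v hv hvv (Or.inr hc)
    · push Not at hc
      -- the complement is alternating
      have hfr : finrank F ↥(U ⊓ LinearMap.ker (B v)) = n := by
        have := finrank_inf_ker_add_one U (B v) v hv (by rw [hvv]; exact one_ne_zero)
        omega
      have hN' := hN.perp hperp v hv (by rw [hvv]; exact one_ne_zero)
      have hne : U ⊓ LinearMap.ker (B v) ≠ ⊥ := by
        intro h
        rw [h] at hfr
        simp at hfr
        omega
      obtain ⟨e, he, he0⟩ := Submodule.exists_mem_ne_zero_of_ne_bot hne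
      have hex2 : ∃ f₀ ∈ U ⊓ LinearMap.ker (B v), B e f₀ ≠ 0 := by
        by_contra hall
        push Not at hall
        exact he0 (hN' e he hall)
      obtain ⟨f₀, hf₀, hef₀⟩ := hex2
      let f := (B e f₀)⁻¹ • f₀
      have hf : f ∈ U ⊓ LinearMap.ker (B v) := Submodule.smul_mem _ _ hf₀
      have hef : B e f = 1 := by
        simp only [f, map_smul, smul_eq_mul]
        exact inv_mul_cancel₀ hef₀
      have hee : B e e = 0 := hc e he
      have hff : B f f = 0 := hc f hf
      have hve : B v e = 0 := he.2
      have hvf : B v f = 0 := hf.2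
      have hev : B e v = 0 := hperp _ _ hve
      have hfv : B f v = 0 := hperp _ _ hvf
      have h2 : (2 : F) = 0 := two_zero
      refine hext (v + e) (U.add_mem hv he.1) ?_ (Or.inr ⟨v + f, ⟨U.add_mem hv hf.1, ?_⟩, ?_⟩)
      · simp only [map_add, LinearMap.add_apply, hvv, hve, hev, hee]
        ring
      · rw [SetLike.mem_coe, LinearMap.mem_ker]
        simp only [map_add, LinearMap.add_apply, hvv, hvf, hev, hef]
        linear_combination h2
      · simp only [map_add, LinearMap.add_apply, hvv, hvf, hfv, hff]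
        simp

/-- Main statement. -/
theorem main {n : ℕ} (hV : Module.finrank F V = n) (B : LinearMap.BilinForm F V) (hS : B.IsSymm)
    (hB : B.Nondegenerate) (hna : ∃ v : V, B v v ≠ 0) :
    ∃ b : Module.Basis (Fin n) F V, ∀ i j, B (b i) (b j) = if i = j then 1 else 0 := by
  classical
  have hS' : ∀ x y, B x y = B y x := fun x y => by
    have := hS.eq x y
    simpa using this
  have hN : NondegOn B ⊤ := fun u _ h => hB.1 u (fun w => h w trivial)
  obtain ⟨v, hv⟩ := hna
  obtain ⟨b, -, hb⟩ := exists_orthonormal hS' n ⊤ (by rw [finrank_top, hV]) hN ⟨v, trivial, hv⟩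
  have hli : LinearIndependent F b := by
    rw [Fintype.linearIndependent_iff]
    intro c hc i
    have h1 := congrArg (fun x => B x (b i)) hc
    simp only [map_sum, map_smul, LinearMap.sum_apply, LinearMap.smul_apply, smul_eq_mul, hb, map_zero,
      LinearMap.zero_apply, mul_ite, mul_one, mul_zero, Finset.sum_ite_eq', Finset.mem_univ, if_true] at h1
    exact h1
  have hnn : Nonempty (Fin n) := by
    have hne : 0 < n := by
      rw [← hV]
      have : Nontrivial V := ⟨⟨v, 0, fun h => hv (by rw [h]; simp)⟩⟩
      exact Module.finrank_pos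
    exact ⟨⟨0, hne⟩⟩
  let bb := basisOfLinearIndependentOfCardEqFinrank hli (by simp [hV])
  refine ⟨bb, fun i j => ?_⟩
  have hc : ∀ i, bb i = b i := fun i => by simp [bb]
  rw [hc, hc, hb]

end CfsgLib.H9.OrthChar2
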