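import Mathlib

set_option autoImplicit false

namespace CfsgLib.H9

/-- A `p`-group acting linearly in characteristic `p` has a non-zero fixed vector in any invariant
additive subgroup `W` containing a non-zero vector. -/
theorem exists_fixed_vector_of_pgroup {P : Type*} [Group P] [Finite P] {p : ℕ} [Fact p.Prime]
    (hP : IsPGroup p P) {V : Type*} [AddCommGroup V] [DistribMulAction P V]
    (hpV : ∀ v : V, p • v = 0) (W : AddSubgroup V) (hW : ∀ (h : P), ∀ v ∈ W, h • v ∈ W)
    {v : V} (hv : v ∈ W) (hv0 : v ≠ 0) : ∃ w ∈ W, w ≠ 0 ∧ ∀ h : P, h • w = w := by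
  classical
  have hp : p.Prime := Fact.out
  -- the additive subgroup generated by the orbit
  let S : Set V := Set.range (fun h : P => h • v)
  let X : AddSubgroup V := AddSubgroup.closure S
  have hXW : X ≤ W := by
    rw [AddSubgroup.closure_le]
    rintro _ ⟨h, rfl⟩
    exact hW h v hv
  have hXinv : ∀ (h : P), ∀ x ∈ X, h • x ∈ X := by
    intro h x hx
    induction hx using AddSubgroup.closure_induction with
    | mem x hx =>
      obtain ⟨k, rfl⟩ := hx
      apply AddSubgroup.subset_closure
      exact ⟨h * k, mul_smul h k v⟩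
    | zero => rw [smul_zero]; exact X.zero_mem
    | add x y _ _ h1 h2 => rw [smul_add]; exact X.add_mem h1 h2
    | neg x _ h1 => rw [smul_neg]; exact X.neg_mem h1
  haveI hfin : Finite X := by
    haveI : Finite S := Set.finite_range _
    haveI : AddGroup.FG X := inferInstanceAs (AddGroup.FG (AddSubgroup.closure S))
    apply AddCommGroup.finite_of_fg_isAddTorsion
    intro x
    rw [isOfFinAddOrder_iff_nsmul_eq_zero]
    refine ⟨p, hp.pos, ?_⟩
    apply Subtype.ext
    exact hpV x.1
  letI : MulAction P X :=
    { smul := fun h x => ⟨h • x.1, hXinv h x.1 x.2⟩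
      one_smul := fun x => Subtype.ext (one_smul P x.1)
      mul_smul := fun h k x => Subtype.ext (mul_smul h k x.1) }
  have hsmul : ∀ (h : P) (x : X), ((h • x : X) : V) = h • (x : V) := fun _ _ => rfl
  have hfix := hP.card_modEq_card_fixedPoints X
  have hvX : v ∈ X := AddSubgroup.subset_closure ⟨1, one_smul P v⟩
  have hdvd : p ∣ Nat.card X := by
    have h1 : addOrderOf (⟨v, hvX⟩ : X) = p := by
      apply addOrderOf_eq_prime
      · apply Subtype.ext
        exact hpV v
      · intro h
        exact hv0 (congrArg Subtype.val h)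
    rw [← h1]
    exact addOrderOf_dvd_natCard _
  have hdvd2 : p ∣ Nat.card (MulAction.fixedPoints P X) := by
    have h1 : Nat.card X % p = 0 := Nat.mod_eq_zero_of_dvd hdvd
    have h2 : Nat.card X % p = Nat.card (MulAction.fixedPoints P X) % p := hfix
    rw [h1] at h2
    exact Nat.dvd_of_mod_eq_zero h2.symm
  haveI : Finite (MulAction.fixedPoints P X) := inferInstance
  have h0fix : (0 : X) ∈ MulAction.fixedPoints P X := by
    intro h
    apply Subtype.ext
    show h • (0 : V) = 0
    exact smul_zero h
  have hgt : 1 < Nat.card (MulAction.fixedPoints P X) := by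
    have hpos : 0 < Nat.card (MulAction.fixedPoints P X) := by
      haveI : Nonempty (MulAction.fixedPoints P X) := ⟨⟨0, h0fix⟩⟩
      exact Nat.card_pos
    have := Nat.le_of_dvd hpos hdvd2
    have := hp.one_lt
    omega
  haveI : Nontrivial (MulAction.fixedPoints P X) := Finite.one_lt_card_iff_nontrivial.mp hgt
  obtain ⟨⟨x, hx⟩, hx0⟩ := exists_ne (⟨0, h0fix⟩ : MulAction.fixedPoints P X)
  refine ⟨x.1, hXW x.2, ?_, ?_⟩
  · intro h
    apply hx0
    apply Subtype.ext
    apply Subtype.ext
    exact h
  · intro h
    have := hx h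
    exact congrArg Subtype.val this

/-- A Sylow `p`-subgroup of a group acting transitively on a set of `p`-power size is
transitive. -/
theorem sylow_isPretransitive {G : Type*} [Group G] [Finite G] {p f : ℕ} [Fact p.Prime]
    {Ω : Type*} [Finite Ω] [MulAction G Ω] [MulAction.IsPretransitive G Ω]
    (hcard : Nat.card Ω = p ^ f) (P : Sylow p G) :
    MulAction.IsPretransitive (P : Subgroup G) Ω := by
  classical
  have hp : p.Prime := Fact.out
  haveI : Nonempty Ω := by
    apply (Nat.card_pos_iff.mp _).1
    rw [hcard]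
    exact pow_pos hp.pos f
  obtain ⟨a⟩ := ‹Nonempty Ω›
  set Q := MulAction.stabilizer G a with hQ
  have hidx : Q.index = p ^ f := by
    rw [hQ, MulAction.index_stabilizer, MulAction.orbit_eq_univ, Set.ncard_univ, hcard]
  have h1 : (P ⊓ Q : Subgroup G).relIndex P * (P : Subgroup G).index = (P ⊓ Q : Subgroup G).index :=
    Subgroup.relIndex_mul_index inf_le_left
  have h2 : (P ⊓ Q : Subgroup G).relIndex Q * Q.index = (P ⊓ Q : Subgroup G).index :=
    Subgroup.relIndex_mul_index inf_le_right
  have hnd := P.not_dvd_index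
  have hcop : Nat.Coprime (p ^ f) (P : Subgroup G).index :=
    Nat.Coprime.pow_left f ((Nat.Prime.coprime_iff_not_dvd hp).mpr hnd)
  have hd : p ^ f ∣ (P ⊓ Q : Subgroup G).relIndex P := by
    have h3 : p ^ f ∣ (P ⊓ Q : Subgroup G).relIndex P * (P : Subgroup G).index := by
      rw [h1, ← h2, hidx]
      exact dvd_mul_left _ _
    exact hcop.dvd_of_dvd_mul_right h3
  have horb : (MulAction.stabilizer (P : Subgroup G) a).index = (P ⊓ Q : Subgroup G).relIndex P := by
    rw [Subgroup.inf_relIndex_left]
    congr 1
  have horb2 : (MulAction.orbit (P : Subgroup G) a).ncard = (P ⊓ Q : Subgroup G).relIndex P := by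
    rw [← horb, MulAction.index_stabilizer]
  have hpos : (P ⊓ Q : Subgroup G).relIndex P ≠ 0 := by
    rw [← horb2]
    have : (MulAction.orbit (P : Subgroup G) a).Nonempty := MulAction.nonempty_orbit a
    exact (Set.ncard_pos (Set.toFinite _)).mpr this |>.ne'
  have hle : (MulAction.orbit (P : Subgroup G) a).ncard ≤ p ^ f := by
    rw [← hcard, ← Set.ncard_univ]
    exact Set.ncard_le_ncard (Set.subset_univ _) (Set.toFinite _)
  have heq : (MulAction.orbit (P : Subgroup G) a).ncard = Nat.card Ω := by
    rw [hcard]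
    apply le_antisymm hle
    rw [horb2]
    exact Nat.le_of_dvd (Nat.pos_of_ne_zero hpos) hd
  have huniv : MulAction.orbit (P : Subgroup G) a = Set.univ := (Set.eq_univ_iff_ncard _).mpr heq
  exact (MulAction.isPretransitive_iff_orbit_eq_univ a).mpr huniv

end CfsgLib.H9
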