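import Mathlib
import Cfsg.Agent.Lib.H9.SemisCount
import Cfsg.Agent.Lib.H9.PGLOrder

/-! Conjugacy classes of involutions in `PGL_n(q)`, `q` odd. -/

set_option autoImplicit false
set_option linter.unusedVariables false
set_option linter.unusedSectionVars false
set_option linter.unusedSimpArgs false
set_option linter.style.haveILetI false

namespace CfsgLib.H9.PGLInvol

open Polynomial Module Matrix

variable {F : Type*} [Field F] {n : ℕ}

open Classical in
/-- The invariant of an involution of the projective group. -/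
noncomputable def inv (A : Matrix (Fin n) (Fin n) F) : ℕ :=
  if h : ∃ s : F, s ≠ 0 ∧ A * A = (s * s) • (1 : Matrix (Fin n) (Fin n) F) then
    min (A - h.choose • (1 : Matrix (Fin n) (Fin n) F)).rank (A + h.choose • (1 : Matrix (Fin n) (Fin n) F)).rank
  else 0

theorem scalar_inj (hn : 0 < n) {a b : F} (h : a • (1 : Matrix (Fin n) (Fin n) F) = b • 1) : a = b := by
  have := congrFun (congrFun h ⟨0, hn⟩) ⟨0, hn⟩
  simpa using this

theorem inv_eq (hn : 0 < n) (A : Matrix (Fin n) (Fin n) F) (s : F) (hs : s ≠ 0)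
    (hA : A * A = (s * s) • (1 : Matrix (Fin n) (Fin n) F)) :
    inv A = min (A - s • (1 : Matrix (Fin n) (Fin n) F)).rank (A + s • (1 : Matrix (Fin n) (Fin n) F)).rank := by
  have h : ∃ s : F, s ≠ 0 ∧ A * A = (s * s) • (1 : Matrix (Fin n) (Fin n) F) := ⟨s, hs, hA⟩
  rw [inv, dif_pos h]
  have ht := h.choose_spec
  have h1 : h.choose * h.choose = s * s := scalar_inj hn (ht.2.symm.trans hA)
  rcases mul_self_eq_mul_self_iff.1 h1 with h2 | h2
  · rw [h2]
  · rw [h2, neg_smul, sub_neg_eq_add, ← sub_eq_add_neg, min_comm]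

theorem inv_of_neg (A : Matrix (Fin n) (Fin n) F)
    (h : ¬ ∃ s : F, s ≠ 0 ∧ A * A = (s * s) • (1 : Matrix (Fin n) (Fin n) F)) : inv A = 0 := by
  rw [inv, dif_neg h]

theorem rank_smul' (μ : F) (hμ : μ ≠ 0) (A : Matrix (Fin n) (Fin n) F) : (μ • A).rank = A.rank := by
  have h : μ • A = (μ • (1 : Matrix (Fin n) (Fin n) F)) * A := by simp [Matrix.smul_mul]
  rw [h]
  refine Matrix.rank_mul_eq_right_of_isUnit_det _ _ ?_
  rw [Matrix.det_smul, det_one, mul_one]
  exact (pow_ne_zero _ hμ).isUnit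

theorem inv_scale (hn : 0 < n) (μ : F) (hμ : μ ≠ 0) (A : Matrix (Fin n) (Fin n) F) : inv (μ • A) = inv A := by
  by_cases h : ∃ s : F, s ≠ 0 ∧ A * A = (s * s) • (1 : Matrix (Fin n) (Fin n) F)
  · obtain ⟨s, hs, hA⟩ := h
    have h2 : (μ • A) * (μ • A) = ((μ * s) * (μ * s)) • (1 : Matrix (Fin n) (Fin n) F) := by
      rw [Matrix.smul_mul, Matrix.mul_smul, hA, smul_smul, smul_smul]
      congr 1
      ring
    rw [inv_eq hn _ (μ * s) (mul_ne_zero hμ hs) h2, inv_eq hn A s hs hA]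
    have h3 : μ • A - (μ * s) • (1 : Matrix (Fin n) (Fin n) F) = μ • (A - s • 1) := by rw [smul_sub, smul_smul]
    have h4 : μ • A + (μ * s) • (1 : Matrix (Fin n) (Fin n) F) = μ • (A + s • 1) := by rw [smul_add, smul_smul]
    rw [h3, h4, rank_smul' _ hμ, rank_smul' _ hμ]
  · have h' : ¬ ∃ s : F, s ≠ 0 ∧ (μ • A) * (μ • A) = (s * s) • (1 : Matrix (Fin n) (Fin n) F) := by
      rintro ⟨s, hs, hA⟩
      apply h
      refine ⟨μ⁻¹ * s, mul_ne_zero (inv_ne_zero hμ) hs, ?_⟩
      have h5 : (μ * μ) • (A * A) = (s * s) • (1 : Matrix (Fin n) (Fin n) F) := by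
        rw [← hA, Matrix.smul_mul, Matrix.mul_smul, smul_smul]
      calc A * A = (μ * μ)⁻¹ • ((μ * μ) • (A * A)) := by
            rw [smul_smul, inv_mul_cancel₀ (mul_ne_zero hμ hμ), one_smul]
        _ = _ := by
            rw [h5, smul_smul]
            congr 1
            field_simp
    rw [inv_of_neg _ h, inv_of_neg _ h']

theorem inv_conj (hn : 0 < n) (c : GL (Fin n) F) (A B : Matrix (Fin n) (Fin n) F)
    (h : (c : Matrix (Fin n) (Fin n) F) * A = B * (c : Matrix (Fin n) (Fin n) F)) : inv A = inv B := by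
  have hdet : IsUnit (c : Matrix (Fin n) (Fin n) F).det := (Matrix.isUnit_iff_isUnit_det _).1 c.isUnit
  have hAA : (c : Matrix (Fin n) (Fin n) F) * (A * A) = (B * B) * (c : Matrix (Fin n) (Fin n) F) := by
    rw [← mul_assoc, h, mul_assoc, h, mul_assoc]
  have hsub : ∀ t : F, (B - t • (1 : Matrix (Fin n) (Fin n) F)).rank = (A - t • (1 : Matrix (Fin n) (Fin n) F)).rank := by
    intro t
    have h1 : (c : Matrix (Fin n) (Fin n) F) * (A - t • 1) = (B - t • 1) * (c : Matrix (Fin n) (Fin n) F) := by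
      rw [mul_sub, sub_mul, h]
      simp [Matrix.smul_mul, Matrix.mul_smul]
    rw [← Matrix.rank_mul_eq_left_of_isUnit_det _ (B - t • 1) hdet, ← h1,
      Matrix.rank_mul_eq_right_of_isUnit_det _ _ hdet]
  have hadd : ∀ t : F, (B + t • (1 : Matrix (Fin n) (Fin n) F)).rank = (A + t • (1 : Matrix (Fin n) (Fin n) F)).rank := by
    intro t
    have h1 : (c : Matrix (Fin n) (Fin n) F) * (A + t • 1) = (B + t • 1) * (c : Matrix (Fin n) (Fin n) F) := by
      rw [mul_add, add_mul, h]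
      simp [Matrix.smul_mul, Matrix.mul_smul]
    rw [← Matrix.rank_mul_eq_left_of_isUnit_det _ (B + t • 1) hdet, ← h1,
      Matrix.rank_mul_eq_right_of_isUnit_det _ _ hdet]
  have hiff : ∀ t : F, A * A = t • (1 : Matrix (Fin n) (Fin n) F) ↔ B * B = t • (1 : Matrix (Fin n) (Fin n) F) := by
    intro t
    constructor
    · intro hh
      rw [hh] at hAA
      have h3 : (B * B) * ((c : Matrix (Fin n) (Fin n) F) * (↑c⁻¹ : Matrix (Fin n) (Fin n) F)) =
          ((c : Matrix (Fin n) (Fin n) F) * (t • 1)) * (↑c⁻¹ : Matrix (Fin n) (Fin n) F) := by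
        rw [hAA]
        simp only [mul_assoc]
      rw [← Units.val_mul, mul_inv_cancel, Units.val_one, mul_one, Matrix.mul_smul, mul_one, Matrix.smul_mul,
        ← Units.val_mul, mul_inv_cancel, Units.val_one] at h3
      exact h3
    · intro hh
      rw [hh] at hAA
      have h3 : ((↑c⁻¹ : Matrix (Fin n) (Fin n) F) * (c : Matrix (Fin n) (Fin n) F)) * (A * A) =
          (↑c⁻¹ : Matrix (Fin n) (Fin n) F) * ((t • 1) * (c : Matrix (Fin n) (Fin n) F)) := by
        rw [← hAA, mul_assoc]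
      rw [← Units.val_mul, inv_mul_cancel, Units.val_one, one_mul, Matrix.smul_mul, one_mul, Matrix.mul_smul,
        ← Units.val_mul, inv_mul_cancel, Units.val_one] at h3
      exact h3
  by_cases h0 : ∃ s : F, s ≠ 0 ∧ A * A = (s * s) • (1 : Matrix (Fin n) (Fin n) F)
  · obtain ⟨s, hs, hA⟩ := h0
    rw [inv_eq hn A s hs hA, inv_eq hn B s hs ((hiff _).1 hA), hsub, hadd]
  · rw [inv_of_neg _ h0, inv_of_neg]
    rintro ⟨s, hs, hB⟩
    exact h0 ⟨s, hs, (hiff _).2 hB⟩

section Ker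

theorem mem_ker_sub (A : Matrix (Fin n) (Fin n) F) (s : F) (v : Fin n → F) :
    v ∈ LinearMap.ker (A - s • (1 : Matrix (Fin n) (Fin n) F)).mulVecLin ↔ A *ᵥ v = s • v := by
  rw [LinearMap.mem_ker, Matrix.mulVecLin_apply, Matrix.sub_mulVec, Matrix.smul_mulVec, Matrix.one_mulVec, sub_eq_zero]

theorem mem_ker_add (A : Matrix (Fin n) (Fin n) F) (s : F) (v : Fin n → F) :
    v ∈ LinearMap.ker (A + s • (1 : Matrix (Fin n) (Fin n) F)).mulVecLin ↔ A *ᵥ v = -(s • v) := by
  rw [LinearMap.mem_ker, Matrix.mulVecLin_apply, Matrix.add_mulVec, Matrix.smul_mulVec, Matrix.one_mulVec,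
    add_eq_zero_iff_eq_neg]

theorem isCompl_ker (h2 : (2 : F) ≠ 0) (A : Matrix (Fin n) (Fin n) F) (s : F) (hs : s ≠ 0)
    (hA : A * A = (s * s) • (1 : Matrix (Fin n) (Fin n) F)) :
    IsCompl (LinearMap.ker (A - s • (1 : Matrix (Fin n) (Fin n) F)).mulVecLin)
      (LinearMap.ker (A + s • (1 : Matrix (Fin n) (Fin n) F)).mulVecLin) := by
  have h2s : 2 * s ≠ 0 := mul_ne_zero h2 hs
  constructor
  · rw [Submodule.disjoint_def]
    intro v h1 h3
    rw [mem_ker_sub] at h1
    rw [mem_ker_add] at h3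
    have h4 : (2 * s) • v = 0 := by
      have h5 : s • v = -(s • v) := h1.symm.trans h3
      rw [two_mul, add_smul]
      nth_rw 1 [h5]
      simp
    exact (smul_eq_zero.1 h4).resolve_left h2s
  · rw [codisjoint_iff, eq_top_iff]
    intro v _
    rw [Submodule.mem_sup]
    have hAA : ∀ w, A *ᵥ (A *ᵥ w) = (s * s) • w := by
      intro w
      rw [Matrix.mulVec_mulVec, hA, Matrix.smul_mulVec, Matrix.one_mulVec]
    refine ⟨(2 * s)⁻¹ • (s • v + A *ᵥ v), ?_, (2 * s)⁻¹ • (s • v - A *ᵥ v), ?_, ?_⟩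
    · rw [mem_ker_sub, Matrix.mulVec_smul, Matrix.mulVec_add, Matrix.mulVec_smul, hAA]
      module
    · rw [mem_ker_add, Matrix.mulVec_smul, Matrix.mulVec_sub, Matrix.mulVec_smul, hAA]
      module
    · rw [← smul_add]
      have h5 : s • v + A *ᵥ v + (s • v - A *ᵥ v) = (2 * s) • v := by module
      rw [h5, smul_smul, inv_mul_cancel₀ h2s, one_smul]

theorem ker_rank (M : Matrix (Fin n) (Fin n) F) : M.rank + finrank F (LinearMap.ker M.mulVecLin) = n := by
  have h1 := LinearMap.finrank_range_add_finrank_ker M.mulVecLin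
  rw [Module.finrank_fin_fun] at h1
  exact h1

theorem rank_sum (h2 : (2 : F) ≠ 0) (A : Matrix (Fin n) (Fin n) F) (s : F) (hs : s ≠ 0)
    (hA : A * A = (s * s) • (1 : Matrix (Fin n) (Fin n) F)) :
    (A - s • (1 : Matrix (Fin n) (Fin n) F)).rank + (A + s • (1 : Matrix (Fin n) (Fin n) F)).rank = n := by
  have h1 := Submodule.finrank_add_eq_of_isCompl (isCompl_ker h2 A s hs hA)
  rw [Module.finrank_fin_fun] at h1
  have h3 := ker_rank (A - s • (1 : Matrix (Fin n) (Fin n) F))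
  have h4 := ker_rank (A + s • (1 : Matrix (Fin n) (Fin n) F))
  omega

theorem conj_of_rank [Fintype F] (h2 : (2 : F) ≠ 0) (A B : Matrix (Fin n) (Fin n) F) (s : F) (hs : s ≠ 0)
    (hA : A * A = (s * s) • (1 : Matrix (Fin n) (Fin n) F))
    (hB : B * B = (s * s) • (1 : Matrix (Fin n) (Fin n) F))
    (hr : (A - s • (1 : Matrix (Fin n) (Fin n) F)).rank = (B - s • (1 : Matrix (Fin n) (Fin n) F)).rank)
    (hr' : (A + s • (1 : Matrix (Fin n) (Fin n) F)).rank = (B + s • (1 : Matrix (Fin n) (Fin n) F)).rank) :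
    ∃ P : GL (Fin n) F, (P : Matrix (Fin n) (Fin n) F) * A = B * (P : Matrix (Fin n) (Fin n) F) := by
  classical
  have hcA := isCompl_ker h2 A s hs hA
  have hcB := isCompl_ker h2 B s hs hB
  have d1 : finrank F (LinearMap.ker (A - s • (1 : Matrix (Fin n) (Fin n) F)).mulVecLin) =
      finrank F (LinearMap.ker (B - s • (1 : Matrix (Fin n) (Fin n) F)).mulVecLin) := by
    have h3 := ker_rank (A - s • (1 : Matrix (Fin n) (Fin n) F))
    have h4 := ker_rank (B - s • (1 : Matrix (Fin n) (Fin n) F))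
    omega
  have d2 : finrank F (LinearMap.ker (A + s • (1 : Matrix (Fin n) (Fin n) F)).mulVecLin) =
      finrank F (LinearMap.ker (B + s • (1 : Matrix (Fin n) (Fin n) F)).mulVecLin) := by
    have h3 := ker_rank (A + s • (1 : Matrix (Fin n) (Fin n) F))
    have h4 := ker_rank (B + s • (1 : Matrix (Fin n) (Fin n) F))
    omega
  let e₁ := LinearEquiv.ofFinrankEq _ _ d1
  let e₂ := LinearEquiv.ofFinrankEq _ _ d2
  let E := (Submodule.prodEquivOfIsCompl _ _ hcA).symm ≪≫ₗ (e₁.prodCongr e₂) ≪≫ₗ Submodule.prodEquivOfIsCompl _ _ hcB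
  have hE : ∀ a b, E (Submodule.prodEquivOfIsCompl _ _ hcA (a, b)) = ((e₁ a : Fin n → F) + (e₂ b : Fin n → F)) := by
    intro a b
    simp only [E, LinearEquiv.trans_apply, LinearEquiv.symm_apply_apply, LinearEquiv.prodCongr_apply]
    rw [Submodule.coe_prodEquivOfIsCompl']
  obtain ⟨P, hP, -⟩ := CfsgLib.H9.SemisMat.exists_gl A B E (by
    intro v
    obtain ⟨⟨x, y⟩, rfl⟩ := (Submodule.prodEquivOfIsCompl _ _ hcA).surjective v
    rw [hE, CfsgLib.H9.SemisMat.lin_apply, CfsgLib.H9.SemisMat.lin_apply]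
    have hx := (mem_ker_sub A s x).1 x.2
    have hy := (mem_ker_add A s y).1 y.2
    have hx' := (mem_ker_sub B s _).1 (e₁ x).2
    have hy' := (mem_ker_add B s _).1 (e₂ y).2
    have h3 : A *ᵥ (Submodule.prodEquivOfIsCompl _ _ hcA (x, y)) = Submodule.prodEquivOfIsCompl _ _ hcA (s • x, -(s • y)) := by
      simp [Submodule.coe_prodEquivOfIsCompl', Matrix.mulVec_add, hx, hy]
    rw [h3, hE, Matrix.mulVec_add, hx', hy']
    simp)
  exact ⟨P, hP⟩

end Ker

section Sq

theorem charpoly_of_sq (hn : 0 < n) (A : Matrix (Fin n) (Fin n) F) (c : F)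
    (hA : A * A = c • (1 : Matrix (Fin n) (Fin n) F)) (hc : ¬ IsSquare c) :
    A.charpoly = (X ^ 2 - C c) ^ (n / 2) := by
  classical
  have hirr : Irreducible (X ^ 2 - C c : F[X]) :=
    X_pow_sub_C_irreducible_of_prime Nat.prime_two (fun b hb => hc ⟨b, by rw [← hb]; ring⟩)
  have hmon : (X ^ 2 - C c : F[X]).Monic := monic_X_pow_sub_C c two_ne_zero
  have hdvd : A.charpoly ∣ (X ^ 2 - C c : F[X]) ^ n := by
    let N : Matrix (Fin n) (Fin n) F[X] := (C : F →+* F[X]).mapMatrix A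
    have hNN : N * N = (C c) • (1 : Matrix (Fin n) (Fin n) F[X]) := by
      change (C : F →+* F[X]).mapMatrix A * (C : F →+* F[X]).mapMatrix A = _
      rw [← map_mul, hA]
      ext i j
      by_cases hij : i = j
      · subst hij
        simp
      · simp [Matrix.one_apply, hij]
    have h1 : A.charmatrix = Matrix.scalar (Fin n) (X : F[X]) - N := rfl
    have h3 : A.charmatrix * (Matrix.scalar (Fin n) (X : F[X]) + N) = (X ^ 2 - C c : F[X]) • (1 : Matrix (Fin n) (Fin n) F[X]) := by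
      rw [h1, mul_add, sub_mul, sub_mul, hNN, Matrix.scalar_apply]
      have hcomm : N * Matrix.diagonal (fun _ => (X : F[X])) = Matrix.diagonal (fun _ => (X : F[X])) * N := by
        ext i j
        simp [Matrix.mul_diagonal, Matrix.diagonal_mul, mul_comm]
      rw [hcomm]
      rw [Matrix.diagonal_mul_diagonal]
      ext i j
      by_cases hij : i = j
      · subst hij
        simp [pow_two, sub_mul]
      · simp [Matrix.one_apply, hij, Matrix.diagonal]
    refine ⟨(Matrix.scalar (Fin n) (X : F[X]) + N).det, ?_⟩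
    rw [Matrix.charpoly, ← Matrix.det_mul, h3, Matrix.det_smul, det_one, mul_one, Fintype.card_fin]
  obtain ⟨i, -, hi⟩ := (dvd_prime_pow hirr.prime n).1 hdvd
  have h5 := eq_of_monic_of_associated (Matrix.charpoly_monic A) (hmon.pow i) hi
  have h6 := Matrix.charpoly_natDegree_eq_dim A
  rw [h5, natDegree_pow, natDegree_X_pow_sub_C, Fintype.card_fin] at h6
  have h7 : n / 2 = i := by omega
  rw [h5, h7]

end Sq

section Quot

theorem mem_center_iff' (x : GL (Fin n) F) :
    x ∈ Subgroup.center (GL (Fin n) F) ↔ ∃ μ : F, μ ≠ 0 ∧ (x : Matrix (Fin n) (Fin n) F) = μ • 1 := by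
  constructor
  · intro h
    rw [GeneralLinearGroup.center_eq_range_scalar] at h
    obtain ⟨u, rfl⟩ := h
    refine ⟨u, u.ne_zero, ?_⟩
    rw [GeneralLinearGroup.coe_scalar, Matrix.scalar_apply, Matrix.smul_one_eq_diagonal]
  · rintro ⟨μ, -, h⟩
    rw [Subgroup.mem_center_iff]
    intro y
    apply Units.ext
    simp only [Units.val_mul, h]
    rw [Matrix.smul_mul, Matrix.mul_smul, one_mul, mul_one]

theorem mk_eq_iff (x y : GL (Fin n) F) :
    (QuotientGroup.mk x : GL (Fin n) F ⧸ Subgroup.center (GL (Fin n) F)) = QuotientGroup.mk y ↔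
      ∃ μ : F, μ ≠ 0 ∧ (y : Matrix (Fin n) (Fin n) F) = μ • (x : Matrix (Fin n) (Fin n) F) := by
  rw [QuotientGroup.eq, mem_center_iff']
  constructor
  · rintro ⟨μ, hμ, h⟩
    refine ⟨μ, hμ, ?_⟩
    have h1 : (y : Matrix (Fin n) (Fin n) F) = (x : Matrix (Fin n) (Fin n) F) * ((x⁻¹ * y : GL (Fin n) F) : Matrix (Fin n) (Fin n) F) := by
      rw [← Units.val_mul, mul_inv_cancel_left]
    rw [h1, h, Matrix.mul_smul, mul_one]
  · rintro ⟨μ, hμ, h⟩
    refine ⟨μ, hμ, ?_⟩
    rw [Units.val_mul, h, Matrix.mul_smul, ← Units.val_mul, inv_mul_cancel, Units.val_one]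

/-- The invariant on the quotient. -/
noncomputable def phi (g : GL (Fin n) F ⧸ Subgroup.center (GL (Fin n) F)) : ℕ :=
  inv ((Quotient.out g : GL (Fin n) F) : Matrix (Fin n) (Fin n) F)

theorem phi_mk (hn : 0 < n) (x : GL (Fin n) F) :
    phi (QuotientGroup.mk x : GL (Fin n) F ⧸ Subgroup.center (GL (Fin n) F)) = inv (x : Matrix (Fin n) (Fin n) F) := by
  have h1 := QuotientGroup.out_eq' (QuotientGroup.mk x : GL (Fin n) F ⧸ Subgroup.center (GL (Fin n) F))
  obtain ⟨μ, hμ, h⟩ := (mk_eq_iff _ _).1 h1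
  rw [h, inv_scale hn μ hμ]
  rfl

theorem phi_conj (hn : 0 < n) (g h : GL (Fin n) F ⧸ Subgroup.center (GL (Fin n) F)) (hc : IsConj g h) :
    phi g = phi h := by
  obtain ⟨x, rfl⟩ := QuotientGroup.mk_surjective g
  obtain ⟨y, rfl⟩ := QuotientGroup.mk_surjective h
  obtain ⟨c, hc⟩ := isConj_iff.1 hc
  obtain ⟨z, rfl⟩ := QuotientGroup.mk_surjective c
  have h1 : (QuotientGroup.mk (z * x * z⁻¹) : GL (Fin n) F ⧸ Subgroup.center (GL (Fin n) F)) = QuotientGroup.mk y := by
    rw [← hc]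
    rfl
  obtain ⟨μ, hμ, h⟩ := (mk_eq_iff _ _).1 h1
  rw [phi_mk hn, phi_mk hn, h, inv_scale hn μ hμ]
  apply inv_conj hn z
  rw [← Units.val_mul, ← Units.val_mul]
  simp

theorem order_two_iff (hn : 0 < n) (x : GL (Fin n) F) :
    orderOf (QuotientGroup.mk x : GL (Fin n) F ⧸ Subgroup.center (GL (Fin n) F)) = 2 ↔
      (∃ c : F, c ≠ 0 ∧ (x : Matrix (Fin n) (Fin n) F) * x = c • 1) ∧
        ¬ ∃ μ : F, μ ≠ 0 ∧ (x : Matrix (Fin n) (Fin n) F) = μ • 1 := by
  have hsq : (QuotientGroup.mk x : GL (Fin n) F ⧸ Subgroup.center (GL (Fin n) F)) ^ 2 = 1 ↔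
      ∃ c : F, c ≠ 0 ∧ (x : Matrix (Fin n) (Fin n) F) * x = c • 1 := by
    rw [← QuotientGroup.mk_pow, QuotientGroup.eq_one_iff, mem_center_iff', pow_two, Units.val_mul]
  have hone : (QuotientGroup.mk x : GL (Fin n) F ⧸ Subgroup.center (GL (Fin n) F)) = 1 ↔
      ∃ μ : F, μ ≠ 0 ∧ (x : Matrix (Fin n) (Fin n) F) = μ • 1 := by
    rw [QuotientGroup.eq_one_iff, mem_center_iff']
  constructor
  · intro h
    refine ⟨hsq.1 (by rw [← h]; exact pow_orderOf_eq_one _), ?_⟩
    intro h3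
    rw [hone.2 h3, orderOf_one] at h
    omega
  · rintro ⟨h1, h3⟩
    haveI : Fact (Nat.Prime 2) := ⟨Nat.prime_two⟩
    exact orderOf_eq_prime (hsq.2 h1) (fun h4 => h3 (hone.1 h4))

end Quot

section Main

variable [Fintype F]

theorem two_ne_zero_of_odd {q : ℕ} (hF : Fintype.card F = q) (hq : Odd q) : (2 : F) ≠ 0 := by
  intro h
  obtain ⟨k, hk⟩ := hq
  have h1 : ((q : ℕ) : F) = 0 := by
    rw [← hF]
    exact Nat.cast_card_eq_zero F
  rw [hk] at h1
  push_cast at h1
  rw [h, zero_mul, zero_add] at h1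
  exact one_ne_zero h1

theorem ringChar_ne (h2 : (2 : F) ≠ 0) : ringChar F ≠ 2 := by
  intro h
  apply h2
  have := ringChar.Nat.cast_ringChar (R := F)
  rw [h] at this
  exact_mod_cast this

theorem rank_eq_zero_imp (M : Matrix (Fin n) (Fin n) F) (h : M.rank = 0) : M = 0 := by
  have h1 : LinearMap.range M.mulVecLin = ⊥ := by
    apply Submodule.finrank_eq_zero.1
    exact h
  have h3 : M.mulVecLin = 0 := LinearMap.range_eq_bot.1 h1
  ext i j
  have h4 := congrFun (LinearMap.congr_fun h3 (Pi.single j 1)) i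
  simpa using h4

/-- A nonzero scalar squared. -/
theorem inv_pos_of (hn : 0 < n) (h2 : (2 : F) ≠ 0) (x : Matrix (Fin n) (Fin n) F) (s : F) (hs : s ≠ 0)
    (hx : x * x = (s * s) • (1 : Matrix (Fin n) (Fin n) F))
    (hns : ¬ ∃ μ : F, μ ≠ 0 ∧ x = μ • 1) : 1 ≤ inv x ∧ inv x ≤ n / 2 := by
  rw [inv_eq hn x s hs hx]
  have h1 := rank_sum h2 x s hs hx
  have h3 : (x - s • (1 : Matrix (Fin n) (Fin n) F)).rank ≠ 0 := by
    intro h4
    apply hns
    refine ⟨s, hs, ?_⟩
    exact sub_eq_zero.1 (rank_eq_zero_imp _ h4)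
  have h4 : (x + s • (1 : Matrix (Fin n) (Fin n) F)).rank ≠ 0 := by
    intro h4
    apply hns
    refine ⟨-s, neg_ne_zero.2 hs, ?_⟩
    rw [neg_smul]
    exact eq_neg_of_add_eq_zero_left (rank_eq_zero_imp _ h4)
  omega

theorem even_of_nonsq (x : Matrix (Fin n) (Fin n) F) (c : F) (hc : c ≠ 0)
    (hx : x * x = c • (1 : Matrix (Fin n) (Fin n) F))
    (hns : ¬ ∃ s : F, s ≠ 0 ∧ x * x = (s * s) • (1 : Matrix (Fin n) (Fin n) F)) : Even n := by
  by_contra hodd
  rw [Nat.not_even_iff_odd] at hodd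
  obtain ⟨k, rfl⟩ := hodd
  apply hns
  have hd : x.det * x.det = c ^ (2 * k + 1) := by
    rw [← Matrix.det_mul, hx, Matrix.det_smul, det_one, mul_one, Fintype.card_fin]
  have hd0 : x.det ≠ 0 := by
    intro h0
    rw [h0, zero_mul] at hd
    exact pow_ne_zero _ hc hd.symm
  refine ⟨x.det / c ^ k, div_ne_zero hd0 (pow_ne_zero _ hc), ?_⟩
  rw [hx]
  congr 1
  rw [div_mul_div_comm, hd]
  field_simp
  ring

/-- Nonsquares differ by a square. -/
theorem nonsq_ratio (h2 : (2 : F) ≠ 0) (c d : F) (hc0 : c ≠ 0) (hd0 : d ≠ 0) (hc : ¬ IsSquare c) (hd : ¬ IsSquare d) :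
    ∃ u : F, u ≠ 0 ∧ c = u * u * d := by
  have hr := ringChar_ne h2
  have h1 : ∀ a : F, a ≠ 0 → ¬ IsSquare a → a ^ (Fintype.card F / 2) = -1 := by
    intro a ha hn
    rcases FiniteField.pow_dichotomy hr ha with h | h
    · exact absurd ((FiniteField.isSquare_iff hr ha).2 h) hn
    · exact h
  have h3 : IsSquare (c / d) := by
    rw [FiniteField.isSquare_iff hr (div_ne_zero hc0 hd0), div_pow, h1 c hc0 hc, h1 d hd0 hd]
    simp
  obtain ⟨u, hu⟩ := h3
  refine ⟨u, ?_, ?_⟩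
  · rintro rfl
    rw [zero_mul] at hu
    exact div_ne_zero hc0 hd0 hu
  · rw [← hu]
    field_simp

/-- Conjugacy from a conjugation up to a scalar. -/
theorem isConj_of (x y P : GL (Fin n) F) (μ : F) (hμ : μ ≠ 0)
    (h : (P : Matrix (Fin n) (Fin n) F) * x = (μ • (y : Matrix (Fin n) (Fin n) F)) * (P : Matrix (Fin n) (Fin n) F)) :
    IsConj (QuotientGroup.mk x : GL (Fin n) F ⧸ Subgroup.center (GL (Fin n) F)) (QuotientGroup.mk y) := by
  rw [isConj_iff]
  refine ⟨QuotientGroup.mk P, ?_⟩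
  have h1 : (QuotientGroup.mk (P * x * P⁻¹) : GL (Fin n) F ⧸ Subgroup.center (GL (Fin n) F)) = QuotientGroup.mk y := by
    symm
    rw [mk_eq_iff]
    refine ⟨μ, hμ, ?_⟩
    rw [Units.val_mul, Units.val_mul, h, mul_assoc, ← Units.val_mul]
    simp
  rw [← h1]
  rfl

theorem hinj_main {q : ℕ} (hF : Fintype.card F = q) (hq : Odd q) (hn : 0 < n)
    (g h : GL (Fin n) F ⧸ Subgroup.center (GL (Fin n) F)) (hg : orderOf g = 2) (hh : orderOf h = 2)
    (hφ : phi g = phi h) : IsConj g h := by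
  classical
  have h2 := two_ne_zero_of_odd hF hq
  obtain ⟨x, rfl⟩ := QuotientGroup.mk_surjective g
  obtain ⟨y, rfl⟩ := QuotientGroup.mk_surjective h
  rw [phi_mk hn, phi_mk hn] at hφ
  obtain ⟨⟨c, hc0, hc⟩, hxs⟩ := (order_two_iff hn x).1 hg
  obtain ⟨⟨d, hd0, hd⟩, hys⟩ := (order_two_iff hn y).1 hh
  by_cases h1 : ∃ s : F, s ≠ 0 ∧ (x : Matrix (Fin n) (Fin n) F) * x = (s * s) • (1 : Matrix (Fin n) (Fin n) F)
  · obtain ⟨s, hs, hxx⟩ := h1
    by_cases h3 : ∃ s : F, s ≠ 0 ∧ (y : Matrix (Fin n) (Fin n) F) * y = (s * s) • (1 : Matrix (Fin n) (Fin n) F)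
    · obtain ⟨t, ht, hyy⟩ := h3
      -- normalise `y`
      have hμ : s / t ≠ 0 := div_ne_zero hs ht
      set y' : Matrix (Fin n) (Fin n) F := (s / t) • (y : Matrix (Fin n) (Fin n) F) with hy'
      have hyy' : y' * y' = (s * s) • (1 : Matrix (Fin n) (Fin n) F) := by
        rw [hy', Matrix.smul_mul, Matrix.mul_smul, hyy, smul_smul, smul_smul]
        congr 1
        field_simp
      have hφ' : inv (x : Matrix (Fin n) (Fin n) F) = inv y' := by
        rw [hy', inv_scale hn _ hμ, hφ]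
      rw [inv_eq hn _ s hs hxx, inv_eq hn _ s hs hyy'] at hφ'
      have hr1 := rank_sum h2 _ s hs hxx
      have hr2 := rank_sum h2 _ s hs hyy'
      by_cases hcase : (x - s • (1 : Matrix (Fin n) (Fin n) F) : Matrix (Fin n) (Fin n) F).rank = (y' - s • (1 : Matrix (Fin n) (Fin n) F)).rank
      · obtain ⟨P, hP⟩ := conj_of_rank h2 _ _ s hs hxx hyy' hcase (by omega)
        exact isConj_of x y P _ hμ hP
      · have hneg : (-y') * (-y') = (s * s) • (1 : Matrix (Fin n) (Fin n) F) := by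
          rw [neg_mul_neg, hyy']
        have hn1 : (-y' - s • (1 : Matrix (Fin n) (Fin n) F)).rank = (y' + s • (1 : Matrix (Fin n) (Fin n) F)).rank := by
          have : -y' - s • (1 : Matrix (Fin n) (Fin n) F) = (-1 : F) • (y' + s • (1 : Matrix (Fin n) (Fin n) F)) := by
            simp [smul_add, sub_eq_add_neg]
          rw [this, rank_smul' _ (neg_ne_zero.2 one_ne_zero)]
        have hn2 : (-y' + s • (1 : Matrix (Fin n) (Fin n) F)).rank = (y' - s • (1 : Matrix (Fin n) (Fin n) F)).rank := by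
          have : -y' + s • (1 : Matrix (Fin n) (Fin n) F) = (-1 : F) • (y' - s • (1 : Matrix (Fin n) (Fin n) F)) := by
            simp [smul_sub, sub_eq_add_neg, add_comm]
          rw [this, rank_smul' _ (neg_ne_zero.2 one_ne_zero)]
        obtain ⟨P, hP⟩ := conj_of_rank h2 _ _ s hs hxx hneg (by omega) (by omega)
        refine isConj_of x y P (-(s / t)) (neg_ne_zero.2 hμ) ?_
        rw [hP, neg_smul]
    · have h4 := inv_pos_of hn h2 _ s hs hxx hxs
      rw [hφ, inv_of_neg _ h3] at h4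
      omega
  · by_cases h3 : ∃ s : F, s ≠ 0 ∧ (y : Matrix (Fin n) (Fin n) F) * y = (s * s) • (1 : Matrix (Fin n) (Fin n) F)
    · obtain ⟨s, hs, hyy⟩ := h3
      have h4 := inv_pos_of hn h2 _ s hs hyy hys
      rw [← hφ, inv_of_neg _ h1] at h4
      omega
    · -- both nonsquare
      have hcns : ¬ IsSquare c := by
        rintro ⟨s, hs⟩
        apply h1
        refine ⟨s, ?_, ?_⟩
        · rintro rfl
          rw [mul_zero] at hs
          exact hc0 hs
        · rw [hc, hs]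
      have hdns : ¬ IsSquare d := by
        rintro ⟨s, hs⟩
        apply h3
        refine ⟨s, ?_, ?_⟩
        · rintro rfl
          rw [mul_zero] at hs
          exact hd0 hs
        · rw [hd, hs]
      obtain ⟨u, hu0, hu⟩ := nonsq_ratio h2 c d hc0 hd0 hcns hdns
      set y' : Matrix (Fin n) (Fin n) F := u • (y : Matrix (Fin n) (Fin n) F) with hy'
      have hyy' : y' * y' = c • (1 : Matrix (Fin n) (Fin n) F) := by
        rw [hy', Matrix.smul_mul, Matrix.mul_smul, hd, smul_smul, smul_smul, hu]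
      have hcp : (x : Matrix (Fin n) (Fin n) F).charpoly = y'.charpoly := by
        rw [charpoly_of_sq hn _ c hc hcns, charpoly_of_sq hn _ c hyy' hcns]
      obtain ⟨p, hp⟩ := CharP.exists F
      haveI hpp : Fact p.Prime := ⟨CharP.char_is_prime F p⟩
      have hqp : p ∣ q := by
        rw [← hF]
        exact (CharP.cast_eq_zero_iff F p _).1 (Nat.cast_card_eq_zero F)
      have hq1 : 1 < q := by
        rw [← hF]
        exact Fintype.one_lt_card
      have hcop : (2 * (q - 1)).Coprime p := by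
        rw [Nat.coprime_comm, Nat.Prime.coprime_iff_not_dvd hpp.out]
        intro h5
        rcases (Nat.Prime.dvd_mul hpp.out).1 h5 with h6 | h6
        · have h7 : p = 2 := (Nat.prime_dvd_prime_iff_eq hpp.out Nat.prime_two).1 h6
          rw [h7] at hqp
          exact (Nat.not_even_iff_odd.2 hq) (even_iff_two_dvd.2 hqp)
        · have h7 : p ∣ 1 := by
            have := Nat.dvd_sub hqp h6
            rwa [show q - (q - 1) = 1 by omega] at this
          exact hpp.out.one_lt.ne' (Nat.dvd_one.1 h7)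
      have hpow : ∀ A : Matrix (Fin n) (Fin n) F, A * A = c • (1 : Matrix (Fin n) (Fin n) F) → A ^ (2 * (q - 1)) = 1 := by
        intro A hA
        rw [pow_mul, pow_two, hA, _root_.smul_pow, one_pow, ← hF, FiniteField.pow_card_sub_one_eq_one c hc0, one_smul]
      obtain ⟨P, hP⟩ := CfsgLib.H9.SemisMat.conj_gl p _ _ (2 * (q - 1)) (2 * (q - 1)) (by omega) (by omega) hcop hcop
        (hpow _ hc) (hpow _ hyy') hcp
      exact isConj_of x y P u hu0 hP

theorem hsurj_pos {q : ℕ} (hF : Fintype.card F = q) (hq : Odd q) (hn : 2 ≤ n) (a : ℕ) (ha1 : 1 ≤ a) (ha2 : a ≤ n / 2) :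
    ∃ g : GL (Fin n) F ⧸ Subgroup.center (GL (Fin n) F), orderOf g = 2 ∧ phi g = a := by
  classical
  have h2 := two_ne_zero_of_odd hF hq
  have hn0 : 0 < n := by omega
  let d : Fin n → F := fun i => if (i : ℕ) < a then -1 else 1
  have hdd : ∀ i, d i * d i = 1 := by
    intro i
    simp only [d]
    split_ifs <;> simp
  have hD : Matrix.diagonal d * Matrix.diagonal d = 1 := by
    rw [Matrix.diagonal_mul_diagonal, ← Matrix.diagonal_one]
    congr 1
    funext i
    exact hdd i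
  let x : GL (Fin n) F := ⟨Matrix.diagonal d, Matrix.diagonal d, hD, hD⟩
  have hx : (x : Matrix (Fin n) (Fin n) F) = Matrix.diagonal d := rfl
  have hxx : (x : Matrix (Fin n) (Fin n) F) * x = ((1 : F) * 1) • (1 : Matrix (Fin n) (Fin n) F) := by
    rw [hx, hD]
    simp
  have hr : ((x : Matrix (Fin n) (Fin n) F) - (1 : F) • (1 : Matrix (Fin n) (Fin n) F)).rank = a := by
    have h3 : (x : Matrix (Fin n) (Fin n) F) - (1 : F) • (1 : Matrix (Fin n) (Fin n) F) = Matrix.diagonal (fun i => d i - 1) := by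
      rw [hx, one_smul, ← Matrix.diagonal_one, Matrix.diagonal_sub]
    rw [h3, Matrix.rank_diagonal]
    have h4 : Fintype.card {i : Fin n // d i - 1 ≠ 0} = Fintype.card {i : Fin n // (i : ℕ) < a} := by
      apply Fintype.card_congr
      apply Equiv.subtypeEquivRight
      intro i
      simp only [d]
      split_ifs with h5
      · simp only [h5, iff_true]
        intro h6
        apply h2
        have h7 : (-1 : F) - 1 = -2 := by ring
        rw [h7] at h6
        exact neg_eq_zero.1 h6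
      · simp [h5]
    rw [h4]
    have hle : a ≤ n := by omega
    rw [Fintype.card_subtype]
    have h5 : (Finset.univ.filter fun i : Fin n => (i : ℕ) < a) = (Finset.univ.filter fun i : Fin n => (i : ℕ) < a) := rfl
    have h6 := Fin.card_filter_val_lt (n := n) (m := a)
    rw [h6]
    omega
  have hs := rank_sum h2 _ (1 : F) one_ne_zero hxx
  have hord : (¬ ∃ μ : F, μ ≠ 0 ∧ (x : Matrix (Fin n) (Fin n) F) = μ • 1) := by
    rintro ⟨μ, hμ, h3⟩
    have h4 := congrFun (congrFun h3 ⟨0, hn0⟩) ⟨0, hn0⟩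
    have h5 := congrFun (congrFun h3 ⟨n - 1, by omega⟩) ⟨n - 1, by omega⟩
    have h6 : (0 : ℕ) < a := by omega
    have h7 : ¬ (n - 1 < a) := by omega
    simp [hx, d, h6, h7] at h4 h5
    rw [← h5] at h4
    apply h2
    have h8 : (2 : F) = 1 + 1 := by norm_num
    rw [h8]
    nth_rw 1 [← h4]
    simp
  refine ⟨QuotientGroup.mk x, (order_two_iff hn0 x).2 ⟨⟨(1 : F) * 1, by simp, hxx⟩, hord⟩, ?_⟩
  rw [phi_mk hn0, inv_eq hn0 _ 1 one_ne_zero hxx]
  omega

theorem hsurj_zero {q : ℕ} (hF : Fintype.card F = q) (hq : Odd q) (hn : 2 ≤ n) (he : Even n) :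
    ∃ g : GL (Fin n) F ⧸ Subgroup.center (GL (Fin n) F), orderOf g = 2 ∧ phi g = 0 := by
  classical
  have h2 := two_ne_zero_of_odd hF hq
  have hn0 : 0 < n := by omega
  obtain ⟨c, hc⟩ := FiniteField.exists_nonsquare (ringChar_ne h2)
  have hc0 : c ≠ 0 := by
    rintro rfl
    exact hc (IsSquare.zero)
  obtain ⟨m, rfl⟩ := he
  let R : Matrix (Fin m ⊕ Fin m) (Fin m ⊕ Fin m) F ≃ₐ[F] Matrix (Fin (m + m)) (Fin (m + m)) F :=
    Matrix.reindexAlgEquiv F F finSumFinEquiv
  let W : Matrix (Fin m ⊕ Fin m) (Fin m ⊕ Fin m) F :=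
    Matrix.fromBlocks 0 1 (c • 1) 0
  have hX : W * W = c • 1 := by
    simp only [W]
    rw [Matrix.fromBlocks_multiply]
    simp only [zero_mul, mul_zero, add_zero, zero_add, one_mul, mul_one]
    rw [← Matrix.fromBlocks_one, Matrix.fromBlocks_smul]
    simp
  have hY : R W * R W = c • (1 : Matrix (Fin (m + m)) (Fin (m + m)) F) := by
    rw [← map_mul, hX, map_smul, map_one]
  have hY1 : R W * (c⁻¹ • R W) = 1 := by
    rw [Matrix.mul_smul, hY, smul_smul, inv_mul_cancel₀ hc0, one_smul]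
  have hY2 : (c⁻¹ • R W) * R W = 1 := by
    rw [Matrix.smul_mul, hY, smul_smul, inv_mul_cancel₀ hc0, one_smul]
  let x : GL (Fin (m + m)) F := ⟨R W, c⁻¹ • R W, hY1, hY2⟩
  have hx : (x : Matrix (Fin (m + m)) (Fin (m + m)) F) = R W := rfl
  have hnots : ¬ ∃ s : F, s ≠ 0 ∧ (x : Matrix (Fin (m + m)) (Fin (m + m)) F) * x = (s * s) • (1 : Matrix (Fin (m + m)) (Fin (m + m)) F) := by
    rintro ⟨s, -, hs⟩
    rw [hx, hY] at hs
    exact hc ⟨s, scalar_inj hn0 hs⟩
  have hns : ¬ ∃ μ : F, μ ≠ 0 ∧ (x : Matrix (Fin (m + m)) (Fin (m + m)) F) = μ • 1 := by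
    rintro ⟨μ, hμ, h3⟩
    apply hnots
    refine ⟨μ, hμ, ?_⟩
    rw [h3, Matrix.smul_mul, Matrix.mul_smul, one_mul, smul_smul]
  refine ⟨QuotientGroup.mk x, (order_two_iff hn0 x).2 ⟨⟨c, hc0, hY⟩, hns⟩, ?_⟩
  rw [phi_mk hn0, inv_of_neg _ hnots]

theorem main_2577 {q : ℕ} (hF : Fintype.card F = q) (hq : Odd q) (hn : 2 ≤ n) :
    Nat.card {C : ConjClasses (GL (Fin n) F ⧸ Subgroup.center (GL (Fin n) F)) //
      ∃ g : GL (Fin n) F ⧸ Subgroup.center (GL (Fin n) F), ConjClasses.mk g = C ∧ orderOf g = 2} =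
      n / 2 + (if Even n then 1 else 0) := by
  classical
  have hn0 : 0 < n := by omega
  have h2 := two_ne_zero_of_odd hF hq
  let Q : Set ℕ := {a | (1 ≤ a ∧ a ≤ n / 2) ∨ (a = 0 ∧ Even n)}
  have h1 := CfsgLib.H9.SemisCount.card_classes (G := GL (Fin n) F ⧸ Subgroup.center (GL (Fin n) F)) phi
    (fun g => orderOf g = 2) Q (phi_conj hn0) (fun g h hg hh hφ => hinj_main hF hq hn0 g h hg hh hφ)
    (by
      rintro a (⟨ha1, ha2⟩ | ⟨rfl, he⟩)
      · exact hsurj_pos hF hq hn a ha1 ha2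
      · exact hsurj_zero hF hq hn he)
    (by
      intro g hg
      obtain ⟨x, rfl⟩ := QuotientGroup.mk_surjective g
      obtain ⟨⟨c, hc0, hc⟩, hxs⟩ := (order_two_iff hn0 x).1 hg
      rw [phi_mk hn0]
      by_cases h3 : ∃ s : F, s ≠ 0 ∧ (x : Matrix (Fin n) (Fin n) F) * x = (s * s) • (1 : Matrix (Fin n) (Fin n) F)
      · obtain ⟨s, hs, hxx⟩ := h3
        exact Or.inl (inv_pos_of hn0 h2 _ s hs hxx hxs)
      · right
        exact ⟨inv_of_neg _ h3, even_of_nonsq _ c hc0 hc h3⟩)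
  rw [h1]
  by_cases he : Even n
  · rw [if_pos he]
    have hQ : Q = ↑(Finset.range (n / 2 + 1)) := by
      ext a
      simp only [Q, Set.mem_ofPred_eq, Finset.coe_range, Set.mem_Iio]
      constructor
      · rintro (⟨_, h⟩ | ⟨rfl, _⟩) <;> omega
      · intro h
        by_cases ha : a = 0
        · exact Or.inr ⟨ha, he⟩
        · exact Or.inl ⟨by omega, by omega⟩
    rw [hQ, Nat.card_coe_set_eq, Set.ncard_coe_finset, Finset.card_range]
  · rw [if_neg he]
    have hQ : Q = ↑(Finset.Icc 1 (n / 2)) := by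
      ext a
      simp only [Q, Set.mem_ofPred_eq, Finset.coe_Icc, Set.mem_Icc]
      constructor
      · rintro (h | ⟨_, h⟩)
        · exact h
        · exact absurd h he
      · exact Or.inl
    rw [hQ, Nat.card_coe_set_eq, Set.ncard_coe_finset, Nat.card_Icc]
    omega

end Main

end CfsgLib.H9.PGLInvol
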