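import Mathlib
import Cfsg.Agent.Lib.H9.PSLId6

/-! Simple groups of order 660 and 1092. -/

set_option autoImplicit false
set_option linter.unusedVariables false
set_option linter.unusedSectionVars false
set_option linter.unusedSimpArgs false
set_option linter.style.haveILetI false

namespace CfsgLib.H9.PSLId

open Equiv

instance fact11 : Fact (Nat.Prime 11) := ⟨by norm_num⟩
instance fact13 : Fact (Nat.Prime 13) := ⟨by norm_num⟩

/-! ### `p = 11` -/

/-- Table for `τ`. -/
def T11 (u : ZMod 11) : Om 11 → Om 11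
  | none => some 0
  | some x => if x = 0 then none else if x ^ 5 = 1 then some (u * x) else some (x * u⁻¹)

/-- Check of a word with three fixed points, moving `none`. -/
def chk11 (f : Om 11 → Om 11) (bs : List (ZMod 11)) (y1 y2 y3 : Om 11) : Bool :=
  y1 != y2 && y1 != y3 && y2 != y3 && evalW f bs y1 == y1 && evalW f bs y2 == y2 && evalW f bs y3 == y3 &&
    evalW f bs none != none

set_option maxRecDepth 100000 in
theorem table11 : ∀ u : ZMod 11, u ^ 5 = -1 →
    (u = 2 ∧ chk11 (T11 u) [1, 2, 5] (some 4) (some 5) (some 7) = true) ∨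
    (u = 6 ∧ chk11 (T11 u) [1, 3, 5] (some 0) (some 6) (some 9) = true) ∨
    (u = 7 ∧ chk11 (T11 u) [1, 2, 4] (some 1) (some 2) (some 7) = true) ∨
    (u = 8 ∧ chk11 (T11 u) [1, 2, 6] (some 0) (some 2) (some 3) = true) ∨
    (u = 10 ∧ chk11 (T11 u) [1, 1] (some 1) (some 2) (some 3) = true) := by
  decide +kernel

/-- The commuting case for `p = 11`. -/
theorem comm_eleven (L : Subgroup (Perm (Om 11))) (hL : Good L) (hcard : Nat.card L = (11 + 1) * 11 * 5)
    (τ : Perm (Om 11)) (hτ : τ ∈ L) (hττ : τ * τ = 1) (h0 : τ none = some 0)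
    (h1 : τ (some 0) = none) (hcomm : ∀ a : (ZMod 11)ˣ, a ^ 5 = 1 → τ * mulP a * τ = mulP a) : False := by
  have hA := hL.card_A hcard
  have hd : Odd 5 := by decide
  have h2d : 2 * 5 = 11 - 1 := by norm_num
  obtain ⟨u, hud, hq, hn⟩ := comm_form hL hA hd h2d hτ hττ h0 h1 hcomm
  have hfull : ∀ y, τ y = T11 u y := by
    intro y
    cases y with
    | none => exact h0
    | some x =>
      by_cases hx : x = 0
      · subst hx
        rw [h1]
        rfl
      · simp only [T11, hx, if_false]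
        rcases euler h2d hx with h5 | h5
        · rw [if_pos h5]
          exact hq x hx h5
        · rw [if_neg (by rw [h5]; decide)]
          exact hn x hx h5
  have hword : ∀ bs y, wordP τ bs y = evalW (T11 u) bs y := fun bs y => wordP_apply hfull bs y
  have key : ∀ (bs : List (ZMod 11)) (y1 y2 y3 : Om 11), chk11 (T11 u) bs y1 y2 y3 = true → False := by
    intro bs y1 y2 y3 hchk
    simp only [chk11, Bool.and_eq_true, bne_iff_ne, beq_iff_eq] at hchk
    obtain ⟨⟨⟨⟨⟨⟨h12, h13⟩, h23⟩, f1⟩, f2⟩, f3⟩, hnf⟩ := hchk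
    have h1W := hL.fix3 (wordP_mem hL hτ bs) h12 h13 h23 (by rw [hword, f1]) (by rw [hword, f2]) (by rw [hword, f3])
    apply hnf
    rw [← hword, h1W]
    rfl
  rcases table11 u hud with ⟨-, h⟩ | ⟨-, h⟩ | ⟨-, h⟩ | ⟨-, h⟩ | ⟨-, h⟩ <;> exact key _ _ _ _ h

/-- A simple group of order 660. -/
theorem iso_660 {G : Type*} [Group G] [Finite G] [IsSimpleGroup G] (h : Nat.card G = 660) :
    Nonempty (G ≃* Matrix.ProjectiveSpecialLinearGroup (Fin 2) (ZMod 11)) := by
  have hn : Nat.card (Sylow 11 G) = 11 + 1 := by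
    obtain ⟨h1, h2⟩ := CfsgLib.H9.card_sylow_dvd_cofactor (G := G) (p := 11) (k := 1) (m := 60) (by rw [h]; norm_num) (by norm_num)
    have h3 := CfsgLib.H9.card_sylow_ne_one (G := G) (p := 11) (by rw [h]; norm_num) (by
      intro k hk
      have h4 : 2 ∣ 11 ^ k := by
        rw [← hk, h]
        norm_num
      have h5 := Nat.Prime.dvd_of_dvd_pow Nat.prime_two h4
      norm_num at h5)
    have h6 := Nat.le_of_dvd (by norm_num) h1
    generalize Nat.card (Sylow 11 G) = n at *
    interval_cases n <;> omega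
  refine main_psl (d := 5) (by decide) (by norm_num) (by rw [h]) (by norm_num) hn (by decide) ?_
  intro L hL hc hS τ hτ hττ h0 h1 hcomm
  exact comm_eleven L hL hc τ hτ hττ h0 h1 hcomm

/-! ### `p = 13` -/

/-- Index in the coset of the squares. -/
def idx13 (x : ZMod 13) : ℕ :=
  match x.val with
  | 1 => 0 | 4 => 1 | 3 => 2 | 12 => 3 | 9 => 4 | 10 => 5
  | 2 => 0 | 8 => 1 | 6 => 2 | 11 => 3 | 5 => 4 | 7 => 5
  | _ => 0

/-- Which coset of the squares. -/
def typ13 (x : ZMod 13) : Bool := x ^ 6 != 1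

/-- The candidate values. -/
def cand13 (b u v : ZMod 13) (x : ZMod 13) : ZMod 13 := b ^ (idx13 x) * (if typ13 x then v else u)

/-- The full candidate function. -/
def full13 (b u v : ZMod 13) : Om 13 → Om 13
  | none => some 0
  | some x => if x = 0 then none else some (cand13 b u v x)

/-- Witnesses. -/
inductive Wit13 where
  | F (bs : List (ZMod 13)) (y1 y2 y3 nf : Om 13)
  | N (bs : List (ZMod 13))

/-- Witness check. -/
def checkWit13 (f : Om 13 → Om 13) : Wit13 → Bool
  | Wit13.F bs y1 y2 y3 nf =>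
      y1 != y2 && y1 != y3 && y2 != y3 && evalW f bs y1 == y1 && evalW f bs y2 == y2 && evalW f bs y3 == y3 &&
        evalW f bs nf != nf
  | Wit13.N bs =>
      evalW f bs none == none && evalW f bs (some 0) == some 0 &&
        match evalW f bs (some 1) with
        | none => false
        | some a => a ^ 6 != 1

/-- The witnesses. -/
def wits13 : List ((ZMod 13 × ZMod 13 × ZMod 13) × Wit13) := [
    ((4, 1, 2), Wit13.F [0] (some 1) (some 2) (some 3) none),
    ((4, 1, 11), Wit13.F [0] (some 1) (some 3) (some 4) none),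
    ((4, 2, 1), Wit13.F [1, 6] (some 3) (some 4) (some 10) none),
    ((4, 2, 3), Wit13.F [1, 12] (some 4) (some 5) (some 7) none),
    ((4, 2, 4), Wit13.F [1, 4, 11] (some 0) (some 2) (some 9) none),
    ((4, 2, 9), Wit13.F [1, 8] (some 1) (some 3) (some 6) none),
    ((4, 2, 10), Wit13.F [2, 2] (some 1) (some 4) (some 6) none),
    ((4, 2, 12), Wit13.F [1, 1] (some 4) (some 7) (some 9) none),
    ((10, 1, 2), Wit13.F [0] (some 1) (some 2) (some 11) none),
    ((10, 1, 5), Wit13.F [0] (some 1) (some 6) (some 7) none),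
    ((10, 1, 6), Wit13.F [0] (some 1) (some 5) (some 8) none),
    ((10, 1, 8), Wit13.F [6] (some 2) (some 3) (some 4) none),
    ((10, 1, 11), Wit13.F [1, 3] (some 3) (some 5) (some 7) none),
    ((10, 2, 1), Wit13.N [1, 11, 1]),
    ((10, 2, 12), Wit13.F [1, 1] (some 3) (some 7) (some 11) none)]

set_option maxRecDepth 100000 in
theorem table13 : ∀ b u v : ZMod 13, (u = 1 ∨ u = 2) → (∀ x, x ≠ 0 → cand13 b u v x ≠ 0) →
    (∀ x, x ≠ 0 → cand13 b u v (cand13 b u v x) = cand13 b u v (cand13 b u v 1) * x) →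
    (b = 10 ∧ u = 1 ∧ v = 7) ∨ ∃ w ∈ wits13, w.1 = (b, u, v) ∧ checkWit13 (full13 b u v) w.2 = true := by
  decide

theorem factor13 : ∀ x : ZMod 13, x ≠ 0 → x = 4 ^ (idx13 x) * (if typ13 x then 2 else 1) := by
  decide

theorem inv13 : ∀ x : ZMod 13, x ≠ 0 → x * cand13 10 1 7 x = 1 := by
  decide

theorem sq13 : ∀ x : ZMod 13, x ≠ 0 → x ^ 6 = 1 → ∃ c : ZMod 13, c ≠ 0 ∧ c * c = x := by
  decide

/-- A simple group of order 1092. -/
theorem iso_1092 {G : Type*} [Group G] [Finite G] [IsSimpleGroup G] (h : Nat.card G = 1092) :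
    Nonempty (G ≃* Matrix.ProjectiveSpecialLinearGroup (Fin 2) (ZMod 13)) := by
  have hn : Nat.card (Sylow 13 G) = 13 + 1 := by
    obtain ⟨h1, h2⟩ := CfsgLib.H9.card_sylow_dvd_cofactor (G := G) (p := 13) (k := 1) (m := 84) (by rw [h]; norm_num) (by norm_num)
    have h3 := CfsgLib.H9.card_sylow_ne_one (G := G) (p := 13) (by rw [h]; norm_num) (by
      intro k hk
      have h4 : 2 ∣ 13 ^ k := by
        rw [← hk, h]
        norm_num
      have h5 := Nat.Prime.dvd_of_dvd_pow Nat.prime_two h4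
      norm_num at h5)
    have h6 := Nat.le_of_dvd (by norm_num) h1
    generalize Nat.card (Sylow 13 G) = n at *
    interval_cases n <;> omega
  have hcard : Nat.card G = (13 + 1) * 13 * 6 := by rw [h]
  obtain ⟨f, hfi, htr, hmove, hstab⟩ := exists_embed hcard (by norm_num) hn
  have hL : Good f.range := ⟨htr, hmove, hstab⟩
  have e1 : G ≃* f.range := MonoidHom.ofInjective hfi
  have hcardL : Nat.card f.range = (13 + 1) * 13 * 6 := by
    rw [← Nat.card_congr e1.toEquiv, hcard]
  generalize f.range = L at hL hcardL e1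
  have hA := hL.card_A hcardL
  have h2d : 2 * 6 = 13 - 1 := by norm_num
  have hmem : ∀ c : ZMod 13, ∀ hc : c ≠ 0, c ^ 6 = 1 → mulP (Units.mk0 c hc) ∈ L := by
    intro c hc h6
    exact (hL.mem_iff hA (by norm_num) _).2 ((unit_pow_iff hc).2 h6)
  obtain ⟨g₁, hg₁, h0, h1⟩ := exists_swap hL
  have hne : g₁ (some 1) ≠ none := ne_none_of h1 (by simp)
  obtain ⟨u₀, hu₀⟩ := Option.ne_none_iff_exists'.1 hne
  have hu₀0 : u₀ ≠ 0 := by
    rintro rfl
    have := g₁.injective (hu₀.trans h0.symm)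
    simp at this
  obtain ⟨c, hc0, hc8, hcu⟩ : ∃ c : ZMod 13, c ≠ 0 ∧ c ^ 6 = 1 ∧ (c * u₀ = 1 ∨ c * u₀ = 2) := by
    rcases euler h2d hu₀0 with h3 | h3
    · exact ⟨u₀⁻¹, inv_ne_zero hu₀0, by rw [inv_pow, h3, inv_one], Or.inl (inv_mul_cancel₀ hu₀0)⟩
    · refine ⟨2 * u₀⁻¹, mul_ne_zero (by decide) (inv_ne_zero hu₀0), ?_, Or.inr ?_⟩
      · rw [mul_pow, inv_pow, h3, inv_neg_one]
        decide
      · rw [mul_assoc, inv_mul_cancel₀ hu₀0, mul_one]
  let g₂ : Perm (Om 13) := mulP (Units.mk0 c hc0) * g₁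
  have hg₂ : g₂ ∈ L := L.mul_mem (hmem c hc0 hc8) hg₁
  have h20 : g₂ none = some 0 := by
    simp [g₂, Perm.mul_apply, h0]
  have h21 : g₂ (some 0) = none := by
    simp [g₂, Perm.mul_apply, h1]
  have hne2 : ∀ x : ZMod 13, x ≠ 0 → g₂ (some x) ≠ none := by
    intro x hx
    exact ne_none_of h21 (by simpa using hx)
  let t : ZMod 13 → ZMod 13 := fun x => (g₂ (some x)).getD 0
  have ht : ∀ x, x ≠ 0 → g₂ (some x) = some (t x) := by
    intro x hx
    obtain ⟨y, hy⟩ := Option.ne_none_iff_exists'.1 (hne2 x hx)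
    simp [t, hy]
  have ht0 : ∀ x, x ≠ 0 → t x ≠ 0 := by
    intro x hx hh
    have h2 := ht x hx
    rw [hh] at h2
    have h3 := g₂.injective (h2.trans h20.symm)
    simp at h3
  have htu : t 1 = c * u₀ := by
    have h3 := ht 1 one_ne_zero
    have h4 : g₂ (some 1) = some (c * u₀) := by
      simp [g₂, Perm.mul_apply, hu₀]
    rw [h4] at h3
    exact (Option.some.inj h3).symm
  -- the action on the two point stabiliser
  have h2ne : (4 : ZMod 13) ≠ 0 := by decide
  have hinv0 : g₂⁻¹ none = some 0 := by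
    rw [Perm.inv_eq_iff_eq, h21]
  have hinv1 : g₂⁻¹ (some 0) = none := by
    rw [Perm.inv_eq_iff_eq, h20]
  obtain ⟨b, hb⟩ := hL.stab (g₂ * mulP (Units.mk0 4 h2ne) * g₂⁻¹)
    (L.mul_mem (L.mul_mem hg₂ (hmem 4 h2ne (by decide))) (L.inv_mem hg₂))
    (by simp [Perm.mul_apply, hinv0, h21])
    (by simp [Perm.mul_apply, hinv1, h20])
  have hb' : g₂ * mulP (Units.mk0 4 h2ne) = mulP b * g₂ := by
    rw [← hb]
    group
  have ht2 : ∀ x, x ≠ 0 → t (4 * x) = (b : ZMod 13) * t x := by
    intro x hx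
    have h3 := congrArg (fun g : Perm (Om 13) => g (some x)) hb'
    simp only [Perm.mul_apply, mulP_some, Units.val_mk0] at h3
    rw [ht _ (mul_ne_zero h2ne hx), ht x hx, mulP_some] at h3
    exact Option.some.inj h3
  have htpow : ∀ (i : ℕ) (y : ZMod 13), y ≠ 0 → t (4 ^ i * y) = (b : ZMod 13) ^ i * t y := by
    intro i y hy
    induction i with
    | zero => simp
    | succ i ih =>
      have h3 : (4 : ZMod 13) ^ (i + 1) * y = 4 * (4 ^ i * y) := by ring
      rw [h3, ht2 _ (mul_ne_zero (pow_ne_zero _ h2ne) hy), ih]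
      ring
  set u := t 1 with hudef
  set v := t 2 with hvdef
  have hcand : ∀ x, x ≠ 0 → t x = cand13 (b : ZMod 13) u v x := by
    intro x hx
    have h3 := factor13 x hx
    unfold cand13
    by_cases hty : typ13 x
    · rw [hty] at h3 ⊢
      simp only [if_true] at h3 ⊢
      nth_rw 1 [h3]
      exact htpow _ _ (by decide)
    · simp only [hty] at h3 ⊢
      simp only [Bool.false_eq_true, if_false] at h3 ⊢
      nth_rw 1 [h3]
      exact htpow _ _ (by decide)
  have hfull : ∀ y, g₂ y = full13 (b : ZMod 13) u v y := by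
    intro y
    cases y with
    | none => exact h20
    | some x =>
      by_cases hx : x = 0
      · subst hx
        rw [h21]
        rfl
      · simp only [full13, hx, if_false]
        rw [ht x hx, hcand x hx]
  -- the square
  obtain ⟨w, hw⟩ := hL.stab (g₂ * g₂) (L.mul_mem hg₂ hg₂) (by rw [Perm.mul_apply, h20, h21])
    (by rw [Perm.mul_apply, h21, h20])
  have htt : ∀ x, x ≠ 0 → t (t x) = (w : ZMod 13) * x := by
    intro x hx
    have h3 := congrArg (fun g : Perm (Om 13) => g (some x)) hw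
    simp only [Perm.mul_apply, mulP_some] at h3
    rw [ht x hx, ht _ (ht0 x hx)] at h3
    exact Option.some.inj h3
  have hcond1 : ∀ x, x ≠ 0 → cand13 (b : ZMod 13) u v x ≠ 0 := by
    intro x hx
    rw [← hcand x hx]
    exact ht0 x hx
  have hcond2 : ∀ x, x ≠ 0 → cand13 (b : ZMod 13) u v (cand13 (b : ZMod 13) u v x) =
      cand13 (b : ZMod 13) u v (cand13 (b : ZMod 13) u v 1) * x := by
    intro x hx
    have hone : (1 : ZMod 13) ≠ 0 := by decide
    rw [← hcand x hx, ← hcand _ (ht0 x hx), ← hcand 1 hone, ← hcand _ (ht0 1 hone), htt x hx, htt 1 hone, mul_one]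
  have hu13 : u = 1 ∨ u = 2 := by
    rw [htu]
    exact hcu
  have hword : ∀ bs y, wordP g₂ bs y = evalW (full13 (b : ZMod 13) u v) bs y := fun bs y => wordP_apply hfull bs y
  rcases table13 (b : ZMod 13) u v hu13 hcond1 hcond2 with ⟨hb10, hu1, hv7⟩ | ⟨⟨key, wit⟩, -, -, hchk⟩
  · -- the target
    have hinv : ∀ x, x ≠ 0 → t x = x⁻¹ := by
      intro x hx
      rw [hcand x hx, hb10, hu1, hv7]
      exact (inv_eq_of_mul_eq_one_right (inv13 x hx)).symm
    have hm1 : (-1 : ZMod 13) ≠ 0 := by decide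
    have hν : mulP (Units.mk0 (-1) hm1) * g₂ ∈ L := L.mul_mem (hmem _ hm1 (by decide)) hg₂
    have hR := L_eq_range' hL (d := 6) (by norm_num) h2d hcardL (by
      intro a ha
      have h6 : (a : ZMod 13) ^ 6 = 1 := by
        have := congrArg Units.val ha
        simpa using this
      obtain ⟨c', hc', hcc⟩ := sq13 a a.ne_zero h6
      exact ⟨Units.mk0 c' hc', Units.ext (by simpa using hcc)⟩) hν
      (by simp [Perm.mul_apply, h20]) (by simp [Perm.mul_apply, h21]) (by
        intro x hx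
        rw [Perm.mul_apply, ht x hx, hinv x hx, mulP_some, Units.val_mk0]
        simp)
    have e2 : Matrix.ProjectiveSpecialLinearGroup (Fin 2) (ZMod 13) ≃* (Psi (p := 13)).range :=
      MonoidHom.ofInjective Psi_inj
    exact ⟨e1.trans ((MulEquiv.subgroupCongr hR).trans e2.symm)⟩
  · exfalso
    cases wit with
    | F bs y1 y2 y3 nf =>
      simp only [checkWit13, Bool.and_eq_true, bne_iff_ne, beq_iff_eq] at hchk
      obtain ⟨⟨⟨⟨⟨⟨h12, h13⟩, h23⟩, f1⟩, f2⟩, f3⟩, hnf⟩ := hchk
      have h1W := hL.fix3 (wordP_mem hL hg₂ bs) h12 h13 h23 (by rw [hword, f1]) (by rw [hword, f2]) (by rw [hword, f3])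
      apply hnf
      rw [← hword, h1W]
      rfl
    | N bs =>
      simp only [checkWit13, Bool.and_eq_true, beq_iff_eq] at hchk
      obtain ⟨⟨f1, f2⟩, hm⟩ := hchk
      obtain ⟨a, ha⟩ := hL.stab _ (wordP_mem hL hg₂ bs) (by rw [hword, f1]) (by rw [hword, f2])
      have had : a ^ 6 = 1 := (hL.mem_iff hA (by norm_num) a).1 (ha ▸ wordP_mem hL hg₂ bs)
      have h3 := hword bs (some 1)
      rw [ha, mulP_some, mul_one] at h3
      rw [← h3] at hm
      simp only [bne_iff_ne] at hm
      apply hm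
      have := congrArg Units.val had
      simpa using this


theorem main_0498 {G : Type*} [Group G] [Finite G] [IsSimpleGroup G] (p : ℕ)
    (hp : p = 11 ∨ p = 13) (h : 2 * Nat.card G = p * (p ^ 2 - 1)) {F : Type*} [Field F] [Fintype F]
    (hF : Fintype.card F = p) : Nonempty (G ≃* Matrix.ProjectiveSpecialLinearGroup (Fin 2) F) := by
  rcases hp with rfl | rfl
  · exact to_field (by norm_num) hF (iso_660 (by omega))
  · exact to_field (by norm_num) hF (iso_1092 (by omega))

end CfsgLib.H9.PSLId
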