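import Mathlib.Tactic
import Mathlib.GroupTheory.GroupAction.MultiplePrimitivity

/-! Two-point blocks in the complement of a set. -/

namespace CfsgLib.H9

open MulAction SubMulAction

/-- If the pointwise stabiliser of `s` is primitive on the complement of `s`, and the
two-point set `{x, y}` behaves like a block, then the complement of `s` is `{x, y}`. -/
theorem compl_eq_pair_of_block {G X : Type*} [Group G] [MulAction G X] (s : Set X)
    (hprim : IsPreprimitive (fixingSubgroup G s) (ofFixingSubgroup G s))
    {x y : X} (hx : x ∉ s) (hy : y ∉ s) (hxy : x ≠ y)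
    (hblock : ∀ g ∈ fixingSubgroup G s,
      (g • x = x ∨ g • x = y ∨ g • y = x ∨ g • y = y) →
        (g • x = x ∧ g • y = y) ∨ (g • x = y ∧ g • y = x))
    (z : X) (hz : z ∉ s) : z = x ∨ z = y := by
  classical
  let x' : ofFixingSubgroup G s := ⟨x, hx⟩
  let y' : ofFixingSubgroup G s := ⟨y, hy⟩
  let B : Set (ofFixingSubgroup G s) := {x', y'}
  have hB : IsBlock (fixingSubgroup G s) B := by
    rw [isBlock_iff_smul_eq_of_nonempty]
    intro k hk
    obtain ⟨w, ⟨u, hu, rfl⟩, hw⟩ := hk
    have hkk : ((k : G) • x = x ∨ (k : G) • x = y ∨ (k : G) • y = x ∨ (k : G) • y = y) := by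
      rcases hu with rfl | rfl <;> rcases hw with hw | hw
      · left; exact congrArg Subtype.val hw
      · right; left; exact congrArg Subtype.val hw
      · right; right; left; exact congrArg Subtype.val hw
      · right; right; right; exact congrArg Subtype.val hw
    rcases hblock k k.2 hkk with ⟨h1, h2⟩ | ⟨h1, h2⟩
    · have h1' : k • x' = x' := Subtype.ext h1
      have h2' : k • y' = y' := Subtype.ext h2
      simp [B, Set.smul_set_insert, h1', h2']
    · have h1' : k • x' = y' := Subtype.ext h1
      have h2' : k • y' = x' := Subtype.ext h2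
      simp [B, Set.smul_set_insert, h1', h2', Set.pair_comm]
  have hnot : ¬ B.Subsingleton := by
    intro h
    exact hxy (congrArg Subtype.val (h (x := x') (y := y') (by simp [B]) (by simp [B])))
  have huniv : B = Set.univ := (hB.subsingleton_or_eq_univ).resolve_left hnot
  have hmem : (⟨z, hz⟩ : ofFixingSubgroup G s) ∈ B := by rw [huniv]; trivial
  rcases hmem with h | h
  · left; exact congrArg Subtype.val h
  · right; exact congrArg Subtype.val h

end CfsgLib.H9
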