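import Mathlib

/-! Arithmetic for groups of Wielandt type. -/

set_option autoImplicit false

namespace CfsgLib.H9.PermChar

theorem wielandt_arith (k l m : ℕ) (hk : 1 ≤ k) (hl : 1 ≤ l) (hkl : k + l + 1 = 2 * m) (hm : 2 ≤ m)
    (M₁ M₂ : ℤ) (r s : ℂ)
    (R1 : r ^ 2 = k + M₁ * r + M₂ * (-1 - r))
    (R2 : s ^ 2 = k + M₁ * s + M₂ * (-1 - s))
    (E1 : (0 : ℂ) = k + r * ((m : ℂ) - 1) + s * m)
    (E2 : (2 * m * k : ℂ) = k ^ 2 + r ^ 2 * ((m : ℂ) - 1) + s ^ 2 * m) :
    k = 1 ∨ l = 1 ∨ ∃ a : ℕ, 0 < a ∧ m = 2 * a ^ 2 + 2 * a + 1 ∧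
      ((k = a * (2 * a + 1) ∧ l = (a + 1) * (2 * a + 1)) ∨
        (k = (a + 1) * (2 * a + 1) ∧ l = a * (2 * a + 1))) := by
  have hmC : (m : ℂ) ≠ 0 := by
    have : m ≠ 0 := by omega
    exact_mod_cast this
  have hkC : (k : ℂ) ≠ 0 := by
    have : k ≠ 0 := by omega
    exact_mod_cast this
  have hrs : r ≠ s := by
    rintro rfl
    have h1 : (2 * (m : ℂ) - 1) * r = -k := by linear_combination -E1
    have h2 : 2 * (m : ℂ) * k * ((k : ℂ) - (2 * m - 1)) = 0 := by
      have h3 : (2 * m * k : ℂ) * (2 * m - 1) = (k ^ 2 + r ^ 2 * (2 * m - 1)) * (2 * m - 1) := by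
        rw [E2]; ring
      have h4 : (k ^ 2 + r ^ 2 * (2 * (m : ℂ) - 1)) * (2 * m - 1) = k ^ 2 * (2 * m - 1) + k ^ 2 := by
        have : r ^ 2 * (2 * (m : ℂ) - 1) * (2 * m - 1) = ((2 * (m : ℂ) - 1) * r) ^ 2 := by ring
        rw [add_mul, this, h1]
        ring
      rw [h4] at h3
      linear_combination -h3
    have h5 : (k : ℂ) - (2 * m - 1) = 0 := by
      have h6 : 2 * (m : ℂ) * k ≠ 0 := mul_ne_zero (mul_ne_zero two_ne_zero hmC) hkC
      exact (mul_eq_zero.mp h2).resolve_left h6
    have h7 : (k : ℂ) + 1 = 2 * m := by linear_combination h5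
    have h8 : k + 1 = 2 * m := by exact_mod_cast h7
    omega
  have hsum : r + s = (M₁ : ℂ) - M₂ := by
    have h1 : (r - s) * (r + s - ((M₁ : ℂ) - M₂)) = 0 := by linear_combination R1 - R2
    have h2 := (mul_eq_zero.mp h1).resolve_left (sub_ne_zero.mpr hrs)
    linear_combination h2
  set c : ℤ := M₂ - M₁ with hc
  set R : ℤ := (k : ℤ) - m * c with hR
  have hcC : (c : ℂ) = (M₂ : ℂ) - M₁ := by rw [hc]; push_cast; ring
  have hr : r = (R : ℂ) := by
    rw [hR]
    push_cast
    rw [hcC]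
    linear_combination E1 + (m : ℂ) * hsum
  have hs : s = ((-c - R : ℤ) : ℂ) := by
    push_cast
    rw [← hr, hcC]
    linear_combination hsum
  have hE : (2 * m * k : ℤ) = k ^ 2 + R ^ 2 * ((m : ℤ) - 1) + (-c - R) ^ 2 * m := by
    have : ((2 * m * k : ℤ) : ℂ) = ((k ^ 2 + R ^ 2 * ((m : ℤ) - 1) + (-c - R) ^ 2 * m : ℤ) : ℂ) := by
      push_cast
      rw [E2, hr, hs]
      push_cast
      ring
    exact_mod_cast this
  have hkR : (k : ℤ) = R + m * c := by rw [hR]; ring
  have hmZ : (m : ℤ) ≠ 0 := by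
    have : m ≠ 0 := by omega
    exact_mod_cast this
  have hsq : (2 * R + 2 * c - 1) ^ 2 = 1 + 2 * c * (c - 2) * (1 - (m : ℤ)) := by
    have h1 : (m : ℤ) * (4 * c * R + m * c ^ 2 + 2 * R ^ 2 + c ^ 2 - 2 * R - 2 * m * c) = 0 := by
      rw [hkR] at hE
      linear_combination -hE
    have h2 := (mul_eq_zero.mp h1).resolve_left hmZ
    linear_combination 2 * h2
  have hm2 : (2 : ℤ) ≤ m := by exact_mod_cast hm
  have hcases : c = 0 ∨ c = 1 ∨ c = 2 := by
    by_contra hcon
    push Not at hcon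
    obtain ⟨h0, h1, h2⟩ := hcon
    have h3 : 3 ≤ c * (c - 2) := by
      rcases lt_or_gt_of_ne h0 with h | h
      · nlinarith
      · have : 3 ≤ c := by omega
        nlinarith
    have h4 := sq_nonneg (2 * R + 2 * c - 1)
    rw [hsq] at h4
    nlinarith
  have hkl' : (k : ℤ) + l + 1 = 2 * m := by exact_mod_cast hkl
  have hk' : (1 : ℤ) ≤ k := by exact_mod_cast hk
  have hl' : (1 : ℤ) ≤ l := by exact_mod_cast hl
  rcases hcases with h0 | h1 | h2
  · -- c = 0
    rw [h0] at hsq hkR
    left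
    have h3 : (2 * R - 1) ^ 2 = 1 := by linear_combination hsq
    have h4 : R = 0 ∨ R = 1 := by
      have h5 : R * (R - 1) = 0 := by nlinarith
      rcases mul_eq_zero.mp h5 with h | h
      · left; exact h
      · right; omega
    rcases h4 with h | h
    · rw [h] at hkR
      omega
    · rw [h] at hkR
      omega
  · -- c = 1
    rw [h1] at hsq hkR
    right; right
    have h3 : (2 * R + 1) ^ 2 = 2 * (m : ℤ) - 1 := by linear_combination hsq
    have hmR : (m : ℤ) = 2 * R ^ 2 + 2 * R + 1 := by nlinarith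
    by_cases hR0 : 0 ≤ R
    · obtain ⟨a, ha⟩ := Int.eq_ofNat_of_zero_le hR0
      have hmA : m = 2 * a ^ 2 + 2 * a + 1 := by
        rw [ha] at hmR
        exact_mod_cast hmR
      refine ⟨a, ?_, hmA, Or.inr ⟨?_, ?_⟩⟩
      · rcases Nat.eq_zero_or_pos a with h | h
        · rw [h] at hmA
          omega
        · exact h
      · have : (k : ℤ) = ((a + 1) * (2 * a + 1) : ℕ) := by
          push_cast
          rw [hkR, ha, hmA]
          push_cast
          ring
        exact_mod_cast this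
      · have : (l : ℤ) = (a * (2 * a + 1) : ℕ) := by
          push_cast
          have : (l : ℤ) = 2 * m - 1 - k := by omega
          rw [this, hkR, ha, hmA]
          push_cast
          ring
        exact_mod_cast this
    · have hR1 : 0 ≤ -R - 1 := by omega
      obtain ⟨a, ha⟩ := Int.eq_ofNat_of_zero_le hR1
      have hRa : R = -(a : ℤ) - 1 := by omega
      have hmA : m = 2 * a ^ 2 + 2 * a + 1 := by
        rw [hRa] at hmR
        have : (m : ℤ) = 2 * a ^ 2 + 2 * a + 1 := by linear_combination hmR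
        exact_mod_cast this
      refine ⟨a, ?_, hmA, Or.inl ⟨?_, ?_⟩⟩
      · rcases Nat.eq_zero_or_pos a with h | h
        · rw [h] at hmA
          omega
        · exact h
      · have : (k : ℤ) = (a * (2 * a + 1) : ℕ) := by
          push_cast
          rw [hkR, hRa, hmA]
          push_cast
          ring
        exact_mod_cast this
      · have : (l : ℤ) = ((a + 1) * (2 * a + 1) : ℕ) := by
          push_cast
          have : (l : ℤ) = 2 * m - 1 - k := by omega
          rw [this, hkR, hRa, hmA]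
          push_cast
          ring
        exact_mod_cast this
  · -- c = 2
    rw [h2] at hsq hkR
    right; left
    have h3 : (2 * R + 3) ^ 2 = 1 := by linear_combination hsq
    have h4 : R = -1 ∨ R = -2 := by
      have h5 : (R + 1) * (R + 2) = 0 := by nlinarith
      rcases mul_eq_zero.mp h5 with h | h
      · left; omega
      · right; omega
    rcases h4 with h | h
    · rw [h] at hkR
      omega
    · rw [h] at hkR
      omega

end CfsgLib.H9.PermChar
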