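import Mathlib
import Cfsg.Agent.Lib.H9.PermChar3
import Cfsg.Agent.Lib.H9.WielandtArith

/-! Groups of Wielandt type. -/

set_option autoImplicit false
set_option linter.unusedVariables false
set_option linter.unusedSectionVars false
set_option linter.unusedSimpArgs false
set_option linter.style.haveILetI false

namespace CfsgLib.H9.PermChar

open Module Cfsg CfsgLib.Char
open scoped ComplexConjugate Pointwise

universe u v

section Line

variable {G : Type u} [Group G] [Fintype G] {V : Type v} {W : Type*} [AddCommGroup V] [Module ℂ V]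
  [FiniteDimensional ℂ V] [AddCommGroup W] [Module ℂ W] [FiniteDimensional ℂ W]
  (ρ : Representation ℂ G V) (σ : Representation ℂ G W)

theorem star_scalar (h : finrank ℂ (homs ρ σ) = 1) (S : V →ₗ[ℂ] V) (hS : IsComm ρ S) :
    ∃ c : ℂ, star ρ σ S hS = c • LinearMap.id := by
  haveI : Nontrivial (homs ρ σ) := Module.nontrivial_of_finrank_pos (R := ℂ) (by omega)
  obtain ⟨v, hv⟩ := exists_ne (0 : homs ρ σ)
  obtain ⟨c, hc⟩ := exists_smul_eq_of_finrank_eq_one h hv (star ρ σ S hS v)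
  refine ⟨c, ?_⟩
  apply LinearMap.ext
  intro w
  obtain ⟨d, hd⟩ := exists_smul_eq_of_finrank_eq_one h hv w
  rw [← hd, map_smul, ← hc, LinearMap.smul_apply, LinearMap.id_apply, smul_comm]

theorem classInner_phi_comp (h : finrank ℂ (homs ρ σ) = 1) (S T : V →ₗ[ℂ] V) (hS : IsComm ρ S)
    (hT : IsComm ρ T) (hST : IsComm ρ (S ∘ₗ T)) :
    classInner (phi ρ (S ∘ₗ T)) σ.character =
      classInner (phi ρ S) σ.character * classInner (phi ρ T) σ.character := by
  rw [phi_classInner ρ σ _ hST, phi_classInner ρ σ _ hS, phi_classInner ρ σ _ hT]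
  obtain ⟨c, hc⟩ := star_scalar ρ σ h S hS
  obtain ⟨d, hd⟩ := star_scalar ρ σ h T hT
  have h1 : star ρ σ (S ∘ₗ T) hST = (c * d) • LinearMap.id := by
    apply LinearMap.ext
    intro f
    apply Subtype.ext
    have h2 := congrArg Subtype.val (LinearMap.congr_fun hd f)
    have h3 := congrArg Subtype.val (LinearMap.congr_fun hc (star ρ σ T hT f))
    have h4 : (star ρ σ (S ∘ₗ T) hST f).1 = (star ρ σ S hS (star ρ σ T hT f)).1 := rfl
    rw [h4, h3]
    simp only [LinearMap.smul_apply, LinearMap.id_apply, Submodule.coe_smul]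
    have h5 : (star ρ σ T hT f).1 = d • f.1 := h2
    rw [h5, smul_smul]
  have htr : LinearMap.trace ℂ (homs ρ σ) LinearMap.id = 1 := by
    rw [LinearMap.trace_id, h]
    simp
  rw [h1, hc, hd, map_smul, map_smul, map_smul, htr]
  simp

theorem phi_add (S T : V →ₗ[ℂ] V) : phi ρ (S + T) = phi ρ S + phi ρ T := by
  funext g
  simp [phi, LinearMap.add_comp]

theorem phi_smul (c : ℂ) (S : V →ₗ[ℂ] V) : phi ρ (c • S) = c • phi ρ S := by
  funext g
  simp [phi, LinearMap.smul_comp]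

theorem phi_id : phi ρ LinearMap.id = ρ.character := by
  funext g
  simp [phi, Representation.character]

end Line

section Orbits

variable {G : Type u} [Group G] [Fintype G] {Ω : Type v} [Fintype Ω] [DecidableEq Ω] [MulAction G Ω]
  [MulAction.IsPretransitive G Ω]

theorem orbM_of_smul (g : G) (a b : Ω) : orbM (G := G) (g • a) (g • b) = orbM (G := G) a b := by
  funext x y
  unfold orbM orbN
  have : (∃ t : G, t • (g • a) = x ∧ t • (g • b) = y) ↔ ∃ t : G, t • a = x ∧ t • b = y := by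
    constructor
    · rintro ⟨t, h1, h2⟩
      exact ⟨t * g, by rw [mul_smul, h1], by rw [mul_smul, h2]⟩
    · rintro ⟨t, h1, h2⟩
      exact ⟨t * g⁻¹, by rw [mul_smul, inv_smul_smul, h1], by rw [mul_smul, inv_smul_smul, h2]⟩
  simp only [this]
  congr

theorem card_orbit_congr (a b a' b' : Ω) (h : orbM (G := G) a b = orbM (G := G) a' b') :
    Nat.card (MulAction.orbit (MulAction.stabilizer G a) b) =
      Nat.card (MulAction.orbit (MulAction.stabilizer G a') b') := by
  have h1 := sum_orbM (G := G) a b a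
  have h2 := sum_orbM (G := G) a' b' a
  rw [h] at h1
  rw [h1] at h2
  exact_mod_cast h2

theorem orbM_swap (a b x y : Ω) : orbM (G := G) a b x y = orbM (G := G) b a y x := by
  unfold orbM orbN
  have : (∃ t : G, t • a = x ∧ t • b = y) ↔ ∃ t : G, t • b = y ∧ t • a = x :=
    exists_congr fun t => and_comm
  simp only [this]
  congr

theorem size_symm (a b : Ω) : Nat.card (MulAction.orbit (MulAction.stabilizer G a) b) =
    Nat.card (MulAction.orbit (MulAction.stabilizer G b) a) := by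
  have h1 : ∑ x : Ω, ∑ y : Ω, orbM (G := G) a b x y =
      (Fintype.card Ω : ℂ) * (Nat.card (MulAction.orbit (MulAction.stabilizer G a) b) : ℂ) := by
    simp only [sum_orbM, Finset.sum_const, Finset.card_univ, nsmul_eq_mul]
  have h2 : ∑ x : Ω, ∑ y : Ω, orbM (G := G) a b x y =
      (Fintype.card Ω : ℂ) * (Nat.card (MulAction.orbit (MulAction.stabilizer G b) a) : ℂ) := by
    rw [Finset.sum_comm]
    simp only [orbM_swap (G := G) a b, sum_orbM, Finset.sum_const, Finset.card_univ, nsmul_eq_mul]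
  rw [h1] at h2
  have h3 : (Fintype.card Ω : ℂ) ≠ 0 := by
    haveI : Nonempty Ω := ⟨a⟩
    have : Fintype.card Ω ≠ 0 := Fintype.card_ne_zero
    exact_mod_cast this
  have h4 := mul_left_cancel₀ h3 h2
  exact_mod_cast h4

theorem three_orbits (a : Ω) (hrank : Nat.card (MulAction.orbitRel.Quotient (MulAction.stabilizer G a) Ω) = 3) :
    ∃ b c : Ω, b ≠ a ∧ c ≠ a ∧ (∀ h : G, h • a = a → h • b ≠ c) ∧
      (∀ y : Ω, y = a ∨ (∃ h : G, h • a = a ∧ h • b = y) ∨ (∃ h : G, h • a = a ∧ h • c = y)) ∧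
      Nat.card (MulAction.orbit (MulAction.stabilizer G a) b) +
        Nat.card (MulAction.orbit (MulAction.stabilizer G a) c) + 1 = Fintype.card Ω := by
  classical
  haveI : Fintype (MulAction.orbitRel.Quotient (MulAction.stabilizer G a) Ω) := Fintype.ofFinite _
  let q₀ : MulAction.orbitRel.Quotient (MulAction.stabilizer G a) Ω := Quotient.mk'' a
  have h2 : (Finset.univ.erase q₀).card = 2 := by
    rw [Finset.card_erase_of_mem (Finset.mem_univ _), Finset.card_univ, ← Nat.card_eq_fintype_card, hrank]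
  obtain ⟨q₁, q₂, hne, heq⟩ := Finset.card_eq_two.mp h2
  have hq₁ : q₁ ≠ q₀ := by
    have : q₁ ∈ Finset.univ.erase q₀ := by rw [heq]; simp
    exact Finset.ne_of_mem_erase this
  have hq₂ : q₂ ≠ q₀ := by
    have : q₂ ∈ Finset.univ.erase q₀ := by rw [heq]; simp
    exact Finset.ne_of_mem_erase this
  refine ⟨Quotient.out q₁, Quotient.out q₂, out_ne a q₁ hq₁, out_ne a q₂ hq₂, ?_, ?_, ?_⟩
  · intro h hh hc
    apply hne
    have h3 : (Quotient.out q₂ : Ω) ∈ MulAction.orbit (MulAction.stabilizer G a) (Quotient.out q₁) :=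
      ⟨⟨h, hh⟩, hc⟩
    have h4 : (Quotient.mk'' (Quotient.out q₂) : MulAction.orbitRel.Quotient (MulAction.stabilizer G a) Ω) =
        Quotient.mk'' (Quotient.out q₁) := Quotient.sound' h3
    have h5 := Quotient.out_eq q₁
    have h6 := Quotient.out_eq q₂
    exact h5.symm.trans (h4.symm.trans h6)
  · intro y
    have hsm : ∀ q : MulAction.orbitRel.Quotient (MulAction.stabilizer G a) Ω, Quotient.mk'' y = q →
        ∃ h : G, h • a = a ∧ h • (Quotient.out q) = y := by
      intro q hq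
      have h30 : (Quotient.mk'' y : MulAction.orbitRel.Quotient (MulAction.stabilizer G a) Ω) =
          Quotient.mk'' (Quotient.out q) := by
        rw [hq]
        exact (Quotient.out_eq q).symm
      have h3 : y ∈ MulAction.orbit (MulAction.stabilizer G a) (Quotient.out q) := Quotient.exact' h30
      obtain ⟨s, hs⟩ := h3
      exact ⟨s.1, s.2, hs⟩
    by_cases hy : (Quotient.mk'' y : MulAction.orbitRel.Quotient (MulAction.stabilizer G a) Ω) = q₀
    · left
      have h3 : y ∈ MulAction.orbit (MulAction.stabilizer G a) a := Quotient.exact' hy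
      obtain ⟨s, hs⟩ := h3
      rw [← hs]
      exact s.2
    · right
      have h3 : (Quotient.mk'' y : MulAction.orbitRel.Quotient (MulAction.stabilizer G a) Ω) ∈
          Finset.univ.erase q₀ := Finset.mem_erase.mpr ⟨hy, Finset.mem_univ _⟩
      rw [heq] at h3
      simp only [Finset.mem_insert, Finset.mem_singleton] at h3
      rcases h3 with h3 | h3
      · left; exact hsm _ h3
      · right; exact hsm _ h3
  · have h3 := sum_subdegrees (G := G) a
    rw [← Finset.add_sum_erase _ _ (Finset.mem_univ q₀), heq, Finset.sum_pair hne] at h3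
    have h4 : Nat.card (MulAction.orbit (MulAction.stabilizer G a) (Quotient.out q₀)) = 1 := by
      show Nat.card (MulAction.orbit (MulAction.stabilizer G a) (Quotient.out (Quotient.mk'' a : MulAction.orbitRel.Quotient (MulAction.stabilizer G a) Ω))) = 1
      rw [orbit_out_card, orbit_self_card]
    rw [h4] at h3
    omega

/-- a nontrivial orbit whose size differs from that of the other is self-paired. -/
theorem swap_of_ne_size (a b c : Ω) (hb : b ≠ a)
    (hcov : ∀ y : Ω, y = a ∨ (∃ h : G, h • a = a ∧ h • b = y) ∨ (∃ h : G, h • a = a ∧ h • c = y))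
    (hne : Nat.card (MulAction.orbit (MulAction.stabilizer G a) b) ≠
      Nat.card (MulAction.orbit (MulAction.stabilizer G a) c)) :
    ∃ g : G, g • a = b ∧ g • b = a := by
  obtain ⟨g₀, hg₀⟩ := MulAction.exists_smul_eq G b a
  have hsize : Nat.card (MulAction.orbit (MulAction.stabilizer G a) (g₀ • a)) =
      Nat.card (MulAction.orbit (MulAction.stabilizer G a) b) := by
    rw [size_symm a b]
    apply card_orbit_congr
    rw [← orbM_of_smul (G := G) g₀ b a, hg₀]
  rcases hcov (g₀ • a) with h | ⟨h, hh, hc⟩ | ⟨h, hh, hc⟩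
  · exfalso
    apply hb
    have : g₀ • a = g₀ • b := by rw [h, hg₀]
    exact (smul_left_cancel g₀ this).symm
  · refine ⟨h⁻¹ * g₀, ?_, ?_⟩
    · rw [mul_smul, ← hc, inv_smul_smul]
    · rw [mul_smul, hg₀, inv_smul_eq_iff, hh]
  · exfalso
    apply hne
    rw [← hsize, ← hc]
    apply card_orbit_congr
    conv_rhs => rw [← orbM_of_smul (G := G) h a c, hh]

theorem global_swap (a b c : Ω)
    (hcov : ∀ y : Ω, y = a ∨ (∃ h : G, h • a = a ∧ h • b = y) ∨ (∃ h : G, h • a = a ∧ h • c = y))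
    (hsb : ∃ g : G, g • a = b ∧ g • b = a) (hsc : ∃ g : G, g • a = c ∧ g • c = a) :
    ∀ x y : Ω, ∃ g : G, g • x = y ∧ g • y = x := by
  intro x y
  obtain ⟨g₀, hg₀⟩ := MulAction.exists_smul_eq G x a
  -- reduce to pairs at `a`
  have hred : ∀ (d : Ω) (h : G), h • a = a → h • d = g₀ • y → (∃ w : G, w • a = d ∧ w • d = a) →
      ∃ g : G, g • x = y ∧ g • y = x := by
    intro d h hh hd ⟨w, hw1, hw2⟩
    have hy : y = g₀⁻¹ • h • d := by rw [hd, inv_smul_smul]
    have hx : x = g₀⁻¹ • h • a := by rw [hh, ← hg₀, inv_smul_smul]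
    refine ⟨(g₀⁻¹ * h) * w * (g₀⁻¹ * h)⁻¹, ?_, ?_⟩
    · have h1 : (g₀⁻¹ * h)⁻¹ • x = a := by
        rw [inv_smul_eq_iff, mul_smul]
        exact hx
      rw [mul_smul, mul_smul, h1, hw1, mul_smul]
      exact hy.symm
    · have h1 : (g₀⁻¹ * h)⁻¹ • y = d := by
        rw [inv_smul_eq_iff, mul_smul]
        exact hy
      rw [mul_smul, mul_smul, h1, hw2, mul_smul]
      exact hx.symm
  rcases hcov (g₀ • y) with h | ⟨h, hh, hc⟩ | ⟨h, hh, hc⟩
  · exact hred a 1 (one_smul _ _) (by rw [one_smul, h]) ⟨1, one_smul _ _, one_smul _ _⟩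
  · exact hred b h hh hc hsb
  · exact hred c h hh hc hsc

theorem no_fixed_of_prim (hprim : MulAction.IsPreprimitive G Ω) (a b : Ω) (hab : b ≠ a)
    (hsw : ∃ g : G, g • a = b ∧ g • b = a)
    (hk : Nat.card (MulAction.orbit (MulAction.stabilizer G a) b) = 1) (hn : 3 ≤ Fintype.card Ω) : False := by
  classical
  obtain ⟨w, hw1, hw2⟩ := hsw
  have F1 : ∀ g : G, g • a = a → g • b = b := by
    intro g hg
    have h1 : Subsingleton (MulAction.orbit (MulAction.stabilizer G a) b) :=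
      ((Nat.card_eq_one_iff_unique.mp hk).1)
    have h2 : (⟨g • b, ⟨⟨g, hg⟩, rfl⟩⟩ : MulAction.orbit (MulAction.stabilizer G a) b) =
        ⟨b, MulAction.mem_orbit_self _⟩ := Subsingleton.elim _ _
    exact congrArg Subtype.val h2
  have hw3 : w⁻¹ • b = a := by rw [inv_smul_eq_iff, hw1]
  have hw4 : w⁻¹ • a = b := by rw [inv_smul_eq_iff, hw2]
  have F2 : ∀ g : G, g • a = b → g • b = a := by
    intro g hg
    have h1 : (w⁻¹ * g) • a = a := by rw [mul_smul, hg, hw3]
    have h2 := F1 _ h1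
    rw [mul_smul, inv_smul_eq_iff, hw2] at h2
    exact h2
  have F3 : ∀ g : G, g • b = a → g • a = b := by
    intro g hg
    have h1 : g⁻¹ • a = b := by rw [inv_smul_eq_iff, hg]
    have h2 := F2 _ h1
    rw [inv_smul_eq_iff] at h2
    exact h2.symm
  have F4 : ∀ g : G, g • b = b → g • a = a := by
    intro g hg
    have h1 : (w * g * w⁻¹) • a = a := by
      rw [mul_smul, mul_smul, hw4, hg, hw2]
    have h2 := F1 _ h1
    rw [mul_smul, mul_smul, hw3] at h2
    exact smul_left_cancel w (h2.trans hw1.symm)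
  let B : Set Ω := {a, b}
  have hblock : MulAction.IsBlock G B := by
    rw [MulAction.isBlock_iff_smul_eq_or_disjoint]
    intro g
    by_cases hd : Disjoint (g • B) B
    · exact Or.inr hd
    · left
      have hcases : g • a = a ∨ g • a = b ∨ g • b = a ∨ g • b = b := by
        by_contra hcon
        push Not at hcon
        apply hd
        rw [Set.disjoint_left]
        rintro z ⟨u, hu, rfl⟩ hz
        rcases hu with rfl | rfl <;> rcases hz with hz | hz
        · exact hcon.1 hz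
        · exact hcon.2.1 hz
        · exact hcon.2.2.1 hz
        · exact hcon.2.2.2 hz
      have hset : ∀ x y : Ω, g • a = x → g • b = y → ({x, y} : Set Ω) = {a, b} → g • B = B := by
        rintro x y rfl rfl h
        simp only [B, Set.smul_set_insert, Set.smul_set_singleton]
        exact h
      rcases hcases with h | h | h | h
      · exact hset a b h (F1 g h) rfl
      · exact hset b a h (F2 g h) (Set.pair_comm _ _)
      · exact hset b a (F3 g h) h (Set.pair_comm _ _)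
      · exact hset a b (F4 g h) h rfl
  rcases hprim.isTrivialBlock_of_isBlock hblock with h | h
  · exact hab (h (by simp [B]) (by simp [B]))
  · have h2 : (Finset.univ : Finset Ω) ⊆ {a, b} := by
      intro x _
      have h3 : x ∈ B := by rw [h]; trivial
      simpa [B] using h3
    have h3 := Finset.card_le_card h2
    have h4 : ({a, b} : Finset Ω).card ≤ 2 := Finset.card_le_two
    rw [Finset.card_univ] at h3
    omega

end Orbits

section Scheme

variable {G : Type u} [Group G] [Fintype G] {Ω : Type v} [Fintype Ω] [DecidableEq Ω] [MulAction G Ω]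
  [MulAction.IsPretransitive G Ω]

/-- `(x, y)` lies in the orbital of `(a, b)`. -/
def Orb (G : Type u) [Group G] {Ω : Type v} [MulAction G Ω] (a b x y : Ω) : Prop :=
  ∃ g : G, g • a = x ∧ g • b = y

theorem orbM_one {a b x y : Ω} (h : Orb G a b x y) : orbM (G := G) a b x y = 1 := by
  have h' : ∃ g : G, g • a = x ∧ g • b = y := h
  unfold orbM orbN
  rw [if_pos h']
  simp

theorem orbM_zero {a b x y : Ω} (h : ¬ Orb G a b x y) : orbM (G := G) a b x y = 0 := by
  have h' : ¬ ∃ g : G, g • a = x ∧ g • b = y := h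
  unfold orbM orbN
  rw [if_neg h']
  simp

theorem ker_const (T : (Ω → ℂ) →ₗ[ℂ] (Ω → ℂ)) (hT : IsComm (Cfsg.permRep ℂ G Ω) T) {a b x y : Ω}
    (h : Orb G a b x y) : LinearMap.toMatrix' T x y = LinearMap.toMatrix' T a b := by
  obtain ⟨g, rfl, rfl⟩ := h
  exact ker_inv T hT g a b

theorem opOf_self (a : Ω) : opOf (orbM (G := G) a a) = LinearMap.id := by
  apply LinearMap.ext
  intro f
  funext x
  rw [opOf_apply, Finset.sum_eq_single x]
  · obtain ⟨g, hg⟩ := MulAction.exists_smul_eq G a x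
    rw [orbM_one (G := G) ⟨g, hg, hg⟩]
    simp
  · intro y _ hy
    rw [orbM_zero (G := G)]
    · simp
    · rintro ⟨g, h1, h2⟩
      exact hy (h2.symm.trans h1)
  · simp

theorem orb_dis {a d e x y : Ω} (h1 : Orb G a d x y) (h2 : Orb G a e x y) : ∃ h : G, h • a = a ∧ h • d = e := by
  obtain ⟨g, h11, h12⟩ := h1
  obtain ⟨g', h21, h22⟩ := h2
  refine ⟨g'⁻¹ * g, ?_, ?_⟩
  · rw [mul_smul, h11, ← h21, inv_smul_smul]
  · rw [mul_smul, h12, ← h22, inv_smul_smul]

theorem orb_cover (a b c : Ω)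
    (hcov : ∀ y : Ω, y = a ∨ (∃ h : G, h • a = a ∧ h • b = y) ∨ (∃ h : G, h • a = a ∧ h • c = y)) (x y : Ω) :
    Orb G a a x y ∨ Orb G a b x y ∨ Orb G a c x y := by
  obtain ⟨g, hg⟩ := MulAction.exists_smul_eq G x a
  have hx : g⁻¹ • a = x := by rw [inv_smul_eq_iff, hg]
  rcases hcov (g • y) with h | ⟨h, hh, hc⟩ | ⟨h, hh, hc⟩
  · left
    exact ⟨g⁻¹, hx, by rw [inv_smul_eq_iff, h]⟩
  · right; left
    refine ⟨g⁻¹ * h, by rw [mul_smul, hh, hx], by rw [mul_smul, hc, inv_smul_smul]⟩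
  · right; right
    refine ⟨g⁻¹ * h, by rw [mul_smul, hh, hx], by rw [mul_smul, hc, inv_smul_smul]⟩

/-- exclusive orbitals -/
theorem orb_tri (a b c : Ω) (hb : b ≠ a) (hc : c ≠ a) (hbc : ∀ h : G, h • a = a → h • b ≠ c)
    (hcov : ∀ y : Ω, y = a ∨ (∃ h : G, h • a = a ∧ h • b = y) ∨ (∃ h : G, h • a = a ∧ h • c = y)) (x y : Ω) :
    (Orb G a a x y ∧ ¬ Orb G a b x y ∧ ¬ Orb G a c x y) ∨
    (¬ Orb G a a x y ∧ Orb G a b x y ∧ ¬ Orb G a c x y) ∨
    (¬ Orb G a a x y ∧ ¬ Orb G a b x y ∧ Orb G a c x y) := by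
  have hab : Orb G a a x y → ¬ Orb G a b x y := by
    intro h1 h2
    obtain ⟨h, h3, h4⟩ := orb_dis h1 h2
    exact hb (h4.symm.trans h3)
  have hac : Orb G a a x y → ¬ Orb G a c x y := by
    intro h1 h2
    obtain ⟨h, h3, h4⟩ := orb_dis h1 h2
    exact hc (h4.symm.trans h3)
  have hbc' : Orb G a b x y → ¬ Orb G a c x y := by
    intro h1 h2
    obtain ⟨h, h3, h4⟩ := orb_dis h1 h2
    exact hbc h h3 h4
  rcases orb_cover a b c hcov x y with h | h | h
  · exact Or.inl ⟨h, hab h, hac h⟩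
  · exact Or.inr (Or.inl ⟨fun h' => hab h' h, h, hbc' h⟩)
  · exact Or.inr (Or.inr ⟨fun h' => hac h' h, fun h' => hbc' h' h, h⟩)

theorem op_decomp (a b c : Ω) (hb : b ≠ a) (hc : c ≠ a) (hbc : ∀ h : G, h • a = a → h • b ≠ c)
    (hcov : ∀ y : Ω, y = a ∨ (∃ h : G, h • a = a ∧ h • b = y) ∨ (∃ h : G, h • a = a ∧ h • c = y))
    (T : (Ω → ℂ) →ₗ[ℂ] (Ω → ℂ)) (hT : IsComm (Cfsg.permRep ℂ G Ω) T) :
    T = LinearMap.toMatrix' T a a • LinearMap.id + LinearMap.toMatrix' T a b • opOf (orbM (G := G) a b) +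
      LinearMap.toMatrix' T a c • opOf (orbM (G := G) a c) := by
  apply LinearMap.ext
  intro f
  funext x
  conv_lhs => rw [eq_opOf T]
  rw [opOf_apply]
  simp only [LinearMap.add_apply, LinearMap.smul_apply, LinearMap.id_apply, Pi.add_apply, Pi.smul_apply,
    smul_eq_mul, opOf_apply]
  have h1 : f x = ∑ y, orbM (G := G) a a x y * f y := by
    have := congrFun (LinearMap.congr_fun (opOf_self (G := G) a) f) x
    rw [opOf_apply] at this
    exact this.symm
  rw [h1, Finset.mul_sum, Finset.mul_sum, Finset.mul_sum, ← Finset.sum_add_distrib, ← Finset.sum_add_distrib]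
  apply Finset.sum_congr rfl
  intro y _
  rcases orb_tri (G := G) a b c hb hc hbc hcov x y with ⟨h1, h2, h3⟩ | ⟨h1, h2, h3⟩ | ⟨h1, h2, h3⟩
  · rw [orbM_one h1, orbM_zero h2, orbM_zero h3, ker_const T hT h1]
    ring
  · rw [orbM_zero h1, orbM_one h2, orbM_zero h3, ker_const T hT h2]
    ring
  · rw [orbM_zero h1, orbM_zero h2, orbM_one h3, ker_const T hT h3]
    ring

theorem op_sum (a b c : Ω) (hb : b ≠ a) (hc : c ≠ a) (hbc : ∀ h : G, h • a = a → h • b ≠ c)
    (hcov : ∀ y : Ω, y = a ∨ (∃ h : G, h • a = a ∧ h • b = y) ∨ (∃ h : G, h • a = a ∧ h • c = y)) :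
    LinearMap.id + opOf (orbM (G := G) a b) + opOf (orbM (G := G) a c) = opOf (fun _ _ => 1) := by
  apply LinearMap.ext
  intro f
  funext x
  simp only [LinearMap.add_apply, LinearMap.id_apply, Pi.add_apply, opOf_apply]
  have h1 : f x = ∑ y, orbM (G := G) a a x y * f y := by
    have := congrFun (LinearMap.congr_fun (opOf_self (G := G) a) f) x
    rw [opOf_apply] at this
    exact this.symm
  rw [h1, ← Finset.sum_add_distrib, ← Finset.sum_add_distrib]
  apply Finset.sum_congr rfl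
  intro y _
  rcases orb_tri (G := G) a b c hb hc hbc hcov x y with ⟨h1, h2, h3⟩ | ⟨h1, h2, h3⟩ | ⟨h1, h2, h3⟩
  · rw [orbM_one h1, orbM_zero h2, orbM_zero h3]
    ring
  · rw [orbM_zero h1, orbM_one h2, orbM_zero h3]
    ring
  · rw [orbM_zero h1, orbM_zero h2, orbM_one h3]
    ring

theorem classInner_phi_J {ψ : G → ℂ} (hψ : IsIrrCharacter G ψ) (hne : ψ ≠ fun _ => 1) :
    classInner (phi (Cfsg.permRep ℂ G Ω) (opOf (fun _ _ => 1))) ψ = 0 := by
  have h1 : phi (Cfsg.permRep ℂ G Ω) (opOf (fun _ _ => 1)) = (Fintype.card Ω : ℂ) • (fun _ : G => (1 : ℂ)) := by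
    funext g
    rw [phi_opOf]
    simp
  rw [h1, classInner_smul_left, classInner_irr_ne isIrrCharacter_one hψ (Ne.symm hne), mul_zero]

theorem classInner_phi_id (ψ : G → ℂ) :
    classInner (phi (Cfsg.permRep ℂ G Ω) LinearMap.id) ψ = classInner (pi G Ω) ψ := by
  rw [phi_id, ← pi_eq]

theorem mult_one_comp {ψ : G → ℂ} (hψ : IsIrrCharacter G ψ) (h1 : classInner (pi G Ω) ψ = 1)
    (S T : (Ω → ℂ) →ₗ[ℂ] (Ω → ℂ)) (hS : IsComm (Cfsg.permRep ℂ G Ω) S) (hT : IsComm (Cfsg.permRep ℂ G Ω) T)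
    (hST : IsComm (Cfsg.permRep ℂ G Ω) (S ∘ₗ T)) :
    classInner (phi (Cfsg.permRep ℂ G Ω) (S ∘ₗ T)) ψ =
      classInner (phi (Cfsg.permRep ℂ G Ω) S) ψ * classInner (phi (Cfsg.permRep ℂ G Ω) T) ψ := by
  obtain ⟨n, σ, hσ, rfl⟩ := hψ
  rw [pi_eq, classInner_eq_finrank] at h1
  have h2 : finrank ℂ (homs (Cfsg.permRep ℂ G Ω) σ) = 1 := by exact_mod_cast h1
  exact classInner_phi_comp _ σ h2 S T hS hT hST

theorem comm_comp (S T : (Ω → ℂ) →ₗ[ℂ] (Ω → ℂ)) (hS : IsComm (Cfsg.permRep ℂ G Ω) S)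
    (hT : IsComm (Cfsg.permRep ℂ G Ω) T) : IsComm (Cfsg.permRep ℂ G Ω) (S ∘ₗ T) := by
  intro g x
  simp only [LinearMap.comp_apply]
  rw [hT, hS]

/-- integrality of the intersection numbers -/
theorem ker_sq_int (a b x y : Ω) : ∃ z : ℤ,
    LinearMap.toMatrix' (opOf (orbM (G := G) a b) ∘ₗ opOf (orbM (G := G) a b)) x y = z := by
  refine ⟨∑ w, orbN (G := G) a b x w * orbN (G := G) a b w y, ?_⟩
  rw [LinearMap.toMatrix'_comp]
  have h1 : LinearMap.toMatrix' (opOf (orbM (G := G) a b)) = Matrix.of (orbM (G := G) a b) :=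
    LinearMap.toMatrix'_toLin' _
  rw [h1, Matrix.mul_apply]
  push_cast
  rfl

theorem ker_sq_self (hsw : ∀ x y : Ω, ∃ g : G, g • x = y ∧ g • y = x) (a b : Ω) :
    LinearMap.toMatrix' (opOf (orbM (G := G) a b) ∘ₗ opOf (orbM (G := G) a b)) a a =
      (Nat.card (MulAction.orbit (MulAction.stabilizer G a) b) : ℂ) := by
  rw [LinearMap.toMatrix'_comp]
  have h1 : LinearMap.toMatrix' (opOf (orbM (G := G) a b)) = Matrix.of (orbM (G := G) a b) :=
    LinearMap.toMatrix'_toLin' _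
  rw [h1, Matrix.mul_apply, ← sum_orbM (G := G) a b a]
  apply Finset.sum_congr rfl
  intro z _
  obtain ⟨g, h2, h3⟩ := hsw a z
  have h4 : orbM (G := G) a b z a = orbM (G := G) a b a z := by
    have := orbM_inv (G := G) a b g a z
    rwa [h2, h3] at this
  show orbM (G := G) a b a z * orbM (G := G) a b z a = _
  rw [h4]
  by_cases h5 : Orb G a b a z
  · rw [orbM_one h5]; simp
  · rw [orbM_zero h5]; simp

theorem phi_one_of_const (T : (Ω → ℂ) →ₗ[ℂ] (Ω → ℂ)) (hT : IsComm (Cfsg.permRep ℂ G Ω) T) (a : Ω) :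
    phi (Cfsg.permRep ℂ G Ω) T 1 = (Fintype.card Ω : ℂ) * LinearMap.toMatrix' T a a := by
  have h1 := phi_opOf (G := G) (fun x y => LinearMap.toMatrix' T x y) 1
  rw [← eq_opOf T] at h1
  rw [h1]
  have h2 : ∀ x : Ω, LinearMap.toMatrix' T x ((1 : G) • x) = LinearMap.toMatrix' T a a := by
    intro x
    rw [one_smul]
    obtain ⟨g, hg⟩ := MulAction.exists_smul_eq G a x
    exact ker_const T hT ⟨g, hg, hg⟩
  simp only [h2, Finset.sum_const, Finset.card_univ, nsmul_eq_mul]

theorem phi_one_orb (a b : Ω) (hb : b ≠ a) : phi (Cfsg.permRep ℂ G Ω) (opOf (orbM (G := G) a b)) 1 = 0 := by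
  rw [phi_opOf]
  apply Finset.sum_eq_zero
  intro x _
  rw [one_smul]
  apply orbM_zero
  rintro ⟨g, h1, h2⟩
  exact hb (smul_left_cancel g (h2.trans h1.symm))

end Scheme

section Main

variable {G : Type u} [Group G] [Fintype G] {Ω : Type v} [Fintype Ω] [DecidableEq Ω] [MulAction G Ω]
  [MulAction.IsPretransitive G Ω]

theorem phi_three (χ₁ χ₂ : G → ℂ) (h₁ : IsIrrCharacter G χ₁) (h₂ : IsIrrCharacter G χ₂)
    (h10 : χ₁ ≠ fun _ => 1) (h20 : χ₂ ≠ fun _ => 1) (h12 : χ₁ ≠ χ₂)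
    (hzero : ∀ ψ : G → ℂ, IsIrrCharacter G ψ → ψ ≠ (fun _ => 1) → ψ ≠ χ₁ → ψ ≠ χ₂ → classInner (pi G Ω) ψ = 0)
    (T : (Ω → ℂ) →ₗ[ℂ] (Ω → ℂ)) (hT : IsComm (Cfsg.permRep ℂ G Ω) T) (g : G) :
    phi (Cfsg.permRep ℂ G Ω) T g = classInner (phi (Cfsg.permRep ℂ G Ω) T) (fun _ => 1) +
      classInner (phi (Cfsg.permRep ℂ G Ω) T) χ₁ * χ₁ g +
      classInner (phi (Cfsg.permRep ℂ G Ω) T) χ₂ * χ₂ g := by
  classical
  have hcl := phi_isClass (Cfsg.permRep ℂ G Ω) T hT
  rw [classFunction_apply hcl g]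
  let ψ₀ : IrrCharacter G := ⟨fun _ => 1, isIrrCharacter_one⟩
  let ψ₁ : IrrCharacter G := ⟨χ₁, h₁⟩
  let ψ₂ : IrrCharacter G := ⟨χ₂, h₂⟩
  have h01 : ψ₀ ≠ ψ₁ := fun h => h10 (congrArg Subtype.val h).symm
  have h02 : ψ₀ ≠ ψ₂ := fun h => h20 (congrArg Subtype.val h).symm
  have h12' : ψ₁ ≠ ψ₂ := fun h => h12 (congrArg Subtype.val h)
  rw [← Finset.sum_subset (Finset.subset_univ {ψ₀, ψ₁, ψ₂})]
  · rw [Finset.sum_insert (by simp [h01, h02]), Finset.sum_pair h12', add_assoc]
    simp [ψ₀, ψ₁, ψ₂]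
  · intro ψ _ hψ
    simp only [Finset.mem_insert, Finset.mem_singleton, not_or] at hψ
    rw [classInner_phi_zero T hT ψ.2 (hzero ψ ψ.2 (fun h => hψ.1 (Subtype.ext h)) (fun h => hψ.2.1 (Subtype.ext h))
      (fun h => hψ.2.2 (Subtype.ext h))), zero_mul]

theorem rel_r (a b c : Ω) (hb : b ≠ a) (hc : c ≠ a) (hbc : ∀ h : G, h • a = a → h • b ≠ c)
    (hcov : ∀ y : Ω, y = a ∨ (∃ h : G, h • a = a ∧ h • b = y) ∨ (∃ h : G, h • a = a ∧ h • c = y))
    (hsw : ∀ x y : Ω, ∃ g : G, g • x = y ∧ g • y = x)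
    {ψ : G → ℂ} (hψ : IsIrrCharacter G ψ) (hne : ψ ≠ fun _ => 1) (h1 : classInner (pi G Ω) ψ = 1) :
    (classInner (phi (Cfsg.permRep ℂ G Ω) (opOf (orbM (G := G) a b))) ψ) ^ 2 =
      (Nat.card (MulAction.orbit (MulAction.stabilizer G a) b) : ℂ) +
      LinearMap.toMatrix' (opOf (orbM (G := G) a b) ∘ₗ opOf (orbM (G := G) a b)) a b *
        classInner (phi (Cfsg.permRep ℂ G Ω) (opOf (orbM (G := G) a b))) ψ +
      LinearMap.toMatrix' (opOf (orbM (G := G) a b) ∘ₗ opOf (orbM (G := G) a b)) a c *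
        (-1 - classInner (phi (Cfsg.permRep ℂ G Ω) (opOf (orbM (G := G) a b))) ψ) := by
  set A := opOf (orbM (G := G) a b) with hA
  set B := opOf (orbM (G := G) a c) with hB
  have hAc : IsComm (Cfsg.permRep ℂ G Ω) A := orbM_comm a b
  have hBc : IsComm (Cfsg.permRep ℂ G Ω) B := orbM_comm a c
  have hAA := comm_comp A A hAc hAc
  have h2 := mult_one_comp hψ h1 A A hAc hAc hAA
  have h3 := op_decomp (G := G) a b c hb hc hbc hcov (A ∘ₗ A) hAA
  have h4 := congrArg (fun T => classInner (phi (Cfsg.permRep ℂ G Ω) T) ψ) h3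
  simp only [phi_add, phi_smul, classInner_add_left, classInner_smul_left] at h4
  rw [classInner_phi_id, h1, mul_one, ker_sq_self (G := G) hsw a b, ← hA, ← hB] at h4
  have h5 := op_sum (G := G) a b c hb hc hbc hcov
  have h6 := classInner_phi_J (Ω := Ω) hψ hne
  rw [← h5, phi_add, phi_add, classInner_add_left, classInner_add_left, classInner_phi_id, h1, ← hA, ← hB] at h6
  have h7 : classInner (phi (Cfsg.permRep ℂ G Ω) B) ψ = -1 - classInner (phi (Cfsg.permRep ℂ G Ω) A) ψ := by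
    linear_combination h6
  rw [h7] at h4
  rw [sq, ← h2, h4]

theorem main_0719 (hprim : MulAction.IsPreprimitive G Ω) {m : ℕ} (hm : Fintype.card Ω = 2 * m) (a₀ : Ω)
    (hrank : Nat.card (MulAction.orbitRel.Quotient (MulAction.stabilizer G a₀) Ω) = 3)
    (χ₁ χ₂ : G → ℂ) (h₁ : IsIrrCharacter G χ₁) (h₂ : IsIrrCharacter G χ₂)
    (hπ : (fun g : G => (Nat.card (MulAction.fixedBy Ω g) : ℂ)) = fun g => 1 + χ₁ g + χ₂ g)
    (hd₁ : χ₁ 1 = (m : ℂ) - 1) (hd₂ : χ₂ 1 = m) :
    ∃ a : ℕ, 0 < a ∧ m = 2 * a ^ 2 + 2 * a + 1 ∧ ∀ b : Ω, b ≠ a₀ →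
      Nat.card (MulAction.orbit (MulAction.stabilizer G a₀) b) = a * (2 * a + 1) ∨
      Nat.card (MulAction.orbit (MulAction.stabilizer G a₀) b) = (a + 1) * (2 * a + 1) := by
  classical
  haveI : Nonempty Ω := ⟨a₀⟩
  obtain ⟨b, c, hb, hc, hbc, hcov, hsum⟩ := three_orbits (G := G) a₀ hrank
  set k := Nat.card (MulAction.orbit (MulAction.stabilizer G a₀) b) with hkdef
  set l := Nat.card (MulAction.orbit (MulAction.stabilizer G a₀) c) with hldef
  have hk1 : 1 ≤ k := card_orbit_pos a₀ b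
  have hl1 : 1 ≤ l := card_orbit_pos a₀ c
  have hkl : k + l + 1 = 2 * m := by omega
  have hkne : k ≠ l := by omega
  have hm2 : 2 ≤ m := by
    have h0 : m ≠ 0 := by omega
    have h1 : m ≠ 1 := by
      rintro rfl
      apply h₁.map_one_ne_zero
      rw [hd₁]
      simp
    omega
  have hsb := swap_of_ne_size (G := G) a₀ b c hb hcov hkne
  have hsc := swap_of_ne_size (G := G) a₀ c b hc
    (fun y => (hcov y).imp_right Or.symm) hkne.symm
  have hsw := global_swap (G := G) a₀ b c hcov hsb hsc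
  -- multiplicities
  have hmC : ((m : ℕ) : ℂ) ≠ 0 := by
    have : m ≠ 0 := by omega
    exact_mod_cast this
  have h12 : χ₁ ≠ χ₂ := by
    intro h
    rw [h, hd₂] at hd₁
    have : (1 : ℂ) = 0 := by linear_combination hd₁
    exact one_ne_zero this
  have h20 : χ₂ ≠ fun _ => 1 := by
    intro h
    rw [h] at hd₂
    have : (m : ℂ) = 1 := hd₂.symm
    have h3 : m = 1 := by exact_mod_cast this
    omega
  have hpifun : pi G Ω = (fun _ => (1 : ℂ)) + χ₁ + χ₂ := by
    funext g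
    exact congrFun hπ g
  have hsplit : ∀ ψ : G → ℂ, classInner (pi G Ω) ψ =
      classInner (fun _ => (1 : ℂ)) ψ + classInner χ₁ ψ + classInner χ₂ ψ := by
    intro ψ
    rw [hpifun, classInner_add_left, classInner_add_left]
  have h10 : χ₁ ≠ fun _ => 1 := by
    intro h
    have h3 := hsplit (fun _ => 1)
    have h4 : classInner χ₁ (fun _ => (1 : ℂ)) = 1 := by
      rw [h]
      exact classInner_irr_self isIrrCharacter_one
    rw [classInner_pi_one, classInner_irr_self isIrrCharacter_one, h4, classInner_irr_ne h₂ isIrrCharacter_one h20] at h3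
    norm_num at h3
  have hm1 : classInner (pi G Ω) χ₁ = 1 := by
    rw [hsplit, classInner_irr_self h₁, classInner_irr_ne h₂ h₁ h12.symm,
      classInner_irr_ne isIrrCharacter_one h₁ h10.symm]
    ring
  have hm2' : classInner (pi G Ω) χ₂ = 1 := by
    rw [hsplit, classInner_irr_self h₂, classInner_irr_ne h₁ h₂ h12,
      classInner_irr_ne isIrrCharacter_one h₂ h20.symm]
    ring
  have hm0 : classInner (pi G Ω) (fun _ => (1 : ℂ)) = 1 := classInner_pi_one
  have hzero : ∀ ψ : G → ℂ, IsIrrCharacter G ψ → ψ ≠ (fun _ => 1) → ψ ≠ χ₁ → ψ ≠ χ₂ → classInner (pi G Ω) ψ = 0 := by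
    intro ψ hψ h3 h4 h5
    rw [hsplit, classInner_irr_ne isIrrCharacter_one hψ (Ne.symm h3), classInner_irr_ne h₁ hψ (Ne.symm h4),
      classInner_irr_ne h₂ hψ (Ne.symm h5)]
    ring
  set A := opOf (orbM (G := G) a₀ b) with hA
  have hAc : IsComm (Cfsg.permRep ℂ G Ω) A := orbM_comm a₀ b
  have hAA := comm_comp A A hAc hAc
  set r := classInner (phi (Cfsg.permRep ℂ G Ω) A) χ₁ with hr
  set s := classInner (phi (Cfsg.permRep ℂ G Ω) A) χ₂ with hs
  have ht0 : classInner (phi (Cfsg.permRep ℂ G Ω) A) (fun _ => 1) = (k : ℂ) := classInner_phi_one a₀ b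
  have R1 := rel_r (G := G) a₀ b c hb hc hbc hcov hsw h₁ h10 hm1
  have R2 := rel_r (G := G) a₀ b c hb hc hbc hcov hsw h₂ h20 hm2'
  rw [← hA, ← hkdef, ← hr] at R1
  rw [← hA, ← hkdef, ← hs] at R2
  obtain ⟨M₁, hM₁⟩ := ker_sq_int (G := G) a₀ b a₀ b
  obtain ⟨M₂, hM₂⟩ := ker_sq_int (G := G) a₀ b a₀ c
  rw [← hA] at hM₁ hM₂
  rw [hM₁, hM₂] at R1 R2
  have E1 : (0 : ℂ) = k + r * ((m : ℂ) - 1) + s * m := by
    have h3 := phi_three χ₁ χ₂ h₁ h₂ h10 h20 h12 hzero A hAc 1
    rw [phi_one_orb a₀ b hb, ht0, hd₁, hd₂] at h3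
    exact h3
  have E2 : (2 * m * k : ℂ) = k ^ 2 + r ^ 2 * ((m : ℂ) - 1) + s ^ 2 * m := by
    have h3 := phi_three χ₁ χ₂ h₁ h₂ h10 h20 h12 hzero (A ∘ₗ A) hAA 1
    rw [phi_one_of_const (A ∘ₗ A) hAA a₀, ker_sq_self (G := G) hsw a₀ b, hm] at h3
    rw [mult_one_comp h₁ hm1 A A hAc hAc hAA, mult_one_comp h₂ hm2' A A hAc hAc hAA,
      mult_one_comp isIrrCharacter_one hm0 A A hAc hAc hAA, ht0, hd₁, hd₂] at h3
    push_cast at h3
    rw [← hkdef] at h3
    linear_combination h3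
  have hn3 : 3 ≤ Fintype.card Ω := by omega
  rcases wielandt_arith k l m hk1 hl1 hkl hm2 M₁ M₂ r s R1 R2 E1 E2 with h | h | ⟨a, ha, hma, hval⟩
  · exact (no_fixed_of_prim (G := G) hprim a₀ b hb hsb h hn3).elim
  · exact (no_fixed_of_prim (G := G) hprim a₀ c hc hsc h hn3).elim
  · refine ⟨a, ha, hma, ?_⟩
    intro d hd
    have hdsz : Nat.card (MulAction.orbit (MulAction.stabilizer G a₀) d) = k ∨
        Nat.card (MulAction.orbit (MulAction.stabilizer G a₀) d) = l := by
      rcases hcov d with h | ⟨h, hh, hc'⟩ | ⟨h, hh, hc'⟩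
      · exact absurd h hd
      · left
        rw [hkdef, ← hc']
        apply card_orbit_congr
        conv_lhs => rw [← hh]
        exact orbM_of_smul (G := G) h a₀ b
      · right
        rw [hldef, ← hc']
        apply card_orbit_congr
        conv_lhs => rw [← hh]
        exact orbM_of_smul (G := G) h a₀ c
    rcases hval with ⟨h3, h4⟩ | ⟨h3, h4⟩
    · rcases hdsz with h5 | h5
      · left; rw [h5, h3]
      · right; rw [h5, h4]
    · rcases hdsz with h5 | h5
      · right; rw [h5, h3]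
      · left; rw [h5, h4]

end Main

end CfsgLib.H9.PermChar
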