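import Cfsg.Agent.Lib.H9.PrimeDeg
import Cfsg.Agent.Lib.H9.SimpleTools

set_option autoImplicit false
set_option linter.unusedSimpArgs false

namespace CfsgLib.H9.WPoly

variable {p : ℕ} [Fact p.Prime]

/-- An element normalising the translation group acts as an affine map. -/
theorem smul_eq_of_conj {G : Type*} [Group G] [MulAction G (ZMod p)] {u t : G}
    (hu : ∀ j : ZMod p, u • j = j + 1) {c : ℕ} (htc : t * u * t⁻¹ = u ^ c) (j : ZMod p) :
    t • j = t • (0 : ZMod p) + (c : ZMod p) * j := by
  have hun : ∀ (n : ℕ) (i : ZMod p), u ^ n • i = i + n := by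
    intro n
    induction n with
    | zero => intro i; simp
    | succ n ih =>
      intro i
      rw [pow_succ, mul_smul, hu, ih]
      push_cast
      ring
  have hstep : ∀ i : ZMod p, t • (i + 1) = t • i + c := by
    intro i
    have h1 : t • (i + 1) = t • (u • i) := by rw [hu]
    rw [h1, ← mul_smul]
    have h2 : t * u = u ^ c * t := by
      rw [← htc]; group
    rw [h2, mul_smul, hun]
  have hnat : ∀ n : ℕ, t • ((n : ZMod p)) = t • (0 : ZMod p) + (c : ZMod p) * n := by
    intro n
    induction n with
    | zero => simp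
    | succ n ih =>
      push_cast
      rw [hstep, ih]
      ring
  have := hnat j.val
  rwa [ZMod.natCast_zmod_val] at this

/-- An involution normalising the translation group of odd prime degree acts by `j ↦ b - j`,
provided it acts non-trivially. -/
theorem involution_inverts {G : Type*} [Group G] [MulAction G (ZMod p)] [FaithfulSMul G (ZMod p)]
    (hp2 : p ≠ 2) {u t : G} (hu : ∀ j : ZMod p, u • j = j + 1) {c : ℕ} (htc : t * u * t⁻¹ = u ^ c)
    (ht : orderOf t = 2) : ∃ b : ZMod p, ∀ j : ZMod p, t • j = b - j := by
  have haff := smul_eq_of_conj hu htc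
  set b := t • (0 : ZMod p) with hb
  set a : ZMod p := (c : ZMod p) with ha
  have h2ne : (2 : ZMod p) ≠ 0 := by
    intro h
    have h1 : ((2 : ℕ) : ZMod p) = 0 := by exact_mod_cast h
    rw [ZMod.natCast_eq_zero_iff] at h1
    exact hp2 ((Nat.prime_dvd_prime_iff_eq Fact.out Nat.prime_two).mp h1)
  have htt : ∀ j : ZMod p, t • t • j = j := by
    intro j
    rw [← mul_smul]
    have : t * t = 1 := by
      rw [← sq, ← ht]
      exact pow_orderOf_eq_one t
    rw [this, one_smul]
  have h0 : b + a * b = 0 := by
    have h1 := htt 0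
    rw [← hb, haff b] at h1
    exact h1
  have h1 : b + a * (b + a) = 1 := by
    have h3 := htt 1
    rw [haff 1, mul_one, haff (b + a)] at h3
    exact h3
  have haa : (a - 1) * (a + 1) = 0 := by
    have : a * a = 1 := by linear_combination h1 - h0
    linear_combination this
  rcases mul_eq_zero.mp haa with h3 | h3
  · -- translation
    exfalso
    have ha1 : a = 1 := sub_eq_zero.mp h3
    have hb0 : b = 0 := by
      rw [ha1] at h0
      have : 2 * b = 0 := by linear_combination h0
      exact (mul_eq_zero.mp this).resolve_left h2ne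
    have : t = 1 := by
      apply FaithfulSMul.eq_of_smul_eq_smul (α := ZMod p)
      intro j
      rw [haff, hb0, ha1]
      simp
    rw [this, orderOf_one] at ht
    omega
  · refine ⟨b, fun j => ?_⟩
    have ha1 : a = -1 := eq_neg_of_add_eq_zero_left h3
    rw [haff, ha1]
    ring

/-- The Sylow `p`-subgroup of a permutation group of prime degree `p` has order `p`. -/
theorem card_sylow_of_prime_degree {α : Type*} [Fintype α] (hα : Fintype.card α = p)
    (G : Subgroup (Equiv.Perm α)) [MulAction.IsPretransitive G α] (P : Sylow p G) :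
    Nat.card P = p := by
  classical
  have hp : p.Prime := Fact.out
  haveI : Nonempty α := by
    rw [← Fintype.card_pos_iff, hα]
    exact hp.pos
  obtain ⟨a⟩ := ‹Nonempty α›
  have hdvd : p ∣ Nat.card G := by
    have h1 := Subgroup.card_mul_index (MulAction.stabilizer G a)
    have h2 : (MulAction.stabilizer G a).index = p := by
      rw [MulAction.index_stabilizer, MulAction.orbit_eq_univ, Set.ncard_univ,
        Nat.card_eq_fintype_card, hα]
    rw [h2] at h1
    exact ⟨_, by rw [← h1, mul_comm]⟩
  have hG : Nat.card G ∣ p.factorial := by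
    have := Subgroup.card_subgroup_dvd_card G
    rwa [Nat.card_eq_fintype_card (α := Equiv.Perm α), Fintype.card_perm, hα] at this
  rw [Sylow.card_eq_multiplicity]
  have hf : (Nat.card G).factorization p = 1 := by
    have h1 : 1 ≤ (Nat.card G).factorization p :=
      hp.factorization_pos_of_dvd Nat.card_pos.ne' hdvd
    have h2 : (Nat.card G).factorization p ≤ 1 := by
      by_contra hcon
      have h3 : p ^ 2 ∣ Nat.card G := by
        have h4 : p ^ 2 ∣ p ^ (Nat.card G).factorization p := pow_dvd_pow p (by omega)
        exact h4.trans (Nat.ordProj_dvd _ _)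
      have h5 : p ^ 2 ∣ p.factorial := h3.trans hG
      have h6 : p.factorial = p * (p - 1).factorial := (Nat.mul_factorial_pred hp.ne_zero).symm
      rw [h6, sq] at h5
      have h7 : p ∣ (p - 1).factorial := Nat.dvd_of_mul_dvd_mul_left hp.pos h5
      rw [hp.dvd_factorial] at h7
      have := hp.pos
      omega
    omega
  rw [hf, pow_one]

end CfsgLib.H9.WPoly

namespace CfsgLib.H9.WPoly

variable {p : ℕ} [Fact p.Prime]

theorem two_ne_zero_zmod (hp2 : p ≠ 2) : (2 : ZMod p) ≠ 0 := by
  intro h
  have h1 : ((2 : ℕ) : ZMod p) = 0 := by exact_mod_cast h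
  rw [ZMod.natCast_eq_zero_iff] at h1
  exact hp2 ((Nat.prime_dvd_prime_iff_eq Fact.out Nat.prime_two).mp h1)

/-- Coordinates in which a given involution of the normaliser of a Sylow `p`-subgroup acts by
`j ↦ -j`. -/
theorem exists_coord_inv {α : Type*} [Fintype α] (hα : Fintype.card α = p)
    (G : Subgroup (Equiv.Perm α)) [MulAction.IsPretransitive G α] (hp2 : p ≠ 2) (P : Sylow p G)
    (heven : Even (Nat.card (Subgroup.normalizer ((P : Subgroup G) : Set G)))) :
    ∃ (e : ZMod p ≃ α) (u t : G), (∀ j, u • e j = e (j + 1)) ∧ (∀ j, t • e j = e (-j)) ∧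
      orderOf t = 2 := by
  classical
  have hpp : p.Prime := Fact.out
  obtain ⟨e, u, hu⟩ := exists_coord (G := G) (α := α) (p := p) hα
  letI act : MulAction G (ZMod p) := coordAction G e
  have hsm : ∀ (g : G) (j : ZMod p), e (g • j) = g • e j := fun g j => by
    show e (e.symm (g • e j)) = g • e j
    simp
  have hu' : ∀ j : ZMod p, u • j = j + 1 := by
    intro j
    apply e.injective
    rw [hsm, hu]
  haveI hfaith : FaithfulSMul G (ZMod p) := ⟨fun {g g'} h => by
    apply Subtype.ext
    ext x
    obtain ⟨j, rfl⟩ := e.surjective x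
    have := congrArg e (h j)
    rwa [hsm, hsm] at this⟩
  have hun : ∀ (n : ℕ) (i : ZMod p), u ^ n • i = i + n := by
    intro n
    induction n with
    | zero => intro i; simp
    | succ n ih =>
      intro i
      rw [pow_succ, mul_smul, hu', ih]
      push_cast
      ring
  have huord : orderOf u = p := by
    apply orderOf_eq_prime
    · apply FaithfulSMul.eq_of_smul_eq_smul (α := ZMod p)
      intro j
      rw [hun, one_smul]
      simp
    · intro h1
      have := hu' 0
      rw [h1, one_smul] at this
      simp at this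
  have hupg : IsPGroup p (Subgroup.zpowers u) := IsPGroup.of_card (n := 1) (by
    rw [Nat.card_zpowers, huord, pow_one])
  obtain ⟨P', hP'⟩ := hupg.exists_le_sylow
  have hP'eq : (P' : Subgroup G) = Subgroup.zpowers u := by
    symm
    apply Subgroup.eq_of_le_of_card_ge hP'
    rw [Nat.card_zpowers, huord]
    exact (card_sylow_of_prime_degree hα G P').le
  have hNcard : Nat.card (Subgroup.normalizer ((P' : Subgroup G) : Set G)) =
      Nat.card (Subgroup.normalizer ((P : Subgroup G) : Set G)) := by
    have h1 := CfsgLib.H9.card_normalizer_mul_card_sylow P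
    have h2 := CfsgLib.H9.card_normalizer_mul_card_sylow P'
    exact Nat.eq_of_mul_eq_mul_right Nat.card_pos (h2.trans h1.symm)
  have h2N : 2 ∣ Nat.card (Subgroup.normalizer ((P' : Subgroup G) : Set G)) := by
    rw [hNcard]
    exact heven.two_dvd
  obtain ⟨t₀, ht₀⟩ := exists_prime_orderOf_dvd_card' 2 h2N
  set t : G := t₀.1 with ht_def
  have ht2 : orderOf t = 2 := (Subgroup.orderOf_coe t₀).trans ht₀
  obtain ⟨c, hc⟩ : ∃ c : ℕ, t * u * t⁻¹ = u ^ c := by
    have h1 : u ∈ (P' : Subgroup G) := hP' (Subgroup.mem_zpowers u)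
    have h2 : t * u * t⁻¹ ∈ (P' : Subgroup G) := (Subgroup.mem_normalizer_iff.mp t₀.2 u).mp h1
    rw [hP'eq, ← mem_powers_iff_mem_zpowers] at h2
    obtain ⟨c, hc⟩ := h2
    exact ⟨c, hc.symm⟩
  obtain ⟨b, hb⟩ := involution_inverts hp2 hu' hc ht2
  have h2ne := two_ne_zero_zmod (p := p) hp2
  set j₀ : ZMod p := b / 2 with hj₀
  have hj₀' : 2 * j₀ = b := by
    rw [hj₀]
    field_simp
  refine ⟨(Equiv.addRight j₀).trans e, u, t, ?_, ?_, ht2⟩
  · intro j
    show u • e (j + j₀) = e (j + 1 + j₀)
    rw [hu]
    congr 1
    ring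
  · intro j
    show t • e (j + j₀) = e (-j + j₀)
    rw [← hsm, hb]
    congr 1
    linear_combination -hj₀'

/-- Parity lemma: a finite set stable under the involution `i ↦ d - i`. -/
theorem card_mod_two_of_symm (hp2 : p ≠ 2) (S : Finset (ZMod p)) (d : ZMod p)
    (hS : ∀ i ∈ S, d - i ∈ S) : S.card % 2 = 1 ↔ d / 2 ∈ S := by
  classical
  have h2ne := two_ne_zero_zmod (p := p) hp2
  have hfix : ∀ i, d - i = i ↔ i = d / 2 := by
    intro i
    constructor
    · intro h
      field_simp
      linear_combination -h
    · rintro rfl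
      field_simp
      ring
  have heven : ∀ T : Finset (ZMod p), (∀ i ∈ T, d - i ∈ T) → d / 2 ∉ T → T.card % 2 = 0 := by
    intro T hT hnot
    have hsum : ∑ _i ∈ T, (1 : ZMod 2) = 0 := by
      apply Finset.sum_involution (fun i _ => d - i)
      · intro i _
        decide
      · intro i hi _ h
        rw [hfix] at h
        exact hnot (h ▸ hi)
      · intro i hi
        exact hT i hi
      · intro i _
        ring
    rw [Finset.sum_const, nsmul_eq_mul, mul_one] at hsum
    have := (ZMod.natCast_eq_zero_iff T.card 2).mp hsum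
    omega
  by_cases h : d / 2 ∈ S
  · simp only [h, iff_true]
    have h1 := heven (S.erase (d / 2)) (by
      intro i hi
      rw [Finset.mem_erase] at hi ⊢
      refine ⟨?_, hS i hi.2⟩
      intro h3
      apply hi.1
      have e : d - d / 2 = d / 2 := by
        field_simp
        ring
      have := congrArg (fun z => d - z) h3
      simp only [sub_sub_cancel] at this
      rw [e] at this
      exact this) (by simp)
    rw [Finset.card_erase_of_mem h] at h1
    have : 0 < S.card := Finset.card_pos.mpr ⟨_, h⟩
    omega
  · simp only [h, iff_false]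
    have := heven S hS h
    omega

/-- Core of the theorem that the only subgroups of index `p` are the point stabilisers. -/
theorem fixes_zero_of_index {G : Type*} [Group G] [Finite G] [MulAction G (ZMod p)]
    [FaithfulSMul G (ZMod p)] (hp2 : p ≠ 2) {u t : G} (hu : ∀ j : ZMod p, u • j = j + 1)
    (ht : ∀ j : ZMod p, t • j = -j) (H : Subgroup G) (htH : t ∈ H) (hind : H.index = p)
    (hnd : ¬ p ∣ Nat.card H) : ∀ h ∈ H, h • (0 : ZMod p) = 0 := by
  classical
  have hpp : p.Prime := Fact.out
  have h2ne := two_ne_zero_zmod (p := p) hp2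
  have hun : ∀ (n : ℕ) (i : ZMod p), u ^ n • i = i + n := by
    intro n
    induction n with
    | zero => intro i; simp
    | succ n ih =>
      intro i
      rw [pow_succ, mul_smul, hu, ih]
      push_cast
      ring
  by_cases hlink : ∃ d₀ d₁ : ZMod p, d₀ ≠ 0 ∧ d₁ ≠ 0 ∧ ¬ ∃ g : G, g • (0 : ZMod p) = 0 ∧ g • d₀ = d₁
  · -- affine case
    obtain ⟨d₀, d₁, h0, h1, hnot⟩ := hlink
    have haff := affine_of_not_linked (ZMod p) hu h0 h1 hnot
    intro h hh
    by_contra hc
    obtain ⟨a, c, hac⟩ := haff h
    have hc0 : h • (0 : ZMod p) = c := by rw [hac]; ring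
    have hcne : c ≠ 0 := by rwa [← hc0]
    set w : G := t * h * t⁻¹ * h⁻¹ with hw
    have hwH : w ∈ H := H.mul_mem (H.mul_mem (H.mul_mem htH hh) (H.inv_mem htH)) (H.inv_mem hh)
    have htinv : ∀ j : ZMod p, t⁻¹ • j = -j := by
      intro j
      rw [inv_smul_eq_iff, ht, neg_neg]
    have hw1 : ∀ k : ZMod p, w • k = k - 2 * c := by
      intro k
      obtain ⟨k', rfl⟩ : ∃ k', h • k' = k := ⟨h⁻¹ • k, smul_inv_smul _ _⟩
      rw [hw, mul_smul, inv_smul_smul, mul_smul, mul_smul, htinv, ht, hac, hac]
      ring
    have hwn : ∀ (n : ℕ) (k : ZMod p), w ^ n • k = k - n * (2 * c) := by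
      intro n
      induction n with
      | zero => intro k; simp
      | succ n ih =>
        intro k
        rw [pow_succ, mul_smul, hw1, ih]
        push_cast
        ring
    have hword : orderOf w = p := by
      apply orderOf_eq_prime
      · apply FaithfulSMul.eq_of_smul_eq_smul (α := ZMod p)
        intro j
        rw [hwn, one_smul]
        simp
      · intro h1'
        have := hw1 0
        rw [h1', one_smul] at this
        have h5 : 2 * c = 0 := by linear_combination this
        exact (mul_eq_zero.mp h5).elim h2ne hcne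
    apply hnd
    have := orderOf_dvd_natCard (⟨w, hwH⟩ : H)
    rwa [Subgroup.orderOf_mk, hword] at this
  · -- doubly transitive case
    push Not at hlink
    have h2tr : ∀ x y x' y' : ZMod p, x ≠ y → x' ≠ y' → ∃ g : G, g • x = x' ∧ g • y = y' := by
      intro x y x' y' hxy hxy'
      have hu2 : ∀ (i : ZMod p) (j : ZMod p), u ^ i.val • j = j + i := by
        intro i j
        rw [hun, ZMod.natCast_zmod_val]
      have hh1 : y - x ≠ 0 := fun h => hxy (sub_eq_zero.mp h).symm
      have hh2 : y' - x' ≠ 0 := fun h => hxy' (sub_eq_zero.mp h).symm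
      obtain ⟨g, hg0, hg1⟩ := hlink (y - x) (y' - x') hh1 hh2
      refine ⟨u ^ x'.val * g * (u ^ (-x).val), ?_, ?_⟩
      · rw [mul_smul, mul_smul, hu2, hu2]
        simp [hg0]
      · rw [mul_smul, mul_smul, hu2, hu2]
        have e1 : y + -x = y - x := by ring
        rw [e1, hg1]
        ring
    -- the orbit of `1`
    let Bm : ZMod p → Prop := fun c => ∃ h ∈ H, h • (1 : ZMod p) = c
    have hBm1 : Bm 1 := ⟨1, H.one_mem, one_smul _ _⟩
    have hBmH : ∀ h ∈ H, ∀ c, Bm (h • c) ↔ Bm c := by
      intro h hh c
      constructor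
      · rintro ⟨k, hk, hkc⟩
        exact ⟨h⁻¹ * k, H.mul_mem (H.inv_mem hh) hk, by rw [mul_smul, hkc, inv_smul_smul]⟩
      · rintro ⟨k, hk, hkc⟩
        exact ⟨h * k, H.mul_mem hh hk, by rw [mul_smul, hkc]⟩
    have hBmneg : ∀ c, Bm (-c) ↔ Bm c := by
      intro c
      rw [← ht]
      exact hBmH t htH c
    -- counting
    let τ : ZMod p → G := fun i => u ^ i.val
    have hτ : ∀ i j, τ i • j = j + i := by
      intro i j
      show u ^ i.val • j = j + i
      rw [hun, ZMod.natCast_zmod_val]
    have hτinv : ∀ i j, (τ i)⁻¹ • j = j - i := by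
      intro i j
      rw [inv_smul_eq_iff, hτ]
      ring
    -- the factorisation `G = ⟨u⟩ H`
    let Ψ : ZMod p × H → G := fun q => τ q.1 * q.2
    have hΨinj : Function.Injective Ψ := by
      rintro ⟨i, h⟩ ⟨i', h'⟩ heq
      have h1 : (τ i')⁻¹ * τ i = h' * (h : G)⁻¹ := by
        have h3 : τ i * (h : G) = τ i' * (h' : G) := heq
        rw [inv_mul_eq_iff_eq_mul, ← mul_assoc, ← h3]
        group
      have h2 : (τ i')⁻¹ * τ i ∈ H := by
        rw [h1]
        exact H.mul_mem h'.2 (H.inv_mem h.2)
      have hact : ∀ j, ((τ i')⁻¹ * τ i) • j = j + (i - i') := by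
        intro j
        rw [mul_smul, hτinv, hτ]
        ring
      have hii : i = i' := by
        by_contra hne
        have hne' : i - i' ≠ 0 := sub_ne_zero.mpr hne
        set w := (τ i')⁻¹ * τ i with hw
        have hwn : ∀ (n : ℕ) (k : ZMod p), w ^ n • k = k + n * (i - i') := by
          intro n
          induction n with
          | zero => intro k; simp
          | succ n ih =>
            intro k
            rw [pow_succ, mul_smul, hact, ih]
            push_cast
            ring
        have hword : orderOf w = p := by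
          apply orderOf_eq_prime
          · apply FaithfulSMul.eq_of_smul_eq_smul (α := ZMod p)
            intro j
            rw [hwn, one_smul]
            simp
          · intro h1'
            have := hact 0
            rw [h1', one_smul] at this
            apply hne'
            simpa using this.symm
        apply hnd
        have := orderOf_dvd_natCard (⟨w, h2⟩ : H)
        rwa [Subgroup.orderOf_mk, hword] at this
      subst hii
      have h3 : τ i * (h : G) = τ i * (h' : G) := heq
      have h4 : (h : G) = h' := mul_left_cancel h3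
      simp only [Prod.mk.injEq, true_and]
      exact Subtype.ext h4
    have hΨbij : Function.Bijective Ψ := by
      rw [Nat.bijective_iff_injective_and_card]
      refine ⟨hΨinj, ?_⟩
      rw [Nat.card_prod, Nat.card_zmod, ← hind, Subgroup.index_mul_card]
    let Ψe := Equiv.ofBijective Ψ hΨbij
    -- the numbers `M x y`
    let M : ZMod p → ZMod p → ℕ := fun x y =>
      Nat.card {i : ZMod p // Bm (x - i) ∧ Bm (y - i)}
    have hA : ∀ x y, Nat.card {g : G // Bm (g⁻¹ • x) ∧ Bm (g⁻¹ • y)} = M x y * Nat.card H := by
      intro x y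
      have e0 : {q : ZMod p × H // Bm (x - q.1) ∧ Bm (y - q.1)} ≃ {g : G // Bm (g⁻¹ • x) ∧ Bm (g⁻¹ • y)} :=
        Equiv.subtypeEquiv Ψe (fun q => by
          show _ ↔ (Bm ((τ q.1 * q.2)⁻¹ • x) ∧ Bm ((τ q.1 * q.2)⁻¹ • y))
          rw [mul_inv_rev, mul_smul, mul_smul, hτinv, hτinv, hBmH _ (H.inv_mem q.2.2),
            hBmH _ (H.inv_mem q.2.2)])
      have e2 : {q : ZMod p × H // Bm (x - q.1) ∧ Bm (y - q.1)} ≃
          {i : ZMod p // Bm (x - i) ∧ Bm (y - i)} × H :=
        { toFun := fun q => (⟨q.1.1, q.2⟩, q.1.2)
          invFun := fun q => ⟨(q.1.1, q.2), q.1.2⟩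
          left_inv := fun q => rfl
          right_inv := fun q => rfl }
      rw [← Nat.card_congr e0, Nat.card_congr e2, Nat.card_prod]
    have hMinv : ∀ (g : G) x y, M (g • x) (g • y) = M x y := by
      intro g x y
      have hH : 0 < Nat.card H := Nat.card_pos
      apply Nat.eq_of_mul_eq_mul_right hH
      rw [← hA, ← hA]
      refine Nat.card_congr ?_
      refine { toFun := fun q => ⟨g⁻¹ * q.1, ?_⟩
               invFun := fun q => ⟨g * q.1, ?_⟩
               left_inv := fun q => by simp
               right_inv := fun q => by simp }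
      · have := q.2
        simpa [mul_inv_rev, mul_smul] using this
      · have := q.2
        simpa [mul_inv_rev, mul_smul] using this
    have hMconst : ∀ x y x' y' : ZMod p, x ≠ y → x' ≠ y' → M x y = M x' y' := by
      intro x y x' y' h1 h2
      obtain ⟨g, rfl, rfl⟩ := h2tr x y x' y' h1 h2
      exact (hMinv g x y).symm
    -- parity
    have hparity : ∀ d : ZMod p, M d 0 % 2 = 1 ↔ Bm (d / 2) := by
      intro d
      let S : Finset (ZMod p) := Finset.univ.filter (fun i => Bm i ∧ Bm (d - i))
      have hS : ∀ i ∈ S, d - i ∈ S := by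
        intro i hi
        simp only [S, Finset.mem_filter, Finset.mem_univ, true_and] at hi ⊢
        refine ⟨hi.2, ?_⟩
        have : d - (d - i) = i := by ring
        rw [this]
        exact hi.1
      have hcard : M d 0 = S.card := by
        show Nat.card {i : ZMod p // Bm (d - i) ∧ Bm (0 - i)} = S.card
        rw [Nat.card_eq_fintype_card, Fintype.card_subtype]
        congr 1
        ext i
        simp only [Finset.mem_filter, Finset.mem_univ, true_and, S, zero_sub, hBmneg]
        exact and_comm
      rw [hcard, card_mod_two_of_symm hp2 S d hS]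
      simp only [S, Finset.mem_filter, Finset.mem_univ, true_and]
      have e : d - d / 2 = d / 2 := by
        field_simp
        ring
      rw [e, and_self]
    have hallB : ∀ y : ZMod p, y ≠ 0 → Bm y := by
      intro y hy
      have h1 : M 2 0 % 2 = 1 := by
        rw [hparity]
        have : (2 : ZMod p) / 2 = 1 := by field_simp
        rw [this]
        exact hBm1
      have h2 : M (2 * y) 0 = M 2 0 := hMconst _ _ _ _ (mul_ne_zero h2ne hy) h2ne
      have h3 : M (2 * y) 0 % 2 = 1 := by rw [h2]; exact h1
      rw [hparity] at h3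
      have : (2 * y) / 2 = y := by field_simp
      rwa [this] at h3
    have hB0 : ¬ Bm 0 := by
      intro h0
      apply hnd
      have hall : ∀ y, Bm y := by
        intro y
        by_cases hy : y = 0
        · rw [hy]; exact h0
        · exact hallB y hy
      have horb : MulAction.orbit H (1 : ZMod p) = Set.univ := by
        ext y
        simp only [Set.mem_univ, iff_true]
        obtain ⟨h, hh, hhy⟩ := hall y
        exact ⟨⟨h, hh⟩, hhy⟩
      have := CfsgLib.H9.card_orbit_dvd' (H := H) (1 : ZMod p)
      rw [horb] at this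
      simpa using this
    intro h hh
    by_contra hne
    obtain ⟨k, hk, hkc⟩ := hallB _ hne
    apply hB0
    refine ⟨h⁻¹ * k, H.mul_mem (H.inv_mem hh) hk, ?_⟩
    rw [mul_smul, hkc, inv_smul_smul]

end CfsgLib.H9.WPoly
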