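import Mathlib
import Cfsg.Prelude.Def_LinearParabolics
import Cfsg.Agent.Lib.H9.Parab

/-!
The degree formula for the partition-indexed class functions of `GL_n(q)` (a `q`-Vandermonde
determinant).
-/
set_option autoImplicit false
open scoped MatrixGroups

namespace CfsgLib.H9.QDet

open Finset Matrix Polynomial
open CfsgLib.H9.Parab (T qf two_T parabolic_index)

/-- The `q`-integer in `ℂ`. -/
noncomputable def Q (q r : ℕ) : ℂ := ((∑ l ∈ range r, q ^ l : ℕ) : ℂ)

theorem Q_zero (q : ℕ) : Q q 0 = 0 := by simp [Q]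

theorem Q_sub (q a r : ℕ) (h : a ≤ r) : Q q r - Q q a = (q : ℂ) ^ a * Q q (r - a) := by
  obtain ⟨c, rfl⟩ := Nat.exists_eq_add_of_le h
  simp only [Q, Nat.add_sub_cancel_left]
  rw [Finset.sum_range_add]
  push_cast
  rw [Finset.mul_sum]
  simp [pow_add]

/-- The falling product. -/
noncomputable def A (q l j : ℕ) : ℂ := ∏ a ∈ range j, Q q (l - a)

theorem A_eq_zero (q l j : ℕ) (h : l < j) : A q l j = 0 := by
  apply Finset.prod_eq_zero (i := l) (by simpa using h)
  simp [Q_zero]

theorem qf_eq (q l j : ℕ) (h : j ≤ l) : ((qf q l : ℕ) : ℂ) = ((qf q (l - j) : ℕ) : ℂ) * A q l j := by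
  induction j with
  | zero => simp [A]
  | succ j ih =>
    rw [ih (by omega)]
    have hs : l - j = (l - (j + 1)) + 1 := by omega
    have h1 : qf q (l - j) = qf q (l - (j + 1)) * ∑ m ∈ range (l - (j + 1) + 1), q ^ m := by
      rw [hs]; simp [qf, prod_range_succ]
    rw [h1]
    simp only [A, prod_range_succ]
    rw [hs]
    simp only [Q]
    push_cast
    ring

theorem sum_T (m : ℕ) : 6 * ∑ j ∈ range (m + 2), T j = (m + 2) * (m + 1) * m := by
  induction m with
  | zero => simp [T, sum_range_succ]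
  | succ m ih =>
    rw [sum_range_succ, mul_add, ih]
    have h := two_T (m + 2)
    have : 6 * T (m + 2) = 3 * (m + 2) * (m + 1) := by nlinarith
    rw [this]
    ring

theorem sum_T' (n : ℕ) : ∑ j ∈ range n, T j = n * (n - 1) * (n - 2) / 6 := by
  rcases n with _ | _ | m
  · simp
  · simp [T]
  · have := sum_T m
    have h2 : (m + 1 + 1) * (m + 1 + 1 - 1) * (m + 1 + 1 - 2) = (m + 2) * (m + 1) * m := by
      simp
    rw [h2, ← this]
    simp

/-- The monic polynomials. -/
noncomputable def pp (q j : ℕ) : ℂ[X] := ∏ a ∈ range j, (X - C (Q q a))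

theorem pp_monic (q j : ℕ) : (pp q j).Monic :=
  monic_prod_of_monic _ _ (fun a _ => monic_X_sub_C _)

theorem pp_deg (q j : ℕ) : (pp q j).natDegree = j := by
  rw [pp, natDegree_prod_of_monic _ _ (fun _ _ => monic_X_sub_C _)]
  simp

theorem A_mul (q l j : ℕ) : (q : ℂ) ^ T j * A q l j = (pp q j).eval (Q q l) := by
  by_cases h : j ≤ l
  · simp only [pp, eval_prod, eval_sub, eval_X, eval_C, A, T]
    rw [← Finset.prod_pow_eq_pow_sum, ← Finset.prod_mul_distrib]
    refine Finset.prod_congr rfl fun a ha => ?_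
    rw [Q_sub q a l (by have := Finset.mem_range.mp ha; omega)]
  · rw [A_eq_zero _ _ _ (by omega), mul_zero]
    symm
    simp only [pp, eval_prod, eval_sub, eval_X, eval_C]
    apply Finset.prod_eq_zero (i := l) (by simp; omega)
    simp

theorem det_A {n : ℕ} (q : ℕ) (l : Fin n → ℕ) :
    (q : ℂ) ^ (n * (n - 1) * (n - 2) / 6) * (Matrix.of fun i j : Fin n => A q (l i) j).det =
      (vandermonde fun i => Q q (l i)).det := by
  rw [det_eval_matrixOfPolynomials_eq_det_vandermonde (fun i => Q q (l i)) (fun j : Fin n => pp q j)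
    (fun j => pp_deg q j) (fun j => pp_monic q j)]
  have h := det_mul_row (fun j : Fin n => (q : ℂ) ^ T j) (Matrix.of fun i j : Fin n => A q (l i) j)
  have h2 : (∏ j : Fin n, (q : ℂ) ^ T j) = (q : ℂ) ^ (n * (n - 1) * (n - 2) / 6) := by
    rw [Finset.prod_pow_eq_pow_sum, ← sum_T', Finset.sum_range]
  rw [← h2, ← h]
  congr 1
  ext i j
  simp only [Matrix.of_apply]
  exact A_mul q (l i) j

variable {F : Type*} [Field F] [Fintype F]

theorem term {n : ℕ} (l : Fin n → ℕ) (κ : Equiv.Perm (Fin n)) (hl : ∑ i, l i = n + ∑ i : Fin n, (i : ℕ))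
    (hκ : ∀ i : Fin n, (κ i).val ≤ l i) :
    ((Nat.card (GL (Fin n) F ⧸ Cfsg.parabolicGL n F fun i => l i - (κ i).val) : ℕ) : ℂ) *
        ∏ i, ((qf (Fintype.card F) (l i) : ℕ) : ℂ) =
      ((qf (Fintype.card F) n : ℕ) : ℂ) * ∏ i, A (Fintype.card F) (l i) (κ i) := by
  have hs : ∑ i, (l i - (κ i).val) = n := by
    have h1 : ∑ i, (κ i).val = ∑ i : Fin n, (i : ℕ) := Equiv.sum_comp κ (fun i : Fin n => (i : ℕ))
    have h2 : ∑ i, (l i - (κ i).val) + ∑ i, (κ i).val = ∑ i, l i := by
      rw [← Finset.sum_add_distrib]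
      exact Finset.sum_congr rfl fun i _ => Nat.sub_add_cancel (hκ i)
    omega
  have h := parabolic_index (F := F) (fun i => l i - (κ i).val) hs
  have h' := congrArg (Nat.cast : ℕ → ℂ) h
  push_cast at h'
  rw [← h', mul_assoc, ← Finset.prod_mul_distrib]
  congr 2
  ext i
  exact qf_eq _ _ _ (hκ i)

theorem main {n : ℕ} (ν : Fin n → ℕ) (hsum : ∑ i, ν i = n) :
    Cfsg.unipotentCharacterGL n F ν 1 * ∏ i : Fin n, ((qf (Fintype.card F) (ν i + i.val) : ℕ) : ℂ) =
      ((qf (Fintype.card F) n : ℕ) : ℂ) *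
        (Matrix.of fun i j : Fin n => A (Fintype.card F) (ν i + i.val) j).det := by
  classical
  rw [← Matrix.det_transpose, Matrix.det_apply', Finset.mul_sum]
  unfold Cfsg.unipotentCharacterGL
  rw [Finset.sum_mul]
  refine Finset.sum_congr rfl fun κ _ => ?_
  simp only [Matrix.transpose_apply, Matrix.of_apply]
  split_ifs with hκ
  · have hl : ∑ i, (ν i + i.val) = n + ∑ i : Fin n, (i : ℕ) := by
      rw [Finset.sum_add_distrib, hsum]
    have h := term (F := F) (fun i => ν i + i.val) κ hl hκ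
    have hfix : ∀ H : Subgroup (GL (Fin n) F), Cfsg.fixedPointCharacter H 1 =
        ((Nat.card (GL (Fin n) F ⧸ H) : ℕ) : ℂ) := by
      intro H
      simp only [Cfsg.fixedPointCharacter, MulAction.fixedBy_one_eq_univ]
      simp
    rw [hfix]
    calc _ = ((Equiv.Perm.sign κ : ℤ) : ℂ) * (((Nat.card (GL (Fin n) F ⧸ Cfsg.parabolicGL n F fun i => ν i + i.val - (κ i).val) : ℕ) : ℂ) *
        ∏ i, ((qf (Fintype.card F) (ν i + i.val) : ℕ) : ℂ)) := by ring
      _ = _ := by rw [h]; ring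
  · rw [zero_mul]
    push Not at hκ
    obtain ⟨i, hi⟩ := hκ
    have : ∏ i, A (Fintype.card F) (ν i + i.val) (κ i) = 0 :=
      Finset.prod_eq_zero (Finset.mem_univ i) (A_eq_zero _ _ _ hi)
    rw [this]
    ring

end CfsgLib.H9.QDet
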