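import Mathlib
import Cfsg.Agent.Lib.H9.QdU
import Cfsg.Agent.Lib.OOL.Qd1
import Cfsg.Agent.Lib.ClassGeo.SLGen

/-! `Qd(p)` in alternating groups. -/

set_option autoImplicit false
set_option linter.unusedVariables false
set_option linter.unusedSectionVars false
set_option linter.unusedSimpArgs false
set_option linter.style.haveILetI false

namespace CfsgLib.H9.QdAlt

open Equiv CfsgLib.H9.QdSection CfsgLib.H9.QdU Cfsg

/-- `p`-subgroups of `S_n`, for `n < p²`, are abelian. -/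
theorem pab_perm (p : ℕ) [hp : Fact p.Prime] (n : ℕ) (hn : n < p ^ 2) : PAb p (Perm (Fin n)) := by
  classical
  intro S hS a ha b hb
  apply Equiv.ext
  intro x
  let a' : S := ⟨a, ha⟩
  let b' : S := ⟨b, hb⟩
  let O := MulAction.orbit S x
  obtain ⟨k, hk⟩ := hS.card_orbit x
  have hOn : Nat.card O ≤ n := by
    have := Nat.card_le_card_of_injective (Subtype.val : O → Fin n) Subtype.val_injective
    simpa using this
  have hk1 : k ≤ 1 := by
    by_contra h
    have h2 : p ^ 2 ≤ p ^ k := Nat.pow_le_pow_right hp.out.pos (by omega)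
    have : Nat.card O = p ^ k := hk
    omega
  let f : S →* Perm O := MulAction.toPermHom S O
  have hR : IsPGroup p f.range := hS.of_surjective f.rangeRestrict f.rangeRestrict_surjective
  obtain ⟨j, hj⟩ := IsPGroup.iff_card.1 hR
  have hdvd : p ^ j ∣ (Nat.card O).factorial := by
    rw [← hj]
    have h1 := Subgroup.card_subgroup_dvd_card f.range
    rwa [Nat.card_perm] at h1
  have hj1 : Nat.card f.range ∣ p := by
    rw [hj]
    have : j ≤ 1 := by
      by_contra hh
      have h2 : p ^ 2 ∣ p ^ j := pow_dvd_pow p (by omega)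
      have h3 := h2.trans hdvd
      have hO : Nat.card O = p ^ k := hk
      rw [hO] at h3
      interval_cases k
      · simp at h3
        have := hp.out.one_lt
        omega
      · rw [pow_one] at h3
        obtain ⟨q, hq⟩ : ∃ q, p = q + 1 := ⟨p - 1, by have := hp.out.pos; omega⟩
        have h6 : p.factorial = p * (p - 1).factorial := by
          rw [hq]; simp [Nat.factorial_succ]
        rw [h6, pow_two] at h3
        have h7 : p ∣ (p - 1).factorial := Nat.dvd_of_mul_dvd_mul_left hp.out.pos h3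
        have h8 := (hp.out.dvd_factorial).1 h7
        have := hp.out.pos
        omega
    exact pow_dvd_pow p this |>.trans (by simp)
  haveI : IsCyclic f.range := isCyclic_of_card_dvd_prime hj1
  have hcomm : f a' * f b' = f b' * f a' := by
    have hc : IsMulCommutative f.range := IsCyclic.isMulCommutative
    have h1 : (⟨f a', ⟨a', rfl⟩⟩ : f.range) * ⟨f b', ⟨b', rfl⟩⟩ = ⟨f b', ⟨b', rfl⟩⟩ * ⟨f a', ⟨a', rfl⟩⟩ :=
      hc.is_comm.comm _ _
    exact congrArg Subtype.val h1
  have h2 := congrArg (fun g : Perm O => ((g ⟨x, MulAction.mem_orbit_self x⟩ : O) : Fin n)) hcomm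
  exact h2

theorem pab_alt (p : ℕ) [Fact p.Prime] (n : ℕ) (hn : n < p ^ 2) : PAb p (alternatingGroup (Fin n)) :=
  (pab_perm p n hn).subgroup _

theorem not_involves {p : ℕ} [Fact p.Prime] (hp2 : p ≠ 2) (n : ℕ) (hn : n < p ^ 2) :
    ¬ Cfsg.Involves ↥(Cfsg.qd p) ↥(alternatingGroup (Fin n)) := by
  rintro ⟨K', R, hR, ⟨e⟩⟩
  apply not_qd p hp2
  have h1 := pab_alt p n hn
  have h2 : PAb p K' := h1.subgroup K'
  have h3 : PAb p (K' ⧸ R.subgroupOf K') := PAb.surj h2 (QuotientGroup.mk' _) (QuotientGroup.mk'_surjective _)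
  exact PAb.surj h3 e.toMonoidHom e.surjective

variable {p : ℕ} [hp : Fact p.Prime]

/-- The affine action of `qd p`. -/
noncomputable def affEnd (p : ℕ) [Fact p.Prime] : ↥(Cfsg.qd p) →* Function.End (ZMod p × ZMod p) where
  toFun M := fun v =>
    ((M.1 : Matrix (Fin 3) (Fin 3) (ZMod p)) 0 0 * v.1 + (M.1 : Matrix (Fin 3) (Fin 3) (ZMod p)) 0 1 * v.2 + (M.1 : Matrix (Fin 3) (Fin 3) (ZMod p)) 0 2,
     (M.1 : Matrix (Fin 3) (Fin 3) (ZMod p)) 1 0 * v.1 + (M.1 : Matrix (Fin 3) (Fin 3) (ZMod p)) 1 1 * v.2 + (M.1 : Matrix (Fin 3) (Fin 3) (ZMod p)) 1 2)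
  map_one' := by
    funext v
    apply Prod.ext
    · show _ = v.1
      simp
    · show _ = v.2
      simp
  map_mul' x y := by
    obtain ⟨b1, b2, b3⟩ := lastRow y.1 y.2
    funext v
    set X : Matrix (Fin 3) (Fin 3) (ZMod p) := (x.1 : Matrix (Fin 3) (Fin 3) (ZMod p)) with hX
    set Y : Matrix (Fin 3) (Fin 3) (ZMod p) := (y.1 : Matrix (Fin 3) (Fin 3) (ZMod p)) with hY
    apply Prod.ext
    · change (X * Y) 0 0 * v.1 + (X * Y) 0 1 * v.2 + (X * Y) 0 2 =
        X 0 0 * (Y 0 0 * v.1 + Y 0 1 * v.2 + Y 0 2) + X 0 1 * (Y 1 0 * v.1 + Y 1 1 * v.2 + Y 1 2) + X 0 2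
      simp only [Matrix.mul_apply, Fin.sum_univ_three, b1, b2, b3]
      ring
    · change (X * Y) 1 0 * v.1 + (X * Y) 1 1 * v.2 + (X * Y) 1 2 =
        X 1 0 * (Y 0 0 * v.1 + Y 0 1 * v.2 + Y 0 2) + X 1 1 * (Y 1 0 * v.1 + Y 1 1 * v.2 + Y 1 2) + X 1 2
      simp only [Matrix.mul_apply, Fin.sum_univ_three, b1, b2, b3]
      ring

/-- The action as permutations. -/
noncomputable def affPerm (p : ℕ) [Fact p.Prime] : ↥(Cfsg.qd p) →* Perm (ZMod p × ZMod p) := (affEnd p).toHomPerm

theorem affPerm_injective : Function.Injective (affPerm p) := by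
  intro x y h
  set X : Matrix (Fin 3) (Fin 3) (ZMod p) := (x.1 : Matrix (Fin 3) (Fin 3) (ZMod p)) with hX
  set Y : Matrix (Fin 3) (Fin 3) (ZMod p) := (y.1 : Matrix (Fin 3) (Fin 3) (ZMod p)) with hY
  have key : ∀ v : ZMod p × ZMod p, (X 0 0 * v.1 + X 0 1 * v.2 + X 0 2, X 1 0 * v.1 + X 1 1 * v.2 + X 1 2) =
      (Y 0 0 * v.1 + Y 0 1 * v.2 + Y 0 2, Y 1 0 * v.1 + Y 1 1 * v.2 + Y 1 2) :=
    fun v => congrArg (fun g : Perm (ZMod p × ZMod p) => g v) h
  obtain ⟨a1, a2, a3⟩ := lastRow x.1 x.2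
  obtain ⟨b1, b2, b3⟩ := lastRow y.1 y.2
  have h00 := Prod.ext_iff.1 (key (0, 0))
  have h10 := Prod.ext_iff.1 (key (1, 0))
  have h01 := Prod.ext_iff.1 (key (0, 1))
  simp only [mul_zero, mul_one, zero_add, add_zero] at h00 h10 h01
  apply Subtype.ext
  apply Matrix.SpecialLinearGroup.ext
  intro i j
  fin_cases i <;> fin_cases j
  · have := h10.1; rw [h00.1] at this; exact add_right_cancel this
  · have := h01.1; rw [h00.1] at this; exact add_right_cancel this
  · exact h00.1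
  · have := h10.2; rw [h00.2] at this; exact add_right_cancel this
  · have := h01.2; rw [h00.2] at this; exact add_right_cancel this
  · exact h00.2
  · exact a1.trans b1.symm
  · exact a2.trans b2.symm
  · exact a3.trans b3.symm

theorem sign_of_pow {G : Type*} [Group G] (χ : G →* ℤˣ) (hp2 : p ≠ 2) (x : G) (hx : x ^ p = 1) : χ x = 1 := by
  have h1 : χ x ^ p = 1 := by rw [← map_pow, hx, map_one]
  rcases Int.units_eq_one_or (χ x) with h | h
  · exact h
  · rw [h] at h1
    have hodd : Odd p := hp.out.odd_of_ne_two hp2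
    rw [hodd.neg_one_pow] at h1
    exact absurd h1 (by decide)

theorem sign_aff (hp2 : p ≠ 2) (M : ↥(Cfsg.qd p)) : Perm.sign (affPerm p M) = 1 := by
  have hp3 : 3 ≤ p := by
    have := hp.out.two_le
    omega
  let χ : ↥(Cfsg.qd p) →* ℤˣ := Perm.sign.comp (affPerm p)
  have hext : ∀ A : OOL.SLE (ZMod p), χ ⟨OOL.qdExt A, OOL.qdExt_mem A⟩ = 1 := by
    intro A
    induction A using CfsgLib.ClassGeo.SL_transvection_induction with
    | htransvec i j hij a =>
      apply sign_of_pow χ hp2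
      apply Subtype.ext
      apply Subtype.ext
      change ((OOL.qdExt _ ^ p : Matrix.SpecialLinearGroup (Fin 3) (ZMod p)) : Matrix (Fin 3) (Fin 3) (ZMod p)) = 1
      rw [Matrix.SpecialLinearGroup.coe_pow]
      apply pow_of_cube hp3
      rw [OOL.qdExt_coe, Matrix.SpecialLinearGroup.transvection_coe]
      rw [pow_succ, pow_two]
      fin_cases i <;> fin_cases j <;> first | exact absurd rfl hij | skip
      all_goals
        ext i j
        fin_cases i <;> fin_cases j <;>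
          simp [Matrix.mul_apply, Fin.sum_univ_three, Matrix.one_apply, Matrix.single]
    | hmul A B hA hB =>
      have : (⟨OOL.qdExt (A * B), OOL.qdExt_mem _⟩ : ↥(Cfsg.qd p)) =
          ⟨OOL.qdExt A, OOL.qdExt_mem _⟩ * ⟨OOL.qdExt B, OOL.qdExt_mem _⟩ := by
        apply Subtype.ext
        exact map_mul _ _ _
      rw [this, map_mul, hA, hB, mul_one]
  have htr : ∀ v : OOL.VecP p, χ ⟨OOL.qdTr v, OOL.qdTr_mem v⟩ = 1 := by
    intro v
    apply sign_of_pow χ hp2
    apply Subtype.ext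
    change ((OOL.qdTr v ^ p : Matrix.SpecialLinearGroup (Fin 3) (ZMod p))) = 1
    rw [← map_pow]
    have : v ^ p = 1 := by
      apply Multiplicative.toAdd.injective
      funext i
      simp
    rw [this, map_one]
  obtain ⟨v, A, hM⟩ := OOL.qd_decomp M.2
  have hM' : M = ⟨OOL.qdTr v, OOL.qdTr_mem v⟩ * ⟨OOL.qdExt A, OOL.qdExt_mem A⟩ := Subtype.ext hM
  change χ M = 1
  rw [hM', map_mul, htr, hext, mul_one]

/-- The embedding, for `p² ≤ n`. -/
theorem exists_sub (hp2 : p ≠ 2) (n : ℕ) (hn : p ^ 2 ≤ n) :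
    ∃ H : Subgroup (alternatingGroup (Fin n)), Nonempty (↥H ≃* ↥(Cfsg.qd p)) := by
  classical
  have hcard : Fintype.card (ZMod p × ZMod p) ≤ Fintype.card (Fin n) := by
    simp [ZMod.card, pow_two] at *
    exact hn
  obtain ⟨ι⟩ := Function.Embedding.nonempty_of_card_le hcard
  let Ψ : ↥(Cfsg.qd p) →* Perm (Fin n) := (Perm.viaEmbeddingHom ι).comp (affPerm p)
  have hΨ : Function.Injective Ψ := (Perm.viaEmbeddingHom_injective ι).comp affPerm_injective
  have hsign : ∀ M, Perm.sign (Ψ M) = 1 := by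
    intro M
    have h1 : Perm.sign (Ψ M) = Perm.sign (affPerm p M) := by
      rw [MonoidHom.comp_apply, Perm.viaEmbeddingHom_apply]
      unfold Perm.viaEmbedding
      rw [Perm.sign_extendDomain]
    rw [h1, sign_aff hp2]
  let Ψ' : ↥(Cfsg.qd p) →* alternatingGroup (Fin n) :=
    Ψ.codRestrict _ (fun M => Equiv.Perm.mem_alternatingGroup.2 (hsign M))
  have hΨ' : Function.Injective Ψ' := by
    intro x y h
    exact hΨ (congrArg Subtype.val h)
  exact ⟨Ψ'.range, ⟨(MonoidHom.ofInjective hΨ').symm⟩⟩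

/-- The statement. -/
theorem main (hp2 : p ≠ 2) (n : ℕ) :
    ((∃ H : Subgroup (alternatingGroup (Fin n)), Nonempty (↥H ≃* ↥(Cfsg.qd p))) ↔ p ^ 2 ≤ n) ∧
      (n < p ^ 2 → ¬ Cfsg.Involves ↥(Cfsg.qd p) ↥(alternatingGroup (Fin n))) := by
  refine ⟨⟨?_, exists_sub hp2 n⟩, not_involves hp2 n⟩
  rintro ⟨H, ⟨e⟩⟩
  by_contra h
  have hlt : n < p ^ 2 := by omega
  apply not_qd p hp2
  have h2 : PAb p H := (pab_alt p n hlt).subgroup H
  exact PAb.surj h2 e.toMonoidHom e.surjective

end CfsgLib.H9.QdAlt
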