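import Mathlib
import Cfsg.Agent.Lib.H9.QuadStd

/-! Quadratic forms over the field with two elements with a fixed polar form. -/

set_option autoImplicit false
set_option linter.unusedVariables false
set_option linter.unusedSectionVars false
set_option linter.unusedSimpArgs false
set_option linter.style.haveILetI false

namespace CfsgLib.H9.QuadF2

open Module Cfsg CfsgLib.H9.QuadClass

/-- The dot product count. -/
theorem dot_fiber {k : ℕ} (x : Fin k → ZMod 2) (hx : x ≠ 0) :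
    2 * Fintype.card {y : Fin k → ZMod 2 // ∑ i, x i * y i = 0} = 2 ^ k := by
  classical
  obtain ⟨i, hi⟩ : ∃ i, x i ≠ 0 := by
    by_contra h
    push Not at h
    exact hx (funext h)
  have hi1 : x i = 1 := by
    generalize x i = t at hi
    revert t
    decide
  have hsum : ∀ y : Fin k → ZMod 2, ∑ j, x j * (y + (Pi.single i 1 : Fin k → ZMod 2)) j = ∑ j, x j * y j + 1 := by
    intro y
    simp only [Pi.add_apply, mul_add, Finset.sum_add_distrib]
    congr 1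
    rw [Finset.sum_eq_single i]
    · simp [hi1]
    · intro j _ hj
      simp [Pi.single_apply, hj]
    · simp
  have hcard1 : Fintype.card {y : Fin k → ZMod 2 // ∑ i, x i * y i = 0} =
      Fintype.card {y : Fin k → ZMod 2 // ∑ i, x i * y i = 1} := by
    refine Fintype.card_congr (Equiv.subtypeEquiv (Equiv.addRight (Pi.single i 1 : Fin k → ZMod 2)) ?_)
    intro y
    simp only [Equiv.coe_addRight]
    rw [hsum]
    generalize ∑ j, x j * y j = t
    revert t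
    decide
  have hcard2 : Fintype.card {y : Fin k → ZMod 2 // ∑ i, x i * y i = 0} +
      Fintype.card {y : Fin k → ZMod 2 // ∑ i, x i * y i = 1} = 2 ^ k := by
    have h3 : ∀ y : Fin k → ZMod 2, ∑ i, x i * y i = 1 ↔ ¬ (∑ i, x i * y i = 0) := by
      intro y
      generalize ∑ j, x j * y j = t
      revert t
      decide
    simp_rw [h3]
    rw [Fintype.card_subtype_compl, Fintype.card_fun]
    have h4 : Fintype.card {y : Fin k → ZMod 2 // ∑ i, x i * y i = 0} ≤ Fintype.card (Fin k → ZMod 2) :=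
      Fintype.card_subtype_le _
    rw [Fintype.card_fun] at h4
    simp only [ZMod.card, Fintype.card_fin] at h4 ⊢
    omega
  omega

/-- Zeros of the hyperbolic form. -/
theorem card_zeros_plus (k : ℕ) :
    2 * Fintype.card {v : Fin k ⊕ Fin k → ZMod 2 // quadFormPlus k (ZMod 2) v = 0} = 4 ^ k + 2 ^ k := by
  classical
  let E : (Fin k ⊕ Fin k → ZMod 2) ≃ (Fin k → ZMod 2) × (Fin k → ZMod 2) := Equiv.sumArrowEquivProdArrow _ _ _
  have h1 : Fintype.card {v : Fin k ⊕ Fin k → ZMod 2 // quadFormPlus k (ZMod 2) v = 0} =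
      Fintype.card {p : (Fin k → ZMod 2) × (Fin k → ZMod 2) // ∑ i, p.1 i * p.2 i = 0} := by
    refine Fintype.card_congr (Equiv.subtypeEquiv E ?_)
    intro v
    simp [E, quadFormPlus, Equiv.sumArrowEquivProdArrow]
  have h2 : Fintype.card {p : (Fin k → ZMod 2) × (Fin k → ZMod 2) // ∑ i, p.1 i * p.2 i = 0} =
      ∑ x : Fin k → ZMod 2, Fintype.card {y : Fin k → ZMod 2 // ∑ i, x i * y i = 0} := by
    rw [← Fintype.card_sigma]
    exact Fintype.card_congr (Equiv.subtypeProdEquivSigmaSubtype (fun (x y : Fin k → ZMod 2) => ∑ i, x i * y i = 0))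
  rw [h1, h2, Finset.mul_sum]
  rw [← Finset.add_sum_erase _ _ (Finset.mem_univ (0 : Fin k → ZMod 2))]
  have h3 : ∀ x ∈ Finset.univ.erase (0 : Fin k → ZMod 2),
      2 * Fintype.card {y : Fin k → ZMod 2 // ∑ i, x i * y i = 0} = 2 ^ k := by
    intro x hx
    exact dot_fiber x (Finset.ne_of_mem_erase hx)
  rw [Finset.sum_congr rfl h3, Finset.sum_const, Finset.card_erase_of_mem (Finset.mem_univ _), Finset.card_univ,
    Fintype.card_fun]
  have h4 : Fintype.card {y : Fin k → ZMod 2 // ∑ i, (0 : Fin k → ZMod 2) i * y i = 0} = 2 ^ k := by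
    have : ∀ y : Fin k → ZMod 2, ∑ i, (0 : Fin k → ZMod 2) i * y i = 0 := by simp
    rw [Fintype.card_congr (Equiv.subtypeUnivEquiv this), Fintype.card_fun]
    simp
  rw [h4]
  simp only [ZMod.card, Fintype.card_fin, smul_eq_mul]
  have h5 : (4 : ℕ) ^ k = 2 ^ k * 2 ^ k := by
    rw [← mul_pow]
    norm_num
  rw [h5]
  have h6 : 1 ≤ 2 ^ k := Nat.one_le_two_pow
  obtain ⟨t, ht⟩ : ∃ t, 2 ^ k = t + 1 := ⟨2 ^ k - 1, by omega⟩
  rw [ht]
  simp
  ring

/-- Non-zeros of the hyperbolic form. -/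
theorem card_ones_plus (k : ℕ) :
    2 * Fintype.card {v : Fin k ⊕ Fin k → ZMod 2 // quadFormPlus k (ZMod 2) v = 1} + 2 ^ k = 4 ^ k := by
  classical
  have h1 := card_zeros_plus k
  have h3 : ∀ v : Fin k ⊕ Fin k → ZMod 2, quadFormPlus k (ZMod 2) v = 1 ↔ ¬ (quadFormPlus k (ZMod 2) v = 0) := by
    intro y
    generalize quadFormPlus k (ZMod 2) y = t
    revert t
    decide
  simp_rw [h3]
  rw [Fintype.card_subtype_compl, Fintype.card_fun]
  have h4 : Fintype.card {v : Fin k ⊕ Fin k → ZMod 2 // quadFormPlus k (ZMod 2) v = 0} ≤ Fintype.card (Fin k ⊕ Fin k → ZMod 2) :=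
    Fintype.card_subtype_le _
  rw [Fintype.card_fun] at h4
  have h5 : (2 : ℕ) ^ (k + k) = 4 ^ k := by
    rw [pow_add, ← mul_pow]
    norm_num
  simp only [ZMod.card, Fintype.card_sum, Fintype.card_fin, h5] at h4 ⊢
  omega

/-- Zeros of the elliptic form. -/
theorem card_zeros_minus (k : ℕ) :
    2 * Fintype.card {v : (Fin k ⊕ Fin k) ⊕ Fin 2 → ZMod 2 // quadFormMinus k (ZMod 2) 1 1 v = 0} + 2 ^ (k + 1) = 4 ^ (k + 1) := by
  classical
  let E : ((Fin k ⊕ Fin k) ⊕ Fin 2 → ZMod 2) ≃ (Fin 2 → ZMod 2) × (Fin k ⊕ Fin k → ZMod 2) :=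
    (Equiv.sumArrowEquivProdArrow _ _ _).trans (Equiv.prodComm _ _)
  have h1 : Fintype.card {v : (Fin k ⊕ Fin k) ⊕ Fin 2 → ZMod 2 // quadFormMinus k (ZMod 2) 1 1 v = 0} =
      Fintype.card {p : (Fin 2 → ZMod 2) × (Fin k ⊕ Fin k → ZMod 2) //
        quadFormPlus k (ZMod 2) p.2 = p.1 0 ^ 2 + 1 * p.1 0 * p.1 1 + 1 * p.1 1 ^ 2} := by
    refine Fintype.card_congr (Equiv.subtypeEquiv E ?_)
    intro v
    have ha : quadFormPlus k (ZMod 2) (E v).2 = ∑ i, v (Sum.inl (Sum.inl i)) * v (Sum.inl (Sum.inr i)) := rfl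
    have hz0 : (E v).1 0 = v (Sum.inr 0) := rfl
    have hz1 : (E v).1 1 = v (Sum.inr 1) := rfl
    rw [ha, hz0, hz1]
    simp only [quadFormMinus]
    generalize (∑ i : Fin k, v (Sum.inl (Sum.inl i)) * v (Sum.inl (Sum.inr i))) = a
    generalize v (Sum.inr 0) ^ 2 + 1 * v (Sum.inr 0) * v (Sum.inr 1) + 1 * v (Sum.inr 1) ^ 2 = b
    revert a b
    decide
  have h2 : Fintype.card {p : (Fin 2 → ZMod 2) × (Fin k ⊕ Fin k → ZMod 2) //
        quadFormPlus k (ZMod 2) p.2 = p.1 0 ^ 2 + 1 * p.1 0 * p.1 1 + 1 * p.1 1 ^ 2} =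
      ∑ z : Fin 2 → ZMod 2, Fintype.card {v : Fin k ⊕ Fin k → ZMod 2 //
        quadFormPlus k (ZMod 2) v = z 0 ^ 2 + 1 * z 0 * z 1 + 1 * z 1 ^ 2} := by
    rw [← Fintype.card_sigma]
    exact Fintype.card_congr (Equiv.subtypeProdEquivSigmaSubtype
      (fun (z : Fin 2 → ZMod 2) (v : Fin k ⊕ Fin k → ZMod 2) =>
        quadFormPlus k (ZMod 2) v = z 0 ^ 2 + 1 * z 0 * z 1 + 1 * z 1 ^ 2))
  have h3 : ∑ z : Fin 2 → ZMod 2, Fintype.card {v : Fin k ⊕ Fin k → ZMod 2 //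
        quadFormPlus k (ZMod 2) v = z 0 ^ 2 + 1 * z 0 * z 1 + 1 * z 1 ^ 2} =
      Fintype.card {v : Fin k ⊕ Fin k → ZMod 2 // quadFormPlus k (ZMod 2) v = 0} +
        3 * Fintype.card {v : Fin k ⊕ Fin k → ZMod 2 // quadFormPlus k (ZMod 2) v = 1} := by
    have hcl : ∀ z : Fin 2 → ZMod 2, z 0 ^ 2 + 1 * z 0 * z 1 + 1 * z 1 ^ 2 = if z = 0 then 0 else 1 := by
      decide
    simp_rw [hcl]
    rw [← Finset.add_sum_erase _ _ (Finset.mem_univ (0 : Fin 2 → ZMod 2))]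
    have h40 : Fintype.card {v : Fin k ⊕ Fin k → ZMod 2 // quadFormPlus k (ZMod 2) v = if (0 : Fin 2 → ZMod 2) = 0 then 0 else 1} =
        Fintype.card {v : Fin k ⊕ Fin k → ZMod 2 // quadFormPlus k (ZMod 2) v = 0} :=
      Fintype.card_congr (Equiv.subtypeEquivRight (fun v => by simp))
    have h4 : ∀ z ∈ Finset.univ.erase (0 : Fin 2 → ZMod 2),
        Fintype.card {v : Fin k ⊕ Fin k → ZMod 2 // quadFormPlus k (ZMod 2) v = if z = 0 then 0 else 1} =
        Fintype.card {v : Fin k ⊕ Fin k → ZMod 2 // quadFormPlus k (ZMod 2) v = 1} := by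
      intro z hz
      exact Fintype.card_congr (Equiv.subtypeEquivRight (fun v => by rw [if_neg (Finset.ne_of_mem_erase hz)]))
    rw [h40, Finset.sum_congr rfl h4, Finset.sum_const, Finset.card_erase_of_mem (Finset.mem_univ _), Finset.card_univ,
      Fintype.card_fun]
    simp
  rw [h1, h2, h3]
  have h4 := card_zeros_plus k
  have h5 := card_ones_plus k
  have h6 : (2 : ℕ) ^ (k + 1) = 2 * 2 ^ k := by ring
  have h7 : (4 : ℕ) ^ (k + 1) = 4 * 4 ^ k := by ring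
  rw [h6, h7]
  omega

variable {m : ℕ}

/-- Polar form of the hyperbolic form. -/
def pf (m : ℕ) (u v : Fin m ⊕ Fin m → ZMod 2) : ZMod 2 :=
  quadFormPlus m (ZMod 2) (u + v) - quadFormPlus m (ZMod 2) u - quadFormPlus m (ZMod 2) v

theorem pf_eq (u v : Fin m ⊕ Fin m → ZMod 2) :
    pf m u v = ∑ i, (u (Sum.inl i) * v (Sum.inr i) + u (Sum.inr i) * v (Sum.inl i)) :=
  polar_plus u v

theorem pf_add_left (u u' v : Fin m ⊕ Fin m → ZMod 2) : pf m (u + u') v = pf m u v + pf m u' v := by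
  simp only [pf_eq, Pi.add_apply, ← Finset.sum_add_distrib]
  apply Finset.sum_congr rfl
  intro i _
  ring

theorem pf_symm (u v : Fin m ⊕ Fin m → ZMod 2) : pf m u v = pf m v u := by
  simp only [pf_eq]
  apply Finset.sum_congr rfl
  intro i _
  ring

theorem pf_single_inl (i : Fin m) (v : Fin m ⊕ Fin m → ZMod 2) : pf m (Pi.single (Sum.inl i) 1) v = v (Sum.inr i) := by
  rw [pf_eq]
  simp [Pi.single_apply, Finset.sum_ite_eq']

theorem pf_single_inr (i : Fin m) (v : Fin m ⊕ Fin m → ZMod 2) : pf m (Pi.single (Sum.inr i) 1) v = v (Sum.inl i) := by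
  rw [pf_eq]
  simp [Pi.single_apply, Finset.sum_ite_eq']

theorem pf_nondeg (v : Fin m ⊕ Fin m → ZMod 2) (h : ∀ w, pf m w v = 0) : v = 0 := by
  funext x
  rcases x with i | i
  · have := h (Pi.single (Sum.inr i) 1)
    rwa [pf_single_inr] at this
  · have := h (Pi.single (Sum.inl i) 1)
    rwa [pf_single_inl] at this

/-- Having the hyperbolic polar form. -/
def IsPol (q : (Fin m ⊕ Fin m → ZMod 2) → ZMod 2) : Prop :=
  ∀ u v, q (u + v) = q u + q v + pf m u v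

theorem isPol_plus : IsPol (quadFormPlus m (ZMod 2)) := by
  intro u v
  simp only [pf]
  ring

theorem mul_self_zmod2 (x : ZMod 2) : x * x = x := by
  revert x
  decide

/-- Every such function is a quadratic form, and is of one of the two standard types. -/
theorem classify (hm : 1 ≤ m) {q : (Fin m ⊕ Fin m → ZMod 2) → ZMod 2} (hq : IsPol q) :
    (∃ g : (Fin m ⊕ Fin m → ZMod 2) ≃ₗ[ZMod 2] (Fin m ⊕ Fin m → ZMod 2), ∀ v, q v = quadFormPlus m (ZMod 2) (g v)) ∨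
    (∃ g : (Fin m ⊕ Fin m → ZMod 2) ≃ₗ[ZMod 2] ((Fin (m - 1) ⊕ Fin (m - 1)) ⊕ Fin 2 → ZMod 2),
      ∀ v, q v = quadFormMinus (m - 1) (ZMod 2) 1 1 (g v)) := by
  classical
  let ℓ₀ : (Fin m ⊕ Fin m → ZMod 2) →+ ZMod 2 :=
    AddMonoidHom.mk' (fun v => q v - quadFormPlus m (ZMod 2) v) (by
      intro u v
      rw [hq, isPol_plus]
      ring)
  let L : (Fin m ⊕ Fin m → ZMod 2) →ₗ[ZMod 2] ZMod 2 := ℓ₀.toZModLinearMap 2
  have hL : ∀ v, L v = q v - quadFormPlus m (ZMod 2) v := fun v => rfl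
  let Qq : QuadraticForm (ZMod 2) (Fin m ⊕ Fin m → ZMod 2) := Qp m (ZMod 2) + QuadraticMap.linMulLin L L
  have hQq : ∀ v, Qq v = q v := by
    intro v
    have h1 : Qq v = Qp m (ZMod 2) v + L v * L v := by
      simp [Qq, QuadraticMap.linMulLin_apply]
    rw [h1, Qp_apply, mul_self_zmod2, hL]
    ring
  have hcoe : ⇑Qq = q := funext hQq
  have hpol : ∀ x y, QuadraticMap.polarBilin Qq x y = pf m x y := by
    intro x y
    show QuadraticMap.polar ⇑Qq x y = _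
    rw [hcoe]
    simp only [QuadraticMap.polar, hq x y]
    ring
  have hnd : (QuadraticMap.polarBilin Qq).Nondegenerate := by
    constructor
    · intro x hx
      apply pf_nondeg
      intro w
      rw [pf_symm, ← hpol]
      exact hx w
    · intro x hx
      apply pf_nondeg
      intro w
      rw [← hpol]
      exact hx w
  have hV : Module.finrank (ZMod 2) (Fin m ⊕ Fin m → ZMod 2) = 2 * m := by simp; ring
  rcases exists_iso_std hm hV Qq hnd with ⟨g, hg⟩ | ⟨ζ, hroot, g, hg⟩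
  · left
    exact ⟨g, fun v => by rw [← hg, hQq]⟩
  · right
    have hζ : ζ = 1 := by
      have h0 := hroot 0
      revert h0
      generalize ζ = t
      revert t
      decide
    subst hζ
    exact ⟨g, fun v => by rw [← hg, hQq]⟩

/-- The number of zeros of a form. -/
noncomputable def Z (q : (Fin m ⊕ Fin m → ZMod 2) → ZMod 2) : ℕ := Nat.card {v // q v = 0}

theorem Z_of_plus {q : (Fin m ⊕ Fin m → ZMod 2) → ZMod 2}
    (g : (Fin m ⊕ Fin m → ZMod 2) ≃ₗ[ZMod 2] (Fin m ⊕ Fin m → ZMod 2))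
    (hg : ∀ v, q v = quadFormPlus m (ZMod 2) (g v)) : 2 * Z q = 4 ^ m + 2 ^ m := by
  have h1 : Z q = Nat.card {v // quadFormPlus m (ZMod 2) v = 0} :=
    Nat.card_congr (Equiv.subtypeEquiv g.toEquiv (fun v => by rw [hg]; rfl))
  rw [h1, Nat.card_eq_fintype_card]
  exact card_zeros_plus m

theorem Z_of_minus (hm : 1 ≤ m) {q : (Fin m ⊕ Fin m → ZMod 2) → ZMod 2}
    (g : (Fin m ⊕ Fin m → ZMod 2) ≃ₗ[ZMod 2] ((Fin (m - 1) ⊕ Fin (m - 1)) ⊕ Fin 2 → ZMod 2))
    (hg : ∀ v, q v = quadFormMinus (m - 1) (ZMod 2) 1 1 (g v)) : 2 * Z q + 2 ^ m = 4 ^ m := by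
  have h1 : Z q = Nat.card {v // quadFormMinus (m - 1) (ZMod 2) 1 1 v = 0} :=
    Nat.card_congr (Equiv.subtypeEquiv g.toEquiv (fun v => by rw [hg]; rfl))
  rw [h1, Nat.card_eq_fintype_card]
  have := card_zeros_minus (m - 1)
  rwa [Nat.sub_add_cancel hm] at this

theorem Z_cases (hm : 1 ≤ m) {q : (Fin m ⊕ Fin m → ZMod 2) → ZMod 2} (hq : IsPol q) :
    2 * Z q = 4 ^ m + 2 ^ m ∨ 2 * Z q + 2 ^ m = 4 ^ m := by
  rcases classify hm hq with ⟨g, hg⟩ | ⟨g, hg⟩
  · exact Or.inl (Z_of_plus g hg)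
  · exact Or.inr (Z_of_minus hm g hg)

/-- The translate of a form. -/
def tr (q : (Fin m ⊕ Fin m → ZMod 2) → ZMod 2) (w : Fin m ⊕ Fin m → ZMod 2) :
    (Fin m ⊕ Fin m → ZMod 2) → ZMod 2 := fun v => q v + pf m v w

theorem tr_isPol {q : (Fin m ⊕ Fin m → ZMod 2) → ZMod 2} (hq : IsPol q) (w : Fin m ⊕ Fin m → ZMod 2) :
    IsPol (tr q w) := by
  intro u v
  simp only [tr, hq u v, pf_add_left]
  ring

theorem add_self_zmod2 (x : ZMod 2) : x + x = 0 := by
  revert x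
  decide

theorem tr_eq {q : (Fin m ⊕ Fin m → ZMod 2) → ZMod 2} (hq : IsPol q) (w v : Fin m ⊕ Fin m → ZMod 2) :
    tr q w v = q (v + w) + q w := by
  simp only [tr, hq v w]
  have := add_self_zmod2 (q w)
  linear_combination -this

theorem Z_tr_zero {q : (Fin m ⊕ Fin m → ZMod 2) → ZMod 2} (hq : IsPol q) {w : Fin m ⊕ Fin m → ZMod 2}
    (hw : q w = 0) : Z (tr q w) = Z q := by
  refine Nat.card_congr (Equiv.subtypeEquiv (Equiv.addRight w) (fun v => ?_))
  simp only [Equiv.coe_addRight, tr_eq hq, hw, add_zero]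

theorem Z_tr_one (hm : 1 ≤ m) {q : (Fin m ⊕ Fin m → ZMod 2) → ZMod 2} (hq : IsPol q) {w : Fin m ⊕ Fin m → ZMod 2}
    (hw : q w = 1) : Z (tr q w) + Z q = 4 ^ m := by
  classical
  have h1 : Z (tr q w) = Nat.card {v // ¬ (q v = 0)} := by
    refine Nat.card_congr (Equiv.subtypeEquiv (Equiv.addRight w) (fun v => ?_))
    simp only [Equiv.coe_addRight, tr_eq hq, hw]
    generalize q (v + w) = t
    revert t
    decide
  rw [h1]
  simp only [Z, Nat.card_eq_fintype_card]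
  rw [Fintype.card_subtype_compl, Fintype.card_fun]
  have h4 : Fintype.card {v // q v = 0} ≤ Fintype.card (Fin m ⊕ Fin m → ZMod 2) := Fintype.card_subtype_le _
  rw [Fintype.card_fun] at h4
  have h5 : (2 : ℕ) ^ (m + m) = 4 ^ m := by
    rw [pow_add, ← mul_pow]
    norm_num
  simp only [ZMod.card, Fintype.card_sum, Fintype.card_fin, h5] at h4 ⊢
  omega

/-- Statement S2564. -/
theorem main_2564 (hm : 1 ≤ m) (q : (Fin m ⊕ Fin m → ZMod 2) → ZMod 2)
    (hq : (∀ u v : (Fin m ⊕ Fin m → ZMod 2), q (u + v) = q u + q v + (Cfsg.quadFormPlus m (ZMod 2) (u + v) - Cfsg.quadFormPlus m (ZMod 2) u - Cfsg.quadFormPlus m (ZMod 2) v)))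
    (w : (Fin m ⊕ Fin m → ZMod 2)) :
    (∀ u v : (Fin m ⊕ Fin m → ZMod 2), (q (u + v) + (Cfsg.quadFormPlus m (ZMod 2) (u + v + w) - Cfsg.quadFormPlus m (ZMod 2) (u + v) - Cfsg.quadFormPlus m (ZMod 2) w)) =
        (q u + (Cfsg.quadFormPlus m (ZMod 2) (u + w) - Cfsg.quadFormPlus m (ZMod 2) u - Cfsg.quadFormPlus m (ZMod 2) w)) + (q v + (Cfsg.quadFormPlus m (ZMod 2) (v + w) - Cfsg.quadFormPlus m (ZMod 2) v - Cfsg.quadFormPlus m (ZMod 2) w)) +
        (Cfsg.quadFormPlus m (ZMod 2) (u + v) - Cfsg.quadFormPlus m (ZMod 2) u - Cfsg.quadFormPlus m (ZMod 2) v)) ∧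
    ((∃ g : (Fin m ⊕ Fin m → ZMod 2) ≃ₗ[ZMod 2] (Fin m ⊕ Fin m → ZMod 2), ∀ v, q v + (Cfsg.quadFormPlus m (ZMod 2) (v + w) - Cfsg.quadFormPlus m (ZMod 2) v - Cfsg.quadFormPlus m (ZMod 2) w) = q (g v)) ↔ q w = 0) := by
  have hq' : IsPol q := hq
  have hP := tr_isPol hq' w
  constructor
  · exact hP
  · have h2 : (2 : ℕ) ^ m > 0 := by positivity
    constructor
    · rintro ⟨g, hg⟩
      by_contra hw
      have hw1 : q w = 1 := by
        generalize q w = t at hw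
        revert t
        decide
      have h1 := Z_tr_one hm hq' hw1
      have h3 : Z (tr q w) = Z q := by
        refine Nat.card_congr (Equiv.subtypeEquiv g.toEquiv (fun v => ?_))
        have h4 : tr q w v = q (g v) := hg v
        rw [h4]
        rfl
      rcases Z_cases hm hq' with h | h <;> omega
    · intro hw
      have hZ := Z_tr_zero hq' hw
      rcases classify hm hq' with ⟨g₁, hg₁⟩ | ⟨g₁, hg₁⟩ <;> rcases classify hm hP with ⟨g₂, hg₂⟩ | ⟨g₂, hg₂⟩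
      · refine ⟨g₂.trans g₁.symm, fun v => ?_⟩
        have h4 : tr q w v = quadFormPlus m (ZMod 2) (g₂ v) := hg₂ v
        show tr q w v = _
        rw [h4, hg₁]
        simp
      · have h5 := Z_of_plus g₁ hg₁
        have h6 := Z_of_minus hm g₂ hg₂
        omega
      · have h5 := Z_of_minus hm g₁ hg₁
        have h6 := Z_of_plus g₂ hg₂
        omega
      · refine ⟨g₂.trans g₁.symm, fun v => ?_⟩
        have h4 : tr q w v = quadFormMinus (m - 1) (ZMod 2) 1 1 (g₂ v) := hg₂ v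
        show tr q w v = _
        rw [h4, hg₁]
        simp

/-- The parametrisation of the forms by vectors. -/
theorem exists_tr (q : (Fin m ⊕ Fin m → ZMod 2) → ZMod 2) (hq : IsPol q) :
    ∃ w, q = tr (quadFormPlus m (ZMod 2)) w := by
  classical
  let ℓ₀ : (Fin m ⊕ Fin m → ZMod 2) →+ ZMod 2 :=
    AddMonoidHom.mk' (fun v => q v - quadFormPlus m (ZMod 2) v) (by
      intro u v
      rw [hq, isPol_plus]
      ring)
  let L : (Fin m ⊕ Fin m → ZMod 2) →ₗ[ZMod 2] ZMod 2 := ℓ₀.toZModLinearMap 2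
  have hL : ∀ v, L v = q v - quadFormPlus m (ZMod 2) v := fun v => rfl
  let w : Fin m ⊕ Fin m → ZMod 2 := Sum.elim (fun i => L (Pi.single (Sum.inr i) 1)) (fun i => L (Pi.single (Sum.inl i) 1))
  let L' : (Fin m ⊕ Fin m → ZMod 2) →ₗ[ZMod 2] ZMod 2 :=
    (AddMonoidHom.mk' (fun v => pf m v w) (fun u v => pf_add_left u v w)).toZModLinearMap 2
  have hL' : ∀ v, L' v = pf m v w := fun v => rfl
  have hLL : L = L' := by
    apply (Pi.basisFun (ZMod 2) (Fin m ⊕ Fin m)).ext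
    intro x
    rw [hL', Pi.basisFun_apply]
    rcases x with i | i
    · rw [pf_single_inl]
      rfl
    · rw [pf_single_inr]
      rfl
  refine ⟨w, funext fun v => ?_⟩
  have h1 := hL v
  rw [hLL, hL'] at h1
  simp only [tr]
  rw [h1]
  ring

theorem tr_injective : Function.Injective (tr (quadFormPlus m (ZMod 2))) := by
  intro w w' h
  have h1 : ∀ v, pf m v w = pf m v w' := by
    intro v
    have := congrFun h v
    simp only [tr] at this
    exact add_left_cancel this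
  have h2 : w - w' = 0 := by
    apply pf_nondeg
    intro v
    have h3 := pf_add_left (w - w') w' v
    rw [sub_add_cancel, pf_symm w v, pf_symm w' v, h1 v] at h3
    rw [pf_symm]
    linear_combination -h3
  exact sub_eq_zero.mp h2

/-- Types of the translates of the hyperbolic form. -/
theorem type_plus (hm : 1 ≤ m) (w : Fin m ⊕ Fin m → ZMod 2) :
    (∃ g : (Fin m ⊕ Fin m → ZMod 2) ≃ₗ[ZMod 2] (Fin m ⊕ Fin m → ZMod 2),
      ∀ v, tr (quadFormPlus m (ZMod 2)) w v = quadFormPlus m (ZMod 2) (g v)) ↔ quadFormPlus m (ZMod 2) w = 0 := by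
  have hP := tr_isPol (isPol_plus (m := m)) w
  have h2 : (2 : ℕ) ^ m > 0 := by positivity
  have hZ0 := Z_of_plus (q := quadFormPlus m (ZMod 2)) (LinearEquiv.refl _ _) (fun v => rfl)
  constructor
  · rintro ⟨g, hg⟩
    by_contra hw
    have hw1 : quadFormPlus m (ZMod 2) w = 1 := by
      generalize quadFormPlus m (ZMod 2) w = t at hw
      revert t
      decide
    have h1 := Z_tr_one hm isPol_plus hw1
    have h3 := Z_of_plus g hg
    have h5 : (4 : ℕ) ^ m > 0 := by positivity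
    omega
  · intro hw
    have hZ := Z_tr_zero isPol_plus hw
    rcases classify hm hP with ⟨g₂, hg₂⟩ | ⟨g₂, hg₂⟩
    · exact ⟨g₂, hg₂⟩
    · have h6 := Z_of_minus hm g₂ hg₂
      omega

theorem type_minus (hm : 1 ≤ m) (w : Fin m ⊕ Fin m → ZMod 2) :
    (∃ g : (Fin m ⊕ Fin m → ZMod 2) ≃ₗ[ZMod 2] ((Fin (m - 1) ⊕ Fin (m - 1)) ⊕ Fin 2 → ZMod 2),
      ∀ v, tr (quadFormPlus m (ZMod 2)) w v = quadFormMinus (m - 1) (ZMod 2) 1 1 (g v)) ↔ quadFormPlus m (ZMod 2) w = 1 := by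
  have hP := tr_isPol (isPol_plus (m := m)) w
  have h2 : (2 : ℕ) ^ m > 0 := by positivity
  have hZ0 := Z_of_plus (q := quadFormPlus m (ZMod 2)) (LinearEquiv.refl _ _) (fun v => rfl)
  constructor
  · rintro ⟨g, hg⟩
    by_contra hw
    have hw0 : quadFormPlus m (ZMod 2) w = 0 := by
      generalize quadFormPlus m (ZMod 2) w = t at hw
      revert t
      decide
    have h1 := Z_tr_zero isPol_plus hw0
    have h3 := Z_of_minus hm g hg
    omega
  · intro hw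
    have hZ := Z_tr_one hm isPol_plus hw
    rcases classify hm hP with ⟨g₂, hg₂⟩ | ⟨g₂, hg₂⟩
    · have h6 := Z_of_plus g₂ hg₂
      have h5 : (4 : ℕ) ^ m > 0 := by positivity
      omega
    · exact ⟨g₂, hg₂⟩

/-- Statement S2561. -/
theorem main_2561 (hm : 1 ≤ m) :
    Nat.card {q : (Fin m ⊕ Fin m → ZMod 2) → ZMod 2 // (∀ u v : (Fin m ⊕ Fin m → ZMod 2), q (u + v) = q u + q v + (Cfsg.quadFormPlus m (ZMod 2) (u + v) - Cfsg.quadFormPlus m (ZMod 2) u - Cfsg.quadFormPlus m (ZMod 2) v))} = 2 ^ (2 * m) ∧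
    (∀ q : (Fin m ⊕ Fin m → ZMod 2) → ZMod 2, (∀ u v : (Fin m ⊕ Fin m → ZMod 2), q (u + v) = q u + q v + (Cfsg.quadFormPlus m (ZMod 2) (u + v) - Cfsg.quadFormPlus m (ZMod 2) u - Cfsg.quadFormPlus m (ZMod 2) v)) →
      (∃ g : (Fin m ⊕ Fin m → ZMod 2) ≃ₗ[ZMod 2] (Fin m ⊕ Fin m → ZMod 2), ∀ v, q v = Cfsg.quadFormPlus m (ZMod 2) (g v)) ∨
      (∃ g : (Fin m ⊕ Fin m → ZMod 2) ≃ₗ[ZMod 2] ((Fin (m - 1) ⊕ Fin (m - 1)) ⊕ Fin 2 → ZMod 2), ∀ v, q v = Cfsg.quadFormMinus (m - 1) (ZMod 2) 1 1 (g v))) ∧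
    Nat.card {q : (Fin m ⊕ Fin m → ZMod 2) → ZMod 2 // (∀ u v : (Fin m ⊕ Fin m → ZMod 2), q (u + v) = q u + q v + (Cfsg.quadFormPlus m (ZMod 2) (u + v) - Cfsg.quadFormPlus m (ZMod 2) u - Cfsg.quadFormPlus m (ZMod 2) v)) ∧ ∃ g : (Fin m ⊕ Fin m → ZMod 2) ≃ₗ[ZMod 2] (Fin m ⊕ Fin m → ZMod 2), ∀ v, q v = Cfsg.quadFormPlus m (ZMod 2) (g v)} = 2 ^ (2 * m - 1) + 2 ^ (m - 1) ∧
    Nat.card {q : (Fin m ⊕ Fin m → ZMod 2) → ZMod 2 // (∀ u v : (Fin m ⊕ Fin m → ZMod 2), q (u + v) = q u + q v + (Cfsg.quadFormPlus m (ZMod 2) (u + v) - Cfsg.quadFormPlus m (ZMod 2) u - Cfsg.quadFormPlus m (ZMod 2) v)) ∧ ∃ g : (Fin m ⊕ Fin m → ZMod 2) ≃ₗ[ZMod 2] ((Fin (m - 1) ⊕ Fin (m - 1)) ⊕ Fin 2 → ZMod 2), ∀ v, q v = Cfsg.quadFormMinus (m - 1) (ZMod 2) 1 1 (g v)} = 2 ^ (2 * m - 1) - 2 ^ (m - 1) := by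
  classical
  have hpw : (2 : ℕ) ^ (2 * m) = 4 ^ m := by
    rw [pow_mul]
    norm_num
  obtain ⟨k, rfl⟩ : ∃ k, m = k + 1 := ⟨m - 1, by omega⟩
  have hp1 : (2 : ℕ) ^ (2 * (k + 1)) = 2 * 2 ^ (2 * (k + 1) - 1) := by
    rw [← pow_succ']
    congr 1
  have hp2 : (2 : ℕ) ^ (k + 1) = 2 * 2 ^ (k + 1 - 1) := by
    rw [← pow_succ']
    congr 1
  -- parametrisation
  have hcardP : ∀ P : ((Fin (k + 1) ⊕ Fin (k + 1) → ZMod 2) → ZMod 2) → Prop,
      Nat.card {q // IsPol q ∧ P q} =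
        Nat.card {w : Fin (k + 1) ⊕ Fin (k + 1) → ZMod 2 // P (tr (quadFormPlus (k + 1) (ZMod 2)) w)} := by
    intro P
    symm
    refine Nat.card_congr (Equiv.ofBijective
      (fun w => ⟨tr (quadFormPlus (k + 1) (ZMod 2)) w.1, tr_isPol isPol_plus w.1, w.2⟩) ⟨?_, ?_⟩)
    · intro a b hab
      apply Subtype.ext
      exact tr_injective (congrArg Subtype.val hab)
    · rintro ⟨q, hq, hP⟩
      obtain ⟨w, rfl⟩ := exists_tr q hq
      exact ⟨⟨w, hP⟩, rfl⟩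
  refine ⟨?_, fun q hq => classify (by omega) hq, ?_, ?_⟩
  · have h1 : Nat.card {q // IsPol (m := k + 1) q} = Nat.card {q // IsPol (m := k + 1) q ∧ True} :=
      Nat.card_congr (Equiv.subtypeEquivRight (fun q => by simp))
    show Nat.card {q // IsPol (m := k + 1) q} = _
    rw [h1, hcardP]
    have h2 : Nat.card {w : Fin (k + 1) ⊕ Fin (k + 1) → ZMod 2 // True} = Nat.card (Fin (k + 1) ⊕ Fin (k + 1) → ZMod 2) :=
      Nat.card_congr (Equiv.subtypeUnivEquiv (fun _ => trivial))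
    rw [h2, Nat.card_eq_fintype_card, Fintype.card_fun]
    simp
    omega
  · show Nat.card {q // IsPol (m := k + 1) q ∧ _} = _
    rw [hcardP]
    have h2 : Nat.card {w : Fin (k + 1) ⊕ Fin (k + 1) → ZMod 2 //
        ∃ g : (Fin (k + 1) ⊕ Fin (k + 1) → ZMod 2) ≃ₗ[ZMod 2] (Fin (k + 1) ⊕ Fin (k + 1) → ZMod 2),
          ∀ v, tr (quadFormPlus (k + 1) (ZMod 2)) w v = quadFormPlus (k + 1) (ZMod 2) (g v)} =
        Nat.card {w : Fin (k + 1) ⊕ Fin (k + 1) → ZMod 2 // quadFormPlus (k + 1) (ZMod 2) w = 0} :=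
      Nat.card_congr (Equiv.subtypeEquivRight (fun w => type_plus (by omega) w))
    rw [h2, Nat.card_eq_fintype_card]
    have h3 := card_zeros_plus (k + 1)
    have h4 : (4 : ℕ) ^ (k + 1) = 2 ^ (2 * (k + 1)) := hpw.symm
    rw [h4, hp1, hp2] at h3
    omega
  · show Nat.card {q // IsPol (m := k + 1) q ∧ _} = _
    rw [hcardP]
    have h2 : Nat.card {w : Fin (k + 1) ⊕ Fin (k + 1) → ZMod 2 //
        ∃ g : (Fin (k + 1) ⊕ Fin (k + 1) → ZMod 2) ≃ₗ[ZMod 2] ((Fin (k + 1 - 1) ⊕ Fin (k + 1 - 1)) ⊕ Fin 2 → ZMod 2),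
          ∀ v, tr (quadFormPlus (k + 1) (ZMod 2)) w v = quadFormMinus (k + 1 - 1) (ZMod 2) 1 1 (g v)} =
        Nat.card {w : Fin (k + 1) ⊕ Fin (k + 1) → ZMod 2 // quadFormPlus (k + 1) (ZMod 2) w = 1} :=
      Nat.card_congr (Equiv.subtypeEquivRight (fun w => type_minus (by omega) w))
    rw [h2, Nat.card_eq_fintype_card]
    have h3 := card_ones_plus (k + 1)
    have h4 : (4 : ℕ) ^ (k + 1) = 2 ^ (2 * (k + 1)) := hpw.symm
    rw [h4, hp1, hp2] at h3
    omega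

end CfsgLib.H9.QuadF2
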