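import Mathlib
import Cfsg.Prelude.Def_FischerSpaces

/-! Reflections over the field with three elements. -/

set_option autoImplicit false
set_option linter.unusedVariables false
set_option linter.unusedSectionVars false
set_option linter.unusedSimpArgs false
set_option linter.style.haveILetI false

namespace CfsgLib.H9.Refl3

open Cfsg Matrix
open scoped MatrixGroups

variable {n : ℕ} (Q : QuadraticForm (ZMod 3) (Fin n → ZMod 3))

/-- The polar form. -/
noncomputable def B (u v : Fin n → ZMod 3) : ZMod 3 := QuadraticMap.polar (⇑Q) u v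

theorem B_comm (u v : Fin n → ZMod 3) : B Q u v = B Q v u := QuadraticMap.polar_comm _ u v

theorem B_self (u : Fin n → ZMod 3) : B Q u u = 2 * Q u := by
  have := QuadraticMap.polar_self Q u
  simpa [B] using this

theorem B_add (a x y : Fin n → ZMod 3) : B Q a (x + y) = B Q a x + B Q a y :=
  QuadraticMap.polar_add_right _ _ _ _

theorem B_smul (a : Fin n → ZMod 3) (t : ZMod 3) (y : Fin n → ZMod 3) : B Q a (t • y) = t * B Q a y := by
  have := QuadraticMap.polar_smul_right Q t a y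
  simpa [B] using this

theorem B_add_left (a x y : Fin n → ZMod 3) : B Q (x + y) a = B Q x a + B Q y a := by
  rw [B_comm, B_add, B_comm Q a x, B_comm Q a y]

theorem B_smul_left (a : Fin n → ZMod 3) (t : ZMod 3) (y : Fin n → ZMod 3) : B Q (t • y) a = t * B Q y a := by
  rw [B_comm, B_smul, B_comm Q a y]

theorem B_dot (w x : Fin n → ZMod 3) : polarVec (⇑Q) w ⬝ᵥ x = B Q w x := by
  have hb : ∀ y, B Q w y = (QuadraticMap.polarBilin Q) w y := fun y => rfl
  rw [hb]
  have hx : x = ∑ j, x j • Pi.single j (1 : ZMod 3) := by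
    ext i
    simp [Finset.sum_apply, Pi.single_apply]
  conv_rhs => rw [hx]
  rw [map_sum]
  simp only [map_smul, dotProduct, polarVec, smul_eq_mul]
  apply Finset.sum_congr rfl
  intro j _
  rw [mul_comm]
  rfl

/-- The action of a reflection on a vector. -/
theorem refl_apply (v x : Fin n → ZMod 3) :
    reflectionMatrix (⇑Q) v *ᵥ x = x - ((Q v)⁻¹ * B Q v x) • v := by
  unfold reflectionMatrix
  rw [Matrix.sub_mulVec, Matrix.one_mulVec, Matrix.smul_mulVec, Matrix.vecMulVec_mulVec]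
  congr 1
  ext i
  simp only [Pi.smul_apply, smul_eq_mul, MulOpposite.smul_eq_mul_unop, ← B_dot, MulOpposite.unop_op]
  ring

theorem mat_ext {A A' : Matrix (Fin n) (Fin n) (ZMod 3)} (h : ∀ x, A *ᵥ x = A' *ᵥ x) : A = A' :=
  Matrix.mulVec_injective (funext h)

theorem Q_smul (t : ZMod 3) (v : Fin n → ZMod 3) : Q (t • v) = t * t * Q v := by
  simpa using QuadraticMap.map_smul Q t v

theorem Q_add (u v : Fin n → ZMod 3) : Q (u + v) = Q u + Q v + B Q u v := by
  have : B Q u v = Q (u + v) - Q u - Q v := rfl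
  rw [this]
  ring

theorem inv3 (c : ZMod 3) (hc : c ≠ 0) : c⁻¹ = c := by
  have h : c * c = 1 := by
    revert c
    decide
  calc c⁻¹ = (c * c) * c⁻¹ := by rw [h, one_mul]
    _ = c := by rw [mul_assoc, mul_inv_cancel₀ hc, mul_one]

theorem sq3 (c : ZMod 3) (hc : c ≠ 0) : c * c = 1 := by
  revert c
  decide

/-- A step of the simulation. -/
theorem step_gen (c : ZMod 3) (hc : c ≠ 0) {w u v : Fin n → ZMod 3} (hw : Q w = c) (ε₁ ε₂ : ZMod 3)
    (hwe : w = ε₁ • u + ε₂ • v) (x : Fin n → ZMod 3) (α β : ZMod 3) :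
    reflectionMatrix (⇑Q) w *ᵥ (x + α • u + β • v) =
      x + (α - c * (B Q w x + α * B Q w u + β * B Q w v) * ε₁) • u +
        (β - c * (B Q w x + α * B Q w u + β * B Q w v) * ε₂) • v := by
  rw [refl_apply, hw, inv3 c hc, B_add, B_add, B_smul, B_smul]
  generalize (c * (B Q w x + α * B Q w u + β * B Q w v)) = k
  rw [hwe]
  ext i
  simp only [Pi.add_apply, Pi.sub_apply, Pi.smul_apply, smul_eq_mul]
  ring

theorem refl_sq (c : ZMod 3) (hc : c ≠ 0) {v : Fin n → ZMod 3} (hv : Q v = c) :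
    reflectionMatrix (⇑Q) v * reflectionMatrix (⇑Q) v = 1 := by
  apply mat_ext
  intro x
  rw [← Matrix.mulVec_mulVec, Matrix.one_mulVec, refl_apply, refl_apply, hv, inv3 c hc]
  have h1 : B Q v (x - (c * B Q v x) • v) = B Q v x - c * B Q v x * (2 * c) := by
    rw [sub_eq_add_neg, ← neg_smul, B_add, B_smul, B_self, hv]
    ring
  rw [h1]
  generalize B Q v x = p
  have h2 : ∀ c p : ZMod 3, c ≠ 0 → c * p + c * (p - c * p * (2 * c)) = 0 := by decide
  have h3 := h2 c p hc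
  ext i
  simp only [Pi.sub_apply, Pi.smul_apply, smul_eq_mul]
  linear_combination (-(v i)) * h3

theorem refl_ne_one (c : ZMod 3) (hc : c ≠ 0) {v : Fin n → ZMod 3} (hv : Q v = c) :
    reflectionMatrix (⇑Q) v ≠ 1 := by
  intro h
  have h1 := refl_apply Q v v
  rw [h, Matrix.one_mulVec, hv, B_self, hv, inv3 c hc] at h1
  have h2 : ∀ c : ZMod 3, c ≠ 0 → c * (2 * c) = 2 := by decide
  rw [h2 c hc] at h1
  have hv0 : v = 0 := by
    ext i
    have h3 := congrFun h1 i
    simp only [Pi.sub_apply, Pi.smul_apply, smul_eq_mul] at h3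
    have h4 : ∀ t : ZMod 3, t = t - 2 * t → t = 0 := by decide
    exact h4 _ h3
  rw [hv0, map_zero] at hv
  exact hc hv.symm

theorem refl_isometry (c : ZMod 3) (hc : c ≠ 0) {v : Fin n → ZMod 3} (hv : Q v = c) (x : Fin n → ZMod 3) :
    Q (reflectionMatrix (⇑Q) v *ᵥ x) = Q x := by
  rw [refl_apply, hv, inv3 c hc, sub_eq_add_neg, ← neg_smul, Q_add, Q_smul, B_smul, hv]
  have : B Q x v = B Q v x := B_comm Q x v
  rw [this]
  generalize B Q v x = p
  have h2 : ∀ c p : ZMod 3, c ≠ 0 → (-(c * p)) * (-(c * p)) * c + (-(c * p)) * p = 0 := by decide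
  have h3 := h2 c p hc
  linear_combination h3

/-- Simulation step for `u`. -/
def stepU (p b c : ZMod 3) (a : ZMod 3 × ZMod 3) : ZMod 3 × ZMod 3 :=
  (a.1 - c * (p + a.1 * (2 * c) + a.2 * b) * 1, a.2 - c * (p + a.1 * (2 * c) + a.2 * b) * 0)

/-- Simulation step for `v`. -/
def stepV (s b c : ZMod 3) (a : ZMod 3 × ZMod 3) : ZMod 3 × ZMod 3 :=
  (a.1 - c * (s + a.1 * b + a.2 * (2 * c)) * 0, a.2 - c * (s + a.1 * b + a.2 * (2 * c)) * 1)

/-- Points of the simulation. -/
def P {n : ℕ} (x u v : Fin n → ZMod 3) (a : ZMod 3 × ZMod 3) : Fin n → ZMod 3 := x + a.1 • u + a.2 • v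

theorem sim2 : ∀ p s b c : ZMod 3, c ≠ 0 → b = 0 →
    stepU p b c (stepV s b c (stepU p b c (stepV s b c (0, 0)))) = (0, 0) := by
  decide

theorem sim3 : ∀ p s b c : ZMod 3, c ≠ 0 → b ≠ 0 →
    stepU p b c (stepV s b c (stepU p b c (stepV s b c (stepU p b c (stepV s b c (0, 0)))))) = (0, 0) := by
  decide

/-- The order of a product of two reflections. -/
theorem refl_mul_pow (c : ZMod 3) (hc : c ≠ 0) {u v : Fin n → ZMod 3} (hu : Q u = c) (hv : Q v = c) :
    (B Q u v = 0 → (reflectionMatrix (⇑Q) u * reflectionMatrix (⇑Q) v) ^ 2 = 1) ∧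
    (B Q u v ≠ 0 → (reflectionMatrix (⇑Q) u * reflectionMatrix (⇑Q) v) ^ 3 = 1) := by
  have hU : ∀ (x : Fin n → ZMod 3) (a : ZMod 3 × ZMod 3), reflectionMatrix (⇑Q) u *ᵥ P x u v a =
      P x u v (stepU (B Q u x) (B Q u v) c a) := by
    intro x a
    have := step_gen Q c hc (u := u) (v := v) hu 1 0 (by simp) x a.1 a.2
    rwa [B_self, hu] at this
  have hV : ∀ (x : Fin n → ZMod 3) (a : ZMod 3 × ZMod 3), reflectionMatrix (⇑Q) v *ᵥ P x u v a =
      P x u v (stepV (B Q v x) (B Q u v) c a) := by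
    intro x a
    have := step_gen Q c hc (u := u) (v := v) hv 0 1 (by simp) x a.1 a.2
    rwa [B_self, hv, B_comm Q v u] at this
  have h0 : ∀ x : Fin n → ZMod 3, P x u v (0, 0) = x := by
    intro x
    simp [P]
  constructor
  · intro hb
    apply mat_ext
    intro x
    simp only [pow_two, ← Matrix.mulVec_mulVec, Matrix.one_mulVec, ← mul_assoc]
    calc _ = reflectionMatrix (⇑Q) u *ᵥ reflectionMatrix (⇑Q) v *ᵥ reflectionMatrix (⇑Q) u *ᵥ
            reflectionMatrix (⇑Q) v *ᵥ P x u v (0, 0) := by rw [h0]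
      _ = P x u v (0, 0) := by
        rw [hV, hU, hV, hU, sim2 _ _ _ _ hc hb]
      _ = x := h0 x
  · intro hb
    apply mat_ext
    intro x
    simp only [pow_succ, pow_zero, one_mul, ← Matrix.mulVec_mulVec, Matrix.one_mulVec, ← mul_assoc]
    calc _ = reflectionMatrix (⇑Q) u *ᵥ reflectionMatrix (⇑Q) v *ᵥ reflectionMatrix (⇑Q) u *ᵥ
            reflectionMatrix (⇑Q) v *ᵥ reflectionMatrix (⇑Q) u *ᵥ
            reflectionMatrix (⇑Q) v *ᵥ P x u v (0, 0) := by rw [h0]
      _ = P x u v (0, 0) := by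
        rw [hV, hU, hV, hU, hV, hU, sim3 _ _ _ _ hc hb]
      _ = x := h0 x

theorem B_iso {g : Matrix (Fin n) (Fin n) (ZMod 3)} (hg : ∀ y, Q (g *ᵥ y) = Q y)
    (x y : Fin n → ZMod 3) : B Q (g *ᵥ x) (g *ᵥ y) = B Q x y := by
  show Q (g *ᵥ x + g *ᵥ y) - Q (g *ᵥ x) - Q (g *ᵥ y) = Q (x + y) - Q x - Q y
  rw [← Matrix.mulVec_add, hg, hg, hg]

theorem refl_conj {g g' : Matrix (Fin n) (Fin n) (ZMod 3)} (hgg' : g * g' = 1)
    (hg : ∀ y, Q (g *ᵥ y) = Q y) (v : Fin n → ZMod 3) :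
    g * reflectionMatrix (⇑Q) v * g' = reflectionMatrix (⇑Q) (g *ᵥ v) := by
  apply mat_ext
  intro x
  have h1 : g *ᵥ g' *ᵥ x = x := by
    rw [Matrix.mulVec_mulVec, hgg', Matrix.one_mulVec]
  have h2 : B Q (g *ᵥ v) x = B Q v (g' *ᵥ x) := by
    nth_rw 1 [← h1]
    exact B_iso Q hg _ _
  rw [← Matrix.mulVec_mulVec, ← Matrix.mulVec_mulVec, refl_apply, refl_apply, hg, Matrix.mulVec_sub,
    Matrix.mulVec_smul, h1, h2]

theorem refl_smul {δ : ZMod 3} (hδ : δ ≠ 0) (v : Fin n → ZMod 3) :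
    reflectionMatrix (⇑Q) (δ • v) = reflectionMatrix (⇑Q) v := by
  apply mat_ext
  intro x
  have h := sq3 δ hδ
  rw [refl_apply, refl_apply, Q_smul, B_smul_left, h, one_mul]
  ext i
  simp only [Pi.sub_apply, Pi.smul_apply, smul_eq_mul]
  linear_combination (-(Q v)⁻¹ * B Q v x * v i) * h

/-- Anisotropic vectors orthogonal to a small orthogonal system. -/
theorem exists_aniso (hQ : (QuadraticMap.polarBilin Q).Nondegenerate) (s : Finset (Fin n → ZMod 3))
    (hs : s.card < n) (hani : ∀ e ∈ s, Q e ≠ 0) (horth : ∀ e ∈ s, ∀ f ∈ s, e ≠ f → B Q e f = 0) :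
    ∃ t, Q t ≠ 0 ∧ ∀ e ∈ s, B Q e t = 0 := by
  classical
  let φ : (Fin n → ZMod 3) →ₗ[ZMod 3] (↥s → ZMod 3) :=
    LinearMap.pi (fun e : ↥s => (QuadraticMap.polarBilin Q) e.1)
  have hφ : ∀ t e, φ t e = B Q e.1 t := fun t e => rfl
  have hker : LinearMap.ker φ ≠ ⊥ := by
    apply LinearMap.ker_ne_bot_of_finrank_lt
    rw [Module.finrank_fintype_fun_eq_card, Module.finrank_fin_fun, Fintype.card_coe]
    exact hs
  obtain ⟨a, ha, ha0⟩ := (Submodule.ne_bot_iff _).1 hker
  have ha' : ∀ e ∈ s, B Q e a = 0 := by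
    intro e he
    have := congrFun (LinearMap.mem_ker.1 ha) ⟨e, he⟩
    simpa [hφ] using this
  have hy : ∃ y, B Q a y ≠ 0 := by
    by_contra hcon
    push Not at hcon
    exact ha0 (hQ.1 a hcon)
  obtain ⟨y, hy⟩ := hy
  have h2Q : ∀ e ∈ s, (2 * Q e) * (2 * Q e)⁻¹ = 1 := by
    intro e he
    apply mul_inv_cancel₀
    have h20 : (2 : ZMod 3) ≠ 0 := by decide
    exact mul_ne_zero h20 (hani e he)
  let y' : Fin n → ZMod 3 := y - ∑ e ∈ s, (B Q e y * (2 * Q e)⁻¹) • e
  have hB_sum : ∀ z : Fin n → ZMod 3, B Q z y' = B Q z y - ∑ e ∈ s, (B Q e y * (2 * Q e)⁻¹) * B Q z e := by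
    intro z
    have hlin : ∀ w : Fin n → ZMod 3, B Q z w = (QuadraticMap.polarBilin Q) z w := fun _ => rfl
    simp only [y', hlin, map_sub, map_sum, map_smul, smul_eq_mul]
  have hy'1 : ∀ e ∈ s, B Q e y' = 0 := by
    intro e he
    rw [hB_sum, Finset.sum_eq_single e]
    · rw [B_self, mul_assoc, mul_comm (2 * Q e)⁻¹, h2Q e he, mul_one, sub_self]
    · intro f hf hfe
      rw [horth e he f hf (Ne.symm hfe), mul_zero]
    · intro h
      exact absurd he h
  have hy'2 : B Q a y' ≠ 0 := by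
    rw [hB_sum, Finset.sum_eq_zero, sub_zero]
    · exact hy
    · intro e he
      rw [B_comm Q a e, ha' e he, mul_zero]
  by_cases h1 : Q a = 0
  · by_cases h2 : Q y' = 0
    · refine ⟨a + y', ?_, ?_⟩
      · rw [Q_add, h1, h2, zero_add, zero_add]
        exact hy'2
      · intro e he
        rw [B_add, ha' e he, hy'1 e he, add_zero]
    · exact ⟨y', h2, hy'1⟩
  · exact ⟨a, h1, ha'⟩

/-- Vectors of a given norm orthogonal to a small orthogonal system. -/
theorem exists_value (hQ : (QuadraticMap.polarBilin Q).Nondegenerate) (s : Finset (Fin n → ZMod 3))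
    (hs : s.card + 2 ≤ n) (hani : ∀ e ∈ s, Q e ≠ 0) (horth : ∀ e ∈ s, ∀ f ∈ s, e ≠ f → B Q e f = 0)
    (c : ZMod 3) (hc : c ≠ 0) :
    ∃ t, Q t = c ∧ ∀ e ∈ s, B Q e t = 0 := by
  classical
  obtain ⟨t₁, h1, h1'⟩ := exists_aniso Q hQ s (by omega) hani horth
  have hcard : (insert t₁ s).card < n := by
    have := Finset.card_insert_le t₁ s
    omega
  obtain ⟨t₂, h2, h2'⟩ := exists_aniso Q hQ (insert t₁ s) hcard
    (by
      intro e he
      rcases Finset.mem_insert.1 he with rfl | he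
      · exact h1
      · exact hani e he)
    (by
      intro e he f hf hne
      rcases Finset.mem_insert.1 he with rfl | he'
      · rcases Finset.mem_insert.1 hf with rfl | hf'
        · exact absurd rfl hne
        · rw [B_comm]
          exact h1' f hf'
      · rcases Finset.mem_insert.1 hf with rfl | hf'
        · exact h1' e he'
        · exact horth e he' f hf' hne)
  have h12 : B Q t₁ t₂ = 0 := h2' t₁ (Finset.mem_insert_self _ _)
  have hdec : ∀ a b c : ZMod 3, a ≠ 0 → b ≠ 0 → c ≠ 0 → a = c ∨ b = c ∨ a + b = c := by decide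
  rcases hdec _ _ c h1 h2 hc with h | h | h
  · exact ⟨t₁, h, h1'⟩
  · exact ⟨t₂, h, fun e he => h2' e (Finset.mem_insert_of_mem he)⟩
  · refine ⟨t₁ + t₂, ?_, ?_⟩
    · rw [Q_add, h12, add_zero, h]
    · intro e he
      rw [B_add, h1' e he, h2' e (Finset.mem_insert_of_mem he), add_zero]

/-- The isometry given by a reflection. -/
def isoEl (c : ZMod 3) (hc : c ≠ 0) (v : Fin n → ZMod 3) (hv : Q v = c) :
    ↥(isometryGroup (ZMod 3) (⇑Q)) :=
  ⟨⟨reflectionMatrix (⇑Q) v, reflectionMatrix (⇑Q) v, refl_sq Q c hc hv, refl_sq Q c hc hv⟩,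
    fun x _ => refl_isometry Q c hc hv x⟩

/-- The element of the reflection subgroup. -/
def el (c : ZMod 3) (hc : c ≠ 0) (v : Fin n → ZMod 3) (hv : Q v = c) :
    ↥(reflectionSubgroup (⇑Q) c) :=
  ⟨isoEl Q c hc v hv, Subgroup.subset_closure ⟨v, hv, rfl⟩⟩

/-- The matrix of an element. -/
def Mat (c : ZMod 3) : ↥(reflectionSubgroup (⇑Q) c) →* Matrix (Fin n) (Fin n) (ZMod 3) :=
  (Units.coeHom _).comp ((isometryGroup (ZMod 3) (⇑Q)).subtype.comp (reflectionSubgroup (⇑Q) c).subtype)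

theorem Mat_inj (c : ZMod 3) {g h : ↥(reflectionSubgroup (⇑Q) c)} (hgh : Mat Q c g = Mat Q c h) : g = h :=
  Subtype.ext (Subtype.ext (Units.ext hgh))

theorem Mat_el (c : ZMod 3) (hc : c ≠ 0) (v : Fin n → ZMod 3) (hv : Q v = c) :
    Mat Q c (el Q c hc v hv) = reflectionMatrix (⇑Q) v := rfl

theorem Mat_iso (c : ZMod 3) (x : ↥(reflectionSubgroup (⇑Q) c)) (y : Fin n → ZMod 3) :
    Q (Mat Q c x *ᵥ y) = Q y :=
  x.1.2 y y

theorem el_conj (c : ZMod 3) (hc : c ≠ 0) (x : ↥(reflectionSubgroup (⇑Q) c)) (v : Fin n → ZMod 3)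
    (hv : Q v = c) :
    x * el Q c hc v hv * x⁻¹ = el Q c hc (Mat Q c x *ᵥ v) ((Mat_iso Q c x v).trans hv) := by
  apply Mat_inj
  rw [map_mul, map_mul, Mat_el, Mat_el]
  refine refl_conj Q ?_ (Mat_iso Q c x) v
  rw [← map_mul, mul_inv_cancel, map_one]

theorem el_congr (c : ZMod 3) (hc : c ≠ 0) {u v : Fin n → ZMod 3} (hu : Q u = c) (hv : Q v = c)
    (h : reflectionMatrix (⇑Q) u = reflectionMatrix (⇑Q) v) : el Q c hc u hu = el Q c hc v hv :=
  Mat_inj Q c h

/-- Reflections in vectors with non-zero inner product are conjugate. -/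
theorem conj_step (c : ZMod 3) (hc : c ≠ 0) {u v : Fin n → ZMod 3} (hu : Q u = c) (hv : Q v = c)
    (hb : B Q u v ≠ 0) : IsConj (el Q c hc u hu) (el Q c hc v hv) := by
  have hdec : ∀ c b : ZMod 3, c ≠ 0 → b ≠ 0 → (-(c * b)) * (-(c * b)) * c + c + (-(c * b)) * b = c ∧
      (2 * c + (-(c * b)) * b = c) ∧ -(c * b) ≠ 0 ∧ c * c = 1 := by decide
  obtain ⟨h1, h2, h3, h4⟩ := hdec c (B Q u v) hc hb
  set ε : ZMod 3 := -(c * B Q u v) with hε
  have hw : Q (u + ε • v) = c := by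
    rw [Q_add, Q_smul, B_smul, hu, hv]
    linear_combination h1
  have hB : B Q (u + ε • v) u = c := by
    rw [B_add_left, B_smul_left, B_self, hu, B_comm Q v u]
    exact h2
  have hr : reflectionMatrix (⇑Q) (u + ε • v) *ᵥ u = (-ε) • v := by
    rw [refl_apply, hw, inv3 c hc, hB, h4]
    ext i
    simp only [Pi.sub_apply, Pi.smul_apply, Pi.add_apply, smul_eq_mul]
    ring
  rw [isConj_iff]
  refine ⟨el Q c hc (u + ε • v) hw, ?_⟩
  rw [el_conj]
  apply el_congr
  show reflectionMatrix (⇑Q) (reflectionMatrix (⇑Q) (u + ε • v) *ᵥ u) = _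
  rw [hr, refl_smul Q (neg_ne_zero.2 h3)]

/-- All reflections are conjugate. -/
theorem conj_all (hn : 5 ≤ n) (hQ : (QuadraticMap.polarBilin Q).Nondegenerate) (c : ZMod 3) (hc : c ≠ 0)
    {u v : Fin n → ZMod 3} (hu : Q u = c) (hv : Q v = c) :
    IsConj (el Q c hc u hu) (el Q c hc v hv) := by
  classical
  by_cases hb : B Q u v = 0
  · obtain ⟨s, hs, hs'⟩ := exists_value Q hQ {u, v}
      (by
        have := Finset.card_le_two (a := u) (b := v)
        omega)
      (by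
        intro e he
        simp only [Finset.mem_insert, Finset.mem_singleton] at he
        rcases he with rfl | rfl
        · rw [hu]; exact hc
        · rw [hv]; exact hc)
      (by
        intro e he f hf hne
        simp only [Finset.mem_insert, Finset.mem_singleton] at he hf
        rcases he with rfl | rfl <;> rcases hf with rfl | rfl
        · exact absurd rfl hne
        · exact hb
        · rw [B_comm]; exact hb
        · exact absurd rfl hne)
      (-c) (neg_ne_zero.2 hc)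
    have hsu : B Q u s = 0 := hs' u (by simp)
    have hsv : B Q v s = 0 := hs' v (by simp)
    have hQt : Q (u + v + s) = c := by
      rw [Q_add, Q_add, B_add_left, hu, hv, hs, hb, hsu, hsv]
      ring
    have h2c : (2 : ZMod 3) * c ≠ 0 := mul_ne_zero (by decide) hc
    have hBu : B Q u (u + v + s) ≠ 0 := by
      rw [B_add, B_add, B_self, hu, hb, hsu, add_zero, add_zero]
      exact h2c
    have hBv : B Q (u + v + s) v ≠ 0 := by
      rw [B_comm, B_add, B_add, B_self, hv, B_comm Q v u, hb, hsv, add_zero, zero_add]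
      exact h2c
    exact (conj_step Q c hc hu hQt hBu).trans (conj_step Q c hc hQt hv hBv)
  · exact conj_step Q c hc hu hv hb

theorem main (n : ℕ) (hn : 5 ≤ n) (Q : QuadraticForm (ZMod 3) (Fin n → ZMod 3))
    (hQ : (QuadraticMap.polarBilin Q).Nondegenerate) (c : ZMod 3) (hc : c ≠ 0) :
    Cfsg.IsThreeTranspositionClass {g : ↥(Cfsg.reflectionSubgroup (⇑Q) c) |
      (g : ↥(Cfsg.isometryGroup (ZMod 3) (⇑Q))) ∈ Cfsg.reflectionsOfNorm (⇑Q) c} := by
  have hD : ∀ g : ↥(Cfsg.reflectionSubgroup (⇑Q) c),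
      (g : ↥(Cfsg.isometryGroup (ZMod 3) (⇑Q))) ∈ Cfsg.reflectionsOfNorm (⇑Q) c ↔
        ∃ v, ∃ hv : Q v = c, g = el Q c hc v hv := by
    intro g
    constructor
    · rintro ⟨v, hv, hg⟩
      exact ⟨v, hv, Mat_inj Q c hg⟩
    · rintro ⟨v, hv, rfl⟩
      exact ⟨v, hv, rfl⟩
  obtain ⟨v₀, hv₀, -⟩ := exists_value Q hQ ∅ (by simp; omega) (by simp) (by simp) c hc
  refine ⟨⟨?_, ?_⟩, ⟨el Q c hc v₀ hv₀, (hD _).2 ⟨v₀, hv₀, rfl⟩, ?_⟩, ?_⟩
  · intro d hd
    obtain ⟨v, hv, rfl⟩ := (hD d).1 hd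
    apply orderOf_eq_prime
    · apply Mat_inj
      rw [map_pow, map_one, pow_two, Mat_el]
      exact refl_sq Q c hc hv
    · intro h
      have h' := congrArg (Mat Q c) h
      rw [map_one, Mat_el] at h'
      exact refl_ne_one Q c hc hv h'
  · intro d hd e he
    obtain ⟨u, hu, rfl⟩ := (hD d).1 hd
    obtain ⟨v, hv, rfl⟩ := (hD e).1 he
    obtain ⟨h2, h3⟩ := refl_mul_pow Q c hc hu hv
    by_cases hb : B Q u v = 0
    · left
      apply Mat_inj
      rw [map_pow, map_mul, map_one, Mat_el, Mat_el]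
      exact h2 hb
    · right
      apply Mat_inj
      rw [map_pow, map_mul, map_one, Mat_el, Mat_el]
      exact h3 hb
  · ext g
    constructor
    · intro hg
      obtain ⟨v, hv, rfl⟩ := (hD g).1 hg
      exact conj_all Q hn hQ c hc hv₀ hv
    · intro hg
      obtain ⟨x, hx⟩ := isConj_iff.1 hg
      rw [el_conj] at hx
      exact (hD g).2 ⟨_, _, hx.symm⟩
  · exact Subgroup.closure_closure_coe_preimage

end CfsgLib.H9.Refl3
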