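import Mathlib
import Cfsg.Agent.Lib.H9.Unipotent

/-! Regular unipotent matrices: invariant subspaces and centralisers. -/

set_option autoImplicit false
set_option linter.unusedVariables false
set_option linter.unusedSectionVars false
set_option linter.unusedSimpArgs false
set_option linter.style.haveILetI false

namespace CfsgLib.H9.RegUnip

open Matrix Module Polynomial

variable {F : Type*} [Field F]

/-- A nilpotent endomorphism vanishes after `finrank` steps. -/
theorem end_pow_finrank {V : Type*} [AddCommGroup V] [Module F V] [FiniteDimensional F V] (φ : Module.End F V)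
    (h : IsNilpotent φ) : φ ^ finrank F V = 0 := by
  let b := Module.finBasis F V
  let e := LinearMap.toMatrixAlgEquiv (R := F) b
  have h1 : IsNilpotent (e φ) := h.map e
  have h2 := CfsgLib.H9.Unipotent.pow_card_eq_zero h1
  rw [← map_pow] at h2
  exact (map_eq_zero_iff e e.injective).mp h2

variable {n : ℕ} (N : Matrix (Fin n) (Fin n) F)

theorem finrank_ker_le (hr : N.rank = n - 1) : finrank F (LinearMap.ker N.mulVecLin) ≤ 1 := by
  have h1 := LinearMap.finrank_range_add_finrank_ker N.mulVecLin
  have h2 : finrank F (LinearMap.range N.mulVecLin) = N.rank := rfl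
  rw [h2, hr] at h1
  simp at h1
  omega

theorem finrank_ker_pow_le (hr : N.rank = n - 1) (k : ℕ) : finrank F (LinearMap.ker (N ^ k).mulVecLin) ≤ k := by
  induction k with
  | zero =>
    have : LinearMap.ker ((N ^ 0).mulVecLin) = ⊥ := by
      rw [pow_zero, LinearMap.ker_eq_bot]
      intro a b h
      simpa using h
    rw [this]
    simp
  | succ k ih =>
    -- the map `N` from `ker N^(k+1)` to `ker N^k`
    let K := LinearMap.ker (N ^ (k + 1)).mulVecLin
    let f := N.mulVecLin.domRestrict K
    have h1 := LinearMap.finrank_range_add_finrank_ker f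
    have h2 : LinearMap.range f ≤ LinearMap.ker (N ^ k).mulVecLin := by
      rintro _ ⟨⟨v, hv⟩, rfl⟩
      show (N ^ k) *ᵥ (N *ᵥ v) = 0
      rw [Matrix.mulVec_mulVec, ← pow_succ]
      exact hv
    have h3 : finrank F (LinearMap.range f) ≤ k := (Submodule.finrank_mono h2).trans ih
    have h4 : finrank F (LinearMap.ker f) ≤ 1 := by
      have h5 : Function.Injective (fun x : LinearMap.ker f => (⟨(x : K), x.2⟩ : LinearMap.ker N.mulVecLin)) := by
        intro a b hab
        apply Subtype.ext
        apply Subtype.ext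
        exact congrArg (fun t : LinearMap.ker N.mulVecLin => (t : Fin n → F)) hab
      let g : LinearMap.ker f →ₗ[F] LinearMap.ker N.mulVecLin :=
        { toFun := fun x => ⟨(x : K), x.2⟩
          map_add' := fun a b => rfl
          map_smul' := fun c a => rfl }
      have h6 := LinearMap.finrank_le_finrank_of_injective (f := g) h5
      exact h6.trans (finrank_ker_le N hr)
    have h7 : finrank F K ≤ k + 1 := by omega
    exact h7

/-- Invariant subspaces are kernels. -/
theorem eq_ker (hnil : N ^ n = 0) (hr : N.rank = n - 1) (W : Submodule F (Fin n → F))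
    (hW : ∀ v ∈ W, N *ᵥ v ∈ W) : W = LinearMap.ker (N ^ finrank F W).mulVecLin := by
  have hle : W ≤ LinearMap.ker (N ^ finrank F W).mulVecLin := by
    let φ : Module.End F W := N.mulVecLin.restrict hW
    have hpow : ∀ (k : ℕ) (w : W), (((φ ^ k) w : W) : Fin n → F) = (N ^ k) *ᵥ (w : Fin n → F) := by
      intro k
      induction k with
      | zero =>
        intro w
        simp
      | succ k ih =>
        intro w
        rw [pow_succ', Module.End.mul_apply]
        show N *ᵥ (((φ ^ k) w : W) : Fin n → F) = _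
        rw [ih, Matrix.mulVec_mulVec, ← pow_succ']
    have hφ : IsNilpotent φ := by
      refine ⟨n, ?_⟩
      ext w
      rw [hpow, hnil]
      simp
    have h0 := end_pow_finrank φ hφ
    intro v hv
    show (N ^ finrank F W) *ᵥ v = 0
    have h1 := hpow (finrank F W) ⟨v, hv⟩
    rw [h0] at h1
    simpa using h1.symm
  exact Submodule.eq_of_le_of_finrank_le hle (finrank_ker_pow_le N hr _)

/-- Every vector outside the range of `N` is cyclic. -/
theorem exists_poly (hnil : N ^ n = 0) (hr : N.rank = n - 1) (v : Fin n → F) (hv : v ∉ LinearMap.range N.mulVecLin)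
    (w : Fin n → F) : ∃ p : F[X], aeval N p *ᵥ v = w := by
  classical
  let L : F[X] →ₗ[F] (Fin n → F) :=
    { toFun := fun p => aeval N p *ᵥ v
      map_add' := fun a b => by simp [Matrix.add_mulVec]
      map_smul' := fun c a => by simp [Matrix.smul_mulVec] }
  let W := LinearMap.range L
  have hW : ∀ x ∈ W, N *ᵥ x ∈ W := by
    rintro _ ⟨p, rfl⟩
    refine ⟨X * p, ?_⟩
    show aeval N (X * p) *ᵥ v = N *ᵥ (aeval N p *ᵥ v)
    rw [Matrix.mulVec_mulVec, map_mul, aeval_X]
  have hvW : v ∈ W := ⟨1, by simp [L]⟩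
  have hWeq := eq_ker N hnil hr W hW
  by_cases hd : finrank F W = n
  · have htop : W = ⊤ := by
      apply Submodule.eq_top_of_finrank_eq
      simpa using hd
    have hw : w ∈ W := by rw [htop]; trivial
    exact hw
  · exfalso
    have hle : finrank F W ≤ n := by
      have := Submodule.finrank_le W
      simpa using this
    have hlt : finrank F W ≤ n - 1 := by omega
    -- `v` is killed by `N^(n-1)`, and so lies in the range of `N`
    have h1 : (N ^ (n - 1)) *ᵥ v = 0 := by
      have h2 : v ∈ LinearMap.ker (N ^ finrank F W).mulVecLin := by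
        rw [← hWeq]
        exact hvW
      have h3 : (N ^ finrank F W) *ᵥ v = 0 := h2
      have h4 : N ^ (n - 1) = N ^ (n - 1 - finrank F W) * N ^ finrank F W := by
        rw [← pow_add]
        congr 1
        omega
      rw [h4, ← Matrix.mulVec_mulVec, h3, Matrix.mulVec_zero]
    have hrk : LinearMap.range N.mulVecLin ≤ LinearMap.ker (N ^ (n - 1)).mulVecLin := by
      rintro _ ⟨x, rfl⟩
      show (N ^ (n - 1)) *ᵥ (N *ᵥ x) = 0
      rw [Matrix.mulVec_mulVec, ← pow_succ]
      have hn : 0 < n := by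
        rcases Nat.eq_zero_or_pos n with h | h
        · subst h
          omega
        · exact h
      rw [Nat.sub_add_cancel hn, hnil, Matrix.zero_mulVec]
    have heq : LinearMap.range N.mulVecLin = LinearMap.ker (N ^ (n - 1)).mulVecLin := by
      apply Submodule.eq_of_le_of_finrank_le hrk
      have h5 := finrank_ker_pow_le N hr (n - 1)
      have h6 : finrank F (LinearMap.range N.mulVecLin) = n - 1 := hr
      omega
    apply hv
    rw [heq]
    exact h1

theorem main_2573 (u : Matrix (Fin n) (Fin n) F) (hnil : (u - 1) ^ n = 0) (hreg : (u - 1).rank = n - 1)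
    (W : Submodule F (Fin n → F)) (hW : ∀ v ∈ W, u.mulVec v ∈ W) :
    W = LinearMap.ker (Matrix.mulVecLin ((u - 1) ^ Module.finrank F W)) := by
  apply eq_ker (u - 1) hnil hreg W
  intro v hv
  rw [Matrix.sub_mulVec, Matrix.one_mulVec]
  exact W.sub_mem (hW v hv) hv

theorem main_2571 [Fintype F] {q : ℕ} (hF : Fintype.card F = q) (hn : 1 ≤ n) (u : GL (Fin n) F)
    (hnil : ((u : Matrix (Fin n) (Fin n) F) - 1) ^ n = 0)
    (hreg : ((u : Matrix (Fin n) (Fin n) F) - 1).rank = n - 1) :
    Nat.card ↥(Subgroup.centralizer ({u} : Set (GL (Fin n) F))) = (q - 1) * q ^ (n - 1) := by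
  classical
  set N : Matrix (Fin n) (Fin n) F := (u : Matrix (Fin n) (Fin n) F) - 1 with hN
  have huN : (u : Matrix (Fin n) (Fin n) F) = 1 + N := by rw [hN]; abel
  set R := LinearMap.range N.mulVecLin with hR
  have hfR : finrank F R = n - 1 := hreg
  have hcardV : Nat.card (Fin n → F) = q ^ n := by
    rw [Nat.card_eq_fintype_card, Fintype.card_fun, Fintype.card_fin, hF]
  have hcardR : Nat.card R = q ^ (n - 1) := by
    rw [Module.natCard_eq_pow_finrank (K := F), hfR, Nat.card_eq_fintype_card, hF]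
  have hRne : R ≠ ⊤ := by
    intro h
    rw [h] at hfR
    simp at hfR
    omega
  obtain ⟨v, hv⟩ : ∃ v, v ∉ R := by
    by_contra h
    push Not at h
    exact hRne (Submodule.eq_top_iff'.mpr h)
  have hcomm : ∀ g : GL (Fin n) F, g ∈ Subgroup.centralizer ({u} : Set (GL (Fin n) F)) →
      (g : Matrix (Fin n) (Fin n) F) * N = N * g := by
    intro g hg
    have h1 := Subgroup.mem_centralizer_singleton_iff.mp hg
    have h2 : (g : Matrix (Fin n) (Fin n) F) * u = u * g := congrArg Units.val h1
    rw [huN, Matrix.mul_add, Matrix.add_mul, Matrix.mul_one, Matrix.one_mul] at h2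
    exact add_left_cancel h2
  have hcommA : ∀ (g : GL (Fin n) F) (p : F[X]), (g : Matrix (Fin n) (Fin n) F) * N = N * g →
      (g : Matrix (Fin n) (Fin n) F) * aeval N p = aeval N p * g := by
    intro g p h
    have h1 : Commute (g : Matrix (Fin n) (Fin n) F) N := h
    have h2 : Commute (g : Matrix (Fin n) (Fin n) F) (aeval N p) := by
      induction p using Polynomial.induction_on' with
      | add p q hp hq =>
        rw [map_add]
        exact hp.add_right hq
      | monomial k a =>
        rw [aeval_monomial]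
        rw [← Algebra.smul_def]
        exact (h1.pow_right k).smul_right a
    exact h2
  let Φ : Subgroup.centralizer ({u} : Set (GL (Fin n) F)) → {w : Fin n → F // w ∉ R} := fun g =>
    ⟨(g.1 : Matrix (Fin n) (Fin n) F) *ᵥ v, by
      rintro ⟨x, hx⟩
      apply hv
      have hc := hcomm g.1 g.2
      have hinv : ((g.1⁻¹ : GL (Fin n) F) : Matrix (Fin n) (Fin n) F) * (g.1 : Matrix (Fin n) (Fin n) F) = 1 := by
        rw [← Units.val_mul, inv_mul_cancel, Units.val_one]
      have hinv2 : (g.1 : Matrix (Fin n) (Fin n) F) * ((g.1⁻¹ : GL (Fin n) F) : Matrix (Fin n) (Fin n) F) = 1 := by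
        rw [← Units.val_mul, mul_inv_cancel, Units.val_one]
      have hc' : ((g.1⁻¹ : GL (Fin n) F) : Matrix (Fin n) (Fin n) F) * N = N * ((g.1⁻¹ : GL (Fin n) F) : Matrix (Fin n) (Fin n) F) := by
        calc ((g.1⁻¹ : GL (Fin n) F) : Matrix (Fin n) (Fin n) F) * N
            = ((g.1⁻¹ : GL (Fin n) F) : Matrix (Fin n) (Fin n) F) * N * ((g.1 : Matrix (Fin n) (Fin n) F) * ((g.1⁻¹ : GL (Fin n) F) : Matrix (Fin n) (Fin n) F)) := by rw [hinv2, Matrix.mul_one]
          _ = ((g.1⁻¹ : GL (Fin n) F) : Matrix (Fin n) (Fin n) F) * (N * (g.1 : Matrix (Fin n) (Fin n) F)) * ((g.1⁻¹ : GL (Fin n) F) : Matrix (Fin n) (Fin n) F) := by simp only [Matrix.mul_assoc]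
          _ = ((g.1⁻¹ : GL (Fin n) F) : Matrix (Fin n) (Fin n) F) * ((g.1 : Matrix (Fin n) (Fin n) F) * N) * ((g.1⁻¹ : GL (Fin n) F) : Matrix (Fin n) (Fin n) F) := by rw [hc]
          _ = _ := by rw [← Matrix.mul_assoc, hinv, Matrix.one_mul]
      refine ⟨((g.1⁻¹ : GL (Fin n) F) : Matrix (Fin n) (Fin n) F) *ᵥ x, ?_⟩
      show N *ᵥ (((g.1⁻¹ : GL (Fin n) F) : Matrix (Fin n) (Fin n) F) *ᵥ x) = v
      rw [Matrix.mulVec_mulVec, ← hc', ← Matrix.mulVec_mulVec]
      have hx' : N *ᵥ x = (g.1 : Matrix (Fin n) (Fin n) F) *ᵥ v := hx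
      rw [hx', Matrix.mulVec_mulVec, hinv, Matrix.one_mulVec]⟩
  have hΦinj : Function.Injective Φ := by
    intro g g' hgg
    have h1 : (g.1 : Matrix (Fin n) (Fin n) F) *ᵥ v = (g'.1 : Matrix (Fin n) (Fin n) F) *ᵥ v := congrArg Subtype.val hgg
    apply Subtype.ext
    apply Units.ext
    apply Matrix.ext_of_mulVec_single
    intro j
    obtain ⟨p, hp⟩ := exists_poly N hnil hreg v hv (Pi.single j 1)
    rw [← hp, Matrix.mulVec_mulVec, Matrix.mulVec_mulVec, hcommA g.1 p (hcomm g.1 g.2), hcommA g'.1 p (hcomm g'.1 g'.2),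
      ← Matrix.mulVec_mulVec, ← Matrix.mulVec_mulVec, h1]
  have hΦsurj : Function.Surjective Φ := by
    rintro ⟨w, hw⟩
    obtain ⟨p, hp⟩ := exists_poly N hnil hreg v hv w
    have hdec : p = X * divX p + C (p.coeff 0) := (X_mul_divX_add p).symm
    set c₀ := p.coeff 0 with hc₀
    set B : Matrix (Fin n) (Fin n) F := aeval N (divX p) with hB
    have hA : aeval N p = N * B + algebraMap F _ c₀ := by
      conv_lhs => rw [hdec]
      rw [map_add, map_mul, aeval_X, aeval_C]
    have hc0 : c₀ ≠ 0 := by
      intro h0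
      apply hw
      rw [h0, map_zero, add_zero] at hA
      refine ⟨B *ᵥ v, ?_⟩
      show N *ᵥ (B *ᵥ v) = w
      rw [Matrix.mulVec_mulVec, ← hA, hp]
    have hcomNB : Commute N B := by
      have : Commute X (divX p) := Commute.all _ _
      have h2 := this.map (aeval N : F[X] →ₐ[F] Matrix (Fin n) (Fin n) F)
      rwa [aeval_X] at h2
    have hnilp : IsNilpotent (N * B) := by
      refine ⟨n, ?_⟩
      rw [hcomNB.mul_pow, hnil, zero_mul]
    have hu0 : IsUnit (algebraMap F (Matrix (Fin n) (Fin n) F) c₀) := (IsUnit.mk0 c₀ hc0).map (algebraMap F _)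
    have hAu : IsUnit (aeval N p) := by
      rw [hA, add_comm]
      exact hnilp.isUnit_add_left_of_commute hu0 ((Algebra.commutes _ _).symm)
    obtain ⟨g, hg⟩ := hAu
    have hgc : g ∈ Subgroup.centralizer ({u} : Set (GL (Fin n) F)) := by
      rw [Subgroup.mem_centralizer_singleton_iff]
      apply Units.ext
      show (g : Matrix (Fin n) (Fin n) F) * u = u * g
      rw [hg, huN, Matrix.mul_add, Matrix.add_mul, Matrix.mul_one, Matrix.one_mul]
      congr 1
      have : Commute (p) X := Commute.all _ _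
      have h2 := this.map (aeval N : F[X] →ₐ[F] Matrix (Fin n) (Fin n) F)
      rwa [aeval_X] at h2
    refine ⟨⟨g, hgc⟩, ?_⟩
    apply Subtype.ext
    show (g : Matrix (Fin n) (Fin n) F) *ᵥ v = w
    rw [hg, hp]
  have hcard := Nat.card_congr (Equiv.ofBijective Φ ⟨hΦinj, hΦsurj⟩)
  rw [hcard]
  have hcompl : Nat.card {w : Fin n → F // w ∉ R} + Nat.card R = q ^ n := by
    rw [← hcardV, Nat.card_eq_fintype_card, Nat.card_eq_fintype_card, Nat.card_eq_fintype_card, Fintype.card_subtype_compl]
    have h1 : Fintype.card { x // x ∈ R } ≤ Fintype.card (Fin n → F) := Fintype.card_subtype_le _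
    have h2 : Fintype.card ↥R = Fintype.card { x // x ∈ R } := rfl
    rw [h2]
    omega
  rw [hcardR] at hcompl
  obtain ⟨m, rfl⟩ : ∃ m, n = m + 1 := ⟨n - 1, by omega⟩
  simp only [Nat.add_sub_cancel] at hcompl ⊢
  rw [pow_succ] at hcompl
  have hq : 1 ≤ q := by
    rw [← hF]
    exact Fintype.card_pos
  obtain ⟨r, rfl⟩ : ∃ r, q = r + 1 := ⟨q - 1, by omega⟩
  simp only [Nat.add_sub_cancel]
  nlinarith

end CfsgLib.H9.RegUnip
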