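import Mathlib
import Cfsg.Agent.Lib.H9.RegUnip

/-! Regular unipotent classes of `SL_n`. -/

set_option autoImplicit false
set_option linter.unusedVariables false
set_option linter.unusedSectionVars false
set_option linter.unusedSimpArgs false
set_option linter.style.haveILetI false

namespace CfsgLib.H9.RegClass

open Matrix Module Polynomial

variable {F : Type*} [Field F] {n : ℕ}

/-- The subdiagonal nilpotent matrix. -/
def J (F : Type*) [Field F] (n : ℕ) : Matrix (Fin n) (Fin n) F :=
  fun i j => if (i : ℕ) = (j : ℕ) + 1 then 1 else 0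

theorem J_mulVec_single (j : Fin n) (hj : (j : ℕ) + 1 < n) :
    J F n *ᵥ (Pi.single j 1) = Pi.single (⟨j + 1, hj⟩ : Fin n) 1 := by
  ext i
  rw [Matrix.mulVec_single_one]
  simp only [Matrix.col_apply, J, Pi.single_apply]
  by_cases h : (i : ℕ) = (j : ℕ) + 1
  · have : i = ⟨j + 1, hj⟩ := Fin.ext h
    simp [this]
  · have : i ≠ ⟨j + 1, hj⟩ := fun h' => h (by rw [h'])
    simp [h, this]

theorem J_mulVec_single_last (j : Fin n) (hj : ¬ (j : ℕ) + 1 < n) :
    J F n *ᵥ (Pi.single j 1) = 0 := by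
  ext i
  rw [Matrix.mulVec_single_one]
  simp only [Matrix.col_apply, J, Pi.zero_apply]
  rw [if_neg]
  have := i.2
  omega

theorem J_mulVec_zero_apply (v : Fin n → F) (i : Fin n) (hi : (i : ℕ) = 0) : (J F n *ᵥ v) i = 0 := by
  simp only [Matrix.mulVec, dotProduct, J]
  apply Finset.sum_eq_zero
  intro j _
  rw [if_neg (by omega), zero_mul]

theorem J_mulVec_succ_apply (v : Fin n → F) (i : Fin n) (j : Fin n) (hi : (i : ℕ) = j + 1) :
    (J F n *ᵥ v) i = v j := by
  simp only [Matrix.mulVec, dotProduct, J]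
  rw [Finset.sum_eq_single j]
  · rw [if_pos hi, one_mul]
  · intro b _ hb
    rw [if_neg, zero_mul]
    intro h
    apply hb
    apply Fin.ext
    omega
  · simp

theorem J_pow_apply (k : ℕ) (v : Fin n → F) (i : Fin n) (hi : (i : ℕ) < k) : ((J F n ^ k) *ᵥ v) i = 0 := by
  induction k generalizing i with
  | zero => omega
  | succ k ih =>
    rw [pow_succ', ← Matrix.mulVec_mulVec]
    by_cases h0 : (i : ℕ) = 0
    · exact J_mulVec_zero_apply _ _ h0
    · have h1 : (i : ℕ) - 1 < n := by have := i.2; omega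
      rw [J_mulVec_succ_apply _ i ⟨i - 1, h1⟩ (by show (i : ℕ) = (i : ℕ) - 1 + 1; omega)]
      exact ih _ (by show (i : ℕ) - 1 < k; omega)

theorem J_pow : J F n ^ n = 0 := by
  apply Matrix.ext_of_mulVec_single
  intro j
  ext i
  rw [J_pow_apply n _ i i.2]
  simp

theorem J_rank (hn : 1 ≤ n) : (J F n).rank = n - 1 := by
  classical
  have h0 : (0 : ℕ) < n := hn
  let e : (Fin n → F) →ₗ[F] F := LinearMap.proj (⟨0, h0⟩ : Fin n)
  have he : LinearMap.range (J F n).mulVecLin = LinearMap.ker e := by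
    apply le_antisymm
    · rintro _ ⟨x, rfl⟩
      exact J_mulVec_zero_apply _ _ rfl
    · intro v hv
      have hv0 : v ⟨0, h0⟩ = 0 := hv
      refine ⟨fun j => if h : (j : ℕ) + 1 < n then v ⟨j + 1, h⟩ else 0, ?_⟩
      ext i
      by_cases hi : (i : ℕ) = 0
      · have : i = ⟨0, h0⟩ := Fin.ext hi
        rw [this, hv0]
        exact J_mulVec_zero_apply _ _ rfl
      · have h1 : (i : ℕ) - 1 < n := by have := i.2; omega
        show (J F n *ᵥ _) i = v i
        rw [J_mulVec_succ_apply _ i ⟨i - 1, h1⟩ (by show (i : ℕ) = (i : ℕ) - 1 + 1; omega)]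
        have h2 : (i : ℕ) - 1 + 1 < n := by have := i.2; omega
        simp only [h2, dite_true]
        congr 1
        apply Fin.ext
        show (i : ℕ) - 1 + 1 = i
        omega
  have h1 := LinearMap.finrank_range_add_finrank_ker e
  have h2 : LinearMap.range e = ⊤ := by
    rw [LinearMap.range_eq_top]
    intro c
    exact ⟨fun _ => c, rfl⟩
  rw [h2] at h1
  have h3 : (J F n).rank = finrank F (LinearMap.ker e) := by
    show finrank F (LinearMap.range (J F n).mulVecLin) = _
    rw [he]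
  simp at h1
  omega

/-- Determinant of a scalar plus a nilpotent. -/
theorem det_add_nil (c : F) (M : Matrix (Fin n) (Fin n) F) (hM : IsNilpotent M) :
    (algebraMap F _ c + M).det = c ^ n := by
  have h1 : IsNilpotent (-M) := hM.neg
  have h2 := Matrix.isNilpotent_charpoly_sub_pow_of_isNilpotent h1
  have h3 : (-M).charpoly = X ^ n := by
    have := h2.eq_zero
    simpa [sub_eq_zero] using this
  have h4 := Matrix.eval_charpoly (-M) c
  rw [h3] at h4
  simp only [eval_pow, eval_X] at h4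
  rw [h4]
  congr 1
  rw [sub_neg_eq_add, Matrix.scalar_apply]
  congr 1

theorem det_one_add_nil (M : Matrix (Fin n) (Fin n) F) (hM : IsNilpotent M) : (1 + M).det = 1 := by
  have := det_add_nil (1 : F) M hM
  simpa using this

/-- A regular nilpotent matrix is conjugate to `J`. -/
theorem exists_conj_J (N : Matrix (Fin n) (Fin n) F) (hnil : N ^ n = 0) (hr : N.rank = n - 1) (hn : 1 ≤ n) :
    ∃ P : GL (Fin n) F, N * (P : Matrix (Fin n) (Fin n) F) = (P : Matrix (Fin n) (Fin n) F) * J F n := by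
  classical
  set R := LinearMap.range N.mulVecLin with hR
  have hfR : finrank F R = n - 1 := hr
  have hRne : R ≠ ⊤ := by
    intro h
    rw [h] at hfR
    simp at hfR
    omega
  obtain ⟨v, hv⟩ : ∃ v, v ∉ R := by
    by_contra h
    push Not at h
    exact hRne (Submodule.eq_top_iff'.mpr h)
  let P : Matrix (Fin n) (Fin n) F := Matrix.of fun i j => ((N ^ (j : ℕ)) *ᵥ v) i
  have hP : ∀ j : Fin n, P *ᵥ Pi.single j 1 = (N ^ (j : ℕ)) *ᵥ v := by
    intro j
    rw [Matrix.mulVec_single_one]
    ext i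
    rfl
  have hsurj : Function.Surjective P.mulVec := by
    intro w
    obtain ⟨p, hp⟩ := CfsgLib.H9.RegUnip.exists_poly N hnil hr v hv w
    refine ⟨fun j => p.coeff j, ?_⟩
    rw [← hp]
    -- expand
    have h1 : ∀ (x : Fin n → F), x = ∑ j, x j • (Pi.single j 1 : Fin n → F) := by
      intro x
      ext i
      simp [Finset.sum_apply, Pi.single_apply]
    conv_lhs => rw [h1 (fun j => p.coeff j)]
    rw [Matrix.mulVec_sum]
    simp only [Matrix.mulVec_smul, hP]
    rw [aeval_eq_sum_range, Matrix.sum_mulVec]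
    rw [show ∑ x ∈ Finset.range (p.natDegree + 1), (p.coeff x • N ^ x) *ᵥ v
        = ∑ x ∈ Finset.range (p.natDegree + 1), p.coeff x • ((N ^ x) *ᵥ v) by
      apply Finset.sum_congr rfl
      intro x _
      rw [Matrix.smul_mulVec]]
    have hzero : ∀ x, n ≤ x → N ^ x = 0 := fun x hx => by
      obtain ⟨k, rfl⟩ := Nat.exists_eq_add_of_le hx
      rw [pow_add, hnil, zero_mul]
    rw [Fin.sum_univ_eq_sum_range (fun j => p.coeff j • ((N ^ j) *ᵥ v)) n]
    have h2 : ∀ (m : ℕ), ∑ x ∈ Finset.range m, p.coeff x • ((N ^ x) *ᵥ v)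
        = ∑ x ∈ Finset.range (min m n), p.coeff x • ((N ^ x) *ᵥ v) := by
      intro m
      symm
      apply Finset.sum_subset
      · intro x hx
        simp only [Finset.mem_range, lt_min_iff] at hx ⊢
        exact hx.1
      · intro x hx hx'
        simp only [Finset.mem_range, lt_min_iff, not_and, not_lt] at hx hx'
        rw [hzero x (hx' hx)]
        simp
    rw [h2 (p.natDegree + 1)]
    symm
    apply Finset.sum_subset
    · intro x hx
      simp only [Finset.mem_range, lt_min_iff] at hx ⊢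
      exact hx.2
    · intro x hx hx'
      simp only [Finset.mem_range, lt_min_iff, not_and, not_lt] at hx hx'
      have : p.natDegree + 1 ≤ x := by
        by_contra hh
        have := hx' (by omega)
        omega
      rw [coeff_eq_zero_of_natDegree_lt (by omega)]
      simp
  have hunit : IsUnit P := Matrix.mulVec_surjective_iff_isUnit.mp hsurj
  obtain ⟨P', hP'⟩ := hunit
  refine ⟨P', ?_⟩
  rw [hP']
  apply Matrix.ext_of_mulVec_single
  intro j
  rw [← Matrix.mulVec_mulVec, ← Matrix.mulVec_mulVec, hP, Matrix.mulVec_mulVec, ← pow_succ']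
  by_cases hj : (j : ℕ) + 1 < n
  · rw [J_mulVec_single j hj, hP]
  · have : (j : ℕ) + 1 = n := by have := j.2; omega
    rw [J_mulVec_single_last j hj, this, hnil]
    simp

/-- The determinant of a matrix commuting with `J` is an `n`-th power. -/
theorem det_of_comm (hn : 1 ≤ n) (g : Matrix (Fin n) (Fin n) F) (hg : g * J F n = J F n * g) :
    ∃ a : F, g.det = a ^ n := by
  classical
  set N := J F n with hN
  have hnil : N ^ n = 0 := J_pow
  have hr : N.rank = n - 1 := J_rank hn
  set R := LinearMap.range N.mulVecLin with hR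
  have hfR : finrank F R = n - 1 := hr
  have hRne : R ≠ ⊤ := by
    intro h
    rw [h] at hfR
    simp at hfR
    omega
  obtain ⟨v, hv⟩ : ∃ v, v ∉ R := by
    by_contra h
    push Not at h
    exact hRne (Submodule.eq_top_iff'.mpr h)
  have hcommA : ∀ (g : Matrix (Fin n) (Fin n) F) (p : F[X]), g * N = N * g →
      g * aeval N p = aeval N p * g := by
    intro g p h
    have h1 : Commute g N := h
    have h2 : Commute g (aeval N p) := by
      induction p using Polynomial.induction_on' with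
      | add p q hp hq =>
        rw [map_add]
        exact hp.add_right hq
      | monomial k a =>
        rw [aeval_monomial]
        rw [← Algebra.smul_def]
        exact (h1.pow_right k).smul_right a
    exact h2
  obtain ⟨p, hp⟩ := CfsgLib.H9.RegUnip.exists_poly N hnil hr v hv (g *ᵥ v)
  have hgp : g = aeval N p := by
    apply Matrix.ext_of_mulVec_single
    intro j
    obtain ⟨r, hr'⟩ := CfsgLib.H9.RegUnip.exists_poly N hnil hr v hv (Pi.single j 1)
    have hcomm2 : aeval N p * aeval N r = aeval N r * aeval N p := by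
      rw [← map_mul, ← map_mul, mul_comm]
    rw [← hr', Matrix.mulVec_mulVec, Matrix.mulVec_mulVec, hcommA g r hg, hcomm2,
      ← Matrix.mulVec_mulVec, ← Matrix.mulVec_mulVec, hp]
  have hdec : p = X * divX p + C (p.coeff 0) := (X_mul_divX_add p).symm
  set c₀ := p.coeff 0 with hc₀
  set B : Matrix (Fin n) (Fin n) F := aeval N (divX p) with hB
  have hA : aeval N p = algebraMap F _ c₀ + N * B := by
    conv_lhs => rw [hdec]
    rw [map_add, map_mul, aeval_X, aeval_C, add_comm]
  have hcomNB : Commute N B := by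
    have : Commute X (divX p) := Commute.all _ _
    have h2 := this.map (aeval N : F[X] →ₐ[F] Matrix (Fin n) (Fin n) F)
    rwa [aeval_X] at h2
  have hnilp : IsNilpotent (N * B) := by
    refine ⟨n, ?_⟩
    rw [hcomNB.mul_pow, hnil, zero_mul]
  refine ⟨c₀, ?_⟩
  rw [hgp, hA, det_add_nil _ _ hnilp]

/-- The general counting principle. -/
theorem card_of_quot {A B : Type*} [Group A] (H : Subgroup A) (Ψ : A → B) (hs : Function.Surjective Ψ)
    (h : ∀ a b, Ψ a = Ψ b ↔ a⁻¹ * b ∈ H) : Nat.card B = H.index := by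
  have h1 : ∀ a b : A, QuotientGroup.leftRel H a b → Ψ a = Ψ b := by
    intro a b hab
    rw [QuotientGroup.leftRel_apply] at hab
    exact (h a b).mpr hab
  let Ψ' : A ⧸ H → B := Quotient.lift Ψ h1
  have hb : Function.Bijective Ψ' := by
    constructor
    · intro x y
      induction x using QuotientGroup.induction_on with
      | H a =>
        induction y using QuotientGroup.induction_on with
        | H b =>
          intro hab
          have : Ψ a = Ψ b := hab
          exact QuotientGroup.eq.mpr ((h a b).mp this)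
    · intro b
      obtain ⟨a, rfl⟩ := hs b
      exact ⟨(a : A ⧸ H), rfl⟩
  rw [Subgroup.index, Nat.card_congr (Equiv.ofBijective Ψ' hb)]

abbrev SLn (F : Type*) [Field F] (n : ℕ) := Matrix.SpecialLinearGroup (Fin n) F

/-- conjugate an element of `SL` by `g ∈ GL`. -/
noncomputable def conjS (g : GL (Fin n) F) (u : SLn F n) : SLn F n :=
  ⟨(g : Matrix (Fin n) (Fin n) F) * (u : Matrix (Fin n) (Fin n) F) * ((g⁻¹ : GL (Fin n) F) : Matrix (Fin n) (Fin n) F), by
    have h1 : (g : Matrix (Fin n) (Fin n) F).det * ((g⁻¹ : GL (Fin n) F) : Matrix (Fin n) (Fin n) F).det = 1 := by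
      rw [← Matrix.det_mul, ← Units.val_mul, mul_inv_cancel, Units.val_one, Matrix.det_one]
    rw [Matrix.det_mul, Matrix.det_mul, u.2, mul_one, h1]⟩

theorem main_2578 [Fintype F] {q : ℕ} (hF : Fintype.card F = q) (hn : 1 ≤ n) :
    Nat.card {C : ConjClasses (SLn F n) // ∃ u : SLn F n, ConjClasses.mk u = C ∧
      ((u : Matrix (Fin n) (Fin n) F) - 1) ^ n = 0 ∧ ((u : Matrix (Fin n) (Fin n) F) - 1).rank = n - 1}
      = Nat.gcd n (q - 1) := by
  classical
  -- the base point
  have hJnil : IsNilpotent (J F n) := ⟨n, J_pow⟩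
  let u₀ : SLn F n := ⟨1 + J F n, det_one_add_nil _ hJnil⟩
  have hu₀ : (u₀ : Matrix (Fin n) (Fin n) F) = 1 + J F n := rfl
  -- a matrix with a given determinant
  have hdet : ∀ c : Fˣ, ∃ g : GL (Fin n) F, (g : Matrix (Fin n) (Fin n) F).det = c := by
    intro c
    have hsurj : Function.Surjective (Matrix.GeneralLinearGroup.det : GL (Fin n) F →* Fˣ) := by
      intro c
      let i₀ : Fin n := ⟨0, hn⟩
      let D : Matrix (Fin n) (Fin n) F := Matrix.diagonal (Function.update (fun _ => 1) i₀ (c : F))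
      have hD : D.det = c := by
        simp only [D, Matrix.det_diagonal]
        rw [Finset.prod_eq_single i₀]
        · simp
        · intro b _ hb
          simp [Function.update_of_ne hb]
        · simp
      have hu : IsUnit D := by
        rw [Matrix.isUnit_iff_isUnit_det, hD]
        exact c.isUnit
      obtain ⟨g, hg⟩ := hu
      refine ⟨g, ?_⟩
      apply Units.ext
      show (g : Matrix (Fin n) (Fin n) F).det = c
      rw [hg, hD]
    obtain ⟨g, hg⟩ := hsurj c
    exact ⟨g, congrArg Units.val hg⟩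
  choose gc hgc using hdet
  -- coercion of conjS
  have hconj : ∀ (g : GL (Fin n) F) (u : SLn F n), ((conjS g u : SLn F n) : Matrix (Fin n) (Fin n) F)
      = (g : Matrix (Fin n) (Fin n) F) * (u : Matrix (Fin n) (Fin n) F) * ((g⁻¹ : GL (Fin n) F) : Matrix (Fin n) (Fin n) F) := fun _ _ => rfl
  have hinv1 : ∀ g : GL (Fin n) F, (g : Matrix (Fin n) (Fin n) F) * ((g⁻¹ : GL (Fin n) F) : Matrix (Fin n) (Fin n) F) = 1 := by
    intro g
    rw [← Units.val_mul, mul_inv_cancel, Units.val_one]
  have hinv2 : ∀ g : GL (Fin n) F, ((g⁻¹ : GL (Fin n) F) : Matrix (Fin n) (Fin n) F) * (g : Matrix (Fin n) (Fin n) F) = 1 := by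
    intro g
    rw [← Units.val_mul, inv_mul_cancel, Units.val_one]
  -- regularity of the conjugates
  have hreg : ∀ g : GL (Fin n) F, (((conjS g u₀ : SLn F n) : Matrix (Fin n) (Fin n) F) - 1) =
      (g : Matrix (Fin n) (Fin n) F) * J F n * ((g⁻¹ : GL (Fin n) F) : Matrix (Fin n) (Fin n) F) := by
    intro g
    rw [hconj, hu₀, Matrix.mul_add, Matrix.add_mul, Matrix.mul_one, hinv1]
    abel
  have hreg1 : ∀ g : GL (Fin n) F, (((conjS g u₀ : SLn F n) : Matrix (Fin n) (Fin n) F) - 1) ^ n = 0 := by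
    intro g
    rw [hreg]
    have h1 : ∀ k : ℕ, ((g : Matrix (Fin n) (Fin n) F) * J F n * ((g⁻¹ : GL (Fin n) F) : Matrix (Fin n) (Fin n) F)) ^ k
        = (g : Matrix (Fin n) (Fin n) F) * J F n ^ k * ((g⁻¹ : GL (Fin n) F) : Matrix (Fin n) (Fin n) F) := by
      intro k
      induction k with
      | zero => simp [hinv1]
      | succ k ih =>
        rw [pow_succ, ih, pow_succ]
        calc _ = (g : Matrix (Fin n) (Fin n) F) * J F n ^ k * (((g⁻¹ : GL (Fin n) F) : Matrix (Fin n) (Fin n) F) * (g : Matrix (Fin n) (Fin n) F)) * J F n * ((g⁻¹ : GL (Fin n) F) : Matrix (Fin n) (Fin n) F) := by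
              simp only [Matrix.mul_assoc]
          _ = _ := by rw [hinv2, Matrix.mul_one]; simp only [Matrix.mul_assoc]
    rw [h1, J_pow]
    simp
  have hreg2 : ∀ g : GL (Fin n) F, (((conjS g u₀ : SLn F n) : Matrix (Fin n) (Fin n) F) - 1).rank = n - 1 := by
    intro g
    rw [hreg, Matrix.rank_mul_eq_left_of_isUnit_det _ _ ((Matrix.isUnit_iff_isUnit_det _).mp (g⁻¹).isUnit),
      Matrix.rank_mul_eq_right_of_isUnit_det _ _ ((Matrix.isUnit_iff_isUnit_det _).mp g.isUnit), J_rank hn]
  -- key lemma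
  have hkey : ∀ (g g' : GL (Fin n) F), IsConj (conjS g u₀) (conjS g' u₀) ↔
      ∃ a : F, a ≠ 0 ∧ (g : Matrix (Fin n) (Fin n) F).det * a ^ n = (g' : Matrix (Fin n) (Fin n) F).det := by
    intro g g'
    have hgdet : (g : Matrix (Fin n) (Fin n) F).det ≠ 0 := by
      have := (Matrix.isUnit_iff_isUnit_det _).mp g.isUnit
      exact this.ne_zero
    have hgdet' : (g' : Matrix (Fin n) (Fin n) F).det ≠ 0 := by
      have := (Matrix.isUnit_iff_isUnit_det _).mp g'.isUnit
      exact this.ne_zero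
    constructor
    · intro h
      obtain ⟨s, hs⟩ := isConj_iff.mp h
      -- `s * (g u₀ g⁻¹) * s⁻¹ = g' u₀ g'⁻¹`
      have h1 : (s : Matrix (Fin n) (Fin n) F) * ((g : Matrix (Fin n) (Fin n) F) * (u₀ : Matrix (Fin n) (Fin n) F) * ((g⁻¹ : GL (Fin n) F) : Matrix (Fin n) (Fin n) F))
          = ((g' : Matrix (Fin n) (Fin n) F) * (u₀ : Matrix (Fin n) (Fin n) F) * ((g'⁻¹ : GL (Fin n) F) : Matrix (Fin n) (Fin n) F)) * (s : Matrix (Fin n) (Fin n) F) := by
        have h2 : s * conjS g u₀ = conjS g' u₀ * s := by rw [← hs]; group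
        exact congrArg (fun x : SLn F n => (x : Matrix (Fin n) (Fin n) F)) h2
      set t : Matrix (Fin n) (Fin n) F := ((g'⁻¹ : GL (Fin n) F) : Matrix (Fin n) (Fin n) F) * (s : Matrix (Fin n) (Fin n) F) * (g : Matrix (Fin n) (Fin n) F) with ht
      have h3 : t * (u₀ : Matrix (Fin n) (Fin n) F) = (u₀ : Matrix (Fin n) (Fin n) F) * t := by
        calc t * (u₀ : Matrix (Fin n) (Fin n) F) = ((g'⁻¹ : GL (Fin n) F) : Matrix (Fin n) (Fin n) F) * ((s : Matrix (Fin n) (Fin n) F) * ((g : Matrix (Fin n) (Fin n) F) * (u₀ : Matrix (Fin n) (Fin n) F) * ((g⁻¹ : GL (Fin n) F) : Matrix (Fin n) (Fin n) F))) * (g : Matrix (Fin n) (Fin n) F) := by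
              simp only [ht, Matrix.mul_assoc, hinv2, Matrix.mul_one]
          _ = ((g'⁻¹ : GL (Fin n) F) : Matrix (Fin n) (Fin n) F) * (((g' : Matrix (Fin n) (Fin n) F) * (u₀ : Matrix (Fin n) (Fin n) F) * ((g'⁻¹ : GL (Fin n) F) : Matrix (Fin n) (Fin n) F)) * (s : Matrix (Fin n) (Fin n) F)) * (g : Matrix (Fin n) (Fin n) F) := by rw [h1]
          _ = (((g'⁻¹ : GL (Fin n) F) : Matrix (Fin n) (Fin n) F) * (g' : Matrix (Fin n) (Fin n) F)) * (u₀ : Matrix (Fin n) (Fin n) F) * t := by
              simp only [ht, Matrix.mul_assoc]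
          _ = _ := by rw [hinv2, Matrix.one_mul]
      have h4 : t * J F n = J F n * t := by
        rw [hu₀, Matrix.mul_add, Matrix.add_mul, Matrix.mul_one, Matrix.one_mul] at h3
        exact add_left_cancel h3
      obtain ⟨a, ha⟩ := det_of_comm hn t h4
      have hdg : (g' : Matrix (Fin n) (Fin n) F).det * ((g'⁻¹ : GL (Fin n) F) : Matrix (Fin n) (Fin n) F).det = 1 := by
        rw [← Matrix.det_mul, hinv1, Matrix.det_one]
      have hdt : t.det = ((g'⁻¹ : GL (Fin n) F) : Matrix (Fin n) (Fin n) F).det * (g : Matrix (Fin n) (Fin n) F).det := by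
        rw [ht, Matrix.det_mul, Matrix.det_mul, s.2, mul_one]
      have hfinal : (g : Matrix (Fin n) (Fin n) F).det = (g' : Matrix (Fin n) (Fin n) F).det * a ^ n := by
        rw [← ha, hdt, ← mul_assoc, hdg, one_mul]
      have ha0 : a ≠ 0 := by
        rintro rfl
        rw [zero_pow (by omega), mul_zero] at hfinal
        exact hgdet hfinal
      refine ⟨a⁻¹, inv_ne_zero ha0, ?_⟩
      rw [hfinal, inv_pow, mul_assoc, mul_inv_cancel₀ (pow_ne_zero n ha0), mul_one]
    · rintro ⟨a, ha, hdeta⟩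
      -- `s = g' · a⁻¹ · g⁻¹`… use `a`
      have hscal : IsUnit (algebraMap F (Matrix (Fin n) (Fin n) F) a) :=
        (IsUnit.mk0 a ha).map (algebraMap F _)
      set A : Matrix (Fin n) (Fin n) F := algebraMap F _ a with hA
      have hAdet : A.det = a ^ n := by
        rw [hA, Matrix.algebraMap_eq_diagonal, Matrix.det_diagonal]
        simp
      set S : Matrix (Fin n) (Fin n) F := (g' : Matrix (Fin n) (Fin n) F) * ((g⁻¹ : GL (Fin n) F) : Matrix (Fin n) (Fin n) F) * A⁻¹ with hS
      have hdinv : (g : Matrix (Fin n) (Fin n) F).det * ((g⁻¹ : GL (Fin n) F) : Matrix (Fin n) (Fin n) F).det = 1 := by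
        rw [← Matrix.det_mul, hinv1, Matrix.det_one]
      have hAne : a ^ n ≠ 0 := pow_ne_zero _ ha
      have hSdet : S.det = 1 := by
        have hAi : A⁻¹.det * a ^ n = 1 := by
          rw [← hAdet, ← Matrix.det_mul, Matrix.nonsing_inv_mul _ ((Matrix.isUnit_iff_isUnit_det _).mp hscal), Matrix.det_one]
        have : S.det = (g : Matrix (Fin n) (Fin n) F).det * a ^ n * ((g⁻¹ : GL (Fin n) F) : Matrix (Fin n) (Fin n) F).det * A⁻¹.det := by
          rw [hS, Matrix.det_mul, Matrix.det_mul, hdeta]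
        rw [this]
        calc _ = ((g : Matrix (Fin n) (Fin n) F).det * ((g⁻¹ : GL (Fin n) F) : Matrix (Fin n) (Fin n) F).det) * (A⁻¹.det * a ^ n) := by ring
          _ = 1 := by rw [hdinv, hAi, mul_one]
      let s : SLn F n := ⟨S, hSdet⟩
      have hAcomm : ∀ M : Matrix (Fin n) (Fin n) F, A * M = M * A := fun M => by
        rw [hA]
        exact Algebra.commutes a M
      have hAinv : A⁻¹ * A = 1 := Matrix.nonsing_inv_mul _ ((Matrix.isUnit_iff_isUnit_det _).mp hscal)
      have hAinv' : A * A⁻¹ = 1 := Matrix.mul_nonsing_inv _ ((Matrix.isUnit_iff_isUnit_det _).mp hscal)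
      have hAicomm : ∀ M : Matrix (Fin n) (Fin n) F, A⁻¹ * M = M * A⁻¹ := fun M => by
        calc A⁻¹ * M = A⁻¹ * (M * (A * A⁻¹)) := by rw [hAinv', Matrix.mul_one]
          _ = A⁻¹ * (A * M) * A⁻¹ := by rw [hAcomm M]; simp only [Matrix.mul_assoc]
          _ = _ := by rw [← Matrix.mul_assoc, hAinv, Matrix.one_mul]
      rw [isConj_iff]
      refine ⟨s, ?_⟩
      have h5 : s * conjS g u₀ = conjS g' u₀ * s := by
        apply Subtype.ext
        show S * ((g : Matrix (Fin n) (Fin n) F) * (u₀ : Matrix (Fin n) (Fin n) F) * ((g⁻¹ : GL (Fin n) F) : Matrix (Fin n) (Fin n) F)) = ((g' : Matrix (Fin n) (Fin n) F) * (u₀ : Matrix (Fin n) (Fin n) F) * ((g'⁻¹ : GL (Fin n) F) : Matrix (Fin n) (Fin n) F)) * S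
        rw [hS]
        calc _ = (g' : Matrix (Fin n) (Fin n) F) * (((g⁻¹ : GL (Fin n) F) : Matrix (Fin n) (Fin n) F) * (A⁻¹ * (g : Matrix (Fin n) (Fin n) F))) * (u₀ : Matrix (Fin n) (Fin n) F) * ((g⁻¹ : GL (Fin n) F) : Matrix (Fin n) (Fin n) F) := by
              simp only [Matrix.mul_assoc]
          _ = (g' : Matrix (Fin n) (Fin n) F) * A⁻¹ * (u₀ : Matrix (Fin n) (Fin n) F) * ((g⁻¹ : GL (Fin n) F) : Matrix (Fin n) (Fin n) F) := by
              rw [hAicomm (g : Matrix (Fin n) (Fin n) F), ← Matrix.mul_assoc ((g⁻¹ : GL (Fin n) F) : Matrix (Fin n) (Fin n) F), hinv2, Matrix.one_mul]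
          _ = (g' : Matrix (Fin n) (Fin n) F) * (u₀ : Matrix (Fin n) (Fin n) F) * (A⁻¹ * ((g⁻¹ : GL (Fin n) F) : Matrix (Fin n) (Fin n) F)) := by
              rw [Matrix.mul_assoc (g' : Matrix (Fin n) (Fin n) F), hAicomm (u₀ : Matrix (Fin n) (Fin n) F)]
              simp only [Matrix.mul_assoc]
          _ = (g' : Matrix (Fin n) (Fin n) F) * (u₀ : Matrix (Fin n) (Fin n) F) * (1 * (A⁻¹ * ((g⁻¹ : GL (Fin n) F) : Matrix (Fin n) (Fin n) F))) := by rw [Matrix.one_mul]
          _ = _ := by
              rw [← hinv2 g', hAicomm ((g⁻¹ : GL (Fin n) F) : Matrix (Fin n) (Fin n) F)]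
              simp only [Matrix.mul_assoc]
      rw [h5]
      group
  -- the map
  let Ψ : Fˣ → {C : ConjClasses (SLn F n) // ∃ u : SLn F n, ConjClasses.mk u = C ∧
      ((u : Matrix (Fin n) (Fin n) F) - 1) ^ n = 0 ∧ ((u : Matrix (Fin n) (Fin n) F) - 1).rank = n - 1} :=
    fun c => ⟨ConjClasses.mk (conjS (gc c) u₀), conjS (gc c) u₀, rfl, hreg1 _, hreg2 _⟩
  have hsurj : Function.Surjective Ψ := by
    rintro ⟨C, u, rfl, hu1, hu2⟩
    obtain ⟨P, hP⟩ := exists_conj_J _ hu1 hu2 hn
    have hdetP : (P : Matrix (Fin n) (Fin n) F).det ≠ 0 := by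
      have := (Matrix.isUnit_iff_isUnit_det _).mp P.isUnit
      exact this.ne_zero
    refine ⟨Units.mk0 _ hdetP, ?_⟩
    apply Subtype.ext
    show ConjClasses.mk _ = ConjClasses.mk u
    rw [ConjClasses.mk_eq_mk_iff_isConj]
    have hu : u = conjS P u₀ := by
      apply Subtype.ext
      rw [hconj, hu₀, Matrix.mul_add, Matrix.mul_one, Matrix.add_mul, hinv1, ← hP, Matrix.mul_assoc, hinv1, Matrix.mul_one]
      abel
    rw [hu, hkey]
    refine ⟨1, one_ne_zero, ?_⟩
    rw [hgc]
    simp
  have hcard := card_of_quot (powMonoidHom n : Fˣ →* Fˣ).range Ψ hsurj (by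
    intro a b
    constructor
    · intro hab
      have h1 : ConjClasses.mk (conjS (gc a) u₀) = ConjClasses.mk (conjS (gc b) u₀) := congrArg Subtype.val hab
      rw [ConjClasses.mk_eq_mk_iff_isConj, hkey, hgc, hgc] at h1
      obtain ⟨x, hx, hxe⟩ := h1
      refine ⟨Units.mk0 x hx, ?_⟩
      apply Units.ext
      simp only [powMonoidHom_apply, Units.val_pow_eq_pow_val, Units.val_mk0, Units.val_mul]
      rw [← hxe, ← mul_assoc]
      simp
    · rintro ⟨x, hx⟩
      apply Subtype.ext
      show ConjClasses.mk _ = ConjClasses.mk _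
      rw [ConjClasses.mk_eq_mk_iff_isConj, hkey, hgc, hgc]
      refine ⟨x, x.ne_zero, ?_⟩
      have h2 : ((x : F)) ^ n = ((a⁻¹ * b : Fˣ) : F) := by
        have := congrArg Units.val hx
        simpa using this
      rw [h2]
      simp)
  rw [hcard, IsCyclic.index_powMonoidHom_range, Nat.card_eq_fintype_card, Fintype.card_units, hF, Nat.gcd_comm]

end CfsgLib.H9.RegClass
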