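import Mathlib
import Cfsg.Agent.Lib.H9.RegUnip
import Cfsg.Prelude.Def_ClassicalGeometry

/-! Invariant subspaces of regular unipotent symplectic elements are isotropic. -/

set_option autoImplicit false
set_option linter.unusedVariables false
set_option linter.unusedSectionVars false
set_option linter.unusedSimpArgs false
set_option linter.style.haveILetI false

namespace CfsgLib.H9.RegIso

open Matrix Module Polynomial
open CfsgLib.H9.RegUnip (end_pow_finrank)

variable {F : Type*} [Field F]
variable {ι : Type*} [Fintype ι] [DecidableEq ι] {n : ℕ} (N : Matrix ι ι F)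

theorem finrank_ker_le (hn : Fintype.card ι = n) (hr : N.rank = n - 1) :
    finrank F (LinearMap.ker N.mulVecLin) ≤ 1 := by
  have h1 := LinearMap.finrank_range_add_finrank_ker N.mulVecLin
  have h2 : finrank F (LinearMap.range N.mulVecLin) = N.rank := rfl
  rw [h2, hr] at h1
  simp [hn] at h1
  omega

theorem finrank_ker_pow_le (hn : Fintype.card ι = n) (hr : N.rank = n - 1) (k : ℕ) :
    finrank F (LinearMap.ker (N ^ k).mulVecLin) ≤ k := by
  induction k with
  | zero =>
    have : LinearMap.ker ((N ^ 0).mulVecLin) = ⊥ := by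
      rw [pow_zero, LinearMap.ker_eq_bot]
      intro a b h
      simpa using h
    rw [this]
    simp
  | succ k ih =>
    let K := LinearMap.ker (N ^ (k + 1)).mulVecLin
    let f := N.mulVecLin.domRestrict K
    have h1 := LinearMap.finrank_range_add_finrank_ker f
    have h2 : LinearMap.range f ≤ LinearMap.ker (N ^ k).mulVecLin := by
      rintro _ ⟨⟨v, hv⟩, rfl⟩
      show (N ^ k) *ᵥ (N *ᵥ v) = 0
      rw [Matrix.mulVec_mulVec, ← pow_succ]
      exact hv
    have h3 : finrank F (LinearMap.range f) ≤ k := (Submodule.finrank_mono h2).trans ih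
    have h4 : finrank F (LinearMap.ker f) ≤ 1 := by
      have h5 : Function.Injective (fun x : LinearMap.ker f => (⟨(x : K), x.2⟩ : LinearMap.ker N.mulVecLin)) := by
        intro a b hab
        apply Subtype.ext
        apply Subtype.ext
        exact congrArg (fun t : LinearMap.ker N.mulVecLin => (t : ι → F)) hab
      let g : LinearMap.ker f →ₗ[F] LinearMap.ker N.mulVecLin :=
        { toFun := fun x => ⟨(x : K), x.2⟩
          map_add' := fun a b => rfl
          map_smul' := fun c a => rfl }
      have h6 := LinearMap.finrank_le_finrank_of_injective (f := g) h5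
      exact h6.trans (finrank_ker_le N hn hr)
    have h7 : finrank F K ≤ k + 1 := by omega
    exact h7

/-- Invariant subspaces are kernels. -/
theorem eq_ker (hn : Fintype.card ι = n) (hnil : N ^ n = 0) (hr : N.rank = n - 1) (W : Submodule F (ι → F))
    (hW : ∀ v ∈ W, N *ᵥ v ∈ W) : W = LinearMap.ker (N ^ finrank F W).mulVecLin := by
  have hle : W ≤ LinearMap.ker (N ^ finrank F W).mulVecLin := by
    let φ : Module.End F W := N.mulVecLin.restrict hW
    have hpow : ∀ (k : ℕ) (w : W), (((φ ^ k) w : W) : ι → F) = (N ^ k) *ᵥ (w : ι → F) := by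
      intro k
      induction k with
      | zero =>
        intro w
        simp
      | succ k ih =>
        intro w
        rw [pow_succ', Module.End.mul_apply]
        show N *ᵥ (((φ ^ k) w : W) : ι → F) = _
        rw [ih, Matrix.mulVec_mulVec, ← pow_succ']
    have hφ : IsNilpotent φ := by
      refine ⟨n, ?_⟩
      ext w
      rw [hpow, hnil]
      simp
    have h0 := end_pow_finrank φ hφ
    intro v hv
    show (N ^ finrank F W) *ᵥ v = 0
    have h1 := hpow (finrank F W) ⟨v, hv⟩
    rw [h0] at h1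
    simpa using h1.symm
  exact Submodule.eq_of_le_of_finrank_le hle (finrank_ker_pow_le N hn hr _)

/-- Main statement. -/
theorem main [Finite F] {m : ℕ} (u : Matrix.symplecticGroup (Fin m) F)
    (hnil : ((u : Matrix (Fin m ⊕ Fin m) (Fin m ⊕ Fin m) F) - 1) ^ (2 * m) = 0)
    (hreg : ((u : Matrix (Fin m ⊕ Fin m) (Fin m ⊕ Fin m) F) - 1).rank = 2 * m - 1)
    (W : Submodule F (Fin m ⊕ Fin m → F))
    (hW : ∀ v ∈ W, (u : Matrix (Fin m ⊕ Fin m) (Fin m ⊕ Fin m) F).mulVec v ∈ W)
    (hdim : 2 * Module.finrank F W ≤ 2 * m) :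
    ∀ v ∈ W, ∀ w ∈ W, Cfsg.sympForm m F v w = 0 := by
  classical
  haveI := Fintype.ofFinite F
  set U : Matrix (Fin m ⊕ Fin m) (Fin m ⊕ Fin m) F := (u : Matrix (Fin m ⊕ Fin m) (Fin m ⊕ Fin m) F) with hU
  have hcard : Fintype.card (Fin m ⊕ Fin m) = 2 * m := by simp; ring
  let B : (Fin m ⊕ Fin m → F) →ₗ[F] (Fin m ⊕ Fin m → F) →ₗ[F] F :=
    Matrix.toLinearMap₂' F (Matrix.J (Fin m) F)
  have hB : ∀ x y, B x y = Cfsg.sympForm m F x y := fun x y => by
    simp [B, Cfsg.sympForm, Matrix.toLinearMap₂'_apply']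
  have hsym : U ∈ Matrix.symplecticGroup (Fin m) F := u.2
  have hinv : ∀ x y, B (U *ᵥ x) (U *ᵥ y) = B x y := by
    intro x y
    rw [hB, hB]
    have h1 := SymplecticGroup.mem_iff'.1 hsym
    simp only [Cfsg.sympForm]
    rw [← Matrix.vecMul_transpose, ← Matrix.dotProduct_mulVec, Matrix.mulVec_mulVec, Matrix.mulVec_mulVec, h1]
  -- `U` is bijective on `W`
  have hsurj : ∀ w ∈ W, ∃ w' ∈ W, U *ᵥ w' = w := by
    let φ : W →ₗ[F] W := U.mulVecLin.restrict hW
    have hdet : IsUnit U := by
      have h1 : U.det ≠ 0 := by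
        have := SymplecticGroup.mem_iff'.1 hsym
        have h2 := congrArg Matrix.det this
        rw [Matrix.det_mul, Matrix.det_mul, Matrix.det_transpose] at h2
        have h3 : (Matrix.J (Fin m) F).det ≠ 0 := (Matrix.isUnit_det_J (Fin m) F).ne_zero
        intro h0
        rw [h0] at h2
        simp at h2
        exact h3 h2.symm
      exact (Matrix.isUnit_iff_isUnit_det U).2 (isUnit_iff_ne_zero.2 h1)
    have hinj : Function.Injective φ := by
      intro a b hab
      apply Subtype.ext
      have h1 : U *ᵥ (a : Fin m ⊕ Fin m → F) = U *ᵥ (b : Fin m ⊕ Fin m → F) :=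
        congrArg (fun t : W => (t : Fin m ⊕ Fin m → F)) hab
      exact (Matrix.mulVec_injective_of_isUnit hdet) h1
    have hs : Function.Surjective φ := LinearMap.injective_iff_surjective.1 hinj
    intro w hw
    obtain ⟨a, ha⟩ := hs ⟨w, hw⟩
    exact ⟨a, a.2, congrArg (fun t : W => (t : Fin m ⊕ Fin m → F)) ha⟩
  set N := U - 1 with hN
  have hNv : ∀ v, N *ᵥ v = U *ᵥ v - v := by
    intro v
    rw [hN, Matrix.sub_mulVec, Matrix.one_mulVec]
  have hWN : ∀ v ∈ W, N *ᵥ v ∈ W := by
    intro v hv
    rw [hNv]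
    exact W.sub_mem (hW v hv) hv
  -- the orthogonal complement
  let Φ : (Fin m ⊕ Fin m → F) →ₗ[F] (W →ₗ[F] F) := B.compl₂ W.subtype
  let P := LinearMap.ker Φ
  have hP : ∀ x, x ∈ P ↔ ∀ w ∈ W, B x w = 0 := by
    intro x
    constructor
    · intro hx w hw
      have := congrArg (fun f : W →ₗ[F] F => f ⟨w, hw⟩) (LinearMap.mem_ker.1 hx)
      simpa [Φ] using this
    · intro h
      apply LinearMap.mem_ker.2
      ext w
      simpa [Φ] using h w w.2
  have hPN : ∀ v ∈ P, N *ᵥ v ∈ P := by
    intro v hv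
    rw [hP] at hv ⊢
    intro w hw
    obtain ⟨w', hw', rfl⟩ := hsurj w hw
    rw [hNv, map_sub, LinearMap.sub_apply, hinv, hv w' hw', hv _ (hW _ hw')]
    simp
  have hrank : 2 * m ≤ finrank F P + finrank F W := by
    have h1 : finrank F (LinearMap.range Φ) + finrank F P = _ := LinearMap.finrank_range_add_finrank_ker Φ
    have h2 : finrank F (LinearMap.range Φ) ≤ finrank F (W →ₗ[F] F) := Submodule.finrank_le _
    have h3 : finrank F (W →ₗ[F] F) = finrank F W := by
      rw [Module.finrank_linearMap]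
      simp
    have h4 : finrank F (Fin m ⊕ Fin m → F) = 2 * m := by simp; ring
    omega
  have hkd : finrank F W ≤ finrank F P := by omega
  have eW := eq_ker N hcard hnil hreg W hWN
  have eP := eq_ker N hcard hnil hreg P hPN
  intro v hv w hw
  have hvP : v ∈ P := by
    rw [eP]
    have h1 : v ∈ LinearMap.ker (N ^ finrank F W).mulVecLin := by
      rw [← eW]
      exact hv
    have h2 : (N ^ finrank F W) *ᵥ v = 0 := h1
    show (N ^ finrank F P) *ᵥ v = 0
    have h3 : finrank F P = (finrank F P - finrank F W) + finrank F W := by omega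
    rw [h3, pow_add, ← Matrix.mulVec_mulVec, h2, Matrix.mulVec_zero]
  rw [← hB]
  exact (hP v).1 hvP w hw

end CfsgLib.H9.RegIso
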