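import Mathlib

set_option autoImplicit false

/-!
Verification of regular linear groups on `(ZMod q)²` from tables.
-/

namespace CfsgLib.H9.RegTable

variable {q : ℕ} [Fact q.Prime]

local notation "GL2" => Matrix.GeneralLinearGroup (Fin 2) (ZMod q)

/-- The table property: the second column is determined by the first. -/
def Pr (G2 : ZMod q → ZMod q → ZMod q × ZMod q) (h : GL2) : Prop :=
  G2 ((h : Matrix (Fin 2) (Fin 2) (ZMod q)) 0 0) ((h : Matrix (Fin 2) (Fin 2) (ZMod q)) 1 0) =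
    ((h : Matrix (Fin 2) (Fin 2) (ZMod q)) 0 1, (h : Matrix (Fin 2) (Fin 2) (ZMod q)) 1 1)

theorem val_mul_apply (g h : GL2) (i j : Fin 2) :
    ((g * h : GL2) : Matrix (Fin 2) (Fin 2) (ZMod q)) i j =
      (g : Matrix (Fin 2) (Fin 2) (ZMod q)) i 0 * (h : Matrix (Fin 2) (Fin 2) (ZMod q)) 0 j +
      (g : Matrix (Fin 2) (Fin 2) (ZMod q)) i 1 * (h : Matrix (Fin 2) (Fin 2) (ZMod q)) 1 j := by
  rw [Units.val_mul, Matrix.mul_apply, Fin.sum_univ_two]

theorem pr_closure {S : Set GL2} {G2 : ZMod q → ZMod q → ZMod q × ZMod q}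
    (h1 : G2 1 0 = (0, 1))
    (hgen : ∀ g ∈ S, ∀ x y : ZMod q,
      G2 ((g : Matrix (Fin 2) (Fin 2) (ZMod q)) 0 0 * x + (g : Matrix (Fin 2) (Fin 2) (ZMod q)) 0 1 * y)
         ((g : Matrix (Fin 2) (Fin 2) (ZMod q)) 1 0 * x + (g : Matrix (Fin 2) (Fin 2) (ZMod q)) 1 1 * y) =
      ((g : Matrix (Fin 2) (Fin 2) (ZMod q)) 0 0 * (G2 x y).1 + (g : Matrix (Fin 2) (Fin 2) (ZMod q)) 0 1 * (G2 x y).2,
       (g : Matrix (Fin 2) (Fin 2) (ZMod q)) 1 0 * (G2 x y).1 + (g : Matrix (Fin 2) (Fin 2) (ZMod q)) 1 1 * (G2 x y).2))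
    {h : GL2} (hh : h ∈ Subgroup.closure S) : Pr G2 h := by
  have hstep : ∀ g ∈ S, ∀ y : GL2, Pr G2 y → Pr G2 (g * y) := by
    intro g hg y hy
    unfold Pr at hy ⊢
    rw [val_mul_apply, val_mul_apply, val_mul_apply, val_mul_apply, hgen g hg, hy]
  have hpow : ∀ g ∈ S, ∀ (n : ℕ) (y : GL2), Pr G2 y → Pr G2 (g ^ n * y) := by
    intro g hg n
    induction n with
    | zero => intro y hy; simpa using hy
    | succ n ih =>
      intro y hy
      rw [pow_succ', mul_assoc]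
      exact hstep g hg _ (ih y hy)
  induction hh using Subgroup.closure_induction_left with
  | one =>
    unfold Pr
    simp [h1]
  | mul_left x hx y _ ih => exact hstep x hx y ih
  | inv_mul_cancel x hx y _ ih =>
    have h2 : x⁻¹ = x ^ (orderOf x - 1) := by
      rw [inv_eq_iff_mul_eq_one, ← pow_succ']
      rw [Nat.sub_add_cancel (orderOf_pos x)]
      exact pow_orderOf_eq_one x
    rw [h2]
    exact hpow x hx _ y ih

theorem unit_ext_of_first_col {G2 : ZMod q → ZMod q → ZMod q × ZMod q} {h h' : GL2}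
    (hp : Pr G2 h) (hp' : Pr G2 h')
    (h0 : (h : Matrix (Fin 2) (Fin 2) (ZMod q)) 0 0 = (h' : Matrix (Fin 2) (Fin 2) (ZMod q)) 0 0)
    (h1 : (h : Matrix (Fin 2) (Fin 2) (ZMod q)) 1 0 = (h' : Matrix (Fin 2) (Fin 2) (ZMod q)) 1 0) :
    h = h' := by
  unfold Pr at hp hp'
  rw [h0, h1, hp'] at hp
  have e1 := congrArg Prod.fst hp
  have e2 := congrArg Prod.snd hp
  simp only at e1 e2
  apply Units.ext
  ext i j
  fin_cases i <;> fin_cases j
  · exact h0
  · exact e1.symm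
  · exact h1
  · exact e2.symm

/-- `e₁`. -/
def e₁ : Fin 2 → ZMod q := ![1, 0]

theorem mulVec_e₁ (h : Matrix (Fin 2) (Fin 2) (ZMod q)) :
    Matrix.mulVec h e₁ = ![h 0 0, h 1 0] := by
  funext i
  fin_cases i <;> simp [Matrix.mulVec, dotProduct, Fin.sum_univ_two, e₁]

theorem mulVec_unit_ne_zero (h : GL2) {v : Fin 2 → ZMod q} (hv : v ≠ 0) :
    Matrix.mulVec (h : Matrix (Fin 2) (Fin 2) (ZMod q)) v ≠ 0 := by
  intro h0
  apply hv
  have := congrArg (Matrix.mulVec ((h⁻¹ : GL2) : Matrix (Fin 2) (Fin 2) (ZMod q))) h0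
  rw [Matrix.mulVec_mulVec, Matrix.mulVec_zero] at this
  rw [← Units.val_mul, inv_mul_cancel] at this
  simpa using this

/-- Main criterion: from the table `G2` and transitivity we deduce the order and the regularity. -/
theorem regular_of_table {S : Set GL2} {G2 : ZMod q → ZMod q → ZMod q × ZMod q}
    (h1 : G2 1 0 = (0, 1))
    (hgen : ∀ g ∈ S, ∀ x y : ZMod q,
      G2 ((g : Matrix (Fin 2) (Fin 2) (ZMod q)) 0 0 * x + (g : Matrix (Fin 2) (Fin 2) (ZMod q)) 0 1 * y)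
         ((g : Matrix (Fin 2) (Fin 2) (ZMod q)) 1 0 * x + (g : Matrix (Fin 2) (Fin 2) (ZMod q)) 1 1 * y) =
      ((g : Matrix (Fin 2) (Fin 2) (ZMod q)) 0 0 * (G2 x y).1 + (g : Matrix (Fin 2) (Fin 2) (ZMod q)) 0 1 * (G2 x y).2,
       (g : Matrix (Fin 2) (Fin 2) (ZMod q)) 1 0 * (G2 x y).1 + (g : Matrix (Fin 2) (Fin 2) (ZMod q)) 1 1 * (G2 x y).2))
    (htrans : ∀ v : Fin 2 → ZMod q, v ≠ 0 → ∃ h ∈ Subgroup.closure S,
      Matrix.mulVec ((h : GL2) : Matrix (Fin 2) (Fin 2) (ZMod q)) e₁ = v) :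
    Nat.card (Subgroup.closure S) = q ^ 2 - 1 ∧
    ∀ v w : Fin 2 → ZMod q, v ≠ 0 → w ≠ 0 → ∃! h : Subgroup.closure S,
      Matrix.mulVec ((h : GL2) : Matrix (Fin 2) (Fin 2) (ZMod q)) v = w := by
  classical
  have hp : ∀ h : Subgroup.closure S, Pr G2 (h : GL2) := fun h => pr_closure h1 hgen h.2
  have he₁ : (e₁ : Fin 2 → ZMod q) ≠ 0 := by
    intro h
    have := congrFun h 0
    simp [e₁] at this
  have hinj : ∀ h h' : Subgroup.closure S,
      Matrix.mulVec ((h : GL2) : Matrix (Fin 2) (Fin 2) (ZMod q)) e₁ =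
      Matrix.mulVec ((h' : GL2) : Matrix (Fin 2) (Fin 2) (ZMod q)) e₁ → h = h' := by
    intro h h' heq
    rw [mulVec_e₁, mulVec_e₁] at heq
    apply Subtype.ext
    apply unit_ext_of_first_col (hp h) (hp h')
    · exact congrFun heq 0
    · exact congrFun heq 1
  constructor
  · -- cardinality
    have hbij : Function.Bijective (fun h : Subgroup.closure S =>
        (⟨Matrix.mulVec ((h : GL2) : Matrix (Fin 2) (Fin 2) (ZMod q)) e₁,
          mulVec_unit_ne_zero _ he₁⟩ : {v : Fin 2 → ZMod q // v ≠ 0})) := by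
      constructor
      · intro h h' heq
        exact hinj h h' (congrArg Subtype.val heq)
      · rintro ⟨v, hv⟩
        obtain ⟨h, hh, hhv⟩ := htrans v hv
        exact ⟨⟨h, hh⟩, Subtype.ext hhv⟩
    rw [Nat.card_congr (Equiv.ofBijective _ hbij)]
    rw [Nat.card_eq_fintype_card, Fintype.card_subtype_compl, Fintype.card_subtype_eq]
    simp [ZMod.card]
  · intro v w hv hw
    obtain ⟨hv', hhv, hvv⟩ := htrans v hv
    obtain ⟨hw', hhw, hww⟩ := htrans w hw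
    refine ⟨⟨hw' * hv'⁻¹, Subgroup.mul_mem _ hhw (Subgroup.inv_mem _ hhv)⟩, ?_, ?_⟩
    · show Matrix.mulVec (((hw' * hv'⁻¹ : GL2)) : Matrix (Fin 2) (Fin 2) (ZMod q)) v = w
      rw [← hvv, Matrix.mulVec_mulVec, ← Units.val_mul, mul_assoc, inv_mul_cancel, mul_one, hww]
    · intro k hk
      -- `k` and `hw' * hv'⁻¹` agree on `v`
      apply Subtype.ext
      have hk1 : Matrix.mulVec ((k * ⟨hv', hhv⟩ : Subgroup.closure S) : GL2).val e₁ = w := by
        show Matrix.mulVec ((k : GL2) * hv' : GL2).val e₁ = w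
        rw [Units.val_mul, ← Matrix.mulVec_mulVec, hvv]
        exact hk
      have hk2 : k * ⟨hv', hhv⟩ = ⟨hw', hhw⟩ := hinj _ _ (by rw [hk1]; exact hww.symm)
      have hk3 := congrArg Subtype.val hk2
      show (k : GL2) = hw' * hv'⁻¹
      rw [eq_mul_inv_iff_mul_eq]
      exact hk3

/-- Transitivity from a parent table. -/
theorem trans_of_rank {S : Set GL2} (rank : ZMod q → ZMod q → ℕ)
    (par : ZMod q → ZMod q → ZMod q × ZMod q) (gen : ZMod q → ZMod q → GL2)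
    (hgenS : ∀ x y, (x, y) ≠ (0, 0) → (x, y) ≠ (1, 0) → gen x y ∈ S)
    (hpar : ∀ x y, (x, y) ≠ (0, 0) → (x, y) ≠ (1, 0) →
      rank (par x y).1 (par x y).2 < rank x y ∧ (par x y) ≠ (0, 0) ∧
      ((gen x y : GL2) : Matrix (Fin 2) (Fin 2) (ZMod q)) 0 0 * (par x y).1 +
        ((gen x y : GL2) : Matrix (Fin 2) (Fin 2) (ZMod q)) 0 1 * (par x y).2 = x ∧
      ((gen x y : GL2) : Matrix (Fin 2) (Fin 2) (ZMod q)) 1 0 * (par x y).1 +
        ((gen x y : GL2) : Matrix (Fin 2) (Fin 2) (ZMod q)) 1 1 * (par x y).2 = y) :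
    ∀ v : Fin 2 → ZMod q, v ≠ 0 → ∃ h ∈ Subgroup.closure S,
      Matrix.mulVec ((h : GL2) : Matrix (Fin 2) (Fin 2) (ZMod q)) e₁ = v := by
  have key : ∀ n : ℕ, ∀ x y : ZMod q, rank x y = n → (x, y) ≠ (0, 0) →
      ∃ h ∈ Subgroup.closure S, ((h : GL2) : Matrix (Fin 2) (Fin 2) (ZMod q)) 0 0 = x ∧
        ((h : GL2) : Matrix (Fin 2) (Fin 2) (ZMod q)) 1 0 = y := by
    intro n
    induction n using Nat.strong_induction_on with
    | _ n ih =>
      intro x y hn h0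
      by_cases h1 : (x, y) = (1, 0)
      · obtain ⟨rfl, rfl⟩ := Prod.mk.inj h1
        exact ⟨1, Subgroup.one_mem _, by simp, by simp⟩
      · obtain ⟨h2, h3, h4, h5⟩ := hpar x y h0 h1
        have hpn : (par x y).1 = (par x y).1 := rfl
        obtain ⟨k, hk, hk0, hk1⟩ := ih _ (hn ▸ h2) (par x y).1 (par x y).2 rfl h3
        refine ⟨gen x y * k, Subgroup.mul_mem _ (Subgroup.subset_closure (hgenS x y h0 h1)) hk, ?_, ?_⟩
        · rw [val_mul_apply, hk0, hk1, h4]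
        · rw [val_mul_apply, hk0, hk1, h5]
  intro v hv
  have h0 : (v 0, v 1) ≠ (0, 0) := by
    intro h
    apply hv
    funext i
    fin_cases i
    · exact congrArg Prod.fst h
    · exact congrArg Prod.snd h
  obtain ⟨h, hh, h1, h2⟩ := key _ (v 0) (v 1) rfl h0
  refine ⟨h, hh, ?_⟩
  rw [mulVec_e₁, h1, h2]
  funext i
  fin_cases i <;> rfl

end CfsgLib.H9.RegTable
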