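import Cfsg.Agent.Lib.H9.SL2Vals
import Mathlib.Analysis.Fourier.FiniteAbelian.PontryaginDuality
import Mathlib.NumberTheory.GaussSum
import Cfsg.Agent.Lib.Char.CyclicTI

/-! Gauss sums and the values of the small characters of `SL₂` at transvections. -/

set_option autoImplicit false
set_option linter.unusedSectionVars false
set_option linter.unusedVariables false
set_option linter.style.haveILetI false
set_option linter.unusedSimpArgs false

namespace CfsgLib.H9.BorelChar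

open Cfsg CfsgLib.Char CfsgLib.H9.SL2Cl Matrix
open scoped ComplexConjugate

variable {F : Type*} [Field F] [Fintype F] [Fintype (SL2 F)] [Fintype (GL2 F)]

theorem U_val (hodd : Odd (Fintype.card F)) {χ : SL2 F → ℂ} (hχ : IsClassFunction (SL2 F) χ)
    {ν₀ : F} (hν₀ : ¬ IsSquare ν₀) {t : F} (ht0 : t ≠ 0) :
    χ (U t) = ((1 + qc F t) * χ (U 1) + (1 - qc F t) * χ (U ν₀)) / 2 := by
  have hν0 : ν₀ ≠ 0 := fun h => hν₀ (h ▸ IsSquare.zero)
  by_cases hs : IsSquare t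
  · rw [qc_of_square ht0 hs]
    have hsq : IsSquare (t * 1) := by rwa [mul_one]
    have := eq_of_isConj hχ ((isConj_U_iff ht0 one_ne_zero).mpr hsq)
    rw [this]
    ring
  · rw [qc_of_not_square hodd hs]
    have hsq : IsSquare (t * ν₀) := nonsquare_mul hodd hs hν₀
    have := eq_of_isConj hχ ((isConj_U_iff ht0 hν0).mpr hsq)
    rw [this]
    ring

/-- The unipotent radical as a group homomorphism. -/
noncomputable def Uh : Multiplicative F →* SL2 F where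
  toFun t := U (Multiplicative.toAdd t)
  map_one' := by apply sl_ext <;> simp [U]
  map_mul' a b := by
    apply sl_ext <;> simp [U, mul_00, mul_01, mul_10, mul_11]
    exact add_comm _ _

/-- Linear characters of the additive group. -/
noncomputable def lamS (ψ : AddChar F ℂ) (s : F) : Multiplicative F →* ℂˣ :=
  MonoidHom.toHomUnits (ψ.mulShift s).toMonoidHom

theorem lamS_apply (ψ : AddChar F ℂ) (s t : F) :
    ((lamS ψ s (Multiplicative.ofAdd t) : ℂˣ) : ℂ) = ψ (s * t) := by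
  simp [lamS, MonoidHom.coe_toHomUnits, AddChar.mulShift_apply]

/-- The multiplicities in the restriction to the unipotent radical are natural numbers. -/
theorem nat_fourier {χ : SL2 F → ℂ} (hχ : IsCharacter (SL2 F) χ) (ψ : AddChar F ℂ) (s : F) :
    ∃ m : ℕ, ∑ t : F, χ (U t) * ψ (-(s * t)) = (m : ℂ) * (Fintype.card F : ℂ) := by
  classical
  obtain ⟨m, hm⟩ := (isChar_comp hχ (Uh (F := F))).classInner_nat (isIrr_homFun (lamS ψ s))
  refine ⟨m, ?_⟩
  rw [classInner_def] at hm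
  have hc : Nat.card (Multiplicative F) = Fintype.card F := by
    rw [Nat.card_eq_fintype_card, Fintype.card_multiplicative]
  rw [hc] at hm
  have h1 : ∑ g : Multiplicative F, (χ ∘ (Uh (F := F))) g * conj (homFun (lamS ψ s) g) =
      ∑ t : F, χ (U t) * ψ (-(s * t)) := by
    refine Fintype.sum_equiv Multiplicative.toAdd _ _ fun g => ?_
    show χ (U (Multiplicative.toAdd g)) * conj (homFun (lamS ψ s) g) = _
    have h2 : homFun (lamS ψ s) g = ψ (s * Multiplicative.toAdd g) := by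
      rw [homFun_apply]
      exact lamS_apply ψ s (Multiplicative.toAdd g)
    rw [h2, AddChar.map_neg_eq_conj]
  rw [h1] at hm
  have hq := q_ne (F := F)
  field_simp at hm
  rw [hm, mul_comm]

theorem sum_psi_mul (ψ : AddChar F ℂ) (hψ : ψ ≠ 1) {s : F} (hs : s ≠ 0) : ∑ t : F, ψ (s * t) = 0 := by
  have h1 : ∑ t : F, ψ (s * t) = ∑ t : F, ψ t :=
    Fintype.sum_bijective (fun t : F => s * t) (Units.mulLeft_bijective (Units.mk0 s hs)) _ _ (fun t => rfl)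
  rw [h1]
  exact AddChar.sum_eq_zero_of_ne_one hψ

theorem qc_mul_self {c : F} (hc : c ≠ 0) (hodd : Odd (Fintype.card F)) : qc F c * qc F c = 1 := by
  by_cases hs : IsSquare c
  · rw [qc_of_square hc hs, one_mul]
  · rw [qc_of_not_square hodd hs]
    norm_num

theorem sum_qc_psi (hodd : Odd (Fintype.card F)) (ψ : AddChar F ℂ) {c : F} (hc : c ≠ 0) :
    ∑ t : F, qc F t * ψ (c * t) = qc F c * gaussSum (qc F) ψ := by
  rw [gaussSum, Finset.mul_sum]
  refine Fintype.sum_bijective (fun t : F => c * t) (Units.mulLeft_bijective (Units.mk0 c hc)) _ _ (fun t => ?_)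
  have h1 : qc F (c * t) = qc F c * qc F t := by
    rw [map_mul]
  rw [h1, ← mul_assoc, ← mul_assoc, qc_mul_self hc hodd, one_mul]

/-- The key formula for the Fourier transform. -/
theorem fourier_formula (hodd : Odd (Fintype.card F)) {χ : SL2 F → ℂ} (hχ : IsClassFunction (SL2 F) χ)
    {ν₀ : F} (hν₀ : ¬ IsSquare ν₀) (ψ : AddChar F ℂ) (hψ : ψ ≠ 1) {s : F} (hs : s ≠ 0) :
    2 * ∑ t : F, χ (U t) * ψ (-(s * t)) = 2 * χ 1 - (χ (U 1) + χ (U ν₀)) +
      (χ (U 1) - χ (U ν₀)) * (qc F (-s) * gaussSum (qc F) ψ) := by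
  classical
  have h0 : U (0 : F) = 1 := by apply sl_ext <;> simp [U]
  have hms : -s ≠ 0 := neg_ne_zero.mpr hs
  have e1 : ∀ t, -(s * t) = (-s) * t := fun t => by ring
  have h1 : ∀ t : F, χ (U t) * ψ (-(s * t)) =
      (if t = 0 then χ 1 - (χ (U 1) + χ (U ν₀)) / 2 else 0) +
       (χ (U 1) + χ (U ν₀)) / 2 * ψ ((-s) * t) + (χ (U 1) - χ (U ν₀)) / 2 * (qc F t * ψ ((-s) * t)) := by
    intro t
    by_cases ht : t = 0
    · subst ht
      simp only [if_true, mul_zero, neg_zero, h0, AddChar.map_zero_eq_one]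
      rw [MulChar.map_zero]
      ring
    · rw [if_neg ht, U_val hodd hχ hν₀ ht, e1]
      ring
  simp only [h1, Finset.sum_add_distrib, ← Finset.mul_sum]
  rw [sum_psi_mul ψ hψ hms, sum_qc_psi hodd ψ hms]
  simp only [Finset.sum_ite_eq', Finset.mem_univ, if_true]
  ring

theorem exists_psi : ∃ ψ : AddChar F ℂ, ψ ≠ 1 := by
  obtain ⟨ψ, hψ⟩ := (AddChar.exists_apply_ne_zero (a := (1 : F))).mpr one_ne_zero
  refine ⟨ψ, ?_⟩
  rintro rfl
  exact hψ (AddChar.one_apply _)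

/-- Computation of the difference of the two values at transvections. -/
theorem gauss_main (hodd : Odd (Fintype.card F)) {χ : SL2 F → ℂ} (hχ : IsCharacter (SL2 F) χ)
    {ν₀ : F} (hν₀ : ¬ IsSquare ν₀) (hS : 2 * χ 1 - (χ (U 1) + χ (U ν₀)) = (Fintype.card F : ℂ)) :
    (χ (U 1) - χ (U ν₀)) ^ 2 = qc F (-1) * (Fintype.card F : ℂ) := by
  classical
  obtain ⟨ψ, hψ⟩ := exists_psi (F := F)
  have hν0 : ν₀ ≠ 0 := fun h => hν₀ (h ▸ IsSquare.zero)
  have hq := q_ne (F := F)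
  obtain ⟨m₁, h1⟩ := nat_fourier hχ ψ (-1)
  obtain ⟨m₂, h2⟩ := nat_fourier hχ ψ (-ν₀)
  have f1 := fourier_formula hodd hχ.isClassFunction hν₀ ψ hψ (s := -1) (neg_ne_zero.mpr one_ne_zero)
  have f2 := fourier_formula hodd hχ.isClassFunction hν₀ ψ hψ (s := -ν₀) (neg_ne_zero.mpr hν0)
  rw [h1, hS, neg_neg, map_one, one_mul] at f1
  rw [h2, hS, neg_neg, qc_of_not_square hodd hν₀] at f2
  set D := χ (U 1) - χ (U ν₀) with hD
  set G := gaussSum (qc F) ψ with hG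
  have hsum : ((m₁ + m₂ : ℕ) : ℂ) = 1 := by
    apply mul_right_cancel₀ (mul_ne_zero two_ne_zero hq)
    push_cast
    linear_combination f1 + f2
  have hsum' : m₁ + m₂ = 1 := by exact_mod_cast hsum
  have hDG : (D * G) ^ 2 = (Fintype.card F : ℂ) ^ 2 := by
    have hcases : m₁ = 1 ∧ m₂ = 0 ∨ m₁ = 0 ∧ m₂ = 1 := by omega
    rcases hcases with ⟨rfl, rfl⟩ | ⟨rfl, rfl⟩
    · have : D * G = (Fintype.card F : ℂ) := by
        push_cast at f1
        linear_combination -f1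
      rw [this]
    · have : D * G = -(Fintype.card F : ℂ) := by
        push_cast at f1
        linear_combination -f1
      rw [this]
      ring
  have hG2 : G ^ 2 = qc F (-1) * (Fintype.card F : ℂ) := by
    have hquad : (qc F).IsQuadratic := by
      intro a
      by_cases ha : a = 0
      · left; rw [ha, MulChar.map_zero]
      · by_cases hs : IsSquare a
        · right; left; exact qc_of_square ha hs
        · right; right; exact qc_of_not_square hodd hs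
    exact gaussSum_sq (qc_ne_one hodd) hquad (AddChar.IsPrimitive.of_ne_one hψ)
  have hδ : qc F (-1) * qc F (-1) = 1 := qc_mul_self (neg_ne_zero.mpr one_ne_zero) hodd
  rw [mul_pow, hG2] at hDG
  have h3 : (Fintype.card F : ℂ) * (D ^ 2 * qc F (-1) - (Fintype.card F : ℂ)) = 0 := by
    linear_combination hDG
  have h4 := (mul_eq_zero.mp h3).resolve_left hq
  linear_combination (qc F (-1)) * h4 - D ^ 2 * hδ

theorem qc_neg_one (hodd : Odd (Fintype.card F)) :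
    qc F (-1) = (-1 : ℂ) ^ ((Fintype.card F - 1) / 2) := by
  classical
  rw [qc_apply, quadraticChar_neg_one (ringChar_ne hodd), ZMod.χ₄_eq_neg_one_pow (Nat.odd_iff.mp hodd)]
  have h1 : Fintype.card F / 2 = (Fintype.card F - 1) / 2 := by
    obtain ⟨k, hk⟩ := hodd
    omega
  rw [h1]
  push_cast
  rfl

theorem S_of_sum (hodd : Odd (Fintype.card F)) {χ : SL2 F → ℂ} (hχ : IsClassFunction (SL2 F) χ)
    {ν₀ : F} (hν₀ : ¬ IsSquare ν₀) (n : ℕ) (hn : Fintype.card F = 2 * n + 1) (hn0 : 0 < n) (m : ℕ)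
    (hdeg : χ 1 = ((n + m : ℕ) : ℂ)) (hsum : ∑ t : F, χ (U t) = (m : ℂ) * (Fintype.card F : ℂ)) :
    χ (U 1) + χ (U ν₀) = 2 * (m : ℂ) - 1 := by
  have h1 := sum_U_odd hodd hχ hν₀
  rw [hsum, hdeg, hn] at h1
  push_cast at h1
  have hn0' : (n : ℂ) ≠ 0 := by exact_mod_cast hn0.ne'
  apply mul_left_cancel₀ (mul_ne_zero two_ne_zero hn0')
  linear_combination -h1

/-- The value at `U 1`. -/
theorem value_sq (hodd : Odd (Fintype.card F)) {χ : SL2 F → ℂ} (hχ : IsCharacter (SL2 F) χ)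
    {ν₀ : F} (hν₀ : ¬ IsSquare ν₀) (n : ℕ) (hn : Fintype.card F = 2 * n + 1) (hn0 : 0 < n) (m : ℕ)
    (hdeg : χ 1 = ((n + m : ℕ) : ℂ)) (hsum : ∑ t : F, χ (U t) = (m : ℂ) * (Fintype.card F : ℂ)) :
    χ (U 1) + χ (U ν₀) = 2 * (m : ℂ) - 1 ∧
      (2 * χ (U 1) - (2 * (m : ℂ) - 1)) ^ 2 = (-1 : ℂ) ^ ((Fintype.card F - 1) / 2) * (Fintype.card F : ℂ) := by
  have hS := S_of_sum hodd hχ.isClassFunction hν₀ n hn hn0 m hdeg hsum
  refine ⟨hS, ?_⟩
  have h2 : 2 * χ 1 - (χ (U 1) + χ (U ν₀)) = (Fintype.card F : ℂ) := by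
    rw [hS, hdeg, hn]
    push_cast
    ring
  have h3 := gauss_main hodd hχ hν₀ h2
  rw [qc_neg_one hodd] at h3
  rw [← h3]
  have h4 : χ (U ν₀) = 2 * (m : ℂ) - 1 - χ (U 1) := by linear_combination hS
  rw [h4]
  ring

theorem value_ne (hodd : Odd (Fintype.card F)) {χ : SL2 F → ℂ} (hχ : IsCharacter (SL2 F) χ)
    {ν₀ : F} (hν₀ : ¬ IsSquare ν₀) (n : ℕ) (hn : Fintype.card F = 2 * n + 1) (hn0 : 0 < n) (m : ℕ)
    (hdeg : χ 1 = ((n + m : ℕ) : ℂ)) (hsum : ∑ t : F, χ (U t) = (m : ℂ) * (Fintype.card F : ℂ)) :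
    χ (U ν₀) ≠ χ (U 1) := by
  intro h
  obtain ⟨h1, h2⟩ := value_sq hodd hχ hν₀ n hn hn0 m hdeg hsum
  have h3 : 2 * χ (U 1) - (2 * (m : ℂ) - 1) = 0 := by
    rw [h] at h1
    linear_combination h1
  rw [h3] at h2
  have h4 : (-1 : ℂ) ^ ((Fintype.card F - 1) / 2) ≠ 0 := pow_ne_zero _ (by norm_num)
  have h5 := mul_ne_zero h4 (q_ne (F := F))
  apply h5
  rw [← h2]
  ring

open scoped Classical in
theorem card_degs (hodd : Odd (Fintype.card F)) (n : ℕ) (hn : Fintype.card F = 2 * n + 1) (hn2 : 2 ≤ n) :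
    (Finset.univ.filter fun ψ : IrrCharacter (SL2 F) => ψ.1 1 = (n : ℂ)).card = 2 ∧
    (Finset.univ.filter fun ψ : IrrCharacter (SL2 F) => ψ.1 1 = ((n + 1 : ℕ) : ℂ)).card = 2 := by
  obtain ⟨h1, ⟨h2, h3, h4, h5⟩, h6⟩ := SL2O_main (F := F) hodd n hn
  constructor
  · refine Eq.trans ?_ h2
    congr 1
    ext ψ
    simp only [Finset.mem_filter, Finset.mem_univ, true_and]
    constructor
    · intro h
      exact ⟨(type_of_deg hodd n hn hn2 ψ.2 n h).2.2.2.2.2 rfl, h⟩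
    · exact fun h => h.2
  · refine Eq.trans ?_ h5
    congr 1
    ext ψ
    simp only [Finset.mem_filter, Finset.mem_univ, true_and]
    constructor
    · intro h
      exact (type_of_deg hodd n hn hn2 ψ.2 (n + 1) h).2.2.2.1 rfl
    · exact fun h => h6 ψ.1 ψ.2 h

open scoped Classical in
theorem pair_eq {d : ℂ} (hcard : (Finset.univ.filter fun ψ : IrrCharacter (SL2 F) => ψ.1 1 = d).card = 2)
    {χ₁ χ₂ : SL2 F → ℂ} (h₁ : IsIrrCharacter (SL2 F) χ₁) (h₂ : IsIrrCharacter (SL2 F) χ₂) (hne : χ₁ ≠ χ₂)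
    (hd₁ : χ₁ 1 = d) (hd₂ : χ₂ 1 = d) (ν : Fˣ) (hν : χ₁ ∘ sg ν ≠ χ₁) : χ₂ = χ₁ ∘ sg ν := by
  by_contra hcon
  have h₃ : IsIrrCharacter (SL2 F) (χ₁ ∘ sg ν) := isIrr_comp_equiv (sg ν) h₁
  let a : IrrCharacter (SL2 F) := ⟨χ₁, h₁⟩
  let b : IrrCharacter (SL2 F) := ⟨χ₂, h₂⟩
  let c : IrrCharacter (SL2 F) := ⟨χ₁ ∘ sg ν, h₃⟩
  have hab : a ≠ b := fun h => hne (congrArg Subtype.val h)
  have hac : a ≠ c := fun h => hν (congrArg Subtype.val h).symm
  have hbc : b ≠ c := fun h => hcon (congrArg Subtype.val h)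
  have h3 : ({a, b, c} : Finset (IrrCharacter (SL2 F))).card = 3 :=
    Finset.card_eq_three.mpr ⟨a, b, c, hab, hac, hbc, rfl⟩
  have hsub : ({a, b, c} : Finset (IrrCharacter (SL2 F))) ⊆
      Finset.univ.filter fun ψ : IrrCharacter (SL2 F) => ψ.1 1 = d := by
    intro x hx
    simp only [Finset.mem_insert, Finset.mem_singleton] at hx
    simp only [Finset.mem_filter, Finset.mem_univ, true_and]
    rcases hx with rfl | rfl | rfl
    · exact hd₁
    · exact hd₂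
    · show χ₁ (sg ν 1) = d
      rw [map_one]
      exact hd₁
  have := Finset.card_le_card hsub
  omega

/-- The main result for transvections. -/
theorem gauss_values (hodd : Odd (Fintype.card F)) (hq : 5 ≤ Fintype.card F) :
    (∀ χ : SL2 F → ℂ, IsIrrCharacter (SL2 F) χ → χ 1 = (((Fintype.card F + 1) / 2 : ℕ) : ℂ) →
      (2 * χ (U 1) - 1) ^ 2 = (-1 : ℂ) ^ ((Fintype.card F - 1) / 2) * (Fintype.card F : ℂ)) ∧
    (∀ χ : SL2 F → ℂ, IsIrrCharacter (SL2 F) χ → χ 1 = (((Fintype.card F - 1) / 2 : ℕ) : ℂ) →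
      (2 * χ (U 1) + 1) ^ 2 = (-1 : ℂ) ^ ((Fintype.card F - 1) / 2) * (Fintype.card F : ℂ)) ∧
    (∀ χ₁ χ₂ : SL2 F → ℂ, IsIrrCharacter (SL2 F) χ₁ → IsIrrCharacter (SL2 F) χ₂ → χ₁ ≠ χ₂ →
      χ₁ 1 = (((Fintype.card F + 1) / 2 : ℕ) : ℂ) → χ₂ 1 = (((Fintype.card F + 1) / 2 : ℕ) : ℂ) →
        χ₁ (U 1) + χ₂ (U 1) = 1) ∧
    (∀ χ₁ χ₂ : SL2 F → ℂ, IsIrrCharacter (SL2 F) χ₁ → IsIrrCharacter (SL2 F) χ₂ → χ₁ ≠ χ₂ →
      χ₁ 1 = (((Fintype.card F - 1) / 2 : ℕ) : ℂ) → χ₂ 1 = (((Fintype.card F - 1) / 2 : ℕ) : ℂ) →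
        χ₁ (U 1) + χ₂ (U 1) = -1) := by
  classical
  obtain ⟨n, hn⟩ := id hodd
  have h1 : (Fintype.card F - 1) / 2 = n := by omega
  have h2 : (Fintype.card F + 1) / 2 = n + 1 := by omega
  have hn2 : 2 ≤ n := by omega
  have hn0 : 0 < n := by omega
  rw [h1, h2]
  obtain ⟨ν₀, hν₀⟩ := exists_nonsquare' (F := F) hodd
  have hν0 : ν₀ ≠ 0 := fun h => hν₀ (h ▸ IsSquare.zero)
  have hs1 : ∀ χ : SL2 F → ℂ, IsIrrCharacter (SL2 F) χ → χ 1 = ((n + 1 : ℕ) : ℂ) →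
      ∑ t : F, χ (U t) = ((1 : ℕ) : ℂ) * (Fintype.card F : ℂ) := by
    intro χ hχ hd
    have := (sum_U_degrees hodd hq hχ).2.2.2.1 (by rw [h2]; exact hd)
    rw [this]
    simp
  have hs0 : ∀ χ : SL2 F → ℂ, IsIrrCharacter (SL2 F) χ → χ 1 = (n : ℂ) →
      ∑ t : F, χ (U t) = ((0 : ℕ) : ℂ) * (Fintype.card F : ℂ) := by
    intro χ hχ hd
    have := (sum_U_degrees hodd hq hχ).2.2.2.2 (by rw [h1]; exact hd)
    rw [this]
    simp
  obtain ⟨hc0, hc1⟩ := card_degs (F := F) hodd n hn hn2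
  have hsg : ∀ (χ : SL2 F → ℂ), (χ ∘ sg (Units.mk0 ν₀ hν0)) (U 1) = χ (U ν₀) := by
    intro χ
    show χ (sg (Units.mk0 ν₀ hν0) (U 1)) = _
    rw [sg_U]
    simp
  refine ⟨fun χ hχ hd => ?_, fun χ hχ hd => ?_, fun χ₁ χ₂ h₁ h₂ hne hd₁ hd₂ => ?_, fun χ₁ χ₂ h₁ h₂ hne hd₁ hd₂ => ?_⟩
  · have := (value_sq hodd hχ.isCharacter hν₀ n hn hn0 1 hd (hs1 χ hχ hd)).2
    rw [h1] at this
    rw [← this]
    push_cast
    ring
  · have := (value_sq hodd hχ.isCharacter hν₀ n hn hn0 0 (by simpa using hd) (hs0 χ hχ hd)).2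
    rw [h1] at this
    rw [← this]
    push_cast
    ring
  · have hne2 := value_ne hodd h₁.isCharacter hν₀ n hn hn0 1 hd₁ (hs1 χ₁ h₁ hd₁)
    have hS := (value_sq hodd h₁.isCharacter hν₀ n hn hn0 1 hd₁ (hs1 χ₁ h₁ hd₁)).1
    have hpair := pair_eq hc1 h₁ h₂ hne hd₁ hd₂ (Units.mk0 ν₀ hν0) (by
      intro h
      apply hne2
      rw [← hsg χ₁, h])
    rw [hpair, hsg, hS]
    push_cast
    ring
  · have hd₁' : χ₁ 1 = ((n + 0 : ℕ) : ℂ) := by simpa using hd₁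
    have hne2 := value_ne hodd h₁.isCharacter hν₀ n hn hn0 0 hd₁' (hs0 χ₁ h₁ hd₁)
    have hS := (value_sq hodd h₁.isCharacter hν₀ n hn hn0 0 hd₁' (hs0 χ₁ h₁ hd₁)).1
    have hpair := pair_eq hc0 h₁ h₂ hne hd₁ hd₂ (Units.mk0 ν₀ hν0) (by
      intro h
      apply hne2
      rw [← hsg χ₁, h])
    rw [hpair, hsg, hS]
    push_cast
    ring

end CfsgLib.H9.BorelChar
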