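import Cfsg.Agent.Lib.H9.TorusSylow
import Cfsg.Agent.Lib.H9.SL2Gauss
import Cfsg.Agent.Lib.Char.Exceptional

/-! Construction of the cuspidal characters of `SL₂` from the non-split torus. -/

set_option autoImplicit false
set_option linter.unusedSectionVars false
set_option linter.unusedVariables false
set_option linter.style.haveILetI false
set_option linter.unusedSimpArgs false

namespace CfsgLib.H9.Torus

open Cfsg CfsgLib.Char CfsgLib.H9.SL2Cl CfsgLib.H9.BorelChar Matrix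
open scoped ComplexConjugate

variable {F : Type*} [Field F] [Fintype F]

theorem exists_bs_of_10 {y : SL2 F} (h : y.1 1 0 = 0) : ∃ (a : Fˣ) (t : F), y = (bsMk a t : SL2 F) := by
  have hd := det_eq y
  rw [h, mul_zero, sub_zero] at hd
  have h0 : y.1 0 0 ≠ 0 := left_ne_zero_of_mul_eq_one hd
  refine ⟨Units.mk0 _ h0, y.1 0 1, ?_⟩
  apply sl_ext
  · rfl
  · rfl
  · exact h
  · show y.1 1 1 = ((Units.mk0 _ h0)⁻¹ : Fˣ).1
    simp only [Units.val_inv_eq_inv_val, Units.val_mk0]
    exact (inv_eq_of_mul_eq_one_right hd).symm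

/-- Any non-elliptic element is conjugate to an upper triangular one. -/
theorem exists_conj_bs {g : SL2 F} (h : ¬ Ell g) : ∃ (a : Fˣ) (t : F), IsConj g (bsMk a t : SL2 F) := by
  by_cases h10 : g.1 1 0 = 0
  · obtain ⟨a, t, ha⟩ := exists_bs_of_10 h10
    exact ⟨a, t, by rw [← ha]⟩
  · rw [ell_iff] at h
    push Not at h
    obtain ⟨l, hl⟩ := h
    have hd := det_eq g
    simp only [trS] at hl
    let x : SL2 F := mk (l - g.1 1 1) (-(g.1 1 0)⁻¹) (g.1 1 0) 0 (by field_simp; ring)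
    let y := x⁻¹ * g * x
    have hy : y.1 1 0 = 0 := by
      have e : x * y = g * x := by simp [y, mul_assoc]
      have e0 := congrArg (fun m : SL2 F => m.1 0 0) e
      have e1 := congrArg (fun m : SL2 F => m.1 1 0) e
      simp only [mul_00, mul_10, x, mk_00, mk_01, mk_10, mk_11] at e0 e1
      have e2 : y.1 0 0 = l := by
        apply mul_left_cancel₀ h10
        linear_combination e1
      rw [e2] at e0
      have h3 : (g.1 1 0)⁻¹ * y.1 1 0 = 0 := by
        linear_combination -e0 + hl + hd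
      exact (mul_eq_zero.mp h3).resolve_left (inv_ne_zero h10)
    obtain ⟨a, t, ha⟩ := exists_bs_of_10 hy
    refine ⟨a, t, ?_⟩
    rw [← ha]
    exact isConj_iff.mpr ⟨x⁻¹, by simp [y]⟩

theorem ell_conj {g h : SL2 F} (hc : IsConj g h) (hg : Ell g) : Ell h := by
  rw [ell_iff] at hg ⊢
  rwa [← trS_conj hc]

/-- The four types of element. -/
theorem types (g : SL2 F) : g = 1 ∨ g = zS F ∨ Ell g ∨
    (∃ (a : Fˣ) (t : F), IsConj g (bsMk a t : SL2 F) ∧ (a : F) ^ 2 ≠ 1) ∨
    (∃ (a : Fˣ) (t : F), IsConj g (bsMk a t : SL2 F) ∧ (a : F) ^ 2 = 1 ∧ t ≠ 0) := by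
  by_cases hE : Ell g
  · exact Or.inr (Or.inr (Or.inl hE))
  obtain ⟨a, t, hc⟩ := exists_conj_bs hE
  by_cases ha : (a : F) ^ 2 = 1
  · by_cases ht : t = 0
    · subst ht
      have h1 : ((a : F) - 1) * ((a : F) + 1) = 0 := by linear_combination ha
      have ha' : ((a⁻¹ : Fˣ) : F) = a := by
        simp only [Units.val_inv_eq_inv_val]
        exact inv_eq_of_mul_eq_one_right (by rw [← pow_two]; exact ha)
      rcases mul_eq_zero.mp h1 with h2 | h2
      · left
        have h3 : (a : F) = 1 := by linear_combination h2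
        have h4 : (bsMk a 0 : SL2 F) = 1 := by
          apply sl_ext <;> simp [h3]
        rw [h4] at hc
        exact isConj_one_right.mp hc.symm
      · right; left
        have h3 : (a : F) = -1 := by linear_combination h2
        have h4 : (bsMk a 0 : SL2 F) = zS F := by
          apply sl_ext <;> simp [h3]
        rw [h4] at hc
        obtain ⟨c, hc'⟩ := isConj_iff.mp hc
        have e : g = c⁻¹ * zS F * c := by rw [← hc']; group
        rw [e, ← zS_central c⁻¹]
        group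
    · exact Or.inr (Or.inr (Or.inr (Or.inr ⟨a, t, hc, ha, ht⟩)))
  · exact Or.inr (Or.inr (Or.inr (Or.inl ⟨a, t, hc, ha⟩)))

/-! ### The virtual character `X` -/

section Main

variable [Fintype (SL2 F)] [Fintype (GL2 F)]

/-- The function `(St - 1) · R(α)`. -/
noncomputable def Xf (α : MulChar F ℂ) : SL2 F → ℂ := fun g => (StS g - 1) * RS α g

theorem Xf_class (α : MulChar F ℂ) : IsClassFunction (SL2 F) (Xf α) := by
  intro g h
  simp only [Xf]
  have h2 : RS α (h * g * h⁻¹) = RS α g := (isChar_PSS α).isClassFunction g h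
  rw [isChar_StS.isClassFunction, h2]

theorem RS_ell (α : MulChar F ℂ) {g : SL2 F} (hg : Ell g) : RS α g = 0 := by
  rw [RS, indFun_SL]
  exact val_elliptic α 1 (g := SpecialLinearGroup.toGL g) hg

theorem a_sq_ne {a : Fˣ} (ha : (a : F) ^ 2 ≠ 1) : (a : F) ≠ ((a⁻¹ : Fˣ) : F) := by
  intro h
  apply ha
  rw [pow_two]
  nth_rewrite 2 [h]
  simp

theorem a_inv_of_sq {a : Fˣ} (ha : (a : F) ^ 2 = 1) : (a : F) = ((a⁻¹ : Fˣ) : F) := by
  simp only [Units.val_inv_eq_inv_val]
  exact (inv_eq_of_mul_eq_one_right (by rw [← pow_two]; exact ha)).symm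

theorem St_reg {a : Fˣ} (ha : (a : F) ^ 2 ≠ 1) (t : F) : StS (bsMk a t : SL2 F) = 1 := by
  rw [StS_apply, val_regular 1 1 (g := SpecialLinearGroup.toGL (bsMk a t : SL2 F)) rfl (a_sq_ne ha)]
  have h1 : (1 : MulChar F ℂ) ((SpecialLinearGroup.toGL (bsMk a t : SL2 F)).1 0 0) = 1 :=
    MulChar.one_apply (a.isUnit)
  have h2 : (1 : MulChar F ℂ) ((SpecialLinearGroup.toGL (bsMk a t : SL2 F)).1 1 1) = 1 :=
    MulChar.one_apply ((a⁻¹).isUnit)
  rw [h1, h2]
  norm_num

theorem RS_one_reg {a : Fˣ} (ha : (a : F) ^ 2 ≠ 1) (t : F) : RS (1 : MulChar F ℂ) (bsMk a t : SL2 F) = 2 := by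
  have h := St_reg ha t
  have h2 : StS (bsMk a t : SL2 F) = RS 1 (bsMk a t : SL2 F) - 1 := rfl
  rw [h2] at h
  linear_combination h

theorem RS_unip (α : MulChar F ℂ) {a : Fˣ} (ha : (a : F) ^ 2 = 1) {t : F} (ht : t ≠ 0) :
    RS α (bsMk a t : SL2 F) = α (a : F) := by
  rw [RS, indFun_SL, val_unip α 1 (g := SpecialLinearGroup.toGL (bsMk a t : SL2 F)) rfl ht (a_inv_of_sq ha)]
  have h1 : (1 : MulChar F ℂ) ((SpecialLinearGroup.toGL (bsMk a t : SL2 F)).1 0 0) = 1 :=
    MulChar.one_apply (a.isUnit)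
  rw [h1, mul_one]
  rfl

theorem St_unip {a : Fˣ} (ha : (a : F) ^ 2 = 1) {t : F} (ht : t ≠ 0) : StS (bsMk a t : SL2 F) = 0 := by
  have h2 : StS (bsMk a t : SL2 F) = RS 1 (bsMk a t : SL2 F) - 1 := rfl
  rw [h2, RS_unip 1 ha ht, MulChar.one_apply (a.isUnit)]
  norm_num

theorem alpha_sq {α : MulChar F ℂ} {a : F} (ha : a ^ 2 = 1) : α a * conj (α a) = 1 := by
  have h1 : α a * α a = 1 := by
    rw [← map_mul, ← pow_two, ha, map_one]
  have h2 : (α a - 1) * (α a + 1) = 0 := by linear_combination h1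
  rcases mul_eq_zero.mp h2 with h3 | h3
  · have h4 : α a = 1 := by linear_combination h3
    rw [h4]
    simp
  · have h4 : α a = -1 := by linear_combination h3
    rw [h4]
    simp

theorem RS_z (α : MulChar F ℂ) : RS α (zS F) = ((Fintype.card F : ℂ) + 1) * α (-1) := by
  rw [RS, indFun_SL, val_scalar_z]
  have h : IsUnit (-1 : F) := IsUnit.neg isUnit_one
  rw [MulChar.one_apply h, mul_one]

theorem X_one (α : MulChar F ℂ) : Xf α 1 = ((Fintype.card F : ℂ) - 1) * ((Fintype.card F : ℂ) + 1) := by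
  simp only [Xf]
  rw [StS_one_val, RS_one_val]

theorem X_z (α : MulChar F ℂ) : Xf α (zS F) = ((Fintype.card F : ℂ) - 1) * ((Fintype.card F : ℂ) + 1) * α (-1) := by
  simp only [Xf]
  rw [StS_z, RS_z]
  ring

theorem conj_z_eq {x : SL2 F} (h : IsConj (zS F) x) : x = zS F := by
  obtain ⟨c, rfl⟩ := isConj_iff.mp h
  rw [← zS_central c]
  group

theorem bs_ne_one_reg {a : Fˣ} (ha : (a : F) ^ 2 ≠ 1) (t : F) : (bsMk a t : SL2 F) ≠ 1 := by
  intro h
  apply ha
  have := congrArg (fun m : SL2 F => m.1 0 0) h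
  simp only [bsMk_00] at this
  rw [this]
  simp

theorem bs_ne_z_reg {a : Fˣ} (ha : (a : F) ^ 2 ≠ 1) (t : F) : (bsMk a t : SL2 F) ≠ zS F := by
  intro h
  apply ha
  have := congrArg (fun m : SL2 F => m.1 0 0) h
  simp only [bsMk_00] at this
  rw [this]
  simp

theorem bs_ne_of_t {a : Fˣ} {t : F} (ht : t ≠ 0) : (bsMk a t : SL2 F) ≠ 1 ∧ (bsMk a t : SL2 F) ≠ zS F := by
  constructor
  · intro h
    have := congrArg (fun m : SL2 F => m.1 0 1) h
    simp only [bsMk_01] at this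
    apply ht
    rw [this]
    simp
  · intro h
    have := congrArg (fun m : SL2 F => m.1 0 1) h
    simp only [bsMk_01] at this
    apply ht
    rw [this]
    simp

open scoped Classical in
/-- The pointwise identity for the norm of `X`. -/
theorem X_norm_pointwise (hodd : Odd (Fintype.card F)) (α : MulChar F ℂ) (g : SL2 F) :
    Xf α g * conj (Xf α g) = 2 * RS 1 g - RS 1 g * conj (RS 1 g) +
      (if g = 1 ∨ g = zS F then (Fintype.card F : ℂ) ^ 2 * ((Fintype.card F : ℂ) ^ 2 - 1) else 0) := by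
  classical
  have hS := (isChar_PSS (F := F) (1 : MulChar F ℂ)).isClassFunction
  have hS' : IsClassFunction (SL2 F) (Xf α) := Xf_class α
  have hz1 : zS F ≠ 1 := zS_ne_one' hodd
  have hconjq : conj ((Fintype.card F : ℂ)) = (Fintype.card F : ℂ) := Complex.conj_natCast _
  rcases types g with rfl | rfl | hE | ⟨a, t, hc, ha⟩ | ⟨a, t, hc, ha, ht⟩
  · rw [if_pos (Or.inl rfl), X_one, RS_one_val]
    simp only [map_mul, map_sub, map_add, map_one, hconjq]
    ring
  · rw [if_pos (Or.inr rfl), X_z, RS_z]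
    have h1 : (1 : MulChar F ℂ) (-1 : F) = 1 := MulChar.one_apply (IsUnit.neg isUnit_one)
    have h2 := alpha_sq (α := α) (a := (-1 : F)) (by ring)
    simp only [h1, map_mul, map_sub, map_add, map_one, hconjq]
    linear_combination ((Fintype.card F : ℂ) - 1) * ((Fintype.card F : ℂ) + 1) * ((Fintype.card F : ℂ) - 1) * ((Fintype.card F : ℂ) + 1) * h2
  · have hg1 : g ≠ 1 := by
      rintro rfl
      exact hE 1 ![1, 0] (by
        intro h
        have := congrFun h 0
        simp at this) (by simp)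
    have hgz : g ≠ zS F := by
      rintro rfl
      exact (hE.h10 rfl)
    rw [if_neg (by tauto)]
    simp only [Xf]
    rw [RS_ell α hE, RS_ell 1 hE]
    simp
  · have e1 := eq_of_isConj hS' hc
    have e2 : RS (1 : MulChar F ℂ) g = RS 1 (bsMk a t : SL2 F) := eq_of_isConj hS hc
    have hg : g ≠ 1 ∧ g ≠ zS F := by
      constructor
      · rintro rfl
        exact bs_ne_one_reg ha t (isConj_one_right.mp hc)
      · rintro rfl
        exact bs_ne_z_reg ha t (conj_z_eq hc)
    rw [e1, e2, if_neg (by tauto)]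
    simp only [Xf]
    rw [St_reg ha, RS_one_reg ha]
    have : conj (2 : ℂ) = 2 := map_ofNat _ 2
    simp only [this]
    ring
  · have e1 := eq_of_isConj hS' hc
    have e2 : RS (1 : MulChar F ℂ) g = RS 1 (bsMk a t : SL2 F) := eq_of_isConj hS hc
    have hg : g ≠ 1 ∧ g ≠ zS F := by
      constructor
      · rintro rfl
        exact (bs_ne_of_t ht).1 (isConj_one_right.mp hc)
      · rintro rfl
        exact (bs_ne_of_t ht).2 (conj_z_eq hc)
    rw [e1, e2, if_neg (by tauto)]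
    simp only [Xf]
    rw [St_unip ha ht, RS_unip α ha ht, RS_unip 1 ha ht, MulChar.one_apply (a.isUnit)]
    have h2 := alpha_sq (α := α) ha
    simp only [map_mul, map_sub, map_one, map_zero]
    linear_combination h2

theorem card_SL2_C : (Nat.card (SL2 F) : ℂ) = (Fintype.card F : ℂ) * ((Fintype.card F : ℂ) ^ 2 - 1) := by
  rw [CfsgLib.ClassGeo.card_SL2]
  have hq := Fintype.one_lt_card (α := F)
  have h1 : 1 ≤ Fintype.card F ^ 2 := Nat.one_le_pow _ _ (by omega)
  push_cast [Nat.cast_sub h1]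
  ring

theorem card_SL2_ne : (Nat.card (SL2 F) : ℂ) ≠ 0 := by
  exact_mod_cast (Nat.card_pos (α := SL2 F)).ne'

theorem sum_RS_one : ∑ g : SL2 F, RS (1 : MulChar F ℂ) g = (Nat.card (SL2 F) : ℂ) := by
  classical
  have h := classInner_RS_one (F := F) (1 : MulChar F ℂ)
  rw [if_pos rfl, classInner_def] at h
  simp only [oneS, map_one, mul_one] at h
  have hne := card_SL2_ne (F := F)
  field_simp at h
  exact h

theorem sum_RS_one_sq : ∑ g : SL2 F, RS (1 : MulChar F ℂ) g * conj (RS (1 : MulChar F ℂ) g) =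
    2 * (Nat.card (SL2 F) : ℂ) := by
  classical
  have h : classInner (RS (1 : MulChar F ℂ)) (RS (1 : MulChar F ℂ)) = 2 := by
    rw [RS_add]
    simp only [classInner_add_left, classInner_add_right]
    rw [classInner_irr_self oneS_isIrr, classInner_irr_self isIrr_StS, classInner_StS_one]
    have h2 : classInner (oneS (F := F)) StS = 0 := by
      rw [← conj_classInner, classInner_StS_one, map_zero]
    rw [h2]
    norm_num
  rw [classInner_def] at h
  have hne := card_SL2_ne (F := F)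
  field_simp at h
  linear_combination h

/-- The norm of `X`. -/
theorem classInner_X (hodd : Odd (Fintype.card F)) (α : MulChar F ℂ) :
    classInner (Xf α) (Xf α) = 2 * (Fintype.card F : ℂ) := by
  classical
  rw [classInner_def]
  simp only [X_norm_pointwise hodd α]
  rw [Finset.sum_add_distrib, Finset.sum_sub_distrib, sum_RS_one_sq, ← Finset.mul_sum, sum_RS_one]
  have h1 : ∑ g : SL2 F, (if g = 1 ∨ g = zS F then (Fintype.card F : ℂ) ^ 2 * ((Fintype.card F : ℂ) ^ 2 - 1) else 0) =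
      2 * ((Fintype.card F : ℂ) ^ 2 * ((Fintype.card F : ℂ) ^ 2 - 1)) := by
    rw [← Finset.sum_filter]
    have h2 : (Finset.univ.filter fun g : SL2 F => g = 1 ∨ g = zS F) = {1, zS F} := by
      ext g
      simp
    rw [h2, Finset.sum_pair (zS_ne_one' hodd).symm]
    ring
  rw [h1, card_SL2_C]
  have hq := q_ne (F := F)
  have hne := card_SL2_ne (F := F)
  rw [card_SL2_C] at hne
  have h3 : (Fintype.card F : ℂ) ^ 2 - 1 ≠ 0 := right_ne_zero_of_mul hne
  field_simp
  ring

/-! ### The induced character from the torus -/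

/-- The torus of an elliptic element. -/
abbrev TT (g₀ : SL2 F) : Subgroup (SL2 F) := Subgroup.centralizer ({g₀} : Set (SL2 F))

variable {g₀ : SL2 F}


theorem T_mem_of_conj_mem (hodd : Odd (Fintype.card F)) (hg : Ell g₀) {c x : SL2 F} (hc : c ∈ TT g₀) (h1 : c ≠ 1)
    (h2 : c ≠ zS F) (hx : x⁻¹ * c * x ∈ TT g₀) :
    x ∈ Subgroup.normalizer ((TT g₀ : Subgroup (SL2 F)) : Set (SL2 F)) := by
  have hc1 := cent_eq_of_mem hg.h10 hc h1 h2
  have h1' : x⁻¹ * c * x ≠ 1 := by
    intro h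
    apply h1
    have : c = x * (x⁻¹ * c * x) * x⁻¹ := by group
    rw [this, h]
    group
  have h2' : x⁻¹ * c * x ≠ zS F := by
    intro h
    apply h2
    have : c = x * (x⁻¹ * c * x) * x⁻¹ := by group
    rw [this, h, ← zS_central x]
    group
  have hc2 := cent_eq_of_mem hg.h10 hx h1' h2'
  have key : ∀ y : SL2 F, y ∈ TT g₀ ↔ x⁻¹ * y * x ∈ TT g₀ := by
    intro y
    show y ∈ Subgroup.centralizer ({g₀} : Set (SL2 F)) ↔ x⁻¹ * y * x ∈ Subgroup.centralizer ({g₀} : Set (SL2 F))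
    rw [← hc1]
    nth_rewrite 2 [hc1]
    rw [← hc2, Subgroup.mem_centralizer_singleton_iff, Subgroup.mem_centralizer_singleton_iff]
    constructor
    · intro h
      calc x⁻¹ * y * x * (x⁻¹ * c * x) = x⁻¹ * (y * c) * x := by group
        _ = x⁻¹ * (c * y) * x := by rw [h]
        _ = _ := by group
    · intro h
      have e : y * c = x * ((x⁻¹ * y * x) * (x⁻¹ * c * x)) * x⁻¹ := by group
      rw [e, h]
      group
  have hinv : x⁻¹ ∈ Subgroup.normalizer ((TT g₀ : Subgroup (SL2 F)) : Set (SL2 F)) := by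
    rw [Subgroup.mem_normalizer_iff]
    intro y
    rw [inv_inv]
    exact key y
  simpa using Subgroup.inv_mem _ hinv

variable [Fintype (TT g₀)]

theorem card_T_C (hodd : Odd (Fintype.card F)) (hg : Ell g₀) : (Nat.card (TT g₀) : ℂ) = (Fintype.card F : ℂ) + 1 := by
  rw [cent_card hodd hg]
  push_cast
  rfl

/-- Values at non-central elements of the torus. -/
theorem ind_noncentral (hodd : Odd (Fintype.card F)) (hg : Ell g₀) (θ : TT g₀ →* ℂˣ) (c : TT g₀)
    (h1 : (c : SL2 F) ≠ 1) (h2 : (c : SL2 F) ≠ zS F) :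
    indFun (TT g₀) (homFun θ) (c : SL2 F) = ((θ c : ℂˣ) : ℂ) + ((θ c)⁻¹ : ℂˣ) := by
  classical
  rw [indFun_def]
  set N := Subgroup.normalizer ((TT g₀ : Subgroup (SL2 F)) : Set (SL2 F)) with hN
  have hval : ∀ x : SL2 F, extendByZero (TT g₀) (homFun θ) (x⁻¹ * c * x) =
      (if x ∈ TT g₀ then ((θ c : ℂˣ) : ℂ) else 0) + (if x ∈ N ∧ x ∉ TT g₀ then (((θ c)⁻¹ : ℂˣ) : ℂ) else 0) := by
    intro x
    by_cases hxT : x ∈ TT g₀
    · have e : x⁻¹ * c * x = c := by
        have := cent_comm hg.h10 hxT c.2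
        rw [mul_assoc, ← this]
        group
      rw [if_pos hxT, if_neg (by tauto), add_zero, e, extendByZero_coe, homFun_apply]
    · rw [if_neg hxT, zero_add]
      by_cases hxN : x ∈ N
      · have hinv := inv_of_norm hodd hg hxN hxT
        have hxi : x⁻¹ ∈ N := Subgroup.inv_mem _ hxN
        have hxiT : x⁻¹ ∉ TT g₀ := fun h => hxT (by simpa using Subgroup.inv_mem _ h)
        have h3 := conj_inv_of_conj hg.h10 (inv_of_norm hodd hg hxi hxiT) c.2
        rw [inv_inv] at h3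
        rw [if_pos ⟨hxN, hxT⟩, h3]
        have h4 : ((c : SL2 F))⁻¹ = ((c⁻¹ : TT g₀) : SL2 F) := rfl
        rw [h4, extendByZero_coe, homFun_apply, map_inv]
      · rw [if_neg (by tauto)]
        apply extendByZero_of_not_mem
        intro h3
        exact hxN (T_mem_of_conj_mem hodd hg c.2 h1 h2 h3)
  simp only [hval]
  rw [Finset.sum_add_distrib, ← Finset.sum_filter, ← Finset.sum_filter, Finset.sum_const, Finset.sum_const]
  have c1 : (Finset.univ.filter fun x : SL2 F => x ∈ TT g₀).card = Nat.card (TT g₀) := by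
    rw [Nat.card_eq_fintype_card, Fintype.card_subtype]
  have hNc : Nat.card N = 2 * (Fintype.card F + 1) := (ell_package hodd hg).1
  have hTc := cent_card hodd hg
  have c2 : (Finset.univ.filter fun x : SL2 F => x ∈ N ∧ x ∉ TT g₀).card = Nat.card (TT g₀) := by
    have h5 := Finset.card_filter_add_card_filter_not (s := Finset.univ.filter fun x : SL2 F => x ∈ N) (fun x => x ∈ TT g₀)
    rw [Finset.filter_filter, Finset.filter_filter] at h5
    have h6 : (Finset.univ.filter fun x : SL2 F => x ∈ N ∧ x ∈ TT g₀) = Finset.univ.filter fun x : SL2 F => x ∈ TT g₀ := by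
      ext x
      simp only [Finset.mem_filter, Finset.mem_univ, true_and, and_iff_right_iff_imp]
      intro hx
      rw [hN, Subgroup.mem_normalizer_iff]
      intro n
      constructor
      · intro hn
        exact (TT g₀).mul_mem ((TT g₀).mul_mem hx hn) ((TT g₀).inv_mem hx)
      · intro hn
        have e : n = x⁻¹ * (x * n * x⁻¹) * x := by group
        rw [e]
        exact (TT g₀).mul_mem ((TT g₀).mul_mem ((TT g₀).inv_mem hx) hn) hx
    rw [h6, c1] at h5
    have h7 : (Finset.univ.filter fun x : SL2 F => x ∈ N).card = Nat.card N := by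
      rw [Nat.card_eq_fintype_card, Fintype.card_subtype]
    rw [h7, hNc, hTc] at h5
    rw [hTc]
    omega
  rw [c1, c2, nsmul_eq_mul, nsmul_eq_mul]
  have hne : (Nat.card (TT g₀) : ℂ) ≠ 0 := card_subgroup_ne_zero (TT g₀)
  field_simp

theorem hom_conj {A : Type*} [Group A] [Finite A] (l : A →* ℂˣ) (a : A) :
    conj ((l a : ℂˣ) : ℂ) = (((l a)⁻¹ : ℂˣ) : ℂ) := by
  have h1 : ((l a : ℂˣ) : ℂ) ^ Nat.card A = 1 := by
    rw [← Units.val_pow_eq_pow_val, ← map_pow, pow_card_eq_one', map_one, Units.val_one]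
  have h2 : ‖((l a : ℂˣ) : ℂ)‖ = 1 := Complex.norm_eq_one_of_pow_eq_one h1 Nat.card_pos.ne'
  rw [← Complex.inv_eq_conj h2]
  simp

theorem hom_mul_conj {A : Type*} [Group A] [Finite A] (l : A →* ℂˣ) (a : A) :
    ((l a : ℂˣ) : ℂ) * conj ((l a : ℂˣ) : ℂ) = 1 := by
  rw [hom_conj]
  simp

/-- The element `-1` of the torus. -/
noncomputable def zT (g₀ : SL2 F) : TT g₀ := ⟨zS F, zS_mem g₀⟩

theorem zT_sq (θ : TT g₀ →* ℂˣ) : ((θ (zT g₀) : ℂˣ) : ℂ) * (θ (zT g₀) : ℂˣ) = 1 := by
  have h1 : zT g₀ * zT g₀ = 1 := Subtype.ext zS_sq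
  rw [← Units.val_mul, ← map_mul, h1, map_one, Units.val_one]

theorem zT_ne (hodd : Odd (Fintype.card F)) : zT g₀ ≠ 1 := fun h => zS_ne_one' hodd (congrArg Subtype.val h)

/-- Values at central elements. -/
theorem ind_central (hodd : Odd (Fintype.card F)) (hg : Ell g₀) (θ : TT g₀ →* ℂˣ) {c : TT g₀}
    (hc : ∀ h : SL2 F, (c : SL2 F) * h = h * c) :
    indFun (TT g₀) (homFun θ) (c : SL2 F) = (Fintype.card F : ℂ) * ((Fintype.card F : ℂ) - 1) * (θ c : ℂˣ) := by
  classical
  rw [indFun_def]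
  have h1 : ∀ x : SL2 F, extendByZero (TT g₀) (homFun θ) (x⁻¹ * c * x) = ((θ c : ℂˣ) : ℂ) := by
    intro x
    have e : x⁻¹ * (c : SL2 F) * x = c := by
      rw [mul_assoc, hc x]
      group
    rw [e, extendByZero_coe, homFun_apply]
  simp only [h1, Finset.sum_const, Finset.card_univ, nsmul_eq_mul]
  rw [card_T_C hodd hg, ← Nat.card_eq_fintype_card (α := SL2 F), card_SL2_C]
  have hne : (Fintype.card F : ℂ) + 1 ≠ 0 := by
    rw [← card_T_C hodd hg]
    exact card_subgroup_ne_zero _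
  field_simp
  ring

theorem ind_zero (hodd : Odd (Fintype.card F)) (hg : Ell g₀) (θ : TT g₀ →* ℂˣ) {g : SL2 F}
    (h1 : g ≠ 1) (h2 : g ≠ zS F) (h3 : ¬ Ell g) : indFun (TT g₀) (homFun θ) g = 0 := by
  classical
  rw [indFun_def]
  have : ∀ x : SL2 F, extendByZero (TT g₀) (homFun θ) (x⁻¹ * g * x) = 0 := by
    intro x
    apply extendByZero_of_not_mem
    intro hx
    have h1' : x⁻¹ * g * x ≠ 1 := by
      intro h
      apply h1
      have : g = x * (x⁻¹ * g * x) * x⁻¹ := by group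
      rw [this, h]
      group
    have h2' : x⁻¹ * g * x ≠ zS F := by
      intro h
      apply h2
      have : g = x * (x⁻¹ * g * x) * x⁻¹ := by group
      rw [this, h, ← zS_central x]
      group
    have hE := ell_of_mem hg hx h1' h2'
    apply h3
    exact ell_conj (isConj_iff.mpr ⟨x, by group⟩) hE
  simp [this]

theorem T_ell (hg : Ell g₀) {c : SL2 F} (hc : c ∈ TT g₀) (h1 : c ≠ 1) (h2 : c ≠ zS F) : Ell c :=
  ell_of_mem hg hc h1 h2

/-- Inner product of `X` and the induced character. -/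
theorem inner_X_I (hodd : Odd (Fintype.card F)) (hg : Ell g₀) (θ : TT g₀ →* ℂˣ) (α : MulChar F ℂ)
    (hα : α (-1) = ((θ (zT g₀) : ℂˣ) : ℂ)) :
    classInner (Xf α) (indFun (TT g₀) (homFun θ)) = 2 * ((Fintype.card F : ℂ) - 1) := by
  classical
  rw [frobenius' _ _ (Xf_class α), classInner_def]
  have hz := zT_ne (g₀ := g₀) hodd
  rw [Finset.sum_eq_add (1 : TT g₀) (zT g₀) hz.symm]
  · have h1 : Xf α ((1 : TT g₀) : SL2 F) = ((Fintype.card F : ℂ) - 1) * ((Fintype.card F : ℂ) + 1) := X_one α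
    have h2 : Xf α ((zT g₀ : TT g₀) : SL2 F) = ((Fintype.card F : ℂ) - 1) * ((Fintype.card F : ℂ) + 1) * α (-1) := X_z α
    rw [h1, h2, homFun_apply, homFun_apply, map_one, hα, card_T_C hodd hg, mul_assoc _ ((θ (zT g₀) : ℂˣ) : ℂ), hom_mul_conj]
    have hne : (Fintype.card F : ℂ) + 1 ≠ 0 := by
      rw [← card_T_C hodd hg]
      exact card_subgroup_ne_zero _
    simp only [Units.val_one, map_one, mul_one]
    field_simp
    ring
  · intro c _ hc
    have h3 : (c : SL2 F) ≠ 1 := fun h => hc.1 (Subtype.ext h)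
    have h4 : (c : SL2 F) ≠ zS F := fun h => hc.2 (Subtype.ext h)
    have : Xf α (c : SL2 F) = 0 := by
      simp only [Xf]
      rw [RS_ell α (T_ell hg c.2 h3 h4), mul_zero]
    rw [this, zero_mul]
  · intro h
    exact absurd (Finset.mem_univ _) h
  · intro h
    exact absurd (Finset.mem_univ _) h

open scoped Classical in
/-- Pointwise values of the inner product of the induced character. -/
theorem ind_term (hodd : Odd (Fintype.card F)) (hg : Ell g₀) (θ : TT g₀ →* ℂˣ) (c : TT g₀) :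
    indFun (TT g₀) (homFun θ) (c : SL2 F) * conj (homFun θ c) =
      1 + (conj ((θ c : ℂˣ) : ℂ)) ^ 2 + (if c = 1 ∨ c = zT g₀ then
        (Fintype.card F : ℂ) * ((Fintype.card F : ℂ) - 1) - 2 else 0) := by
  have hmul := hom_mul_conj θ c
  by_cases h1 : c = 1
  · subst h1
    rw [if_pos (Or.inl rfl), homFun_apply, ind_central hodd hg θ (fun h => by simp), map_one]
    simp
    ring
  · by_cases h2 : c = zT g₀
    · subst h2
      have hz2 := zT_sq θ
      have hz3 : (conj ((θ (zT g₀) : ℂˣ) : ℂ)) * conj ((θ (zT g₀) : ℂˣ) : ℂ) = 1 := by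
        rw [← map_mul, hz2, map_one]
      rw [if_pos (Or.inr rfl), homFun_apply, ind_central hodd hg θ (c := zT g₀) (fun h => zS_central h),
        mul_assoc, hmul, pow_two, hz3]
      ring
    · have h3 : (c : SL2 F) ≠ 1 := fun h => h1 (Subtype.ext h)
      have h4 : (c : SL2 F) ≠ zS F := fun h => h2 (Subtype.ext h)
      rw [if_neg (by tauto), homFun_apply, ind_noncentral hodd hg θ c h3 h4, ← hom_conj θ c]
      linear_combination hmul

/-- The sum over the torus of the inverse square of `θ` vanishes. -/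
theorem sum_sq_zero (hodd : Odd (Fintype.card F)) (θ : TT g₀ →* ℂˣ) (hθ : ∃ c, θ c ^ 2 ≠ 1) :
    ∑ c : TT g₀, (conj ((θ c : ℂˣ) : ℂ)) ^ 2 = 0 := by
  classical
  obtain ⟨c, hc⟩ := hθ
  have h1 : (1 : TT g₀ →* ℂˣ) ≠ θ ^ 2 := by
    intro h
    apply hc
    have := congrArg (fun f : TT g₀ →* ℂˣ => f c) h
    simpa using this.symm
  have h2 := classInner_homFun (1 : TT g₀ →* ℂˣ) (θ ^ 2)
  rw [if_neg h1, classInner_def] at h2
  have h3 := card_subgroup_ne_zero (TT g₀)
  have h4 := (mul_eq_zero.mp h2).resolve_left (inv_ne_zero h3)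
  rw [← h4]
  refine Finset.sum_congr rfl fun x _ => ?_
  simp only [homFun_apply, MonoidHom.one_apply, Units.val_one, one_mul, MonoidHom.pow_apply, Units.val_pow_eq_pow_val, map_pow]

/-- The norm of the induced character. -/
theorem inner_I_I (hodd : Odd (Fintype.card F)) (hg : Ell g₀) (θ : TT g₀ →* ℂˣ) (hθ : ∃ c, θ c ^ 2 ≠ 1) :
    classInner (indFun (TT g₀) (homFun θ)) (indFun (TT g₀) (homFun θ)) = 2 * (Fintype.card F : ℂ) - 3 := by
  classical
  rw [frobenius' _ _ (indFun_isClass _ _), classInner_def]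
  simp only [ind_term hodd hg θ]
  rw [Finset.sum_add_distrib, Finset.sum_add_distrib, sum_sq_zero hodd θ hθ]
  have h1 : ∑ g : TT g₀, (if g = 1 ∨ g = zT g₀ then
      (Fintype.card F : ℂ) * ((Fintype.card F : ℂ) - 1) - 2 else 0) =
      2 * ((Fintype.card F : ℂ) * ((Fintype.card F : ℂ) - 1) - 2) := by
    rw [← Finset.sum_filter]
    have h2 : (Finset.univ.filter fun g : TT g₀ => g = 1 ∨ g = zT g₀) = {1, zT g₀} := by
      ext g
      simp
    rw [h2, Finset.sum_pair (zT_ne hodd).symm]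
    ring
  rw [h1]
  simp only [Finset.sum_const, Finset.card_univ, nsmul_eq_mul, mul_one]
  rw [← Nat.card_eq_fintype_card (α := TT g₀), card_T_C hodd hg]
  have hne : (Fintype.card F : ℂ) + 1 ≠ 0 := by
    rw [← card_T_C hodd hg]
    exact card_subgroup_ne_zero _
  field_simp
  ring

/-- The virtual character. -/
noncomputable def Lam (g₀ : SL2 F) [Fintype (TT g₀)] (α : MulChar F ℂ) (θ : TT g₀ →* ℂˣ) : SL2 F → ℂ :=
  Xf α - indFun (TT g₀) (homFun θ)

theorem Lam_gen (α : MulChar F ℂ) (θ : TT g₀ →* ℂˣ) : IsGeneralizedCharacter (SL2 F) (Lam g₀ α θ) := by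
  refine ⟨StS * RS α, RS α + indFun (TT g₀) (homFun θ), isChar_StS.mul (isChar_PSS α),
    (isChar_PSS α).add (isCharacter_indFun _ (isIrr_homFun θ).isCharacter), ?_⟩
  funext g
  simp only [Lam, Xf, Pi.sub_apply, Pi.mul_apply, Pi.add_apply]
  ring

theorem Lam_norm (hodd : Odd (Fintype.card F)) (hg : Ell g₀) (α : MulChar F ℂ) (θ : TT g₀ →* ℂˣ)
    (hα : α (-1) = ((θ (zT g₀) : ℂˣ) : ℂ)) (hθ : ∃ c, θ c ^ 2 ≠ 1) :
    classInner (Lam g₀ α θ) (Lam g₀ α θ) = 1 := by
  have h1 := inner_X_I hodd hg θ α hα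
  have h2 : classInner (indFun (TT g₀) (homFun θ)) (Xf α) = 2 * ((Fintype.card F : ℂ) - 1) := by
    rw [← conj_classInner, h1]
    have h3 : conj (2 : ℂ) = 2 := map_ofNat _ 2
    simp only [map_mul, map_sub, map_one, Complex.conj_natCast, h3]
  simp only [Lam, classInner_sub_left, classInner_sub_right]
  rw [classInner_X hodd, h1, h2, inner_I_I hodd hg θ hθ]
  ring

theorem Lam_one (hodd : Odd (Fintype.card F)) (hg : Ell g₀) (α : MulChar F ℂ) (θ : TT g₀ →* ℂˣ) :
    Lam g₀ α θ 1 = (Fintype.card F : ℂ) - 1 := by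
  simp only [Lam, Pi.sub_apply]
  have h1 := ind_central hodd hg θ (c := 1) (fun h => by simp)
  simp only [OneMemClass.coe_one, map_one, Units.val_one, mul_one] at h1
  rw [h1, X_one]
  ring

theorem Lam_irr (hodd : Odd (Fintype.card F)) (hg : Ell g₀) (α : MulChar F ℂ) (θ : TT g₀ →* ℂˣ)
    (hα : α (-1) = ((θ (zT g₀) : ℂˣ) : ℂ)) (hθ : ∃ c, θ c ^ 2 ≠ 1) :
    IsIrrCharacter (SL2 F) (Lam g₀ α θ) := by
  rcases (Lam_gen α θ).exists_of_norm_one (Lam_norm hodd hg α θ hα hθ) with h | h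
  · exact h
  · exfalso
    obtain ⟨n, hn0, hn⟩ := irr_deg_pos h
    rw [Pi.neg_apply, Lam_one hodd hg] at hn
    have hq := Fintype.one_lt_card (α := F)
    have h3 : ((n + (Fintype.card F - 1) : ℕ) : ℂ) = 0 := by
      rw [Nat.cast_add, Nat.cast_sub Fintype.card_pos, ← hn]
      simp
    have h4 : n + (Fintype.card F - 1) = 0 := by exact_mod_cast h3
    omega

theorem exists_alpha (θ : TT g₀ →* ℂˣ) (hodd : Odd (Fintype.card F)) : ∃ α : MulChar F ℂ, α (-1) = ((θ (zT g₀) : ℂˣ) : ℂ) := by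
  classical
  haveI : NeZero (Monoid.exponent Fˣ) := ⟨Monoid.exponent_ne_zero_of_finite⟩
  have hz := zT_sq θ
  have h2 : (((θ (zT g₀) : ℂˣ) : ℂ) - 1) * (((θ (zT g₀) : ℂˣ) : ℂ) + 1) = 0 := by linear_combination hz
  rcases mul_eq_zero.mp h2 with h3 | h3
  · refine ⟨1, ?_⟩
    rw [MulChar.one_apply (IsUnit.neg isUnit_one)]
    linear_combination -h3
  · have hne : (-1 : F) ≠ 1 := by
      intro h
      apply two_ne hodd
      linear_combination (-1 : F) * h
    obtain ⟨χ₀, hχ₀⟩ := MulChar.exists_apply_ne_one_of_hasEnoughRootsOfUnity F ℂ (a := (-1 : F)) hne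
    refine ⟨χ₀, ?_⟩
    have h4 : χ₀ (-1) * χ₀ (-1) = 1 := by
      rw [← map_mul]
      simp
    have h5 : (χ₀ (-1) - 1) * (χ₀ (-1) + 1) = 0 := by linear_combination h4
    have h6 := (mul_eq_zero.mp h5).resolve_left (sub_ne_zero.mpr hχ₀)
    linear_combination h6 - h3

/-- The character attached to `θ`. -/
noncomputable def Lm (hodd : Odd (Fintype.card F)) (θ : TT g₀ →* ℂˣ) : SL2 F → ℂ :=
  Lam g₀ (Classical.choose (exists_alpha θ hodd)) θ

theorem Lm_irr (hodd : Odd (Fintype.card F)) (hg : Ell g₀) (θ : TT g₀ →* ℂˣ) (hθ : ∃ c, θ c ^ 2 ≠ 1) :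
    IsIrrCharacter (SL2 F) (Lm hodd θ) :=
  Lam_irr hodd hg _ θ (Classical.choose_spec (exists_alpha θ hodd)) hθ

theorem Lm_one (hodd : Odd (Fintype.card F)) (hg : Ell g₀) (θ : TT g₀ →* ℂˣ) :
    Lm hodd θ 1 = (Fintype.card F : ℂ) - 1 := Lam_one hodd hg _ θ

theorem Lm_noncentral (hodd : Odd (Fintype.card F)) (hg : Ell g₀) (θ : TT g₀ →* ℂˣ) (c : TT g₀)
    (h1 : (c : SL2 F) ≠ 1) (h2 : (c : SL2 F) ≠ zS F) :
    Lm hodd θ (c : SL2 F) = -(((θ c : ℂˣ) : ℂ) + ((θ c)⁻¹ : ℂˣ)) := by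
  simp only [Lm, Lam, Pi.sub_apply, Xf]
  rw [RS_ell _ (T_ell hg c.2 h1 h2), mul_zero, ind_noncentral hodd hg θ c h1 h2, zero_sub]

theorem Lm_z (hodd : Odd (Fintype.card F)) (hg : Ell g₀) (θ : TT g₀ →* ℂˣ) :
    Lm hodd θ (zS F) = ((θ (zT g₀) : ℂˣ) : ℂ) * ((Fintype.card F : ℂ) - 1) := by
  simp only [Lm, Lam, Pi.sub_apply]
  have h1 : Xf (Classical.choose (exists_alpha θ hodd)) (zS F) = _ := X_z _
  rw [h1, Classical.choose_spec (exists_alpha θ hodd)]
  have h2 := ind_central hodd hg θ (c := zT g₀) (fun h => zS_central h)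
  have h3 : ((zT g₀ : TT g₀) : SL2 F) = zS F := rfl
  rw [h3] at h2
  rw [h2]
  ring

theorem Lm_reg (hodd : Odd (Fintype.card F)) (hg : Ell g₀) (θ : TT g₀ →* ℂˣ) {g : SL2 F} (h01 : g.1 0 1 = 0)
    (h10 : g.1 1 0 = 0) (hsq : g.1 0 0 ^ 2 ≠ 1) : Lm hodd θ g = 0 := by
  have h1 : g ≠ 1 := by
    rintro rfl
    simp at hsq
  have h2 : g ≠ zS F := by
    rintro rfl
    simp at hsq
  have h3 : ¬ Ell g := fun h => h.h10 h10
  simp only [Lm, Lam, Pi.sub_apply, Xf]
  rw [ind_zero hodd hg θ h1 h2 h3, (StS_values (g := g)).1 h01 h10 hsq]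
  simp

theorem Lm_unip (hodd : Odd (Fintype.card F)) (hg : Ell g₀) (θ : TT g₀ →* ℂˣ) {g : SL2 F} (h10 : g.1 1 0 = 0)
    (h00 : g.1 0 0 = 1) (h11 : g.1 1 1 = 1) (h01 : g.1 0 1 ≠ 0) : Lm hodd θ g = -1 := by
  have h1 : g ≠ 1 := by
    rintro rfl
    simp at h01
  have h2 : g ≠ zS F := by
    rintro rfl
    simp at h01
  have h3 : ¬ Ell g := fun h => h.h10 h10
  simp only [Lm, Lam, Pi.sub_apply, Xf]
  obtain ⟨a, t, ha⟩ := exists_bs_of_10 h10
  have h4 : (a : F) = 1 := by
    rw [← h00, ha]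
    rfl
  have h5 : t ≠ 0 := by
    intro h
    apply h01
    rw [ha, h]
    rfl
  have h6 : (a : F) ^ 2 = 1 := by rw [h4, one_pow]
  rw [ind_zero hodd hg θ h1 h2 h3, (StS_values (g := g)).2.2 h10 (by rw [h00, h11]) h01, ha, RS_unip _ h6 h5, h4, map_one]
  simp

/-! ### Counting -/

theorem card_hom_comm {A : Type*} [Group A] [Fintype A] (hA : ∀ a b : A, a * b = b * a) :
    Nat.card (A →* ℂˣ) = Nat.card A := by
  classical
  have h1 : Nat.card (A →* ℂˣ) = Nat.card (IrrCharacter A) :=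
    Nat.card_congr (Equiv.ofBijective _ (hom_to_irr_bijective hA))
  rw [h1, card_irr_eq]
  have h2 := sum_card_centralizer A
  have h3 : ∀ a : A, Nat.card (Subgroup.centralizer ({a} : Set A)) = Nat.card A := by
    intro a
    have : Subgroup.centralizer ({a} : Set A) = ⊤ := by
      rw [Subgroup.eq_top_iff']
      intro z
      rw [Subgroup.mem_centralizer_singleton_iff]
      exact hA z a
    rw [this, Subgroup.card_top]
  simp only [h3, Finset.sum_const, Finset.card_univ, smul_eq_mul] at h2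
  rw [← Nat.card_eq_fintype_card] at h2
  exact (Nat.eq_of_mul_eq_mul_left Nat.card_pos h2).symm

theorem T_comm (hg : Ell g₀) (a b : TT g₀) : a * b = b * a :=
  Subtype.ext (cent_comm hg.h10 a.2 b.2)

/-- The generator. -/
theorem exists_gen (hodd : Odd (Fintype.card F)) (hg : Ell g₀) :
    ∃ c : TT g₀, (∀ x, x ∈ Subgroup.zpowers c) ∧ orderOf c = Fintype.card F + 1 := by
  haveI := cent_cyclic hg
  obtain ⟨c, hc⟩ := IsCyclic.exists_generator (α := TT g₀)
  refine ⟨c, hc, ?_⟩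
  rw [orderOf_eq_card_of_forall_mem_zpowers hc, cent_card hodd hg]

theorem hom_eq_of_gen {θ θ' : TT g₀ →* ℂˣ} {c : TT g₀} (hc : ∀ x, x ∈ Subgroup.zpowers c)
    (h : θ c = θ' c) : θ = θ' := by
  ext x
  obtain ⟨k, rfl⟩ := Subgroup.mem_zpowers_iff.mp (hc x)
  rw [map_zpow, map_zpow, h]

/-- The half exponent. -/
theorem pow_half_cases (hodd : Odd (Fintype.card F)) (hg : Ell g₀) (c : TT g₀) :
    c ^ ((Fintype.card F + 1) / 2) = 1 ∨ c ^ ((Fintype.card F + 1) / 2) = zT g₀ := by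
  obtain ⟨n, hn⟩ := hodd
  have hodd' : Odd (Fintype.card F) := ⟨n, hn⟩
  have h1 : (Fintype.card F + 1) / 2 = n + 1 := by omega
  have h2 : (c ^ ((Fintype.card F + 1) / 2)) ^ 2 = 1 := by
    rw [← pow_mul]
    have : (Fintype.card F + 1) / 2 * 2 = Nat.card (TT g₀) := by
      rw [cent_card hodd' hg]
      omega
    rw [this, pow_card_eq_one']
  have h3 : ((c ^ ((Fintype.card F + 1) / 2) : TT g₀) : SL2 F) ^ 2 = 1 := by
    have := congrArg Subtype.val h2
    exact this
  rcases sq_eq_one_iff hodd' h3 with h4 | h4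
  · left
    exact Subtype.ext h4
  · right
    exact Subtype.ext h4

/-- The quadratic character of the torus. -/
noncomputable def sgn (hodd : Odd (Fintype.card F)) (hg : Ell g₀) : TT g₀ →* ℂˣ := by
  classical
  exact
  { toFun := fun c => if c ^ ((Fintype.card F + 1) / 2) = 1 then 1 else -1
    map_one' := by simp
    map_mul' := by
      intro a b
      have hc : ∀ a b : TT g₀, a * b = b * a := T_comm hg
      have hpow : (a * b) ^ ((Fintype.card F + 1) / 2) = a ^ ((Fintype.card F + 1) / 2) * b ^ ((Fintype.card F + 1) / 2) :=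
        (Commute.mul_pow (hc a b) _)
      have hz1 := zT_ne (g₀ := g₀) hodd
      have hzz : zT g₀ * zT g₀ = 1 := Subtype.ext zS_sq
      rw [hpow]
      rcases pow_half_cases hodd hg a with ha | ha <;> rcases pow_half_cases hodd hg b with hb | hb <;>
        rw [ha, hb] <;> simp [hz1, hzz] }

theorem sgn_apply_of (hodd : Odd (Fintype.card F)) (hg : Ell g₀) {c : TT g₀} (h : c ^ ((Fintype.card F + 1) / 2) = 1) :
    sgn hodd hg c = 1 := by
  classical
  show (if _ then _ else _) = _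
  rw [if_pos h]

theorem sgn_apply_not (hodd : Odd (Fintype.card F)) (hg : Ell g₀) {c : TT g₀} (h : c ^ ((Fintype.card F + 1) / 2) ≠ 1) :
    sgn hodd hg c = -1 := by
  classical
  show (if _ then _ else _) = _
  rw [if_neg h]

theorem gen_pow_ne (hodd : Odd (Fintype.card F)) {c : TT g₀} (hc : orderOf c = Fintype.card F + 1) :
    c ^ ((Fintype.card F + 1) / 2) ≠ 1 := by
  intro h
  have h1 := orderOf_dvd_of_pow_eq_one h
  rw [hc] at h1
  obtain ⟨n, hn⟩ := hodd
  have := Nat.le_of_dvd (by omega) h1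
  omega

theorem units_neg_one_ne : (-1 : ℂˣ) ≠ 1 := by
  intro h
  have := congrArg Units.val h
  norm_num at this

theorem sq_cases (hodd : Odd (Fintype.card F)) (hg : Ell g₀) (θ : TT g₀ →* ℂˣ) (hθ : ∀ c, θ c ^ 2 = 1) :
    θ = 1 ∨ θ = sgn hodd hg := by
  obtain ⟨c, hc, ho⟩ := exists_gen hodd hg
  have h1 := hθ c
  have h2 : ((θ c : ℂˣ) : ℂ) ^ 2 = 1 := by
    rw [← Units.val_pow_eq_pow_val, h1, Units.val_one]
  have h3 : (((θ c : ℂˣ) : ℂ) - 1) * (((θ c : ℂˣ) : ℂ) + 1) = 0 := by linear_combination h2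
  rcases mul_eq_zero.mp h3 with h4 | h4
  · left
    apply hom_eq_of_gen hc
    apply Units.ext
    simpa using (by linear_combination h4 : ((θ c : ℂˣ) : ℂ) = 1)
  · right
    apply hom_eq_of_gen hc
    rw [sgn_apply_not hodd hg (gen_pow_ne hodd ho)]
    apply Units.ext
    simpa using (by linear_combination h4 : ((θ c : ℂˣ) : ℂ) = -1)

theorem sgn_sq (hodd : Odd (Fintype.card F)) (hg : Ell g₀) (c : TT g₀) : sgn hodd hg c ^ 2 = 1 := by
  by_cases h : c ^ ((Fintype.card F + 1) / 2) = 1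
  · rw [sgn_apply_of hodd hg h, one_pow]
  · rw [sgn_apply_not hodd hg h]
    simp

theorem sgn_ne_one (hodd : Odd (Fintype.card F)) (hg : Ell g₀) : sgn hodd hg ≠ 1 := by
  intro h
  obtain ⟨c, hc, ho⟩ := exists_gen hodd hg
  have h1 := sgn_apply_not hodd hg (gen_pow_ne hodd ho)
  rw [h] at h1
  exact units_neg_one_ne h1.symm

/-- Two units with the same sum with inverse. -/
theorem units_sum_eq {x y : ℂˣ} (h : (x : ℂ) + (x⁻¹ : ℂˣ) = (y : ℂ) + (y⁻¹ : ℂˣ)) : x = y ∨ x = y⁻¹ := by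
  have hx : (x : ℂ) ≠ 0 := x.ne_zero
  have hy : (y : ℂ) ≠ 0 := y.ne_zero
  simp only [Units.val_inv_eq_inv_val] at h
  field_simp at h
  have h3 : ((x : ℂ) - y) * ((x : ℂ) * y - 1) = 0 := by linear_combination h
  rcases mul_eq_zero.mp h3 with h4 | h4
  · left
    apply Units.ext
    linear_combination h4
  · right
    apply Units.ext
    simp only [Units.val_inv_eq_inv_val]
    field_simp
    linear_combination h4

/-- The main counting. -/
theorem Lm_surj (hodd : Odd (Fintype.card F)) (hq : 5 ≤ Fintype.card F) (hg : Ell g₀) {χ : SL2 F → ℂ}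
    (hχ : IsIrrCharacter (SL2 F) χ) (hd : χ 1 = (Fintype.card F : ℂ) - 1) :
    ∃ θ : TT g₀ →* ℂˣ, (∃ c, θ c ^ 2 ≠ 1) ∧ χ = Lm hodd θ := by
  classical
  obtain ⟨n, hn⟩ := id hodd
  have hn2 : 2 ≤ n := by omega
  haveI hfin : Finite (TT g₀ →* ℂˣ) := hom_finite (T_comm hg)
  letI : Fintype (TT g₀ →* ℂˣ) := Fintype.ofFinite _
  obtain ⟨c₀, hc₀, ho₀⟩ := exists_gen hodd hg
  have hc₀1 : (c₀ : SL2 F) ≠ 1 := by
    intro h
    have : c₀ = 1 := Subtype.ext h
    rw [this, orderOf_one] at ho₀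
    omega
  have hc₀z : (c₀ : SL2 F) ≠ zS F := by
    intro h
    have h1 : c₀ * c₀ = 1 := by
      apply Subtype.ext
      show (c₀ : SL2 F) * c₀ = 1
      rw [h, zS_sq]
    have h2 : c₀ ^ 2 = 1 := by rw [pow_two, h1]
    have h3 := orderOf_dvd_of_pow_eq_one h2
    rw [ho₀] at h3
    have := Nat.le_of_dvd (by norm_num) h3
    omega
  let Θ := {θ : TT g₀ →* ℂˣ // ∃ c, θ c ^ 2 ≠ 1}
  have hΘ : Fintype.card Θ = Fintype.card F - 1 := by
    have h1 : Nat.card (TT g₀ →* ℂˣ) = Fintype.card F + 1 := by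
      rw [card_hom_comm (T_comm hg), cent_card hodd hg]
    have h2 : (Finset.univ.filter fun θ : TT g₀ →* ℂˣ => ¬ ∃ c, θ c ^ 2 ≠ 1) = {1, sgn hodd hg} := by
      ext θ
      simp only [Finset.mem_filter, Finset.mem_univ, true_and, Finset.mem_insert, Finset.mem_singleton]
      push Not
      constructor
      · exact sq_cases hodd hg θ
      · rintro (rfl | rfl)
        · simp
        · exact sgn_sq hodd hg
    have h3 := Finset.card_filter_add_card_filter_not (s := (Finset.univ : Finset (TT g₀ →* ℂˣ))) (fun θ => ∃ c, θ c ^ 2 ≠ 1)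
    rw [h2, Finset.card_pair (sgn_ne_one hodd hg).symm, Finset.card_univ, ← Nat.card_eq_fintype_card, h1] at h3
    rw [Fintype.card_subtype]
    omega
  let f : Θ → IrrCharacter (SL2 F) := fun θ => ⟨Lm hodd θ.1, Lm_irr hodd hg θ.1 θ.2⟩
  have hfib : ∀ x y : Θ, f x = f y → y = x ∨ (y.1 = x.1⁻¹) := by
    intro x y h
    have h1 : Lm hodd x.1 = Lm hodd y.1 := congrArg Subtype.val h
    have h2 := congrFun h1 (c₀ : SL2 F)
    rw [Lm_noncentral hodd hg _ c₀ hc₀1 hc₀z, Lm_noncentral hodd hg _ c₀ hc₀1 hc₀z, neg_inj] at h2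
    rcases units_sum_eq h2 with h3 | h3
    · left
      exact Subtype.ext (hom_eq_of_gen hc₀ h3).symm
    · right
      apply hom_eq_of_gen hc₀
      rw [MonoidHom.inv_apply, h3, inv_inv]
  obtain ⟨hm1, ⟨hm2, hm3, hm4, hm5⟩, hm6⟩ := SL2O_main (F := F) hodd n hn
  set A := Finset.univ.filter fun χ : IrrCharacter (SL2 F) => PCS χ.1 ∧ χ.1 1 = ((2 * n : ℕ) : ℂ) with hA
  have hq2 : (Fintype.card F : ℂ) - 1 = ((2 * n : ℕ) : ℂ) := by
    rw [hn]
    push_cast
    ring
  have himg : Finset.univ.image f ⊆ A := by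
    intro x hx
    obtain ⟨θ, -, rfl⟩ := Finset.mem_image.mp hx
    simp only [hA, Finset.mem_filter, Finset.mem_univ, true_and]
    have h1 : (f θ).1 1 = ((2 * n : ℕ) : ℂ) := by
      show Lm hodd θ.1 1 = _
      rw [Lm_one hodd hg, hq2]
    exact ⟨(type_of_deg hodd n hn hn2 (f θ).2 (2 * n) h1).2.2.2.2.1 rfl, h1⟩
  have hcardle : Fintype.card Θ ≤ 2 * (Finset.univ.image f).card := by
    rw [← Finset.card_univ]
    apply Finset.card_le_mul_card_image
    intro b hb
    obtain ⟨x, -, rfl⟩ := Finset.mem_image.mp hb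
    by_cases hxinv : ∃ h : ∃ c, (x.1⁻¹) c ^ 2 ≠ 1, True
    · obtain ⟨hx', -⟩ := hxinv
      have : (Finset.univ.filter fun y : Θ => f y = f x) ⊆ {x, ⟨x.1⁻¹, hx'⟩} := by
        intro y hy
        simp only [Finset.mem_filter, Finset.mem_univ, true_and] at hy
        simp only [Finset.mem_insert, Finset.mem_singleton]
        rcases hfib x y hy.symm with h | h
        · left; exact h
        · right; exact Subtype.ext h
      exact (Finset.card_le_card this).trans Finset.card_le_two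
    · have : (Finset.univ.filter fun y : Θ => f y = f x) ⊆ {x} := by
        intro y hy
        simp only [Finset.mem_filter, Finset.mem_univ, true_and] at hy
        simp only [Finset.mem_singleton]
        rcases hfib x y hy.symm with h | h
        · exact h
        · exfalso
          apply hxinv
          refine ⟨?_, trivial⟩
          rw [← h]
          exact y.2
      exact (Finset.card_le_card this).trans (by simp)
  have heq : Finset.univ.image f = A := by
    apply Finset.eq_of_subset_of_card_le himg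
    rw [hm3]
    rw [hΘ, hn] at hcardle
    omega
  have hχA : (⟨χ, hχ⟩ : IrrCharacter (SL2 F)) ∈ A := by
    simp only [hA, Finset.mem_filter, Finset.mem_univ, true_and]
    have h1 : χ 1 = ((2 * n : ℕ) : ℂ) := by rw [hd, hq2]
    exact ⟨(type_of_deg hodd n hn hn2 hχ (2 * n) h1).2.2.2.2.1 rfl, h1⟩
  rw [← heq] at hχA
  obtain ⟨θ, -, hθ⟩ := Finset.mem_image.mp hχA
  exact ⟨θ.1, θ.2, (congrArg Subtype.val hθ).symm⟩

/-! ### Elements of order `q + 1` are elliptic -/

theorem ell_of_order (hodd : Odd (Fintype.card F)) {c : SL2 F} (ho : orderOf c = Fintype.card F + 1) : Ell c := by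
  classical
  by_contra hE
  obtain ⟨a, t, hconj⟩ := exists_conj_bs hE
  have hq := Fintype.one_lt_card (α := F)
  obtain ⟨x, hx⟩ := isConj_iff.mp hconj
  have ho2 : orderOf (bsMk a t : SL2 F) = Fintype.card F + 1 := by
    rw [← hx, ← ho]
    exact orderOf_injective (MulAut.conj x).toMonoidHom (MulEquiv.injective _) c
  by_cases ha : (a : F) ^ 2 = 1
  · -- unipotent up to sign
    have ha' : ((a⁻¹ : Fˣ) : F) = a := (a_inv_of_sq ha).symm
    have h2 : (bsMk a t : SL2 F) ^ 2 = U (t * ((a : F) + a)) := by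
      rw [pow_two]
      apply sl_ext <;> simp [mul_00, mul_01, mul_10, mul_11, U, ha']
      · rw [← pow_two, ha]
      · ring
      · rw [← pow_two, ha]
    let p := ringChar F
    have hp : p.Prime := by
      rcases CharP.char_is_prime_or_zero F p with h | h
      · exact h
      · exfalso
        have := CharP.charP_iff_prime_eq_zero (R := F) (p := p)
        have hch : (Fintype.card F : F) = 0 := Nat.cast_card_eq_zero F
        have h5 := (CharP.cast_eq_zero_iff F p (Fintype.card F)).mp hch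
        rw [h] at h5
        have := Nat.eq_zero_of_zero_dvd h5
        omega
    have hpF : (p : F) = 0 := ringChar.Nat.cast_ringChar
    have h3 : (bsMk a t : SL2 F) ^ (2 * p) = 1 := by
      rw [pow_mul, h2, U_pow, hpF, zero_mul]
      apply sl_ext <;> simp [U]
    have h4 := orderOf_dvd_of_pow_eq_one h3
    rw [ho2] at h4
    have hpq : p ∣ Fintype.card F := (CharP.cast_eq_zero_iff F p (Fintype.card F)).mp (Nat.cast_card_eq_zero F)
    have hco : Nat.Coprime (Fintype.card F + 1) p := by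
      apply Nat.Coprime.symm
      apply (Nat.Prime.coprime_iff_not_dvd hp).mpr
      intro h
      have := (Nat.dvd_add_right hpq).mp h
      exact hp.one_lt.ne' (Nat.dvd_one.mp this)
    have h5 := hco.dvd_of_dvd_mul_right h4
    have := Nat.le_of_dvd (by norm_num) h5
    omega
  · -- diagonalisable
    have ha2 : a ≠ a⁻¹ := fun h => a_sq_ne ha (congrArg Units.val h)
    have hconj2 := bsMk_conj a ha2 t
    obtain ⟨y, hy⟩ := isConj_iff.mp hconj2
    have ho3 : orderOf (bsMk a 0 : SL2 F) = Fintype.card F + 1 := by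
      rw [← ho2, ← hy]
      exact (orderOf_injective (MulAut.conj y).toMonoidHom (MulEquiv.injective _) _).symm
    have h1 : (bsMk a 0 : SL2 F) = dg a := rfl
    have h2 : (dg a) ^ (Fintype.card F - 1) = 1 := by
      rw [← map_pow]
      have : a ^ (Fintype.card F - 1) = 1 := by
        rw [← Fintype.card_units, pow_card_eq_one]
      rw [this, map_one]
    have h4 := orderOf_dvd_of_pow_eq_one h2
    rw [← h1, ho3] at h4
    have := Nat.le_of_dvd (by omega) h4
    omega

theorem exists_ell_gen (hodd : Odd (Fintype.card F)) (C : Subgroup (SL2 F)) (hC : IsCyclic C)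
    (hcard : Nat.card C = Fintype.card F + 1) : ∃ g₀ : SL2 F, Ell g₀ ∧ C = TT g₀ := by
  classical
  obtain ⟨c, hc⟩ := IsCyclic.exists_generator (α := C)
  have ho : orderOf (c : SL2 F) = Fintype.card F + 1 := by
    rw [Subgroup.orderOf_coe, orderOf_eq_card_of_forall_mem_zpowers hc, hcard]
  have hE := ell_of_order hodd ho
  refine ⟨c, hE, ?_⟩
  apply Subgroup.eq_of_le_of_card_ge
  · intro x hx
    rw [Subgroup.mem_centralizer_singleton_iff]
    obtain ⟨k, hk⟩ := Subgroup.mem_zpowers_iff.mp (hc ⟨x, hx⟩)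
    have hk' : (c : SL2 F) ^ k = x := congrArg Subtype.val hk
    rw [← hk']
    exact (Commute.zpow_left (Commute.refl (c : SL2 F)) k)
  · rw [hcard, cent_card hodd hE]

theorem central_cases (hodd : Odd (Fintype.card F)) (hg : Ell g₀) (c : TT g₀) (hc : (c : SL2 F) ∈ Subgroup.center (SL2 F)) :
    c = 1 ∨ c = zT g₀ := by
  by_contra hcon
  push Not at hcon
  have h1 : (c : SL2 F) ≠ 1 := fun h => hcon.1 (Subtype.ext h)
  have h2 : (c : SL2 F) ≠ zS F := fun h => hcon.2 (Subtype.ext h)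
  obtain ⟨s, hs⟩ := exists_inv_conj hodd hg
  have h3 : s ∈ Subgroup.centralizer ({(c : SL2 F)} : Set (SL2 F)) := by
    rw [Subgroup.mem_centralizer_singleton_iff]
    exact Subgroup.mem_center_iff.mp hc s
  rw [cent_eq_of_mem hg.h10 c.2 h1 h2, Subgroup.mem_centralizer_singleton_iff] at h3
  rw [h3] at hs
  apply g_ne_inv hodd hg
  rw [← hs]
  group

theorem z_center : zS F ∈ Subgroup.center (SL2 F) :=
  Subgroup.mem_center_iff.mpr fun g => (zS_central g).symm

/-- The first half of the main statement. -/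
theorem cusp_forward (hodd : Odd (Fintype.card F)) (hg : Ell g₀) (θ : TT g₀ →* ℂˣ) (hθ : ∃ c, θ c ^ 2 ≠ 1) :
    ∃ χ : SL2 F → ℂ, IsIrrCharacter (SL2 F) χ ∧ χ 1 = (Fintype.card F : ℂ) - 1 ∧
      (∀ c : TT g₀, (c : SL2 F) ∉ Subgroup.center (SL2 F) → χ c = -((θ c).val + (θ c)⁻¹.val)) ∧
      (∀ c : TT g₀, (c : SL2 F) ∈ Subgroup.center (SL2 F) → ∀ g : SL2 F, χ ((c : SL2 F) * g) = (θ c).val * χ g) ∧
      (∀ g : SL2 F, g.1 0 1 = 0 → g.1 1 0 = 0 → g.1 0 0 ^ 2 ≠ 1 → χ g = 0) ∧
      (∀ g : SL2 F, g.1 1 0 = 0 → g.1 0 0 = 1 → g.1 1 1 = 1 → g.1 0 1 ≠ 0 → χ g = -1) := by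
  refine ⟨Lm hodd θ, Lm_irr hodd hg θ hθ, Lm_one hodd hg θ, fun c hc => ?_, fun c hc g => ?_,
    fun g h1 h2 h3 => Lm_reg hodd hg θ h1 h2 h3, fun g h1 h2 h3 h4 => Lm_unip hodd hg θ h1 h2 h3 h4⟩
  · apply Lm_noncentral hodd hg θ c
    · intro h
      apply hc
      rw [h]
      exact Subgroup.one_mem _
    · intro h
      apply hc
      rw [h]
      exact z_center
  · rcases central_cases hodd hg c hc with rfl | rfl
    · simp
    · have h1 := central_mul (Lm_irr hodd hg θ hθ) zS_central g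
      have h2 := Lm_z hodd hg θ
      have h3 := Lm_one hodd hg θ
      have hne := q_sub_one_ne (F := F)
      rw [h2, h3] at h1
      apply mul_right_cancel₀ hne
      show Lm hodd θ (zS F * g) * _ = _
      rw [h1]
      ring

/-- The case of three elements. -/
theorem cusp_q3 (hodd : Odd (Fintype.card F)) (hq : Fintype.card F = 3) (hg : Ell g₀) {χ : SL2 F → ℂ}
    (hχ : IsIrrCharacter (SL2 F) χ) (hd : χ 1 = (Fintype.card F : ℂ) - 1) :
    ∃ θ : TT g₀ →* ℂˣ, (∃ c, θ c ^ 2 ≠ 1) ∧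
      ∀ c : TT g₀, (c : SL2 F) ∉ Subgroup.center (SL2 F) → χ c = -((θ c).val + (θ c)⁻¹.val) := by
  classical
  haveI hfin : Finite (TT g₀ →* ℂˣ) := hom_finite (T_comm hg)
  letI : Fintype (TT g₀ →* ℂˣ) := Fintype.ofFinite _
  have hex : ∃ θ : TT g₀ →* ℂˣ, ∃ c, θ c ^ 2 ≠ 1 := by
    by_contra hcon
    push Not at hcon
    have h1 : Nat.card (TT g₀ →* ℂˣ) = Fintype.card F + 1 := by
      rw [card_hom_comm (T_comm hg), cent_card hodd hg]
    have h2 : (Finset.univ : Finset (TT g₀ →* ℂˣ)) ⊆ {1, sgn hodd hg} := by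
      intro θ _
      simp only [Finset.mem_insert, Finset.mem_singleton]
      exact sq_cases hodd hg θ (hcon θ)
    have h3 := Finset.card_le_card h2
    rw [Finset.card_univ, ← Nat.card_eq_fintype_card, h1] at h3
    have h4 : ({1, sgn hodd hg} : Finset (TT g₀ →* ℂˣ)).card ≤ 2 := Finset.card_le_two
    omega
  obtain ⟨θ, c₁, hc₁⟩ := hex
  have hm : (Fintype.card F + 1) / 2 = 2 := by omega
  have hz : θ (zT g₀) = -1 := by
    have h1 : c₁ ^ 2 ≠ 1 := by
      intro h
      apply hc₁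
      rw [← map_pow, h, map_one]
    have h2 : c₁ ^ 2 = zT g₀ := by
      have := pow_half_cases hodd hg c₁
      rw [hm] at this
      exact this.resolve_left h1
    have h3 : θ (zT g₀) ≠ 1 := by
      rw [← h2, map_pow]
      exact hc₁
    have h4 := zT_sq θ
    have h5 : (((θ (zT g₀) : ℂˣ) : ℂ) - 1) * (((θ (zT g₀) : ℂˣ) : ℂ) + 1) = 0 := by linear_combination h4
    rcases mul_eq_zero.mp h5 with h6 | h6
    · exact absurd (Units.ext (by simpa using (by linear_combination h6 : ((θ (zT g₀) : ℂˣ) : ℂ) = 1))) h3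
    · exact Units.ext (by simpa using (by linear_combination h6 : ((θ (zT g₀) : ℂˣ) : ℂ) = -1))
  refine ⟨θ, ⟨c₁, hc₁⟩, fun c hc => ?_⟩
  have h1 : (c : SL2 F) ≠ 1 := by
    intro h
    apply hc
    rw [h]
    exact Subgroup.one_mem _
  have h2 : (c : SL2 F) ≠ zS F := by
    intro h
    apply hc
    rw [h]
    exact z_center
  have hE := T_ell hg c.2 h1 h2
  have h3 : χ 1 = 2 := by
    rw [hd, hq]
    norm_num
  rw [q3_vanish hq hχ h3 hE]
  have h4 : c ^ 2 = zT g₀ := by
    have := pow_half_cases hodd hg c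
    rw [hm] at this
    apply this.resolve_left
    intro h5
    have h6 : ((c : SL2 F)) ^ 2 = 1 := congrArg Subtype.val h5
    rcases sq_eq_one_iff hodd h6 with h7 | h7
    · exact h1 h7
    · exact h2 h7
  have h5 : θ c ^ 2 = -1 := by
    rw [← map_pow, h4, hz]
  have h6 : ((θ c : ℂˣ) : ℂ) ^ 2 = -1 := by
    rw [← Units.val_pow_eq_pow_val, h5]
    simp
  have hne : ((θ c : ℂˣ) : ℂ) ≠ 0 := (θ c).ne_zero
  simp only [Units.val_inv_eq_inv_val]
  field_simp
  linear_combination h6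

/-- The main theorem on the cuspidal characters of degree `q - 1`. -/
theorem cusp_main (hodd : Odd (Fintype.card F)) (C : Subgroup (SL2 F)) (hC : IsCyclic C)
    (hcard : Nat.card C = Fintype.card F + 1) :
    (∀ θ : C →* ℂˣ, (∃ c : C, θ c ^ 2 ≠ 1) →
      ∃ χ : SL2 F → ℂ, IsIrrCharacter (SL2 F) χ ∧ χ 1 = (Fintype.card F : ℂ) - 1 ∧
        (∀ c : C, (c : SL2 F) ∉ Subgroup.center (SL2 F) → χ c = -((θ c).val + (θ c)⁻¹.val)) ∧
        (∀ c : C, (c : SL2 F) ∈ Subgroup.center (SL2 F) → ∀ g : SL2 F, χ ((c : SL2 F) * g) = (θ c).val * χ g) ∧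
        (∀ g : SL2 F, g.1 0 1 = 0 → g.1 1 0 = 0 → g.1 0 0 ^ 2 ≠ 1 → χ g = 0) ∧
        (∀ g : SL2 F, g.1 1 0 = 0 → g.1 0 0 = 1 → g.1 1 1 = 1 → g.1 0 1 ≠ 0 → χ g = -1)) ∧
    (∀ χ : SL2 F → ℂ, IsIrrCharacter (SL2 F) χ → χ 1 = (Fintype.card F : ℂ) - 1 →
      ∃ θ : C →* ℂˣ, (∃ c : C, θ c ^ 2 ≠ 1) ∧
        ∀ c : C, (c : SL2 F) ∉ Subgroup.center (SL2 F) → χ c = -((θ c).val + (θ c)⁻¹.val)) := by
  classical
  obtain ⟨g₀, hg, rfl⟩ := exists_ell_gen hodd C hC hcard
  letI : Fintype (TT g₀) := Fintype.ofFinite _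
  refine ⟨fun θ hθ => cusp_forward hodd hg θ hθ, fun χ hχ hd => ?_⟩
  obtain ⟨n, hn⟩ := id hodd
  have hq := Fintype.one_lt_card (α := F)
  by_cases h5 : 5 ≤ Fintype.card F
  · obtain ⟨θ, hθ, rfl⟩ := Lm_surj hodd h5 hg hχ hd
    refine ⟨θ, hθ, fun c hc => ?_⟩
    apply Lm_noncentral hodd hg θ c
    · intro h
      apply hc
      rw [h]
      exact Subgroup.one_mem _
    · intro h
      apply hc
      rw [h]
      exact z_center
  · exact cusp_q3 hodd (by omega) hg hχ hd

/-! ### The sum over the cuspidal characters of degree `q - 1` -/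

open scoped Classical in
/-- The sum over the cuspidal characters of degree `q - 1`. -/
theorem sum_cusp (hodd : Odd (Fintype.card F)) (hq : 5 ≤ Fintype.card F) (hg : Ell g₀) (n : ℕ)
    (hn : Fintype.card F = 2 * n + 1) (x : TT g₀) (hx1 : x ≠ 1) (hxz : x ≠ zT g₀) :
    ∑ ψ ∈ (Finset.univ.filter fun χ : IrrCharacter (SL2 F) => PCS χ.1 ∧ χ.1 1 = ((2 * n : ℕ) : ℂ)), ψ.1 (x : SL2 F) =
      1 + ((sgn hodd hg x : ℂˣ) : ℂ) := by
  classical
  have hn2 : 2 ≤ n := by omega
  haveI hfin : Finite (TT g₀ →* ℂˣ) := hom_finite (T_comm hg)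
  letI : Fintype (TT g₀ →* ℂˣ) := Fintype.ofFinite _
  obtain ⟨c₀, hc₀, ho₀⟩ := exists_gen hodd hg
  have hc₀1 : (c₀ : SL2 F) ≠ 1 := by
    intro h
    have : c₀ = 1 := Subtype.ext h
    rw [this, orderOf_one] at ho₀
    omega
  have hc₀z : (c₀ : SL2 F) ≠ zS F := by
    intro h
    have h1 : c₀ * c₀ = 1 := by
      apply Subtype.ext
      show (c₀ : SL2 F) * c₀ = 1
      rw [h, zS_sq]
    have h2 : c₀ ^ 2 = 1 := by rw [pow_two, h1]
    have h3 := orderOf_dvd_of_pow_eq_one h2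
    rw [ho₀] at h3
    have := Nat.le_of_dvd (by norm_num) h3
    omega
  let Θ := {θ : TT g₀ →* ℂˣ // ∃ c, θ c ^ 2 ≠ 1}
  have h2filter : (Finset.univ.filter fun θ : TT g₀ →* ℂˣ => ¬ ∃ c, θ c ^ 2 ≠ 1) = {1, sgn hodd hg} := by
    ext θ
    simp only [Finset.mem_filter, Finset.mem_univ, true_and, Finset.mem_insert, Finset.mem_singleton]
    push Not
    constructor
    · exact sq_cases hodd hg θ
    · rintro (rfl | rfl)
      · simp
      · exact sgn_sq hodd hg
  have hΘ : Fintype.card Θ = Fintype.card F - 1 := by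
    have h1 : Nat.card (TT g₀ →* ℂˣ) = Fintype.card F + 1 := by
      rw [card_hom_comm (T_comm hg), cent_card hodd hg]
    have h3 := Finset.card_filter_add_card_filter_not (s := (Finset.univ : Finset (TT g₀ →* ℂˣ))) (fun θ => ∃ c, θ c ^ 2 ≠ 1)
    rw [h2filter, Finset.card_pair (sgn_ne_one hodd hg).symm, Finset.card_univ, ← Nat.card_eq_fintype_card, h1] at h3
    rw [Fintype.card_subtype]
    omega
  let f : Θ → IrrCharacter (SL2 F) := fun θ => ⟨Lm hodd θ.1, Lm_irr hodd hg θ.1 θ.2⟩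
  have hfib : ∀ x y : Θ, f x = f y → y = x ∨ (y.1 = x.1⁻¹) := by
    intro x y h
    have h1 : Lm hodd x.1 = Lm hodd y.1 := congrArg Subtype.val h
    have h2 := congrFun h1 (c₀ : SL2 F)
    rw [Lm_noncentral hodd hg _ c₀ hc₀1 hc₀z, Lm_noncentral hodd hg _ c₀ hc₀1 hc₀z, neg_inj] at h2
    rcases units_sum_eq h2 with h3 | h3
    · left
      exact Subtype.ext (hom_eq_of_gen hc₀ h3).symm
    · right
      apply hom_eq_of_gen hc₀
      rw [MonoidHom.inv_apply, h3, inv_inv]
  obtain ⟨hm1, ⟨hm2, hm3, hm4, hm5⟩, hm6⟩ := SL2O_main (F := F) hodd n hn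
  set A := Finset.univ.filter fun χ : IrrCharacter (SL2 F) => PCS χ.1 ∧ χ.1 1 = ((2 * n : ℕ) : ℂ) with hA
  have hq2 : (Fintype.card F : ℂ) - 1 = ((2 * n : ℕ) : ℂ) := by
    rw [hn]
    push_cast
    ring
  have hmaps : ∀ θ ∈ (Finset.univ : Finset Θ), f θ ∈ A := by
    intro θ _
    simp only [hA, Finset.mem_filter, Finset.mem_univ, true_and]
    have h1 : (f θ).1 1 = ((2 * n : ℕ) : ℂ) := by
      show Lm hodd θ.1 1 = _
      rw [Lm_one hodd hg, hq2]
    exact ⟨(type_of_deg hodd n hn hn2 (f θ).2 (2 * n) h1).2.2.2.2.1 rfl, h1⟩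
  have hfle : ∀ b ∈ A, (Finset.univ.filter fun y : Θ => f y = b).card ≤ 2 := by
    intro b _
    by_cases hne : ∃ x : Θ, f x = b
    · obtain ⟨x, rfl⟩ := hne
      by_cases hxinv : ∃ h : ∃ c, (x.1⁻¹) c ^ 2 ≠ 1, True
      · obtain ⟨hx', -⟩ := hxinv
        have : (Finset.univ.filter fun y : Θ => f y = f x) ⊆ {x, ⟨x.1⁻¹, hx'⟩} := by
          intro y hy
          simp only [Finset.mem_filter, Finset.mem_univ, true_and] at hy
          simp only [Finset.mem_insert, Finset.mem_singleton]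
          rcases hfib x y hy.symm with h | h
          · left; exact h
          · right; exact Subtype.ext h
        exact (Finset.card_le_card this).trans Finset.card_le_two
      · have : (Finset.univ.filter fun y : Θ => f y = f x) ⊆ {x} := by
          intro y hy
          simp only [Finset.mem_filter, Finset.mem_univ, true_and] at hy
          simp only [Finset.mem_singleton]
          rcases hfib x y hy.symm with h | h
          · exact h
          · exfalso
            apply hxinv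
            refine ⟨?_, trivial⟩
            rw [← h]
            exact y.2
        exact (Finset.card_le_card this).trans (by simp)
    · push Not at hne
      rw [Finset.filter_false_of_mem (fun y _ => hne y)]
      simp
  have hsumcard : ∑ b ∈ A, (Finset.univ.filter fun y : Θ => f y = b).card = 2 * A.card := by
    rw [← Finset.card_eq_sum_card_fiberwise hmaps, Finset.card_univ, hΘ, hm3, hn]
    omega
  have hfeq : ∀ b ∈ A, (Finset.univ.filter fun y : Θ => f y = b).card = 2 := by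
    have h1 : ∑ b ∈ A, (Finset.univ.filter fun y : Θ => f y = b).card = ∑ b ∈ A, 2 := by
      rw [hsumcard, Finset.sum_const, smul_eq_mul, mul_comm]
    exact (Finset.sum_eq_sum_iff_of_le hfle).mp h1
  -- the sum over `Θ`
  have hx1' : (x : SL2 F) ≠ 1 := fun h => hx1 (Subtype.ext h)
  have hxz' : (x : SL2 F) ≠ zS F := fun h => hxz (Subtype.ext h)
  have hS1 : ∑ θ : Θ, (f θ).1 (x : SL2 F) = 2 * ∑ ψ ∈ A, ψ.1 (x : SL2 F) := by
    rw [← Finset.sum_fiberwise_of_maps_to hmaps, Finset.mul_sum]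
    refine Finset.sum_congr rfl fun b hb => ?_
    rw [Finset.sum_congr rfl (g := fun _ => b.1 (x : SL2 F))]
    · rw [Finset.sum_const, hfeq b hb]
      simp
    · intro y hy
      rw [(Finset.mem_filter.mp hy).2]
  have hS2 : ∑ θ : Θ, (f θ).1 (x : SL2 F) =
      -(∑ θ : Θ, ((θ.1 x : ℂˣ) : ℂ) + ∑ θ : Θ, (((θ.1 x)⁻¹ : ℂˣ) : ℂ)) := by
    rw [← Finset.sum_add_distrib, ← Finset.sum_neg_distrib]
    refine Finset.sum_congr rfl fun θ _ => ?_
    exact Lm_noncentral hodd hg θ.1 x hx1' hxz'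
  have hinvΘ : ∑ θ : Θ, (((θ.1 x)⁻¹ : ℂˣ) : ℂ) = ∑ θ : Θ, ((θ.1 x : ℂˣ) : ℂ) := by
    let e : Θ ≃ Θ :=
      { toFun := fun θ => ⟨θ.1⁻¹, by
          obtain ⟨c, hc⟩ := θ.2
          refine ⟨c, fun h => hc ?_⟩
          rw [MonoidHom.inv_apply, inv_pow, inv_eq_one] at h
          exact h⟩
        invFun := fun θ => ⟨θ.1⁻¹, by
          obtain ⟨c, hc⟩ := θ.2
          refine ⟨c, fun h => hc ?_⟩
          rw [MonoidHom.inv_apply, inv_pow, inv_eq_one] at h
          exact h⟩
        left_inv := fun θ => Subtype.ext (MonoidHom.ext fun c => by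
          show ((θ.1)⁻¹ c)⁻¹ = _
          rw [MonoidHom.inv_apply, inv_inv])
        right_inv := fun θ => Subtype.ext (MonoidHom.ext fun c => by
          show ((θ.1)⁻¹ c)⁻¹ = _
          rw [MonoidHom.inv_apply, inv_inv]) }
    exact Fintype.sum_equiv e _ _ (fun θ => by simp [e])
  have hS3 : ∑ θ : Θ, ((θ.1 x : ℂˣ) : ℂ) = - 1 - ((sgn hodd hg x : ℂˣ) : ℂ) := by
    have h1 : ∑ θ : TT g₀ →* ℂˣ, ((θ x : ℂˣ) : ℂ) = 0 := by
      have h2 := sum_hom_orth (T_comm hg) x 1
      rw [if_neg hx1] at h2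
      simpa using h2
    rw [← Finset.sum_filter_add_sum_filter_not Finset.univ (fun θ : TT g₀ →* ℂˣ => ∃ c, θ c ^ 2 ≠ 1), h2filter,
      Finset.sum_pair (sgn_ne_one hodd hg).symm] at h1
    have h3 : ∑ θ : Θ, ((θ.1 x : ℂˣ) : ℂ) = ∑ θ ∈ Finset.univ.filter (fun θ : TT g₀ →* ℂˣ => ∃ c, θ c ^ 2 ≠ 1), ((θ x : ℂˣ) : ℂ) :=
      (Finset.sum_subtype (Finset.univ.filter (fun θ : TT g₀ →* ℂˣ => ∃ c, θ c ^ 2 ≠ 1))
        (fun θ => by rw [Finset.mem_filter]; exact and_iff_right (Finset.mem_univ _))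
        (fun θ : TT g₀ →* ℂˣ => ((θ x : ℂˣ) : ℂ))).symm
    rw [h3]
    simp only [MonoidHom.one_apply, Units.val_one] at h1
    linear_combination h1
  rw [hS2, hinvΘ, hS3] at hS1
  have h2ne : (2 : ℂ) ≠ 0 := two_ne_zero
  apply mul_left_cancel₀ h2ne
  rw [← hS1]
  ring

end Main

end CfsgLib.H9.Torus
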