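import Cfsg.Agent.Lib.H9.SL2Cusp

/-! Values of the characters of `SL₂` of degree `(q ± 1) / 2`. -/

set_option autoImplicit false
set_option linter.unusedSectionVars false
set_option linter.unusedVariables false
set_option linter.style.haveILetI false
set_option linter.unusedSimpArgs false

namespace CfsgLib.H9.Torus

open Cfsg CfsgLib.Char CfsgLib.H9.SL2Cl CfsgLib.H9.BorelChar Matrix
open scoped ComplexConjugate

variable {F : Type*} [Field F] [Fintype F] [Fintype (SL2 F)] [Fintype (GL2 F)]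

theorem half_diag (hodd : Odd (Fintype.card F)) (hq : 5 ≤ Fintype.card F) {χ : SL2 F → ℂ}
    (hχ : IsIrrCharacter (SL2 F) χ) (hd : χ 1 = (((Fintype.card F + 1) / 2 : ℕ) : ℂ)) {g : SL2 F}
    (h01 : g.1 0 1 = 0) (h10 : g.1 1 0 = 0) (hsq : g.1 0 0 ^ 2 ≠ 1) : χ g = qc F (g.1 0 0) := by
  obtain ⟨n, hn⟩ := id hodd
  have h2 : (Fintype.card F + 1) / 2 = n + 1 := by omega
  have hn2 : 2 ≤ n := by omega
  rw [h2] at hd
  obtain ⟨d, hd', hd0, hc⟩ := type_cases hχ
  have h3 : d = n + 1 := by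
    rw [hd] at hd'
    exact_mod_cast hd'.symm
  rcases hc with ⟨-, h4⟩ | ⟨-, h4⟩ | ⟨-, h4⟩ | ⟨⟨α, χ', ν, hα1, hα2, hχ', -, hs, hcc⟩, -⟩ | ⟨h4, -⟩
  · omega
  · omega
  · omega
  · rw [sq_eq_one_iff_odd hodd hα1 hα2] at hs
    have hsg : sg ν g = g := by
      apply sl_ext <;> simp [h01, h10]
    have h5 := hcc g
    rw [hsg] at h5
    have h6 := congrFun hs g
    rw [Pi.add_apply, h5] at h6
    have hdet := det_eq g
    rw [h01, zero_mul, sub_zero] at hdet
    have hne := val_diag_one (g := g) h01 h10 hsq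
    rw [RS, indFun_SL, val_regular _ _ (g := SpecialLinearGroup.toGL g) h10 hne] at h6
    have ha : IsUnit (g.1 0 0) := IsUnit.of_mul_eq_one _ hdet
    have hb : IsUnit (g.1 1 1) := IsUnit.of_mul_eq_one _ (by rw [mul_comm]; exact hdet)
    have e1 : (SpecialLinearGroup.toGL g).1 0 0 = g.1 0 0 := rfl
    have e2 : (SpecialLinearGroup.toGL g).1 1 1 = g.1 1 1 := rfl
    rw [e1, e2, MulChar.one_apply ha, MulChar.one_apply hb, mul_one, mul_one] at h6
    have hq1 : qc F (g.1 1 1) = qc F (g.1 0 0) := by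
      have h7 : qc F (g.1 0 0) * qc F (g.1 1 1) = 1 := by
        rw [← map_mul, hdet, map_one]
      have h8 := qc_mul_self ha.ne_zero hodd
      calc qc F (g.1 1 1) = qc F (g.1 0 0) * qc F (g.1 0 0) * qc F (g.1 1 1) := by rw [h8, one_mul]
        _ = qc F (g.1 0 0) * (qc F (g.1 0 0) * qc F (g.1 1 1)) := by ring
        _ = qc F (g.1 0 0) := by rw [h7, mul_one]
    rw [hq1] at h6
    have h9 : (2 : ℂ) * (χ g - qc F (g.1 0 0)) = 0 := by linear_combination -h6
    have := (mul_eq_zero.mp h9).resolve_left two_ne_zero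
    linear_combination this
  · exact absurd h4 (not_PCS_D2 ((type_of_deg hodd n hn hn2 hχ (n + 1) hd).2.2.2.1 rfl))

theorem ell_sg_conj (hodd : Odd (Fintype.card F)) {g : SL2 F} (hE : Ell g) (ν : Fˣ) : IsConj g (sg ν g) := by
  apply conj_of_trace (Nat.odd_iff.mp hodd) (two_ne hodd) hE.not_sc _ _ (hE.tr_sq hodd)
  · intro hh
    apply hE.h10
    have h3 : ((ν⁻¹ : Fˣ) : F) * g.1 1 0 = 0 := hh.2.1
    simpa using h3
  · simp [trS]

theorem ell_ne (hE : ∀ {g : SL2 F}, True) {g : SL2 F} (h : Ell g) : g ≠ 1 ∧ g ≠ zS F := by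
  constructor
  · rintro rfl
    exact h.h10 rfl
  · rintro rfl
    exact h.h10 rfl

/-- The value of a character of degree `(q - 1) / 2` at an elliptic element. -/
theorem half_ell (hodd : Odd (Fintype.card F)) (hq : 5 ≤ Fintype.card F) {χ : SL2 F → ℂ}
    (hχ : IsIrrCharacter (SL2 F) χ) (hd : χ 1 = (((Fintype.card F - 1) / 2 : ℕ) : ℂ)) {g : SL2 F}
    [Fintype (TT g)] (hE : Ell g) : χ g = -((sgn hodd hE ⟨g, self_mem g⟩ : ℂˣ) : ℂ) := by
  classical
  obtain ⟨n, hn⟩ := id hodd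
  have h1 : (Fintype.card F - 1) / 2 = n := by omega
  have hn2 : 2 ≤ n := by omega
  have hn0 : 0 < n := by omega
  rw [h1] at hd
  obtain ⟨hg1, hgz⟩ := ell_ne (F := F) trivial hE
  obtain ⟨hm1, ⟨hm2, hm3, hm4, hm5⟩, hm6⟩ := SL2O_main (F := F) hodd n hn
  have hP := (type_of_deg hodd n hn hn2 hχ n hd).2.2.2.2.2 rfl
  have h0 := column_orthogonality (G := SL2 F) g 1
  rw [if_neg (fun h => hg1 (isConj_one_right.mp h.symm))] at h0
  set f : IrrCharacter (SL2 F) → ℂ := fun ψ => ψ.1 g * conj (ψ.1 1) with hf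
  let one : IrrCharacter (SL2 F) := ⟨oneS, oneS_isIrr⟩
  let St : IrrCharacter (SL2 F) := ⟨StS, isIrr_StS⟩
  set AC := Finset.univ.filter fun ψ : IrrCharacter (SL2 F) => PCS ψ.1 with hAC
  have h1AC : one ∉ AC := by
    simp only [hAC, Finset.mem_filter, Finset.mem_univ, true_and]
    exact not_PCS_one
  have h2AC : St ∉ AC := by
    simp only [hAC, Finset.mem_filter, Finset.mem_univ, true_and]
    exact not_PCS_St
  have hne12 : one ≠ St := fun h => oneS_ne_StS (congrArg Subtype.val h)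
  have hsupp : ∀ ψ ∈ (Finset.univ : Finset (IrrCharacter (SL2 F))), ψ ∉ insert one (insert St AC) → f ψ = 0 := by
    intro ψ _ hψ
    simp only [Finset.mem_insert, not_or] at hψ
    obtain ⟨h3, h4, h5⟩ := hψ
    have h6 : ψ.1 g = 0 := by
      rcases classifyO hodd ψ.2 with h | h | h | h | h
      · exact absurd (Subtype.ext h) h3
      · exact absurd (Subtype.ext h) h4
      · exact half_vanish hodd n hn ψ.2 (hm6 ψ.1 ψ.2 h) hE
      · obtain ⟨α, -, h7⟩ := h
        rw [h7]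
        exact RS_ell α hE
      · exfalso
        apply h5
        simp only [hAC, Finset.mem_filter, Finset.mem_univ, true_and]
        exact h
    simp only [hf, h6, zero_mul]
  rw [← Finset.sum_subset (Finset.subset_univ _) hsupp,
    Finset.sum_insert (by simp [hne12, h1AC]), Finset.sum_insert h2AC] at h0
  have hone : f one = 1 := by
    simp [hf, one, oneS]
  have hSt : f St = -(Fintype.card F : ℂ) := by
    simp only [hf, St]
    rw [StS_one_val, (StS_values (g := g)).2.1 hE, Complex.conj_natCast]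
    ring
  rw [hone, hSt] at h0
  -- split the cuspidal part
  set B := Finset.univ.filter fun ψ : IrrCharacter (SL2 F) => PCS ψ.1 ∧ ψ.1 1 = (n : ℂ) with hB
  set A := Finset.univ.filter fun ψ : IrrCharacter (SL2 F) => PCS ψ.1 ∧ ψ.1 1 = ((2 * n : ℕ) : ℂ) with hA
  have hnne : (n : ℂ) ≠ ((2 * n : ℕ) : ℂ) := by
    intro h
    have : n = 2 * n := by exact_mod_cast h
    omega
  have hsplit : ∑ ψ ∈ AC, f ψ = ∑ ψ ∈ B, f ψ + ∑ ψ ∈ A, f ψ := by
    rw [← Finset.sum_filter_add_sum_filter_not AC (fun ψ => ψ.1 1 = (n : ℂ))]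
    congr 1
    · congr 1
      ext ψ
      simp only [hAC, hB, Finset.mem_filter, Finset.mem_univ, true_and]
    · congr 1
      ext ψ
      simp only [hAC, hA, Finset.mem_filter, Finset.mem_univ, true_and]
      constructor
      · rintro ⟨h3, h4⟩
        exact ⟨h3, (hm1 ψ h3).resolve_left h4⟩
      · rintro ⟨h3, h4⟩
        refine ⟨h3, fun h5 => hnne ?_⟩
        rw [← h5, h4]
  rw [hsplit] at h0
  -- the part `A`
  have hAval : ∑ ψ ∈ A, f ψ = ((2 * n : ℕ) : ℂ) * (1 + ((sgn hodd hE ⟨g, self_mem g⟩ : ℂˣ) : ℂ)) := by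
    have h3 := sum_cusp hodd hq hE n hn ⟨g, self_mem g⟩ (fun h => hg1 (congrArg Subtype.val h))
      (fun h => hgz (congrArg Subtype.val h))
    rw [← h3, Finset.mul_sum]
    refine Finset.sum_congr rfl fun ψ hψ => ?_
    simp only [hA, Finset.mem_filter, Finset.mem_univ, true_and] at hψ
    simp only [hf]
    rw [hψ.2, Complex.conj_natCast]
    ring
  -- the part `B`
  obtain ⟨ν₀, hν₀⟩ := exists_nonsquare' (F := F) hodd
  have hν0 : ν₀ ≠ 0 := fun h => hν₀ (h ▸ IsSquare.zero)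
  let ν : Fˣ := Units.mk0 ν₀ hν0
  have hsum0 : ∑ t : F, χ (U t) = ((0 : ℕ) : ℂ) * (Fintype.card F : ℂ) := by
    have := (sum_U_degrees hodd hq hχ).2.2.2.2 (by rw [h1]; exact hd)
    rw [this]
    simp
  have hd0 : χ 1 = ((n + 0 : ℕ) : ℂ) := by simpa using hd
  have hne2 := value_ne hodd hχ.isCharacter hν₀ n hn hn0 0 hd0 hsum0
  have hχ2 : IsIrrCharacter (SL2 F) (χ ∘ sg ν) := isIrr_comp_equiv (sg ν) hχ
  have hsg : (χ ∘ sg ν) (U 1) = χ (U ν₀) := by
    show χ (sg ν (U 1)) = _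
    rw [sg_U]
    simp [ν]
  have hcne : (⟨χ, hχ⟩ : IrrCharacter (SL2 F)) ≠ ⟨χ ∘ sg ν, hχ2⟩ := by
    intro h
    have h3 : χ = χ ∘ sg ν := congrArg Subtype.val h
    apply hne2
    rw [← hsg, ← h3]
  have hd2 : (χ ∘ sg ν) 1 = (n : ℂ) := by
    show χ (sg ν 1) = _
    rw [map_one, hd]
  have hBeq : B = {⟨χ, hχ⟩, ⟨χ ∘ sg ν, hχ2⟩} := by
    symm
    apply Finset.eq_of_subset_of_card_le
    · intro x hx
      simp only [Finset.mem_insert, Finset.mem_singleton] at hx
      simp only [hB, Finset.mem_filter, Finset.mem_univ, true_and]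
      rcases hx with rfl | rfl
      · exact ⟨hP, hd⟩
      · exact ⟨(type_of_deg hodd n hn hn2 hχ2 n hd2).2.2.2.2.2 rfl, hd2⟩
    · rw [hm2, Finset.card_pair hcne]
  have hBval : ∑ ψ ∈ B, f ψ = 2 * (n : ℂ) * χ g := by
    rw [hBeq, Finset.sum_pair hcne]
    simp only [hf]
    have h3 : (χ ∘ sg ν) g = χ g := (eq_of_isConj hχ.isClassFunction (ell_sg_conj hodd hE ν)).symm
    rw [h3, hd2, hd, Complex.conj_natCast]
    ring
  rw [hBval, hAval, hn] at h0
  push_cast at h0
  have hn0' : (n : ℂ) ≠ 0 := by exact_mod_cast hn0.ne'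
  apply mul_left_cancel₀ (mul_ne_zero two_ne_zero hn0')
  linear_combination h0

/-- The main theorem. -/
theorem half_main (hodd : Odd (Fintype.card F)) (hq : 5 ≤ Fintype.card F) {χ : SL2 F → ℂ}
    (hχ : IsIrrCharacter (SL2 F) χ) (g : SL2 F) :
    (χ 1 = (((Fintype.card F + 1) / 2 : ℕ) : ℂ) → g.1 0 1 = 0 → g.1 1 0 = 0 → g.1 0 0 ^ 2 ≠ 1 →
      (IsSquare (g.1 0 0) → χ g = 1) ∧ (¬ IsSquare (g.1 0 0) → χ g = -1)) ∧
    (χ 1 = (((Fintype.card F - 1) / 2 : ℕ) : ℂ) →
      (∀ (c : F) (v : Fin 2 → F), v ≠ 0 → (g : Matrix (Fin 2) (Fin 2) F).mulVec v ≠ c • v) →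
      ((g : Matrix (Fin 2) (Fin 2) F) ^ ((Fintype.card F + 1) / 2) = 1 → χ g = -1) ∧
      ((g : Matrix (Fin 2) (Fin 2) F) ^ ((Fintype.card F + 1) / 2) ≠ 1 → χ g = 1)) := by
  constructor
  · intro hd h01 h10 hsq
    have h0 : g.1 0 0 ≠ 0 := (ne_of_dt_zero (g := SpecialLinearGroup.toGL g) h10).1
    have h2 := half_diag hodd hq hχ hd h01 h10 hsq
    constructor
    · intro hs
      rw [h2, qc_of_square h0 hs]
    · intro hs
      rw [h2, qc_of_not_square hodd hs]
  · intro hd hE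
    classical
    letI : Fintype (TT g) := Fintype.ofFinite _
    have h2 := half_ell hodd hq hχ hd hE
    have ec : ∀ m : ℕ, (g ^ m : SL2 F).1 = (g : Matrix (Fin 2) (Fin 2) F) ^ m := fun m =>
      Matrix.SpecialLinearGroup.coe_pow g m
    have e : ∀ m : ℕ, ((⟨g, self_mem g⟩ : TT g) ^ m = 1) ↔ (g : Matrix (Fin 2) (Fin 2) F) ^ m = 1 := by
      intro m
      constructor
      · intro h
        have h3 : g ^ m = 1 := congrArg Subtype.val h
        rw [← ec, h3]
        rfl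
      · intro h
        apply Subtype.ext
        apply Subtype.ext
        exact (ec m).trans h
    constructor
    · intro h
      rw [h2, sgn_apply_of hodd hE ((e _).mpr h)]
      simp
    · intro h
      rw [h2, sgn_apply_not hodd hE (fun hh => h ((e _).mp hh))]
      simp

end CfsgLib.H9.Torus
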