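import Cfsg.Agent.Lib.H9.TorusSylow
import Cfsg.Agent.Lib.H9.PSL2Tools

/-! Sylow 2-subgroups of `SL₂` over a finite field of odd order. -/

set_option autoImplicit false
set_option linter.unusedSectionVars false
set_option linter.unusedVariables false
set_option linter.style.haveILetI false
set_option linter.unusedSimpArgs false

namespace CfsgLib.H9.SL2Sylow2

open CfsgLib.H9.SL2Cl CfsgLib.H9.Torus Matrix
open CfsgLib.H9.BorelChar (zS zS_00 zS_01 zS_10 zS_11 zS_central zS_sq)

variable {F : Type*} [Field F]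

/-- A non-scalar element of `SL₂` has an abelian centraliser. -/
theorem comm_of_nonscalar {g a b : SL2 F} (h1 : g ≠ 1) (h2 : g ≠ zS F) (ha : a * g = g * a)
    (hb : b * g = g * b) : a * b = b * a := by
  have a1 : a.1 0 1 * g.1 1 0 - g.1 0 1 * a.1 1 0 = 0 := by
    have := congrArg (fun x : SL2 F => x.1 0 0) ha
    simp only [mul_00] at this
    linear_combination this
  have a2 : (a.1 0 0 - a.1 1 1) * g.1 0 1 - a.1 0 1 * (g.1 0 0 - g.1 1 1) = 0 := by
    have := congrArg (fun x : SL2 F => x.1 0 1) ha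
    simp only [mul_01] at this
    linear_combination this
  have a3 : a.1 1 0 * (g.1 0 0 - g.1 1 1) - (a.1 0 0 - a.1 1 1) * g.1 1 0 = 0 := by
    have := congrArg (fun x : SL2 F => x.1 1 0) ha
    simp only [mul_10] at this
    linear_combination this
  have b1 : b.1 0 1 * g.1 1 0 - g.1 0 1 * b.1 1 0 = 0 := by
    have := congrArg (fun x : SL2 F => x.1 0 0) hb
    simp only [mul_00] at this
    linear_combination this
  have b2 : (b.1 0 0 - b.1 1 1) * g.1 0 1 - b.1 0 1 * (g.1 0 0 - g.1 1 1) = 0 := by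
    have := congrArg (fun x : SL2 F => x.1 0 1) hb
    simp only [mul_01] at this
    linear_combination this
  have b3 : b.1 1 0 * (g.1 0 0 - g.1 1 1) - (b.1 0 0 - b.1 1 1) * g.1 1 0 = 0 := by
    have := congrArg (fun x : SL2 F => x.1 1 0) hb
    simp only [mul_10] at this
    linear_combination this
  have key : a.1 0 1 * b.1 1 0 = b.1 0 1 * a.1 1 0 ∧
      (a.1 0 0 - a.1 1 1) * b.1 0 1 = (b.1 0 0 - b.1 1 1) * a.1 0 1 ∧
      (a.1 0 0 - a.1 1 1) * b.1 1 0 = (b.1 0 0 - b.1 1 1) * a.1 1 0 := by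
    by_cases h01 : g.1 0 1 = 0
    · by_cases h10 : g.1 1 0 = 0
      · have hG : g.1 0 0 - g.1 1 1 ≠ 0 := by
          intro hG
          have h3 : g.1 0 0 = g.1 1 1 := sub_eq_zero.mp hG
          have hd := det_eq g
          rw [h01, ← h3] at hd
          have hd' : g.1 0 0 * g.1 0 0 = 1 := by linear_combination hd
          rcases mul_self_eq_one_iff.mp hd' with h4 | h4
          · apply h1
            apply sl_ext
            · simpa using h4
            · simpa using h01
            · simpa using h10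
            · rw [← h3, h4]; simp
          · apply h2
            apply sl_ext
            · rw [zS_00, h4]
            · rw [zS_01, h01]
            · rw [zS_10, h10]
            · rw [zS_11, ← h3, h4]
        have a01 : a.1 0 1 = 0 := by
          rw [h01] at a2
          have : a.1 0 1 * (g.1 0 0 - g.1 1 1) = 0 := by linear_combination -a2
          exact (mul_eq_zero.mp this).resolve_right hG
        have a10 : a.1 1 0 = 0 := by
          rw [h10] at a3
          have : a.1 1 0 * (g.1 0 0 - g.1 1 1) = 0 := by linear_combination a3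
          exact (mul_eq_zero.mp this).resolve_right hG
        have b01 : b.1 0 1 = 0 := by
          rw [h01] at b2
          have : b.1 0 1 * (g.1 0 0 - g.1 1 1) = 0 := by linear_combination -b2
          exact (mul_eq_zero.mp this).resolve_right hG
        have b10 : b.1 1 0 = 0 := by
          rw [h10] at b3
          have : b.1 1 0 * (g.1 0 0 - g.1 1 1) = 0 := by linear_combination b3
          exact (mul_eq_zero.mp this).resolve_right hG
        rw [a01, a10, b01, b10]
        simp
      · have X : a.1 0 1 * b.1 1 0 = b.1 0 1 * a.1 1 0 :=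
          mul_left_cancel₀ h10 (by linear_combination (b.1 1 0) * a1 - (a.1 1 0) * b1)
        refine ⟨X, mul_left_cancel₀ h10 ?_, mul_left_cancel₀ h10 ?_⟩
        · linear_combination (-(b.1 0 1)) * a3 + (a.1 0 1) * b3 - (g.1 0 0 - g.1 1 1) * X
        · linear_combination (-(b.1 1 0)) * a3 + (a.1 1 0) * b3
    · have X : a.1 0 1 * b.1 1 0 = b.1 0 1 * a.1 1 0 :=
        mul_left_cancel₀ h01 (by linear_combination (-(a.1 0 1)) * b1 + (b.1 0 1) * a1)
      refine ⟨X, mul_left_cancel₀ h01 ?_, mul_left_cancel₀ h01 ?_⟩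
      · linear_combination (b.1 0 1) * a2 - (a.1 0 1) * b2
      · linear_combination (b.1 1 0) * a2 - (a.1 1 0) * b2 + (g.1 0 0 - g.1 1 1) * X
  obtain ⟨X, Y, Z⟩ := key
  apply sl_ext
  · simp only [mul_00]; linear_combination X
  · simp only [mul_01]; linear_combination Y
  · simp only [mul_10]; linear_combination -Z
  · simp only [mul_11]; linear_combination -X

variable [Fintype F]

theorem fac2 {k o : ℕ} (ho : Odd o) : (2 ^ k * o).factorization 2 = k := by
  have h0 : o ≠ 0 := ho.pos.ne'
  rw [Nat.factorization_mul (by positivity) h0]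
  simp [Nat.factorization_eq_zero_of_not_dvd (show ¬ 2 ∣ o from ho.not_two_dvd_nat), Nat.Prime.factorization_self Nat.prime_two]

/-- The key package for a torus. -/
theorem package2 (hodd : Odd (Fintype.card F))
    (T : Subgroup (SL2 F)) (m r : ℕ) (hcomm : ∀ a ∈ T, ∀ b ∈ T, a * b = b * a) (hcyc : IsCyclic T)
    (hself : ∀ x ∈ T, x ≠ 1 → x ≠ zS F → Subgroup.centralizer ({x} : Set (SL2 F)) = T)
    (hinv : ∀ x, x ∈ Subgroup.normalizer (T : Set (SL2 F)) → x ∉ T → ∀ a ∈ T, x * a * x⁻¹ = a⁻¹)
    (hT : Nat.card T = m) (hN : Nat.card (Subgroup.normalizer (T : Set (SL2 F))) = 2 * m)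
    (hm : 4 ∣ m) (hG : Nat.card (SL2 F) = m * r) (hr : r % 4 = 2) :
    ∃ P : Sylow 2 (SL2 F), (∃ x ∈ (P : Subgroup (SL2 F)), ∃ y ∈ (P : Subgroup (SL2 F)), x * y ≠ y * x) ∧
      (8 ∣ m → Subgroup.normalizer ((P : Subgroup (SL2 F)) : Set (SL2 F)) = P) := by
  classical
  have hm0 : m ≠ 0 := by
    intro h0
    rw [h0] at hT
    exact Nat.card_pos.ne' hT
  obtain ⟨v, o, ho, hmvo⟩ := Nat.exists_eq_two_pow_mul_odd hm0
  have hcop : ∀ k, Nat.Coprime (2 ^ k) o := fun k => Nat.Coprime.pow_left k (Nat.coprime_two_left.mpr ho)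
  have hv : ∀ k, 2 ^ k ∣ m → k ≤ v := by
    intro k hk
    rw [hmvo] at hk
    have := (hcop k).dvd_of_dvd_mul_right hk
    exact (Nat.pow_dvd_pow_iff_le_right (by norm_num)).mp this
  have hv2 : 2 ≤ v := hv 2 (by simpa using hm)
  obtain ⟨τ, hτ⟩ := hcyc.exists_generator
  have hτo : orderOf τ = m := by
    rw [orderOf_eq_card_of_forall_mem_zpowers hτ, hT]
  have ho0 : o ≠ 0 := ho.pos.ne'
  set g : SL2 F := ((τ ^ o : T) : SL2 F) with hg
  have hgT : g ∈ T := (τ ^ o : T).2
  have hgo : orderOf g = 2 ^ v := by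
    rw [hg, Subgroup.orderOf_coe, orderOf_pow_of_dvd ho0 (by rw [hτo, hmvo]; exact dvd_mul_left _ _), hτo, hmvo]
    exact Nat.mul_div_cancel _ ho.pos
  have hg4 : ¬ orderOf g ∣ 2 := by
    rw [hgo]
    intro h
    have h3 := (Nat.pow_dvd_pow_iff_le_right (x := 2) (k := v) (l := 1) (by norm_num)).mp (by simpa using h)
    omega
  have hg1 : g ≠ 1 := by
    rintro h
    apply hg4
    rw [h, orderOf_one]
    exact one_dvd _
  have hgz : g ≠ zS F := by
    intro h
    apply hg4
    apply orderOf_dvd_of_pow_eq_one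
    rw [h, pow_two, zS_sq]
  have hCg := hself g hgT hg1 hgz
  set N := Subgroup.normalizer (T : Set (SL2 F)) with hNdef
  have hTN : T ≤ N := Subgroup.le_normalizer
  -- the 2-subgroup
  have hAp : IsPGroup 2 (Subgroup.zpowers g) := by
    apply IsPGroup.of_card (n := v)
    rw [Nat.card_zpowers, hgo]
  have hA' : IsPGroup 2 ((Subgroup.zpowers g).subgroupOf N) := hAp.comap_subtype
  obtain ⟨Q, hQ⟩ := hA'.exists_le_sylow
  have hcardQ : Nat.card (Q : Subgroup N) = 2 ^ (v + 1) := by
    rw [Q.card_eq_multiplicity, hN, hmvo, ← mul_assoc, ← pow_succ', fac2 ho]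
  set P₀ : Subgroup (SL2 F) := (Q : Subgroup N).map N.subtype with hP₀
  have hP₀N : P₀ ≤ N := by
    rintro x ⟨y, -, rfl⟩
    exact y.2
  have hcardP₀ : Nat.card P₀ = 2 ^ (v + 1) := by
    rw [hP₀, Nat.card_congr ((Q : Subgroup N).equivMapOfInjective N.subtype N.subtype_injective).toEquiv.symm, hcardQ]
  have hfacG : (Nat.card (SL2 F)).factorization 2 = v + 1 := by
    have hr2 : r = 2 * (r / 2) := by omega
    have hodd2 : Odd (r / 2) := by
      rw [Nat.odd_iff]
      omega
    have : Nat.card (SL2 F) = 2 ^ (v + 1) * (o * (r / 2)) := by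
      rw [hG, hmvo]
      conv_lhs => rw [hr2]
      ring
    rw [this, fac2 (ho.mul hodd2)]
  let S₀ : Sylow 2 (SL2 F) := Sylow.ofCard P₀ (by rw [hcardP₀, hfacG])
  have hS₀ : (S₀ : Subgroup (SL2 F)) = P₀ := rfl
  have hgP : g ∈ P₀ := by
    have h1 : (⟨g, hTN hgT⟩ : N) ∈ (Subgroup.zpowers g).subgroupOf N := by
      rw [Subgroup.mem_subgroupOf]
      exact Subgroup.mem_zpowers g
    exact ⟨⟨g, hTN hgT⟩, hQ h1, rfl⟩
  -- an element outside the torus
  obtain ⟨x, hxP, hxT⟩ : ∃ x ∈ P₀, x ∉ T := by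
    by_contra hcon
    have hle : P₀ ≤ T := by
      intro y hy
      by_contra hyT
      exact hcon ⟨y, hy, hyT⟩
    have h1 := Subgroup.card_dvd_of_le hle
    rw [hcardP₀, hT, hmvo, pow_succ] at h1
    have h2 := Nat.dvd_of_mul_dvd_mul_left (by positivity) h1
    exact ho.not_two_dvd_nat h2
  have hxN := hP₀N hxP
  -- orders of elements outside the torus
  have hcentT : ∀ y, (y * g = g * y) → y ∈ T := by
    intro y hy
    rw [← hCg, Subgroup.mem_centralizer_singleton_iff]
    exact hy
  have hout : ∀ h ∈ N, h ∉ T → h ^ 4 = 1 := by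
    intro h hh hhT
    have h1 := hinv h hh hhT
    have h2T : h * h ∈ T := by
      apply hcentT
      have e1 := h1 g hgT
      have e2 := h1 g⁻¹ (T.inv_mem hgT)
      have e3 : h * g⁻¹ * h⁻¹ = g := by
        rw [e2]
        simp
      calc h * h * g = h * (h * g * h⁻¹) * h := by group
        _ = h * g⁻¹ * h := by rw [e1]
        _ = (h * g⁻¹ * h⁻¹) * (h * h) := by group
        _ = g * (h * h) := by rw [e3]
    have h3 := h1 (h * h) h2T
    have h4 : h * (h * h) * h⁻¹ = h * h := by group
    rw [h4] at h3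
    have h5 : (h * h) * (h * h) = 1 := by
      calc (h * h) * (h * h) = (h * h)⁻¹ * (h * h) := by rw [← h3]
        _ = 1 := by group
    rw [show (4 : ℕ) = 2 + 2 from rfl, pow_add, pow_two]
    exact h5
  refine ⟨S₀, ⟨x, hxP, g, hgP, ?_⟩, ?_⟩
  · intro hcomm'
    have h1 := hinv x hxN hxT g hgT
    have h2 : x * g * x⁻¹ = g := by
      rw [hcomm']
      group
    rw [h2] at h1
    apply hg4
    apply orderOf_dvd_of_pow_eq_one
    rw [pow_two]
    calc g * g = g⁻¹ * g := by rw [← h1]
      _ = 1 := by group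
  · intro h8
    have hv3 : 3 ≤ v := hv 3 (by simpa using h8)
    rw [hS₀]
    apply le_antisymm _ Subgroup.le_normalizer
    -- two-elements of the torus
    have h2el : ∀ y ∈ T, y * y ∈ P₀ → y ∈ P₀ := by
      intro y hyT hy
      have h1 : (y * y) ^ (2 ^ (v + 1)) = 1 := by
        have := pow_card_eq_one' (x := (⟨y * y, hy⟩ : P₀))
        rw [hcardP₀] at this
        have h2 := congrArg Subtype.val this
        simpa using h2
      obtain ⟨s, hs⟩ : ∃ s : ℕ, τ ^ s = (⟨y, hyT⟩ : T) := by
        have := hτ ⟨y, hyT⟩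
        rw [← mem_powers_iff_mem_zpowers] at this
        exact this
      have hsd : m ∣ s * (2 * 2 ^ (v + 1)) := by
        rw [← hτo]
        apply orderOf_dvd_of_pow_eq_one
        apply Subtype.ext
        rw [pow_mul, hs]
        simp only [Subgroup.coe_pow, Subgroup.coe_one]
        rw [pow_mul y 2, pow_two]
        exact h1
      have hos : o ∣ s := by
        have h3 : o ∣ s * (2 * 2 ^ (v + 1)) := (Dvd.intro_left _ hmvo.symm).trans hsd
        have h4 : Nat.Coprime o (2 * 2 ^ (v + 1)) := by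
          rw [← pow_succ']
          exact (hcop _).symm
        exact h4.dvd_of_dvd_mul_right h3
      obtain ⟨s', rfl⟩ := hos
      have h5 : y = g ^ s' := by
        have := congrArg Subtype.val hs
        simp only [pow_mul, Subgroup.coe_pow] at this
        rw [← this]
        rfl
      rw [h5]
      exact P₀.pow_mem hgP _
    have hcase1 : ∀ y ∈ Subgroup.normalizer (P₀ : Set (SL2 F)), y ∈ T → y ∈ P₀ := by
      intro y hy hyT
      apply h2el y hyT
      have h1 : y * x * y⁻¹ ∈ P₀ := (Subgroup.mem_normalizer_iff.mp hy x).mp hxP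
      have h2 := hinv x hxN hxT y⁻¹ (T.inv_mem hyT)
      have h3 : y * y = (y * x * y⁻¹) * x⁻¹ := by
        have : y = x * y⁻¹ * x⁻¹ := by rw [h2]; simp
        calc y * y = y * (x * y⁻¹ * x⁻¹) := by rw [← this]
          _ = _ := by group
      rw [h3]
      exact P₀.mul_mem h1 (P₀.inv_mem hxP)
    intro y hy
    have hg'P : y * g * y⁻¹ ∈ P₀ := (Subgroup.mem_normalizer_iff.mp hy g).mp hgP
    have hg'4 : (y * g * y⁻¹) ^ 4 ≠ 1 := by
      rw [conj_pow]
      intro h
      have h1 : g ^ 4 = 1 := by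
        have : g ^ 4 = y⁻¹ * (y * g ^ 4 * y⁻¹) * y := by group
        rw [this, h]
        group
      have h2 := orderOf_dvd_of_pow_eq_one h1
      rw [hgo] at h2
      have h3 := (Nat.pow_dvd_pow_iff_le_right (x := 2) (k := v) (l := 2) (by norm_num)).mp (by simpa using h2)
      omega
    have hg'T : y * g * y⁻¹ ∈ T := by
      by_contra h
      exact hg'4 (hout _ (hP₀N hg'P) h)
    have hC' := hself _ hg'T (by
        intro h
        rw [h] at hg'4
        simp at hg'4) (by
        intro h
        rw [h] at hg'4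
        apply hg'4
        have h9 : zS F ^ 2 = 1 := by rw [pow_two, zS_sq]
        rw [show (4 : ℕ) = 2 * 2 from rfl, pow_mul, h9, one_pow])
    have hcentT' : ∀ t, (t * (y * g * y⁻¹) = (y * g * y⁻¹) * t) ↔ t ∈ T := by
      intro t
      rw [← hC', Subgroup.mem_centralizer_singleton_iff]
    have hyN : y ∈ N := by
      rw [hNdef, Subgroup.mem_normalizer_iff]
      intro t
      rw [← hcentT' (y * t * y⁻¹)]
      constructor
      · intro ht
        have h1 := hcomm t ht g hgT
        calc y * t * y⁻¹ * (y * g * y⁻¹) = y * (t * g) * y⁻¹ := by group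
          _ = y * (g * t) * y⁻¹ := by rw [h1]
          _ = _ := by group
      · intro h
        apply hcentT
        have : y * (t * g) * y⁻¹ = y * (g * t) * y⁻¹ := by
          calc y * (t * g) * y⁻¹ = y * t * y⁻¹ * (y * g * y⁻¹) := by group
            _ = y * g * y⁻¹ * (y * t * y⁻¹) := h
            _ = _ := by group
        have h3 := mul_right_cancel this
        exact mul_left_cancel h3
    by_cases hyT : y ∈ T
    · exact hcase1 y hy hyT
    · have hyx : y * x ∈ T := by
        apply hcentT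
        have e1 := hinv x hxN hxT g hgT
        have e2 := hinv y hyN hyT g⁻¹ (T.inv_mem hgT)
        have e3 : y * g⁻¹ = g * y := by
          rw [inv_inv] at e2
          calc y * g⁻¹ = (y * g⁻¹ * y⁻¹) * y := by group
            _ = g * y := by rw [e2]
        have e4 : x * g = g⁻¹ * x := by
          rw [← e1]
          group
        calc y * x * g = y * (x * g) := by group
          _ = y * (g⁻¹ * x) := by rw [e4]
          _ = (y * g⁻¹) * x := by group
          _ = (g * y) * x := by rw [e3]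
          _ = _ := by group
      have h1 := hcase1 (y * x) ((Subgroup.normalizer _).mul_mem hy (Subgroup.le_normalizer hxP)) hyx
      have h2 : y = (y * x) * x⁻¹ := by group
      rw [h2]
      exact P₀.mul_mem h1 (P₀.inv_mem hxP)

theorem exists_sylow (hodd : Odd (Fintype.card F)) :
    ∃ P : Sylow 2 (SL2 F), (∃ x ∈ (P : Subgroup (SL2 F)), ∃ y ∈ (P : Subgroup (SL2 F)), x * y ≠ y * x) ∧
      ((Fintype.card F % 8 = 1 ∨ Fintype.card F % 8 = 7) →
        Subgroup.normalizer ((P : Subgroup (SL2 F)) : Set (SL2 F)) = P) := by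
  have hq := Fintype.one_lt_card (α := F)
  have hmod : Fintype.card F % 4 = 1 ∨ Fintype.card F % 4 = 3 := by
    obtain ⟨k, hk⟩ := hodd
    omega
  rcases hmod with h4 | h4
  · have hq3 : 3 < Fintype.card F := by omega
    obtain ⟨d, hd⟩ := exists_reg hodd hq3
    obtain ⟨-, hN, -, -⟩ := hd.main hodd
    have hcomm : ∀ a ∈ Subgroup.centralizer ({d} : Set (SL2 F)), ∀ b ∈ Subgroup.centralizer ({d} : Set (SL2 F)), a * b = b * a := by
      intro a ha b hb
      obtain ⟨a1, a2⟩ := (hd.mem_cent a).mp ha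
      obtain ⟨b1, b2⟩ := (hd.mem_cent b).mp hb
      apply sl_ext <;> simp only [mul_00, mul_01, mul_10, mul_11, a1, a2, b1, b2] <;> ring
    obtain ⟨P, h1, h2⟩ := package2 hodd (Subgroup.centralizer ({d} : Set (SL2 F))) (Fintype.card F - 1)
      ((Fintype.card F + 1) * Fintype.card F) hcomm hd.cent_cyclic
      (fun x hx h1 h2 => hd.cent_eq hodd hx h1 h2)
      (fun x hx hxT a ha => hd.inv_conj hodd (hd.anti hodd hx hxT) ha) hd.card_cent hN (by omega)
      (by rw [card_SL2_eq]; ring)
      (by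
        rw [Nat.mul_mod, Nat.add_mod, h4])
    exact ⟨P, h1, fun h => h2 (by omega)⟩
  · obtain ⟨g, hg⟩ := exists_ell (F := F)
    obtain ⟨hN, -⟩ := ell_package hodd hg
    obtain ⟨P, h1, h2⟩ := package2 hodd (Subgroup.centralizer ({g} : Set (SL2 F))) (Fintype.card F + 1)
      (Fintype.card F * (Fintype.card F - 1)) (fun a ha b hb => cent_comm hg.h10 ha hb) (cent_cyclic hg)
      (fun x hx h1 h2 => cent_eq_of_mem hg.h10 hx h1 h2)
      (fun x hx hxT a ha => conj_inv_of_conj hg.h10 (inv_of_norm hodd hg hx hxT) ha) (cent_card hodd hg) hN (by omega)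
      card_SL2_eq
      (by
        have h5 : (Fintype.card F - 1) % 4 = 2 := by omega
        rw [Nat.mul_mod, h5, h4])
    exact ⟨P, h1, fun h => h2 (by omega)⟩

theorem exists_conj (P S : Sylow 2 (SL2 F)) : ∃ c : SL2 F, ∀ x, x ∈ (S : Subgroup (SL2 F)) ↔ c⁻¹ * x * c ∈ (P : Subgroup (SL2 F)) := by
  obtain ⟨c, rfl⟩ := MulAction.exists_smul_eq (SL2 F) P S
  refine ⟨c, ?_⟩
  intro x
  rw [Sylow.coe_subgroup_smul, Subgroup.mem_pointwise_smul_iff_inv_smul_mem]
  show _ ∈ (P : Subgroup (SL2 F)) ↔ _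
  have : (MulAut.conj c)⁻¹ • x = c⁻¹ * x * c := by
    show (MulAut.conj c)⁻¹ x = _
    rw [MulAut.conj_inv_apply]
  rw [this]

theorem nonab (hodd : Odd (Fintype.card F)) (S : Sylow 2 (SL2 F)) :
    ∃ x ∈ (S : Subgroup (SL2 F)), ∃ y ∈ (S : Subgroup (SL2 F)), x * y ≠ y * x := by
  obtain ⟨P, ⟨a, ha, b, hb, hab⟩, -⟩ := exists_sylow (F := F) hodd
  obtain ⟨c, hc⟩ := exists_conj P S
  refine ⟨c * a * c⁻¹, (hc _).mpr ?_, c * b * c⁻¹, (hc _).mpr ?_, ?_⟩
  · convert ha using 1
    group
  · convert hb using 1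
    group
  · intro h
    apply hab
    have h1 : c * (a * b) * c⁻¹ = c * (b * a) * c⁻¹ := by
      calc c * (a * b) * c⁻¹ = c * a * c⁻¹ * (c * b * c⁻¹) := by group
        _ = c * b * c⁻¹ * (c * a * c⁻¹) := h
        _ = _ := by group
    exact mul_left_cancel (mul_right_cancel h1)

theorem cent_eq' (hodd : Odd (Fintype.card F)) (S : Sylow 2 (SL2 F)) :
    Subgroup.centralizer ((S : Subgroup (SL2 F)) : Set (SL2 F)) = Subgroup.center (SL2 F) := by
  apply le_antisymm
  · intro y hy
    obtain ⟨a, ha, b, hb, hab⟩ := nonab hodd S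
    by_cases h1 : y = 1
    · rw [h1]
      exact Subgroup.one_mem _
    by_cases h2 : y = zS F
    · rw [h2, Subgroup.mem_center_iff]
      exact fun g => (zS_central g).symm
    · exact (hab (comm_of_nonscalar h1 h2 (Subgroup.mem_centralizer_iff.mp hy a ha)
        (Subgroup.mem_centralizer_iff.mp hy b hb))).elim
  · exact Subgroup.center_le_centralizer _

theorem norm_eq' (hodd : Odd (Fintype.card F)) (h8 : Fintype.card F % 8 = 1 ∨ Fintype.card F % 8 = 7) (S : Sylow 2 (SL2 F)) :
    Subgroup.normalizer ((S : Subgroup (SL2 F)) : Set (SL2 F)) = S := by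
  obtain ⟨P, -, hP⟩ := exists_sylow (F := F) hodd
  obtain ⟨c, hc⟩ := exists_conj P S
  ext x
  rw [mem_norm_conj hc, hP h8, hc]

section quat

variable {R : Type*} [Ring R]

theorem W_sq {I J : R} (hI : I * I = -1) (hJ : J * J = -1) (hJI : J * I = -(I * J)) :
    (-1 + I + J + I * J) * (-1 + I + J + I * J) = -((-1 + I + J + I * J) + (-1 + I + J + I * J)) - (1 + 1 + 1 + 1) := by
  have h1 : ∀ X : R, I * (I * X) = - X := by
    intro X
    rw [← mul_assoc, hI]
    simp
  have h2 : ∀ X : R, J * (J * X) = - X := by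
    intro X
    rw [← mul_assoc, hJ]
    simp
  have h3 : ∀ X : R, J * (I * X) = - (I * (J * X)) := by
    intro X
    rw [← mul_assoc, hJI]
    simp [mul_assoc]
  simp only [mul_add, add_mul, neg_mul, mul_neg, one_mul, mul_one, neg_neg, mul_assoc, hI, hJ, hJI, h1, h2, h3]
  abel

theorem W_I {I J : R} (hI : I * I = -1) (hJ : J * J = -1) (hJI : J * I = -(I * J)) :
    (-1 + I + J + I * J) * I = (I * J) * (-1 + I + J + I * J) := by
  have h1 : ∀ X : R, I * (I * X) = - X := by
    intro X
    rw [← mul_assoc, hI]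
    simp
  have h2 : ∀ X : R, J * (J * X) = - X := by
    intro X
    rw [← mul_assoc, hJ]
    simp
  have h3 : ∀ X : R, J * (I * X) = - (I * (J * X)) := by
    intro X
    rw [← mul_assoc, hJI]
    simp [mul_assoc]
  simp only [mul_add, add_mul, neg_mul, mul_neg, one_mul, mul_one, neg_neg, mul_assoc, hI, hJ, hJI, h1, h2, h3]
  abel

theorem W_J {I J : R} (hI : I * I = -1) (hJ : J * J = -1) (hJI : J * I = -(I * J)) :
    (-1 + I + J + I * J) * J = I * (-1 + I + J + I * J) := by
  have h1 : ∀ X : R, I * (I * X) = - X := by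
    intro X
    rw [← mul_assoc, hI]
    simp
  have h2 : ∀ X : R, J * (J * X) = - X := by
    intro X
    rw [← mul_assoc, hJ]
    simp
  have h3 : ∀ X : R, J * (I * X) = - (I * (J * X)) := by
    intro X
    rw [← mul_assoc, hJI]
    simp [mul_assoc]
  simp only [mul_add, add_mul, neg_mul, mul_neg, one_mul, mul_one, neg_neg, mul_assoc, hI, hJ, hJI, h1, h2, h3]
  abel

end quat

theorem tr_zero {x : SL2 F} (hx : x * x = zS F) : trS x = 0 := by
  have h1 := sq_g x
  have h2 : (x.1 : Matrix (Fin 2) (Fin 2) F) * x.1 = -1 := by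
    rw [← zS_val, ← hx]
    rfl
  rw [h2] at h1
  have h3 : trS x • (x.1 : Matrix (Fin 2) (Fin 2) F) = 0 := by
    have : (-1 : F) • (1 : Matrix (Fin 2) (Fin 2) F) = -1 := by simp
    rw [this] at h1
    have h4 := h1.symm
    simpa using h4
  rcases smul_eq_zero.mp h3 with h | h
  · exact h
  · exfalso
    have hd := x.2
    rw [h] at hd
    simp at hd

theorem exists_w (hF : (2 : F) ≠ 0) {i j : SL2 F} (hi : i * i = zS F) (hj : j * j = zS F)
    (hk : (i * j) * (i * j) = zS F) (hij : j * i = zS F * (i * j)) :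
    ∃ w : SL2 F, w * w * w = 1 ∧ w * i = (i * j) * w ∧ w * j = i * w := by
  have hI : (i.1 : Matrix (Fin 2) (Fin 2) F) * i.1 = -1 := by
    rw [← zS_val, ← hi]
    rfl
  have hJ : (j.1 : Matrix (Fin 2) (Fin 2) F) * j.1 = -1 := by
    rw [← zS_val, ← hj]
    rfl
  have hJI : (j.1 : Matrix (Fin 2) (Fin 2) F) * i.1 = - (i.1 * j.1) := by
    have h1 : (j * i).1 = (zS F * (i * j)).1 := by rw [hij]
    have h2 : (zS F * (i * j)).1 = (zS F).1 * (i.1 * j.1) := rfl
    rw [h2, zS_val] at h1
    have h3 : (j.1 : Matrix (Fin 2) (Fin 2) F) * i.1 = (j * i).1 := rfl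
    rw [h3, h1]
    simp
  set I : Matrix (Fin 2) (Fin 2) F := i.1 with hIdef
  set J : Matrix (Fin 2) (Fin 2) F := j.1 with hJdef
  set W : Matrix (Fin 2) (Fin 2) F := -1 + I + J + I * J with hW
  have hWW : W * W = -(W + W) - (1 + 1 + 1 + 1) := W_sq hI hJ hJI
  have hWI : W * I = (I * J) * W := W_I hI hJ hJI
  have hWJ : W * J = I * W := W_J hI hJ hJI
  set e : F := 2⁻¹ with he
  have he2 : e + e = 1 := by
    rw [he]
    field_simp
    norm_num
  set M : Matrix (Fin 2) (Fin 2) F := e • W with hM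
  have hMM : M * M = - M - 1 := by
    rw [hM, smul_mul_smul_comm, hWW]
    ext a b
    simp only [Matrix.smul_apply, Matrix.sub_apply, Matrix.neg_apply, Matrix.add_apply, smul_eq_mul]
    linear_combination (- e * W a b - (e + e + 1) * (1 : Matrix (Fin 2) (Fin 2) F) a b) * he2
  have ht1 := tr_zero hi
  have ht2 := tr_zero hj
  have ht3 := tr_zero hk
  have htr : M 0 0 + M 1 1 = -1 := by
    have e1 : M 0 0 + M 1 1 = e * (-1 + -1 + (I 0 0 + I 1 1) + (J 0 0 + J 1 1) + ((I * J) 0 0 + (I * J) 1 1)) := by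
      simp only [hM, hW, Matrix.smul_apply, Matrix.add_apply, Matrix.neg_apply, Matrix.one_apply_eq, smul_eq_mul]
      ring
    have e2 : I 0 0 + I 1 1 = 0 := ht1
    have e3 : J 0 0 + J 1 1 = 0 := ht2
    have e4 : (I * J) 0 0 + (I * J) 1 1 = 0 := ht3
    rw [e1, e2, e3, e4]
    linear_combination (-1 : F) * he2
  have hdet : M.det = 1 := by
    rw [Matrix.det_fin_two]
    have h00 := congrFun (congrFun hMM 0) 0
    simp only [Matrix.mul_apply, Fin.sum_univ_two, Matrix.sub_apply, Matrix.neg_apply, Matrix.one_apply_eq] at h00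
    have h11 : M 1 1 = -1 - M 0 0 := by linear_combination htr
    rw [h11]
    linear_combination -h00
  refine ⟨⟨M, hdet⟩, ?_, ?_, ?_⟩
  · apply Subtype.ext
    show M * M * M = 1
    rw [hMM, sub_mul, neg_mul, hMM]
    simp
  · apply Subtype.ext
    show M * I = (I * J) * M
    rw [hM, smul_mul_assoc, hWI, mul_smul_comm]
  · apply Subtype.ext
    show M * J = I * M
    rw [hM, smul_mul_assoc, hWJ, mul_smul_comm]

theorem card_q8 (hodd : Odd (Fintype.card F)) (h8 : Fintype.card F % 8 = 3 ∨ Fintype.card F % 8 = 5) :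
    ∃ o, Odd o ∧ Nat.card (SL2 F) = 2 ^ 3 * o := by
  rw [card_SL2_eq]
  obtain ⟨k, hk⟩ := hodd
  rcases h8 with h | h
  · refine ⟨((Fintype.card F + 1) / 4) * Fintype.card F * ((Fintype.card F - 1) / 2), ?_, ?_⟩
    · apply Odd.mul (Odd.mul _ ⟨k, hk⟩)
      · rw [Nat.odd_iff]; omega
      · rw [Nat.odd_iff]; omega
    · have h1 : Fintype.card F + 1 = 4 * ((Fintype.card F + 1) / 4) := by omega
      have h2 : Fintype.card F - 1 = 2 * ((Fintype.card F - 1) / 2) := by omega
      conv_lhs => rw [h1, h2]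
      ring
  · refine ⟨((Fintype.card F + 1) / 2) * Fintype.card F * ((Fintype.card F - 1) / 4), ?_, ?_⟩
    · apply Odd.mul (Odd.mul _ ⟨k, hk⟩)
      · rw [Nat.odd_iff]; omega
      · rw [Nat.odd_iff]; omega
    · have h1 : Fintype.card F + 1 = 2 * ((Fintype.card F + 1) / 2) := by omega
      have h2 : Fintype.card F - 1 = 4 * ((Fintype.card F - 1) / 4) := by omega
      conv_lhs => rw [h1, h2]
      ring

theorem norm_q8 (hodd : Odd (Fintype.card F)) (h8 : Fintype.card F % 8 = 3 ∨ Fintype.card F % 8 = 5) (S : Sylow 2 (SL2 F)) :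
    Nat.card (Subgroup.normalizer ((S : Subgroup (SL2 F)) : Set (SL2 F))) = 3 * Nat.card S := by
  classical
  obtain ⟨o, ho, hG⟩ := card_q8 (F := F) hodd h8
  have hS8 : Nat.card (S : Subgroup (SL2 F)) = 8 := by
    rw [S.card_eq_multiplicity, hG, fac2 ho]
    norm_num
  have hF2 : (2 : F) ≠ 0 := two_ne hodd
  have hz1 := zS_ne_one' (F := F) hodd
  obtain ⟨i, hiS, j, hjS, hij⟩ := nonab hodd S
  have hcentral : ∀ x, x = 1 ∨ x = zS F → ∀ y : SL2 F, x * y = y * x := by
    rintro x (rfl | rfl) y
    · simp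
    · exact zS_central y
  have hzS4 : zS F ^ 4 = 1 := by
    have h9 : zS F ^ 2 = 1 := by rw [pow_two, zS_sq]
    rw [show (4 : ℕ) = 2 * 2 from rfl, pow_mul, h9, one_pow]
  -- squares
  have hsq : ∀ x ∈ (S : Subgroup (SL2 F)), x ≠ 1 → x ≠ zS F → x * x = zS F := by
    intro x hx h1 h2
    have h8x : x ^ (2 ^ 3) = 1 := by
      have := pow_card_eq_one' (x := (⟨x, hx⟩ : (S : Subgroup (SL2 F))))
      rw [hS8] at this
      have h2 := congrArg Subtype.val this
      simpa using h2
    have h4x : x ^ 4 = 1 := by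
      by_contra h4
      have h5 : orderOf x = 2 ^ 3 := orderOf_eq_prime_pow (p := 2) (n := 2) (by simpa using h4) h8x
      have hle : Subgroup.zpowers x ≤ (S : Subgroup (SL2 F)) := by
        rw [Subgroup.zpowers_le]
        exact hx
      have hce : Nat.card (S : Subgroup (SL2 F)) ≤ Nat.card (Subgroup.zpowers x) := by
        rw [Nat.card_zpowers, h5, hS8]
        norm_num
      have heq := Subgroup.eq_of_le_of_card_ge hle hce
      apply hij
      have hi' : i ∈ Subgroup.zpowers x := heq ▸ hiS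
      have hj' : j ∈ Subgroup.zpowers x := heq ▸ hjS
      obtain ⟨a, rfl⟩ := Subgroup.mem_zpowers_iff.mp hi'
      obtain ⟨b, rfl⟩ := Subgroup.mem_zpowers_iff.mp hj'
      rw [← _root_.zpow_add, ← _root_.zpow_add, add_comm]
    have h5 : (x * x) ^ 2 = 1 := by
      rw [← pow_two, ← pow_mul]
      exact h4x
    rcases sq_eq_one_iff hodd h5 with h6 | h6
    · rw [← pow_two] at h6
      rcases sq_eq_one_iff hodd h6 with h7 | h7
      · exact (h1 h7).elim
      · exact (h2 h7).elim
    · exact h6
  have hi1 : i ≠ 1 := by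
    intro h
    exact hij (hcentral i (Or.inl h) j)
  have hiz : i ≠ zS F := by
    intro h
    exact hij (hcentral i (Or.inr h) j)
  have hj1 : j ≠ 1 := by
    intro h
    exact hij (hcentral j (Or.inl h) i).symm
  have hjz : j ≠ zS F := by
    intro h
    exact hij (hcentral j (Or.inr h) i).symm
  have hk1 : i * j ≠ 1 := by
    intro h
    apply hij
    have : j = i⁻¹ := eq_inv_of_mul_eq_one_right h
    rw [this]
    group
  have hkz : i * j ≠ zS F := by
    intro h
    apply hij
    have h1 : j = i⁻¹ * zS F := by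
      rw [← h]
      group
    rw [h1]
    have h3 := zS_central i⁻¹
    calc i * (i⁻¹ * zS F) = zS F := by group
      _ = zS F * (i⁻¹ * i) := by group
      _ = (zS F * i⁻¹) * i := by group
      _ = (i⁻¹ * zS F) * i := by rw [h3]
  have hkS : i * j ∈ (S : Subgroup (SL2 F)) := Subgroup.mul_mem _ hiS hjS
  have hI := hsq i hiS hi1 hiz
  have hJ := hsq j hjS hj1 hjz
  have hK := hsq _ hkS hk1 hkz
  have hzS : zS F ∈ (S : Subgroup (SL2 F)) := hI ▸ Subgroup.mul_mem _ hiS hiS
  have hzcomm := fun y => zS_central (F := F) y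
  have hzz : zS F * zS F = 1 := zS_sq
  have hanti : j * i = zS F * (i * j) := by
    -- `(ij)(ij) = z`, so `ji = i⁻¹ z j⁻¹`
    have e1 : i⁻¹ = zS F * i := by
      rw [inv_eq_iff_mul_eq_one]
      calc i * (zS F * i) = zS F * (i * i) := by
            rw [← mul_assoc, ← hzcomm i, mul_assoc]
        _ = 1 := by rw [hI, hzz]
    have e2 : j⁻¹ = zS F * j := by
      rw [inv_eq_iff_mul_eq_one]
      calc j * (zS F * j) = zS F * (j * j) := by
            rw [← mul_assoc, ← hzcomm j, mul_assoc]
        _ = 1 := by rw [hJ, hzz]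
    have e3 : j * i = i⁻¹ * zS F * j⁻¹ := by
      have : i * (j * i) * j = zS F := by rw [← hK]; group
      calc j * i = i⁻¹ * (i * (j * i) * j) * j⁻¹ := by group
        _ = _ := by rw [this]
    rw [e3, e1, e2]
    calc zS F * i * zS F * (zS F * j) = zS F * i * (zS F * zS F) * j := by group
      _ = zS F * (i * j) := by rw [hzz]; group
  obtain ⟨w, hw3, hwi, hwj⟩ := exists_w hF2 hI hJ hK hanti
  have hw1 : w ≠ 1 := by
    rintro rfl
    simp only [one_mul, mul_one] at hwi
    apply hj1
    exact (mul_eq_left.mp hwi.symm)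
  -- generation
  have hgen : Subgroup.closure ({i, j} : Set (SL2 F)) = (S : Subgroup (SL2 F)) := by
    have hle : Subgroup.closure ({i, j} : Set (SL2 F)) ≤ (S : Subgroup (SL2 F)) := by
      rw [Subgroup.closure_le]
      rintro x (rfl | rfl)
      · exact hiS
      · exact hjS
    have hi4 : orderOf i = 2 ^ 2 := by
      apply orderOf_eq_prime_pow (p := 2) (n := 1)
      · simp only [pow_one]
        rw [pow_two, hI]
        exact hz1
      · rw [show 2 ^ (1 + 1) = 2 + 2 from rfl, pow_add, pow_two, hI, hzz]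
    have hiC : i ∈ Subgroup.closure ({i, j} : Set (SL2 F)) := Subgroup.subset_closure (by simp)
    have hjC : j ∈ Subgroup.closure ({i, j} : Set (SL2 F)) := Subgroup.subset_closure (by simp)
    have hzle : Subgroup.zpowers i ≤ Subgroup.closure ({i, j} : Set (SL2 F)) := by
      rw [Subgroup.zpowers_le]
      exact hiC
    have h4 : 2 ^ 2 ∣ Nat.card (Subgroup.closure ({i, j} : Set (SL2 F))) := by
      rw [← hi4, ← Nat.card_zpowers]
      exact Subgroup.card_dvd_of_le hzle
    have h8' : Nat.card (Subgroup.closure ({i, j} : Set (SL2 F))) ∣ 2 ^ 3 := by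
      have := Subgroup.card_dvd_of_le hle
      rwa [hS8] at this
    apply Subgroup.eq_of_le_of_card_ge hle
    rw [hS8]
    obtain ⟨a, ha, hc⟩ := (Nat.dvd_prime_pow Nat.prime_two).mp h8'
    rw [hc] at h4 ⊢
    have h2a := (Nat.pow_dvd_pow_iff_le_right (x := 2) (k := 2) (l := a) (by norm_num)).mp h4
    have : a = 2 ∨ a = 3 := by omega
    rcases this with rfl | rfl
    · exfalso
      have heq := Subgroup.eq_of_le_of_card_ge hzle (by rw [Nat.card_zpowers, hi4, hc])
      rw [← heq] at hjC
      obtain ⟨a, rfl⟩ := Subgroup.mem_zpowers_iff.mp hjC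
      apply hij
      rw [← _root_.zpow_one_add, ← _root_.zpow_add_one, add_comm]
    · norm_num
  have hwinv : w⁻¹ = w * w := by
    rw [inv_eq_iff_mul_eq_one, ← mul_assoc]
    exact hw3
  have hfwd : ∀ x ∈ (S : Subgroup (SL2 F)), w * x * w⁻¹ ∈ (S : Subgroup (SL2 F)) := by
    have hle : (S : Subgroup (SL2 F)) ≤ (S : Subgroup (SL2 F)).comap (MulAut.conj w).toMonoidHom := by
      rw [← hgen, Subgroup.closure_le, hgen]
      rintro x (rfl | rfl)
      · show w * x * w⁻¹ ∈ (S : Subgroup (SL2 F))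
        rw [hwi]
        simpa using hkS
      · show w * x * w⁻¹ ∈ (S : Subgroup (SL2 F))
        rw [hwj]
        simpa using hiS
    exact fun x hx => hle hx
  have hwN : w ∈ Subgroup.normalizer ((S : Subgroup (SL2 F)) : Set (SL2 F)) := by
    rw [Subgroup.mem_normalizer_iff]
    intro x
    refine ⟨hfwd x, fun h => ?_⟩
    have h1 := hfwd _ h
    have h2 := hfwd _ h1
    have e : x = w * (w * (w * x * w⁻¹) * w⁻¹) * w⁻¹ := by
      have h3 : w * w * w = 1 := hw3
      calc x = (w * w * w) * x * (w * w * w)⁻¹ := by rw [h3]; simp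
        _ = _ := by group
    rw [e]
    exact h2
  set N := Subgroup.normalizer ((S : Subgroup (SL2 F)) : Set (SL2 F)) with hN
  have h3N : 3 ∣ Nat.card N := by
    have h1 : orderOf w = 3 := by
      apply orderOf_eq_prime _ hw1
      rw [pow_succ, pow_two]
      exact hw3
    rw [← h1, ← Nat.card_zpowers]
    apply Subgroup.card_dvd_of_le
    rw [Subgroup.zpowers_le]
    exact hwN
  have h8N : 8 ∣ Nat.card N := by
    rw [← hS8]
    exact Subgroup.card_dvd_of_le Subgroup.le_normalizer
  have h16N : ¬ 16 ∣ Nat.card N := by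
    intro h
    have h1 : Nat.card N ∣ Nat.card (SL2 F) := Subgroup.card_subgroup_dvd_card N
    have h2 := h.trans h1
    rw [hG] at h2
    have h3 : 2 ^ 3 * 2 ∣ 2 ^ 3 * o := by simpa using h2
    exact ho.not_two_dvd_nat (Nat.dvd_of_mul_dvd_mul_left (by norm_num) h3)
  have hcount : Nat.card N ≤ 48 := by
    let Sf : Finset (SL2 F) := Finset.univ.filter (· ∈ (S : Subgroup (SL2 F)))
    have hSfmem : ∀ x, x ∈ Sf ↔ x ∈ (S : Subgroup (SL2 F)) := fun x => by simp [Sf]
    have hSf : Sf.card = 8 := by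
      rw [← hS8]
      exact (Nat.subtype_card Sf hSfmem).symm
    let Nf : Finset (SL2 F) := Finset.univ.filter (· ∈ N)
    have hNfmem : ∀ x, x ∈ Nf ↔ x ∈ N := fun x => by simp [Nf]
    have hNf : Nf.card = Nat.card N := (Nat.subtype_card Nf hNfmem).symm
    let D : Finset (SL2 F) := (Sf.erase 1).erase (zS F)
    have hDmem : ∀ x, x ∈ D ↔ x ≠ zS F ∧ x ≠ 1 ∧ x ∈ (S : Subgroup (SL2 F)) := fun x => by
      simp [D, Finset.mem_erase, hSfmem]
    have hD : D.card = 6 := by
      have h1 : (1 : SL2 F) ∈ Sf := (hSfmem _).mpr (Subgroup.one_mem _)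
      have h2 : zS F ∈ Sf.erase 1 := Finset.mem_erase.mpr ⟨hz1, (hSfmem _).mpr hzS⟩
      rw [Finset.card_erase_of_mem h2, Finset.card_erase_of_mem h1, hSf]
    let f : SL2 F → SL2 F × SL2 F := fun x => (x * i * x⁻¹, x * j * x⁻¹)
    let Tf : Finset (SL2 F × SL2 F) := D.biUnion (fun a => ((D.erase a).erase (zS F * a)).image (fun b => (a, b)))
    have hTf : Tf.card ≤ 6 * 4 := by
      rw [← hD]
      apply Finset.card_biUnion_le_card_mul
      intro a ha
      refine le_trans Finset.card_image_le ?_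
      obtain ⟨a1, a2, a3⟩ := (hDmem a).mp ha
      have h1 : zS F * a ∈ D.erase a := by
        rw [Finset.mem_erase, hDmem]
        refine ⟨?_, ?_, ?_, Subgroup.mul_mem _ hzS a3⟩
        · intro h
          exact hz1 (mul_eq_right.mp h)
        · intro h
          exact a2 (mul_eq_left.mp h)
        · intro h
          apply a1
          have : a = zS F * (zS F * a) := by rw [← mul_assoc, hzz, one_mul]
          rw [this, h, mul_one]
      rw [Finset.card_erase_of_mem h1, Finset.card_erase_of_mem ha, hD]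
    have hconj1 : ∀ x y : SL2 F, y ≠ 1 → x * y * x⁻¹ ≠ 1 := by
      intro x y hy h
      apply hy
      have : y = x⁻¹ * (x * y * x⁻¹) * x := by group
      rw [this, h]
      group
    have hconjz : ∀ x y : SL2 F, y ≠ zS F → x * y * x⁻¹ ≠ zS F := by
      intro x y hy h
      apply hy
      have : y = x⁻¹ * (x * y * x⁻¹) * x := by group
      rw [this, h, ← zS_central x⁻¹]
      simp
    have him : Nf.image f ⊆ Tf := by
      intro p hp
      obtain ⟨x, hx, rfl⟩ := Finset.mem_image.mp hp
      have hxN := (hNfmem x).mp hx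
      have hS' : ∀ y ∈ (S : Subgroup (SL2 F)), x * y * x⁻¹ ∈ (S : Subgroup (SL2 F)) :=
        fun y hy => (Subgroup.mem_normalizer_iff.mp hxN y).mp hy
      have ha : x * i * x⁻¹ ∈ D := (hDmem _).mpr ⟨hconjz x i hiz, hconj1 x i hi1, hS' i hiS⟩
      have hb : x * j * x⁻¹ ∈ D := (hDmem _).mpr ⟨hconjz x j hjz, hconj1 x j hj1, hS' j hjS⟩
      rw [Finset.mem_biUnion]
      refine ⟨x * i * x⁻¹, ha, ?_⟩
      rw [Finset.mem_image]
      refine ⟨x * j * x⁻¹, ?_, rfl⟩
      rw [Finset.mem_erase, Finset.mem_erase]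
      refine ⟨?_, ?_, hb⟩
      · intro h
        have h1 : x * j * x⁻¹ = x * (zS F * i) * x⁻¹ := by
          rw [h, ← mul_assoc x, ← zS_central x]
          group
        have h2 : j = zS F * i := mul_left_cancel (mul_right_cancel h1)
        apply hij
        rw [h2, ← mul_assoc, ← zS_central i, mul_assoc]
      · intro h
        have h2 : j = i := mul_left_cancel (mul_right_cancel h)
        exact hij (by rw [h2])
    have hfib : ∀ p ∈ Nf.image f, (Nf.filter (fun x => f x = p)).card ≤ 2 := by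
      intro p hp
      obtain ⟨x, hx, rfl⟩ := Finset.mem_image.mp hp
      have hsub : Nf.filter (fun y => f y = f x) ⊆ {x, x * zS F} := by
        intro y hy
        have hy2 := (Finset.mem_filter.mp hy).2
        have e1 : y * i * y⁻¹ = x * i * x⁻¹ := congrArg Prod.fst hy2
        have e2 : y * j * y⁻¹ = x * j * x⁻¹ := congrArg Prod.snd hy2
        have c1 : i * (x⁻¹ * y) = (x⁻¹ * y) * i := by
          have : y * i = x * i * x⁻¹ * y := by
            rw [← e1]
            group
          calc i * (x⁻¹ * y) = x⁻¹ * (x * i * x⁻¹ * y) := by group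
            _ = x⁻¹ * (y * i) := by rw [this]
            _ = _ := by group
        have c2 : j * (x⁻¹ * y) = (x⁻¹ * y) * j := by
          have : y * j = x * j * x⁻¹ * y := by
            rw [← e2]
            group
          calc j * (x⁻¹ * y) = x⁻¹ * (x * j * x⁻¹ * y) := by group
            _ = x⁻¹ * (y * j) := by rw [this]
            _ = _ := by group
        have hc : x⁻¹ * y = 1 ∨ x⁻¹ * y = zS F := by
          by_contra hcon
          simp only [not_or] at hcon
          exact hij (comm_of_nonscalar hcon.1 hcon.2 c1 c2)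
        rw [Finset.mem_insert, Finset.mem_singleton]
        rcases hc with h | h
        · left
          have : y = x * (x⁻¹ * y) := by group
          rw [this, h, mul_one]
        · right
          have : y = x * (x⁻¹ * y) := by group
          rw [this, h]
      exact (Finset.card_le_card hsub).trans Finset.card_le_two
    have h1 := Finset.card_le_mul_card_image Nf 2 hfib
    have h2 := Finset.card_le_card him
    rw [hNf] at h1
    omega
  rw [hS8]
  have hpos : 0 < Nat.card N := Nat.card_pos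
  omega

theorem main_2431 (hodd : Odd (Fintype.card F)) (S : Sylow 2 (SL2 F)) :
    Subgroup.centralizer ((S : Subgroup (SL2 F)) : Set (SL2 F)) = Subgroup.center (SL2 F) ∧
    ((Fintype.card F % 8 = 1 ∨ Fintype.card F % 8 = 7) →
      Subgroup.normalizer ((S : Subgroup (SL2 F)) : Set (SL2 F)) = (S : Subgroup (SL2 F))) ∧
    ((Fintype.card F % 8 = 3 ∨ Fintype.card F % 8 = 5) →
      Nat.card (Subgroup.normalizer ((S : Subgroup (SL2 F)) : Set (SL2 F))) = 3 * Nat.card S) :=
  ⟨cent_eq' hodd S, fun h => norm_eq' hodd h S, fun h => norm_q8 hodd h S⟩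

end CfsgLib.H9.SL2Sylow2
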