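import Mathlib
import Cfsg.Agent.Lib.ClassGeo.SLGen

/-! Generation of `SL_{n+1}` by a transvection-type element and the monomial element. -/

set_option autoImplicit false
set_option linter.unusedVariables false
set_option linter.unusedSectionVars false
set_option linter.unusedSimpArgs false

namespace CfsgLib.H9.SLGens

open Matrix Matrix.SpecialLinearGroup

variable {K : Type*} [Field K] {ι : Type*} [Fintype ι] [DecidableEq ι]

theorem single_neg' (a b : ι) (c : K) : (Matrix.single a b (-c) : Matrix ι ι K) = - Matrix.single a b c := by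
  ext x y
  simp only [Matrix.single_apply, Matrix.neg_apply]
  split_ifs <;> simp

theorem T_comm {i j k : ι} (hij : i ≠ j) (hjk : j ≠ k) (hik : i ≠ k) (s t : K) :
    (transvection hij s * transvection hjk t * transvection hij (-s) * transvection hjk (-t) : SpecialLinearGroup ι K) = transvection hik (s * t) := by
  apply Subtype.ext
  simp only [coe_mul, transvection_coe]
  simp only [add_mul, mul_add, one_mul, mul_one, Matrix.single_mul_single_same, Matrix.single_mul_single_of_ne, hij, hjk, hik, hij.symm, hjk.symm, hik.symm, ne_eq, not_false_eq_true, single_neg', neg_mul, mul_neg, neg_neg, zero_mul, add_zero, zero_add]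
  abel

/-- Conjugating a transvection by a diagonal element. -/
theorem diag_T {i j : ι} (hij : i ≠ j) (D : SpecialLinearGroup ι K) (d : ι → K) (hD : D.1 = Matrix.diagonal d) (a : K) :
    D * transvection hij a = transvection hij (a * d i / d j) * D := by
  have hdet : ∏ x, d x = 1 := by
    have := D.2
    rw [hD, Matrix.det_diagonal] at this
    exact this
  have hj : d j ≠ 0 := by
    intro h
    have := Finset.prod_eq_zero (Finset.mem_univ j) h
    rw [hdet] at this
    exact one_ne_zero this
  apply Subtype.ext
  simp only [coe_mul, transvection_coe, hD, mul_add, add_mul, mul_one, one_mul]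
  congr 1
  ext x y
  rw [Matrix.diagonal_mul, Matrix.mul_diagonal]
  simp only [Matrix.single_apply]
  by_cases h1 : i = x ∧ j = y
  · obtain ⟨rfl, rfl⟩ := h1
    simp only [and_self, if_true]
    field_simp
  · rw [if_neg h1, if_neg h1]
    simp

theorem mul_single_apply' (M : Matrix ι ι K) (a b : ι) (t : K) (p q : ι) :
    (M * Matrix.single a b t) p q = if q = b then M p a * t else 0 := by
  rw [Matrix.mul_apply, Finset.sum_eq_single a]
  · simp only [Matrix.single_apply, true_and]
    by_cases h : q = b
    · subst h
      simp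
    · rw [if_neg (fun e => h e.symm), if_neg h, mul_zero]
  · intro l _ hl
    rw [Matrix.single_apply, if_neg (fun e => hl e.1.symm), mul_zero]
  · simp

theorem single_mul_apply' (M : Matrix ι ι K) (a b : ι) (t : K) (p q : ι) :
    (Matrix.single a b t * M) p q = if p = a then t * M b q else 0 := by
  rw [Matrix.mul_apply, Finset.sum_eq_single b]
  · simp only [Matrix.single_apply, and_true]
    by_cases h : p = a
    · subst h
      simp
    · rw [if_neg (fun e => h e.symm), if_neg h, zero_mul]
  · intro l _ hl
    rw [Matrix.single_apply, if_neg (fun e => hl e.2.symm), zero_mul]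
  · simp

section Main

variable {n : ℕ} (A : Subgroup (SpecialLinearGroup (Fin (n + 1)) K))

/-- The generation criterion. -/
theorem gen_of_T (hn : 1 ≤ n) (w : SpecialLinearGroup (Fin (n + 1)) K)
    (hw : (w : Matrix (Fin (n + 1)) (Fin (n + 1)) K) =
      Matrix.of (fun i j => if j.val = i.val + 1 then 1 else if i.val = n ∧ j.val = 0 then (-1) ^ n else 0))
    (hwA : w ∈ A)
    (h01 : ∀ (t : K) (h : (⟨0, by omega⟩ : Fin (n + 1)) ≠ ⟨1, by omega⟩), transvection h t ∈ A) : A = ⊤ := by
  classical
  have hne1 : ∀ (a b : Fin (n + 1)), a.val ≠ b.val → a ≠ b := fun a b h e => h (congrArg Fin.val e)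
  have hstep : ∀ (i j i' j' : Fin (n + 1)) (hij : i ≠ j) (hij' : i' ≠ j') (t : K), i'.val = i.val + 1 → j'.val = j.val + 1 →
      w * transvection hij' t = transvection hij t * w := by
    intro i j i' j' hij hij' t hi hj
    apply Subtype.ext
    simp only [coe_mul, transvection_coe, mul_add, add_mul, mul_one, one_mul]
    congr 1
    ext p q
    rw [mul_single_apply', single_mul_apply']
    have ha : (w : Matrix (Fin (n + 1)) (Fin (n + 1)) K) p i' = if p = i then 1 else 0 := by
      rw [hw, Matrix.of_apply]
      by_cases h1 : p = i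
      · rw [if_pos h1, if_pos]
        rw [h1, hi]
      · have h2 : p.val ≠ i.val := fun e => h1 (Fin.ext e)
        rw [if_neg h1, if_neg (by omega), if_neg (by omega)]
    have hb : (w : Matrix (Fin (n + 1)) (Fin (n + 1)) K) j q = if q = j' then 1 else 0 := by
      rw [hw, Matrix.of_apply]
      have hj2 := j'.2
      by_cases h1 : q = j'
      · rw [if_pos h1, if_pos]
        rw [h1, hj]
      · have h2 : q.val ≠ j'.val := fun e => h1 (Fin.ext e)
        rw [if_neg h1, if_neg (by omega), if_neg (by omega)]
    rw [ha, hb]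
    by_cases h1 : p = i <;> by_cases h2 : q = j' <;> simp [h1, h2]
  have hstep0 : ∀ (i0 i1 il : Fin (n + 1)) (h01 : i0 ≠ i1) (hl : il ≠ i0) (t : K), i0.val = 0 → i1.val = 1 → il.val = n →
      w * transvection h01 t = transvection hl ((-1) ^ n * t) * w := by
    intro i0 i1 il h01 hl t h0 h1 hn'
    apply Subtype.ext
    simp only [coe_mul, transvection_coe, mul_add, add_mul, mul_one, one_mul]
    congr 1
    ext p q
    rw [mul_single_apply', single_mul_apply']
    have ha : (w : Matrix (Fin (n + 1)) (Fin (n + 1)) K) p i0 = if p = il then (-1) ^ n else 0 := by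
      rw [hw, Matrix.of_apply]
      rw [if_neg (by omega)]
      by_cases h5 : p = il
      · rw [if_pos h5, if_pos]
        exact ⟨by rw [h5, hn'], h0⟩
      · have h6 : p.val ≠ il.val := fun e => h5 (Fin.ext e)
        rw [if_neg h5, if_neg (by omega)]
    have hb : (w : Matrix (Fin (n + 1)) (Fin (n + 1)) K) i0 q = if q = i1 then 1 else 0 := by
      rw [hw, Matrix.of_apply]
      by_cases h5 : q = i1
      · rw [if_pos h5, if_pos]
        rw [h5, h1, h0]
      · have h6 : q.val ≠ i1.val := fun e => h5 (Fin.ext e)
        rw [if_neg h5, if_neg (by omega), if_neg (by omega)]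
    rw [ha, hb]
    by_cases h5 : p = il <;> by_cases h6 : q = i1 <;> simp [h5, h6]
  have hup1 : ∀ (a : ℕ) (ha : a < n) (t : K) (h : (⟨a, by omega⟩ : Fin (n + 1)) ≠ ⟨a + 1, by omega⟩), transvection h t ∈ A := by
    intro a
    induction a with
    | zero =>
      intro ha t h
      exact h01 t h
    | succ a ih =>
      intro ha t h
      have hprev : (⟨a, by omega⟩ : Fin (n + 1)) ≠ ⟨a + 1, by omega⟩ := hne1 _ _ (by simp)
      have h3 := hstep _ _ _ _ hprev h t rfl rfl
      have h4 : transvection h t = w⁻¹ * (transvection hprev t * w) := by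
        rw [← h3, inv_mul_cancel_left]
      rw [h4]
      exact A.mul_mem (A.inv_mem hwA) (A.mul_mem (ih (by omega) t hprev) hwA)
  have hup : ∀ (d : ℕ) (a b : Fin (n + 1)) (h : a ≠ b) (t : K), b.val = a.val + d + 1 → transvection h t ∈ A := by
    intro d
    induction d with
    | zero =>
      intro a b h t hb
      have ha : a.val < n := by have := b.2; omega
      obtain ⟨a, ha'⟩ := a
      obtain ⟨b, hb'⟩ := b
      simp only at hb ha
      subst hb
      exact hup1 a ha t h
    | succ d ih =>
      intro a b h t hb
      have hb2 := b.2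
      let c : Fin (n + 1) := ⟨b.val - 1, by omega⟩
      have hc : c.val = b.val - 1 := rfl
      have hac : a ≠ c := hne1 _ _ (by omega)
      have hcb : c ≠ b := hne1 _ _ (by omega)
      have h5 := T_comm hac hcb h t 1
      rw [mul_one] at h5
      rw [← h5]
      have h6 : ∀ s : K, transvection hac s ∈ A := fun s => ih a c hac s (by omega)
      have h7 : ∀ s : K, transvection hcb s ∈ A := by
        intro s
        obtain ⟨c', hc'⟩ := c
        obtain ⟨b', hb'⟩ := b
        simp only at hc hb
        have h8 : b' = c' + 1 := by omega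
        subst h8
        exact hup1 c' (by omega) s hcb
      exact A.mul_mem (A.mul_mem (A.mul_mem (h6 _) (h7 _)) (h6 _)) (h7 _)
  have hup' : ∀ (a b : Fin (n + 1)) (h : a ≠ b) (t : K), a.val < b.val → transvection h t ∈ A := by
    intro a b h t hab
    exact hup (b.val - a.val - 1) a b h t (by omega)
  let i0 : Fin (n + 1) := ⟨0, by omega⟩
  let i1 : Fin (n + 1) := ⟨1, by omega⟩
  let il : Fin (n + 1) := ⟨n, by omega⟩
  have h01' : i0 ≠ i1 := hne1 _ _ (by simp [i0, i1])
  have hl0 : il ≠ i0 := hne1 _ _ (by simp [i0, il]; omega)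
  have hsgn : ((-1 : K) ^ n) * ((-1 : K) ^ n) = 1 := by
    rw [← mul_pow]
    simp
  have hl0A : ∀ t : K, transvection hl0 t ∈ A := by
    intro t
    have h3 := hstep0 i0 i1 il h01' hl0 ((-1) ^ n * t) rfl rfl rfl
    rw [← mul_assoc, hsgn, one_mul] at h3
    have h4 : transvection hl0 t = w * (transvection h01' ((-1) ^ n * t) * w⁻¹) := by
      rw [← mul_assoc, h3, mul_inv_cancel_right]
    rw [h4]
    exact A.mul_mem hwA (A.mul_mem (h01 _ h01') (A.inv_mem hwA))
  have hi0 : ∀ (i : Fin (n + 1)) (h : i ≠ i0) (t : K), transvection h t ∈ A := by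
    intro i h t
    by_cases hil : i = il
    · subst hil
      exact hl0A t
    · have hne : i ≠ il := hil
      have hlt : i.val < n := by
        have := i.2
        have h2 : i.val ≠ il.val := fun e => hil (Fin.ext e)
        simp only [il] at h2
        omega
      have h5 := T_comm hne hl0 h t 1
      rw [mul_one] at h5
      rw [← h5]
      have h6 : ∀ s : K, transvection hne s ∈ A := fun s => hup' i il hne s hlt
      exact A.mul_mem (A.mul_mem (A.mul_mem (h6 _) (hl0A _)) (h6 _)) (hl0A _)
  have hall : ∀ (i j : Fin (n + 1)) (h : i ≠ j) (t : K), transvection h t ∈ A := by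
    intro i j h t
    by_cases hlt : i.val < j.val
    · exact hup' i j h t hlt
    have hgt : j.val < i.val := by
      have h2 : i.val ≠ j.val := fun e => h (Fin.ext e)
      omega
    have hi : i ≠ i0 := hne1 _ _ (by show i.val ≠ 0; omega)
    by_cases hj : j = i0
    · subst hj
      exact hi0 i h t
    · have hj' : i0 ≠ j := fun e => hj e.symm
      have h5 := T_comm hi hj' h t 1
      rw [mul_one] at h5
      rw [← h5]
      have h6 : ∀ s : K, transvection hi s ∈ A := fun s => hi0 i hi s
      have h7 : ∀ s : K, transvection hj' s ∈ A := fun s => hup' i0 j hj' s (by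
        have h2 : j.val ≠ 0 := fun e => hj (Fin.ext e)
        simp only [i0]
        omega)
      exact A.mul_mem (A.mul_mem (A.mul_mem (h6 _) (h7 _)) (h6 _)) (h7 _)
  haveI : Nontrivial (Fin (n + 1)) := Fin.nontrivial_iff_two_le.mpr (by omega)
  rw [eq_top_iff]
  intro M _
  exact CfsgLib.ClassGeo.SL_transvection_induction (· ∈ A) M (fun i j hij a => hall i j hij a) (fun _ _ => A.mul_mem)

/-- Every element of a finite field is a sum of two squares. -/
theorem sum_two_sq [Fintype K] (x : K) : ∃ a b : K, a ^ 2 + b ^ 2 = x := by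
  classical
  by_cases hc : ringChar K = 2
  · obtain ⟨a, ha⟩ := FiniteField.isSquare_of_char_two hc x
    exact ⟨a, 0, by rw [ha]; ring⟩
  · have hodd := FiniteField.odd_card_of_char_ne_two hc
    have h1 : (Polynomial.X ^ 2 : Polynomial K).degree = 2 := by simp
    have h2 : (Polynomial.X ^ 2 - Polynomial.C x : Polynomial K).degree = 2 := by
      rw [Polynomial.degree_X_pow_sub_C (by norm_num)]
      rfl
    obtain ⟨a, b, hab⟩ := FiniteField.exists_root_sum_quadratic h1 h2 hodd
    refine ⟨a, b, ?_⟩
    simp at hab
    linear_combination hab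

/-- The statement over the fields with at most three elements. -/
theorem main_small [Fintype K] (hK : Fintype.card K ≤ 3) (hn : 1 ≤ n)
    (x w : Matrix.SpecialLinearGroup (Fin (n + 1)) K)
    (hx : (x : Matrix (Fin (n + 1)) (Fin (n + 1)) K) = Matrix.transvection (0 : Fin (n + 1)) (1 : Fin (n + 1)) 1)
    (hw : (w : Matrix (Fin (n + 1)) (Fin (n + 1)) K) =
      Matrix.of (fun i j => if j.val = i.val + 1 then 1 else if i.val = n ∧ j.val = 0 then (-1) ^ n else 0)) :
    Subgroup.closure ({x, w} : Set (Matrix.SpecialLinearGroup (Fin (n + 1)) K)) ⊔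
      Subgroup.center (Matrix.SpecialLinearGroup (Fin (n + 1)) K) = ⊤ := by
  classical
  have hall : ∀ t : K, t = 0 ∨ t = 1 ∨ t = -1 := by
    intro t
    by_contra hh
    push Not at hh
    obtain ⟨h0, h1, hm⟩ := hh
    have h4 : 4 ≤ Fintype.card K := by
      by_cases hm1 : (-1 : K) = 1
      · have h3 : t + 1 ≠ 0 := fun e => hm (eq_neg_of_add_eq_zero_left e)
        have h5 : t + 1 ≠ 1 := fun e => h0 (by simpa using e)
        have h6 : t + 1 ≠ t := by simp
        let S : Finset K := {0, 1, t, t + 1}
        have hS : S.card = 4 := by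
          simp only [S]
          rw [Finset.card_insert_of_notMem, Finset.card_insert_of_notMem, Finset.card_insert_of_notMem, Finset.card_singleton]
          · simp [h6.symm]
          · simp [h1.symm, h5.symm]
          · simp [h0.symm, h3.symm]
        rw [← hS]
        exact Finset.card_le_univ _
      · let S : Finset K := {0, 1, -1, t}
        have hS : S.card = 4 := by
          simp only [S]
          rw [Finset.card_insert_of_notMem, Finset.card_insert_of_notMem, Finset.card_insert_of_notMem, Finset.card_singleton]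
          · simp [hm.symm]
          · simp [Ne.symm hm1, h1.symm]
          · simp [h0.symm]
        rw [← hS]
        exact Finset.card_le_univ _
    omega
  have hne : (⟨0, by omega⟩ : Fin (n + 1)) ≠ ⟨1, by omega⟩ := fun e => by simpa using congrArg Fin.val e
  have hxT : x = transvection hne 1 := by
    apply Subtype.ext
    have h1 : (1 : Fin (n + 1)) = ⟨1, by omega⟩ := Fin.ext (by
      rw [Fin.val_one', Nat.mod_eq_of_lt (by omega)])
    rw [hx, h1]
    rfl
  set A := Subgroup.closure ({x, w} : Set (Matrix.SpecialLinearGroup (Fin (n + 1)) K)) with hA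
  have hxA : x ∈ A := Subgroup.subset_closure (by simp)
  have hwA : w ∈ A := Subgroup.subset_closure (by simp)
  have hT : A = ⊤ := by
    apply gen_of_T A hn w hw hwA
    intro t h
    rcases hall t with rfl | rfl | rfl
    · rw [transvection_coeff_zero]
      exact A.one_mem
    · rw [← hxT]
      exact hxA
    · have h1 : transvection h (-1 : K) = x⁻¹ := by
        rw [hxT, transvection_inv]
      rw [h1]
      exact A.inv_mem hxA
  rw [hT]
  simp

/-- The statement over the fields with more than three elements. -/
theorem main_big [Fintype K] (hK : 3 < Fintype.card K) (hn : 1 ≤ n)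
    (k : Kˣ) (hk : ∀ u : Kˣ, u ∈ Subgroup.zpowers k)
    (h x w : Matrix.SpecialLinearGroup (Fin (n + 1)) K)
    (hh : (h : Matrix (Fin (n + 1)) (Fin (n + 1)) K) =
      Matrix.diagonal (fun i => if i.val = 0 then (k : K) else if i.val = 1 then ((k⁻¹ : Kˣ) : K) else 1))
    (hx : (x : Matrix (Fin (n + 1)) (Fin (n + 1)) K) = Matrix.transvection (0 : Fin (n + 1)) (1 : Fin (n + 1)) 1)
    (hw : (w : Matrix (Fin (n + 1)) (Fin (n + 1)) K) =
      Matrix.of (fun i j => if j.val = i.val + 1 then 1 else if i.val = n ∧ j.val = 0 then (-1) ^ n else 0)) :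
    Subgroup.closure ({h, x * w} : Set (Matrix.SpecialLinearGroup (Fin (n + 1)) K)) ⊔
      Subgroup.center (Matrix.SpecialLinearGroup (Fin (n + 1)) K) = ⊤ := by
  classical
  have hord : orderOf k = Fintype.card K - 1 := by
    rw [orderOf_eq_card_of_forall_mem_zpowers hk, Nat.card_units, Nat.card_eq_fintype_card]
  have hk0 : (k : K) ≠ 0 := k.ne_zero
  have hk2 : (k : K) ^ 2 ≠ 1 := by
    intro h5
    have h2 : k ^ 2 = 1 := Units.ext (by simpa using h5)
    have h3 := orderOf_le_of_pow_eq_one (by norm_num) h2
    omega
  have hk1 : (k : K) - 1 ≠ 0 := by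
    intro h5
    apply hk2
    have : (k : K) = 1 := by linear_combination h5
    rw [this]
    ring
  have hne : (⟨0, by omega⟩ : Fin (n + 1)) ≠ ⟨1, by omega⟩ := fun e => by simpa using congrArg Fin.val e
  have hxT : x = transvection hne 1 := by
    apply Subtype.ext
    have h1 : (1 : Fin (n + 1)) = ⟨1, by omega⟩ := Fin.ext (by
      rw [Fin.val_one', Nat.mod_eq_of_lt (by omega)])
    rw [hx, h1]
    rfl
  set A := Subgroup.closure ({h, x * w} : Set (Matrix.SpecialLinearGroup (Fin (n + 1)) K)) with hA
  have hhA : h ∈ A := Subgroup.subset_closure (by simp)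
  have hyA : x * w ∈ A := Subgroup.subset_closure (by simp)
  set dh : Fin (n + 1) → K := fun i => if i.val = 0 then (k : K) else if i.val = 1 then ((k⁻¹ : Kˣ) : K) else 1 with hdh
  -- the diagonal entries of `w h w⁻¹`
  let dd : Fin (n + 1) → K := fun i => if i.val = n then (k : K) else if i.val = 0 then ((k⁻¹ : Kˣ) : K) else 1
  have hkinv : ((k⁻¹ : Kˣ) : K) = (k : K)⁻¹ := by simp
  have hD1 : (w : Matrix (Fin (n + 1)) (Fin (n + 1)) K) * Matrix.diagonal dh = Matrix.diagonal dd * w := by
    ext p q
    rw [Matrix.mul_diagonal, Matrix.diagonal_mul, hw]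
    simp only [Matrix.of_apply, dd, hdh]
    have hq := q.2
    have hp := p.2
    by_cases h1 : q.val = p.val + 1
    · rw [if_pos h1, one_mul, mul_one, if_neg (by omega : ¬ q.val = 0)]
      by_cases h2 : p.val = 0
      · rw [if_neg (by omega : ¬ p.val = n), if_pos h2, if_pos (by omega)]
      · rw [if_neg (by omega : ¬ q.val = 1), if_neg (by omega : ¬ p.val = n), if_neg h2]
    · rw [if_neg h1]
      by_cases h2 : p.val = n ∧ q.val = 0
      · rw [if_pos h2, if_pos h2.2, if_pos h2.1]
        ring
      · rw [if_neg h2]
        simp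
  let D : SpecialLinearGroup (Fin (n + 1)) K := w * h * w⁻¹
  have hD : D.1 = Matrix.diagonal dd := by
    show (w : Matrix (Fin (n + 1)) (Fin (n + 1)) K) * h.1 * (w⁻¹).1 = _
    have h5 : (w : Matrix (Fin (n + 1)) (Fin (n + 1)) K) * (w⁻¹).1 = 1 := by
      exact congrArg Subtype.val (mul_inv_cancel w)
    rw [hh, hD1, Matrix.mul_assoc, h5, Matrix.mul_one]
  set d0 : Fin (n + 1) := ⟨0, by omega⟩ with hd0
  set d1 : Fin (n + 1) := ⟨1, by omega⟩ with hd1
  have hdd0 : dd d0 = ((k⁻¹ : Kˣ) : K) := by
    simp only [dd, hd0]
    rw [if_neg (by omega)]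
    simp
  have hdh0 : dh d0 = k := by
    simp only [hdh, hd0, if_true]
  have hdh1 : dh d1 = ((k⁻¹ : Kˣ) : K) := by
    simp only [hdh, hd1]
    simp
  have hne0 : dd d0 ≠ 0 := by
    rw [hdd0]
    exact Units.ne_zero _
  let c : K := dd d1 / dd d0 - 1
  have hc : c ≠ 0 := by
    simp only [c, hdd0, hkinv]
    by_cases hn1 : n = 1
    · have h5 : dd d1 = k := by
        simp only [dd, hd1]
        rw [if_pos hn1.symm]
      rw [h5]
      intro h6
      apply hk2
      field_simp at h6
      linear_combination h6
    · have h5 : dd d1 = 1 := by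
        simp only [dd, hd1]
        rw [if_neg (by omega), if_neg (by omega)]
      rw [h5]
      intro h6
      apply hk1
      field_simp at h6
      linear_combination h6
  -- the element `y h y⁻¹`
  have hP : x * D * x⁻¹ = D * transvection hne c := by
    have h5 := diag_T hne D dd hD (dd d1 / dd d0)
    have h6 : dd d1 / dd d0 * dd d0 / dd d1 = 1 := by
      have hne1 : dd d1 ≠ 0 := by
        simp only [dd, hd1]
        split_ifs
        · exact hk0
        · exact Units.ne_zero _
        · exact one_ne_zero
      field_simp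
    rw [h6, ← hxT] at h5
    have h7 : transvection hne (dd d1 / dd d0) = transvection hne c * x := by
      rw [hxT, ← transvection_add]
      congr 1
      simp only [c]
      ring
    rw [h7, ← mul_assoc] at h5
    rw [← h5, mul_inv_cancel_right]
  have hPA : D * transvection hne c ∈ A := by
    rw [← hP]
    have : x * D * x⁻¹ = (x * w) * h * (x * w)⁻¹ := by
      simp only [D]
      group
    rw [this]
    exact A.mul_mem (A.mul_mem hyA hhA) (A.inv_mem hyA)
  have hcomm : h * D = D * h := by
    apply Subtype.ext
    show h.1 * D.1 = D.1 * h.1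
    rw [hD, hh, Matrix.diagonal_mul_diagonal, Matrix.diagonal_mul_diagonal]
    congr 1
    funext i
    ring
  have hconj : ∀ s : K, h * transvection hne s * h⁻¹ = transvection hne (s * (k : K) ^ 2) := by
    intro s
    have h5 := diag_T hne h dh hh s
    rw [h5, mul_inv_cancel_right, hdh0, hdh1, hkinv]
    congr 1
    field_simp
  have hC : transvection hne (c * ((k : K) ^ 2 - 1)) ∈ A := by
    have h5 : transvection hne (c * ((k : K) ^ 2 - 1)) =
        (D * transvection hne c)⁻¹ * (h * (D * transvection hne c) * h⁻¹) := by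
      have h6 : h * (D * transvection hne c) * h⁻¹ = D * (h * transvection hne c * h⁻¹) := by
        rw [← mul_assoc h D, hcomm]
        group
      rw [h6, hconj, _root_.mul_inv_rev]
      have h7 : (transvection hne c)⁻¹ * D⁻¹ * (D * transvection hne (c * (k : K) ^ 2)) = (transvection hne c)⁻¹ * transvection hne (c * (k : K) ^ 2) := by
        group
      rw [h7, transvection_inv, ← transvection_add]
      congr 1
      ring
    rw [h5]
    exact A.mul_mem (A.inv_mem hPA) (A.mul_mem (A.mul_mem hhA hPA) (A.inv_mem hhA))
  set t₀ : K := c * ((k : K) ^ 2 - 1) with ht₀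
  have ht0 : t₀ ≠ 0 := mul_ne_zero hc (sub_ne_zero.mpr hk2)
  have hpow : ∀ (m : ℕ) (s : K), transvection hne s ∈ A → transvection hne (s * ((k : K) ^ m) ^ 2) ∈ A := by
    intro m
    induction m with
    | zero =>
      intro s hs
      simpa using hs
    | succ m ih =>
      intro s hs
      have h5 := ih s hs
      have h6 : s * ((k : K) ^ (m + 1)) ^ 2 = s * ((k : K) ^ m) ^ 2 * (k : K) ^ 2 := by ring
      rw [h6, ← hconj]
      exact A.mul_mem (A.mul_mem hhA h5) (A.inv_mem hhA)
  have hsq : ∀ a : K, transvection hne (t₀ * a ^ 2) ∈ A := by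
    intro a
    by_cases ha : a = 0
    · subst ha
      simp only [ne_eq, OfNat.ofNat_ne_zero, not_false_eq_true, zero_pow, mul_zero]
      rw [transvection_coeff_zero]
      exact A.one_mem
    · have h5 : Units.mk0 a ha ∈ Submonoid.powers k := by
        rw [mem_powers_iff_mem_zpowers]
        exact hk _
      obtain ⟨m, hm⟩ := h5
      have h6 : (k : K) ^ m = a := by
        have := congrArg Units.val hm
        simpa using this
      rw [← h6]
      exact hpow m _ hC
  have hT : ∀ t : K, transvection hne t ∈ A := by
    intro t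
    obtain ⟨a, b, hab⟩ := sum_two_sq (t / t₀)
    have h5 : t = t₀ * a ^ 2 + t₀ * b ^ 2 := by
      have : t = t₀ * (t / t₀) := by field_simp
      rw [this, ← hab]
      ring
    rw [h5, transvection_add]
    exact A.mul_mem (hsq a) (hsq b)
  have hxA : x ∈ A := by
    rw [hxT]
    exact hT 1
  have hwA : w ∈ A := by
    have : w = x⁻¹ * (x * w) := by group
    rw [this]
    exact A.mul_mem (A.inv_mem hxA) hyA
  have htop : A = ⊤ := gen_of_T A hn w hw hwA (fun t h => hT t)
  rw [htop]
  simp

end Main

end CfsgLib.H9.SLGens
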