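import Mathlib
import Cfsg.Agent.Lib.H9.Sharp3

/-! Recognising `PGL₂` among sharply triply transitive groups. -/

set_option autoImplicit false
set_option linter.unusedVariables false
set_option linter.unusedSectionVars false
set_option linter.unusedSimpArgs false
set_option linter.style.haveILetI false

namespace CfsgLib.H9.Sharp3Mob

open MulAction Matrix OnePoint
open CfsgLib.H9.Sharp2 CfsgLib.H9.Sharp3
open scoped MatrixGroups

section Mob

variable {F : Type*} [Field F] [DecidableEq F]

noncomputable def upper (a c : F) (ha : a ≠ 0) : GL (Fin 2) F :=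
  GeneralLinearGroup.mkOfDetNeZero !![a, c; 0, 1] (by simp [det_fin_two, ha])

noncomputable def jay : GL (Fin 2) F :=
  GeneralLinearGroup.mkOfDetNeZero !![0, 1; 1, 0] (by simp [det_fin_two])

theorem upper_val (a c : F) (ha : a ≠ 0) : ((upper a c ha : GL (Fin 2) F) : Matrix (Fin 2) (Fin 2) F) = !![a, c; 0, 1] := rfl

theorem jay_val : ((jay : GL (Fin 2) F) : Matrix (Fin 2) (Fin 2) F) = !![0, 1; 1, 0] := rfl

theorem upper_coe (a c : F) (ha : a ≠ 0) (x : F) : upper a c ha • (x : OnePoint F) = ((a * x + c : F) : OnePoint F) := by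
  rw [smul_some_eq_ite]
  simp [upper_val]

theorem upper_infty (a c : F) (ha : a ≠ 0) : upper a c ha • (∞ : OnePoint F) = ∞ := by
  rw [smul_infty_eq_ite]
  simp [upper_val]

theorem jay_infty : (jay : GL (Fin 2) F) • (∞ : OnePoint F) = ((0 : F) : OnePoint F) := by
  rw [smul_infty_eq_ite]
  simp [jay_val]

theorem jay_zero : (jay : GL (Fin 2) F) • ((0 : F) : OnePoint F) = ∞ := by
  rw [smul_some_eq_ite]
  simp [jay_val]

theorem jay_coe (x : F) (hx : x ≠ 0) : (jay : GL (Fin 2) F) • (x : OnePoint F) = ((x⁻¹ : F) : OnePoint F) := by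
  rw [smul_some_eq_ite]
  simp [jay_val, hx]

variable {T X : Type*} [Group T] [MulAction T X] (hS : IsSharp3 T X) (b : OnePoint F ≃ X)
  (haff : ∀ a c : F, a ≠ 0 → ∃ g : T, g • b ∞ = b ∞ ∧ ∀ x : F, g • b (x : OnePoint F) = b ((a * x + c : F) : OnePoint F))
  (hinv : ∃ s : T, s • b ∞ = b ((0 : F) : OnePoint F) ∧ s • b ((0 : F) : OnePoint F) = b ∞ ∧
    ∀ x : F, x ≠ 0 → s • b (x : OnePoint F) = b ((x⁻¹ : F) : OnePoint F))

theorem points_ne : (∞ : OnePoint F) ≠ ((0 : F) : OnePoint F) ∧ (∞ : OnePoint F) ≠ ((1 : F) : OnePoint F) ∧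
    ((0 : F) : OnePoint F) ≠ ((1 : F) : OnePoint F) := by
  refine ⟨?_, ?_, ?_⟩
  · simp
  · simp
  · intro h
    exact zero_ne_one (OnePoint.coe_injective h)

include hS in
theorem eq_of_act {g g' : T} (h : ∀ y, g • b y = g' • b y) : g = g' := by
  obtain ⟨h1, h2, h3⟩ := points_ne (F := F)
  exact hS.eq_of_three (a := b ∞) (b := b ((0 : F) : OnePoint F)) (c := b ((1 : F) : OnePoint F))
    (fun h => h1 (b.injective h)) (fun h => h2 (b.injective h)) (fun h => h3 (b.injective h)) (h _) (h _) (h _)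

include haff hinv in
theorem good (M : GL (Fin 2) F) : ∃ g : T, ∀ y, g • b y = b (M • y) := by
  have hup : ∀ (a c : F) (ha : a ≠ 0), ∃ g : T, ∀ y, g • b y = b (upper a c ha • y) := by
    intro a c ha
    obtain ⟨g, h1, h2⟩ := haff a c ha
    refine ⟨g, fun y => ?_⟩
    induction y using OnePoint.rec with
    | infty => rw [h1, upper_infty]
    | coe x => rw [h2, upper_coe]
  have hmul : ∀ M N : GL (Fin 2) F, (∃ g : T, ∀ y, g • b y = b (M • y)) → (∃ g : T, ∀ y, g • b y = b (N • y)) →
      ∃ g : T, ∀ y, g • b y = b ((M * N) • y) := by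
    rintro M N ⟨g, hg⟩ ⟨g', hg'⟩
    refine ⟨g * g', fun y => ?_⟩
    rw [mul_smul, hg', hg, mul_smul]
  have hJ : ∃ g : T, ∀ y, g • b y = b ((jay : GL (Fin 2) F) • y) := by
    obtain ⟨s, h1, h2, h3⟩ := hinv
    refine ⟨s, fun y => ?_⟩
    induction y using OnePoint.rec with
    | infty => rw [h1, jay_infty]
    | coe x =>
      by_cases hx : x = 0
      · subst hx
        rw [h2, jay_zero]
      · rw [h3 x hx, jay_coe x hx]
  have hdet : (M : Matrix (Fin 2) (Fin 2) F).det ≠ 0 := M.det_ne_zero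
  rw [det_fin_two] at hdet
  by_cases hγ : M 1 0 = 0
  · have hα : M 0 0 ≠ 0 := by
      intro h
      apply hdet
      simp [h, hγ]
    have hδ : M 1 1 ≠ 0 := by
      intro h
      apply hdet
      simp [h, hγ]
    obtain ⟨g, hg⟩ := hup (M 0 0 / M 1 1) (M 0 1 / M 1 1) (div_ne_zero hα hδ)
    refine ⟨g, fun y => ?_⟩
    rw [hg]
    congr 1
    induction y using OnePoint.rec with
    | infty =>
      rw [upper_infty, smul_infty_eq_ite, if_pos hγ]
    | coe x =>
      rw [upper_coe, smul_some_eq_ite, hγ, zero_mul, zero_add, if_neg hδ]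
      congr 1
      field_simp
  · have ha : (M 0 1 * M 1 0 - M 0 0 * M 1 1) / M 1 0 ≠ 0 := by
      apply div_ne_zero _ hγ
      intro h
      apply hdet
      linear_combination -h
    have hfac : M = upper ((M 0 1 * M 1 0 - M 0 0 * M 1 1) / M 1 0) (M 0 0 / M 1 0) ha * jay *
        upper (M 1 0) (M 1 1) hγ := by
      apply Units.ext
      rw [Units.val_mul, Units.val_mul, upper_val, upper_val, jay_val]
      ext i j
      fin_cases i <;> fin_cases j <;> simp [Matrix.mul_apply, Fin.sum_univ_two] <;> field_simp <;> try ring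
    rw [hfac]
    exact hmul _ _ (hmul _ _ (hup _ _ ha) hJ) (hup _ _ hγ)

include hS haff hinv in
theorem exists_hom : ∃ ρ : GL (Fin 2) F →* T, (∀ (M : GL (Fin 2) F) (y : OnePoint F), ρ M • b y = b (M • y)) ∧
    Function.Surjective ρ := by
  choose r hr using good b haff hinv
  let ρ : GL (Fin 2) F →* T := MonoidHom.mk' r (by
    intro M N
    apply eq_of_act hS b
    intro y
    rw [hr, mul_smul, mul_smul, hr, hr])
  have hρ : ∀ (M : GL (Fin 2) F) (y : OnePoint F), ρ M • b y = b (M • y) := hr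
  refine ⟨ρ, hρ, ?_⟩
  obtain ⟨h1, h2, h3⟩ := points_ne (F := F)
  have hin : ∀ g : T, g • b ∞ = b ∞ → ∃ M, ρ M = g := by
    intro g hg
    have h4 : ∀ u : OnePoint F, u ≠ ∞ → g • b u ≠ b ∞ := by
      intro u hu h
      apply hu
      apply b.injective
      exact MulAction.injective g (h.trans hg.symm)
    obtain ⟨c, hc⟩ : ∃ c : F, g • b ((0 : F) : OnePoint F) = b (c : OnePoint F) := by
      have h5 := h4 ((0 : F) : OnePoint F) h1.symm
      generalize hv : b.symm (g • b ((0 : F) : OnePoint F)) = v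
      induction v using OnePoint.rec with
      | infty =>
        exfalso
        apply h5
        rw [← Equiv.apply_symm_apply b (g • _), hv]
      | coe v =>
        refine ⟨v, ?_⟩
        rw [← hv, Equiv.apply_symm_apply]
    obtain ⟨d, hd⟩ : ∃ d : F, g • b ((1 : F) : OnePoint F) = b (d : OnePoint F) := by
      have h5 := h4 ((1 : F) : OnePoint F) h2.symm
      generalize hv : b.symm (g • b ((1 : F) : OnePoint F)) = v
      induction v using OnePoint.rec with
      | infty =>
        exfalso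
        apply h5
        rw [← Equiv.apply_symm_apply b (g • _), hv]
      | coe v =>
        refine ⟨v, ?_⟩
        rw [← hv, Equiv.apply_symm_apply]
    have hcd : d - c ≠ 0 := by
      intro h
      have h6 : d = c := sub_eq_zero.1 h
      rw [h6, ← hc] at hd
      have h7 := MulAction.injective g hd
      exact h3 (b.injective h7).symm
    refine ⟨upper (d - c) c hcd, ?_⟩
    exact hS.eq_of_three (a := b ∞) (b := b ((0 : F) : OnePoint F)) (c := b ((1 : F) : OnePoint F))
      (fun h => h1 (b.injective h)) (fun h => h2 (b.injective h)) (fun h => h3 (b.injective h))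
      (by rw [hρ, upper_infty, hg])
      (by rw [hρ, upper_coe, hc]; simp)
      (by rw [hρ, upper_coe, hd]; simp)
  intro g
  by_cases hg : g • b ∞ = b ∞
  · exact hin g hg
  · -- `g ∞` is finite
    obtain ⟨c, hc⟩ : ∃ c : F, g • b ∞ = b (c : OnePoint F) := by
      generalize hv : b.symm (g • b ∞) = v
      induction v using OnePoint.rec with
      | infty =>
        exfalso
        apply hg
        rw [← Equiv.apply_symm_apply b (g • _), hv]
      | coe v =>
        refine ⟨v, ?_⟩
        rw [← hv, Equiv.apply_symm_apply]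
    let t : GL (Fin 2) F := upper 1 c one_ne_zero * jay
    have ht : ρ t • b ∞ = b (c : OnePoint F) := by
      rw [hρ, mul_smul, jay_infty, upper_coe]
      simp
    obtain ⟨M, hM⟩ := hin ((ρ t)⁻¹ * g) (by rw [mul_smul, hc, ← ht, inv_smul_smul])
    refine ⟨t * M, ?_⟩
    rw [map_mul, hM, mul_inv_cancel_left]

end Mob

section Final

variable {F : Type*} [Field F] [DecidableEq F]
variable {T X : Type*} [Group T] [MulAction T X] (hS : IsSharp3 T X) (b : OnePoint F ≃ X)
  (ρ : GL (Fin 2) F →* T) (hρ : ∀ (M : GL (Fin 2) F) (y : OnePoint F), ρ M • b y = b (M • y))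

include hS hρ in
theorem ker_eq : ρ.ker = Subgroup.center (GL (Fin 2) F) := by
  ext M
  rw [MonoidHom.mem_ker, GeneralLinearGroup.mem_center_iff_val_mem_range_scalar]
  constructor
  · intro h
    have hfix : ∀ y : OnePoint F, M • y = y := by
      intro y
      apply b.injective
      rw [← hρ, h, one_smul]
    have h1 := hfix ∞
    rw [smul_infty_eq_self_iff] at h1
    have h2 := hfix ((0 : F) : OnePoint F)
    have hdet : (M : Matrix (Fin 2) (Fin 2) F).det ≠ 0 := M.det_ne_zero
    rw [det_fin_two, h1, mul_zero, sub_zero] at hdet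
    have hδ : M 1 1 ≠ 0 := right_ne_zero_of_mul hdet
    rw [smul_some_eq_ite, h1] at h2
    simp only [zero_mul, zero_add, hδ, if_false, mul_zero] at h2
    have h3 : M 0 1 / M 1 1 = 0 := OnePoint.coe_injective h2
    have h4 : M 0 1 = 0 := by
      rcases div_eq_zero_iff.1 h3 with h | h
      · exact h
      · exact absurd h hδ
    have h5 := hfix ((1 : F) : OnePoint F)
    rw [smul_some_eq_ite, h1, h4] at h5
    simp only [zero_mul, zero_add, hδ, if_false, mul_one, add_zero] at h5
    have h6 : M 0 0 / M 1 1 = 1 := OnePoint.coe_injective h5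
    have h7 : M 0 0 = M 1 1 := (div_eq_one_iff_eq hδ).1 h6
    refine ⟨M 1 1, ?_⟩
    ext i j
    fin_cases i <;> fin_cases j <;> simp [h1, h4, h7]
  · rintro ⟨c, hc⟩
    apply eq_of_act hS b
    intro y
    rw [hρ, one_smul]
    congr 1
    have h00 : M 0 0 = c := by
      change (M : Matrix (Fin 2) (Fin 2) F) 0 0 = c
      rw [← hc]; simp
    have h11 : M 1 1 = c := by
      change (M : Matrix (Fin 2) (Fin 2) F) 1 1 = c
      rw [← hc]; simp
    have h10 : M 1 0 = 0 := by
      change (M : Matrix (Fin 2) (Fin 2) F) 1 0 = 0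
      rw [← hc]; simp
    have h01 : M 0 1 = 0 := by
      change (M : Matrix (Fin 2) (Fin 2) F) 0 1 = 0
      rw [← hc]; simp
    have hc0 : c ≠ 0 := by
      have hdet : (M : Matrix (Fin 2) (Fin 2) F).det ≠ 0 := M.det_ne_zero
      rw [det_fin_two, h00, h11, h10, h01] at hdet
      intro h
      apply hdet
      simp [h]
    induction y using OnePoint.rec with
    | infty => rw [smul_infty_eq_self_iff]; exact h10
    | coe x =>
      rw [smul_some_eq_ite, h00, h11, h10, h01]
      simp only [zero_mul, zero_add, hc0, if_false, add_zero]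
      congr 1
      field_simp

theorem main_pgl (hS : IsSharp3 T X) (b : OnePoint F ≃ X)
    (haff : ∀ a c : F, a ≠ 0 → ∃ g : T, g • b ∞ = b ∞ ∧ ∀ x : F, g • b (x : OnePoint F) = b ((a * x + c : F) : OnePoint F))
    (hinv : ∃ s : T, s • b ∞ = b ((0 : F) : OnePoint F) ∧ s • b ((0 : F) : OnePoint F) = b ∞ ∧
      ∀ x : F, x ≠ 0 → s • b (x : OnePoint F) = b ((x⁻¹ : F) : OnePoint F)) :
    Nonempty (T ≃* Matrix.ProjGenLinGroup (Fin 2) F) := by
  obtain ⟨ρ, hρ, hsurj⟩ := exists_hom hS b haff hinv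
  have hk := ker_eq hS b ρ hρ
  have e1 := QuotientGroup.quotientKerEquivOfSurjective ρ hsurj
  have e2 := QuotientGroup.quotientMulEquivOfEq hk
  exact ⟨e1.symm.trans e2⟩

theorem main_sl [Fintype F] (hchar : ringChar F = 2) (hS : IsSharp3 T X) (b : OnePoint F ≃ X)
    (haff : ∀ a c : F, a ≠ 0 → ∃ g : T, g • b ∞ = b ∞ ∧ ∀ x : F, g • b (x : OnePoint F) = b ((a * x + c : F) : OnePoint F))
    (hinv : ∃ s : T, s • b ∞ = b ((0 : F) : OnePoint F) ∧ s • b ((0 : F) : OnePoint F) = b ∞ ∧
      ∀ x : F, x ≠ 0 → s • b (x : OnePoint F) = b ((x⁻¹ : F) : OnePoint F)) :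
    Nonempty (T ≃* Matrix.SpecialLinearGroup (Fin 2) F) := by
  obtain ⟨ρ, hρ, hsurj⟩ := exists_hom hS b haff hinv
  have hk := ker_eq hS b ρ hρ
  haveI : CharP F 2 := by
    rw [← hchar]
    exact ringChar.charP F
  let ι : Matrix.SpecialLinearGroup (Fin 2) F →* GL (Fin 2) F := Matrix.SpecialLinearGroup.toGL
  let ρ₂ : Matrix.SpecialLinearGroup (Fin 2) F →* T := ρ.comp ι
  have hι : ∀ M : Matrix.SpecialLinearGroup (Fin 2) F, ((ι M : GL (Fin 2) F) : Matrix (Fin 2) (Fin 2) F) = M := fun M => rfl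
  have hinj : Function.Injective ρ₂ := by
    rw [injective_iff_map_eq_one]
    intro M hM
    have h1 : ι M ∈ ρ.ker := hM
    rw [hk, GeneralLinearGroup.mem_center_iff_val_mem_range_scalar] at h1
    obtain ⟨c, hc⟩ := h1
    have h2 : ((M : Matrix (Fin 2) (Fin 2) F)) = scalar (Fin 2) c := by
      rw [← hι, ← hc]
    have h3 : (M : Matrix (Fin 2) (Fin 2) F).det = 1 := M.2
    rw [h2, det_fin_two] at h3
    simp at h3
    have h4 : c * c = 1 := h3
    have h5 : (c + 1) * (c + 1) = 0 := by
      have h6 : (c + 1) * (c + 1) = c * c + 1 + (2 : F) * c := by ring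
      rw [h6, h4, CharTwo.two_eq_zero, zero_mul, add_zero]
      exact CharTwo.add_self_eq_zero 1
    have h7 : c = 1 := by
      have h8 : c + 1 = 0 := mul_self_eq_zero.1 h5
      have h9 : c = -1 := eq_neg_of_add_eq_zero_left h8
      rw [h9, CharTwo.neg_eq]
    apply Subtype.ext
    rw [h2, h7]
    simp
  have hsurj₂ : Function.Surjective ρ₂ := by
    intro g
    obtain ⟨M, rfl⟩ := hsurj g
    have hdet : (M : Matrix (Fin 2) (Fin 2) F).det ≠ 0 := M.det_ne_zero
    obtain ⟨d, hd⟩ := FiniteField.isSquare_of_char_two hchar ((M : Matrix (Fin 2) (Fin 2) F).det)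
    have hd0 : d ≠ 0 := by
      rintro rfl
      rw [mul_zero] at hd
      exact hdet hd
    let N : Matrix.SpecialLinearGroup (Fin 2) F := ⟨d⁻¹ • (M : Matrix (Fin 2) (Fin 2) F), by
      rw [Matrix.det_smul, hd]
      simp
      field_simp⟩
    refine ⟨N, ?_⟩
    -- `M` is a scalar multiple of `ι N`
    have h1 : (ι N)⁻¹ * M ∈ ρ.ker := by
      rw [hk, GeneralLinearGroup.mem_center_iff_val_mem_range_scalar]
      refine ⟨d, ?_⟩
      have h2 : M = ι N * Matrix.GeneralLinearGroup.mkOfDetNeZero (scalar (Fin 2) d) (by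
          simp [det_fin_two, hd0]) := by
        apply Units.ext
        rw [Units.val_mul, hι]
        change (M : Matrix (Fin 2) (Fin 2) F) = (d⁻¹ • (M : Matrix (Fin 2) (Fin 2) F)) * scalar (Fin 2) d
        rw [Matrix.smul_mul, ← Matrix.scalar_comm d (Commute.all _)]
        ext i j
        simp [Matrix.mul_apply, Fin.sum_univ_two, Matrix.one_apply, Matrix.diagonal_apply, Finset.sum_ite_eq]
        field_simp
      rw [h2, inv_mul_cancel_left]
      rfl
    have h3 : ρ ((ι N)⁻¹ * M) = 1 := h1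
    rw [map_mul, map_inv, inv_mul_eq_one] at h3
    exact h3
  exact ⟨(MulEquiv.ofBijective ρ₂ ⟨hinj, hsurj₂⟩).symm⟩

end Final

end CfsgLib.H9.Sharp3Mob
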