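import Mathlib
import Cfsg.Prelude.Def_LieExceptional
import Cfsg.Agent.Lib.Char.Zassenhaus
import Cfsg.Agent.Lib.FGS.FrobThm

/-! Normal subgroups of Zassenhaus groups. -/

set_option autoImplicit false
set_option linter.unusedVariables false
set_option linter.unusedSectionVars false
set_option linter.unusedSimpArgs false
set_option linter.style.haveILetI false

namespace CfsgLib.H9.ZassN

open MulAction Cfsg
open scoped Pointwise

variable {G Ω : Type*} [Group G] [Finite G] [MulAction G Ω] [Fintype Ω]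

theorem normal_transitive (hZ : IsZassenhausGroup G Ω) (N : Subgroup G) [hNn : N.Normal] (hN : N ≠ ⊥) :
    IsPretransitive N Ω := by
  haveI := hZ.1
  haveI := isPreprimitive_of_is_two_pretransitive hZ.2.1
  have hq : IsQuasiPreprimitive G Ω := inferInstance
  apply hq.isPretransitive_of_normal
  intro h
  apply hN
  rw [eq_bot_iff]
  intro x hx
  rw [Subgroup.mem_bot]
  apply FaithfulSMul.eq_of_smul_eq_smul (α := Ω)
  intro c
  rw [one_smul]
  have : c ∈ fixedPoints N Ω := by rw [h]; trivial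
  exact this ⟨x, hx⟩

/-- A normal subgroup contains a nontrivial element fixing two points. -/
theorem exists_fix_two (hZ : IsZassenhausGroup G Ω) (N : Subgroup G) [hNn : N.Normal] (hN : N ≠ ⊥) :
    ∃ x ∈ N, x ≠ 1 ∧ ∃ a b : Ω, a ≠ b ∧ x • a = a ∧ x • b = b := by
  classical
  by_contra hcon
  push Not at hcon
  have hcard := CfsgLib.Char.zass_three_le_card hZ
  haveI htr := normal_transitive hZ N hN
  obtain ⟨a, ha⟩ := hZ.2.2.2.2 N hNn htr
  -- the complement
  have htr' : ∀ c d : Ω, ∃ n : N, n • c = d := fun c d => MulAction.exists_smul_eq N c d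
  have hC : IsFrobeniusComplement (stabilizer N a) := by
    refine ⟨ha, ?_, ?_⟩
    · intro h
      obtain ⟨b, hb⟩ : ∃ b : Ω, b ≠ a := by
        by_contra hc
        push Not at hc
        have : Fintype.card Ω ≤ 1 := Fintype.card_le_one_iff.2 (fun x y => by rw [hc x, hc y])
        omega
      obtain ⟨n, hn⟩ := htr' a b
      have : n ∈ stabilizer N a := by rw [h]; trivial
      exact hb (by rw [← hn]; exact this)
    · intro g hg
      rw [eq_bot_iff]
      intro x hx
      rw [Subgroup.mem_bot]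
      obtain ⟨hx1, hx2⟩ := Subgroup.mem_inf.1 hx
      rw [Subgroup.mem_pointwise_smul_iff_inv_smul_mem] at hx2
      have hx3 : (g⁻¹ * x * g) • a = a := by
        simpa [MulAut.smul_def, MulAut.conj_inv_apply] using hx2
      have hx4 : x • (g • a) = g • a := by
        have := congrArg (g • ·) hx3
        simpa [mul_smul] using this
      have hx1' : x • a = a := hx1
      have hne : a ≠ g • a := fun h => hg h.symm
      by_contra hx5
      apply hcon x.1 x.2 (fun h => hx5 (Subtype.ext h)) a (g • a) hne hx1'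
      exact hx4
  obtain ⟨M, hM, hMn, hMc⟩ := CfsgLib.FGS.exists_frobenius_kernel _ hC
  have hMfree : ∀ x ∈ M, x ≠ 1 → ∀ c : Ω, x • c ≠ c := by
    intro x hx hx1 c hc
    have hx' : x ∈ frobeniusKernel (stabilizer N a) := by rw [← hM]; exact hx
    rcases hx' with h | h
    · exact hx1 h
    obtain ⟨n, hn⟩ := htr' a c
    apply h n
    rw [Subgroup.mem_pointwise_smul_iff_inv_smul_mem]
    have : (n⁻¹ * x * n) • a = a := by
      rw [mul_smul, mul_smul, hn, hc, ← hn, inv_smul_smul]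
    simpa [MulAut.smul_def, MulAut.conj_inv_apply] using this
  have hMmem : ∀ x : N, (∀ c : Ω, x • c ≠ c) → x ∈ M := by
    intro x hx
    have : x ∈ frobeniusKernel (stabilizer N a) := by
      right
      intro g hg
      rw [Subgroup.mem_pointwise_smul_iff_inv_smul_mem] at hg
      have hg2 : (g⁻¹ * x * g) • a = a := by
        simpa [MulAut.smul_def, MulAut.conj_inv_apply] using hg
      apply hx (g • a)
      have := congrArg (g • ·) hg2
      simpa [mul_smul] using this
    rw [← hM] at this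
    exact this
  -- the image in G
  let M' : Subgroup G := M.map N.subtype
  have hM'mem : ∀ x : G, x ∈ M' → x = 1 ∨ (x ∈ N ∧ ∀ c : Ω, x • c ≠ c) := by
    rintro x ⟨y, hy, rfl⟩
    by_cases h1 : y = 1
    · left; simp [h1]
    · right
      refine ⟨y.2, fun c => ?_⟩
      exact hMfree y hy h1 c
  have hM'n : M'.Normal := by
    constructor
    intro x hx g
    rcases hM'mem x hx with rfl | ⟨hxN, hxf⟩
    · simpa using M'.one_mem
    · refine ⟨⟨g * x * g⁻¹, hNn.conj_mem x hxN g⟩, ?_, rfl⟩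
      apply hMmem
      intro c hc
      apply hxf (g⁻¹ • c)
      have := congrArg (g⁻¹ • ·) hc
      simpa [mul_smul, Subgroup.smul_def] using this
  have hM't : IsPretransitive M' Ω := by
    have hkey : ∀ c : Ω, ∃ m : M', m • a = c := by
      intro c
      obtain ⟨n, hn⟩ := htr' a c
      obtain ⟨⟨m, s⟩, hms⟩ := hMc.2 n
      refine ⟨⟨m.1.1, ⟨m.1, m.2, rfl⟩⟩, ?_⟩
      have hs : s.1 • a = a := s.2
      have : n = m.1 * s.1 := hms.symm
      rw [← hn, this, mul_smul, hs]
      rfl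
    constructor
    intro c d
    obtain ⟨m₁, h₁⟩ := hkey c
    obtain ⟨m₂, h₂⟩ := hkey d
    refine ⟨m₂ * m₁⁻¹, ?_⟩
    rw [mul_smul, ← h₁, inv_smul_smul, h₂]
  obtain ⟨c, hc⟩ := hZ.2.2.2.2 M' hM'n hM't
  obtain ⟨x, hx, hx1⟩ := (Subgroup.ne_bot_iff_exists_ne_one).1 hc |>.imp (fun x h => (⟨x.2, h⟩ : _ ∧ _))
  rcases hM'mem x.1 x.1.2 with h | ⟨-, h⟩
  · exact hx1 (Subtype.ext (Subtype.ext h))
  · exact h c x.2

/-- The Frobenius kernel of a point stabiliser. -/
theorem exists_kernel (hZ : IsZassenhausGroup G Ω) (a : Ω) :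
    ∃ K : Subgroup G, K ≤ stabilizer G a ∧
      (∀ x, x ∈ stabilizer G a → (x ∈ K ↔ x = 1 ∨ ∀ c, c ≠ a → x • c ≠ c)) ∧
      (∀ x ∈ stabilizer G a, ∀ k ∈ K, x * k * x⁻¹ ∈ K) ∧
      (∀ c d, c ≠ a → d ≠ a → ∃ k ∈ K, k • c = d) := by
  classical
  have hcard := CfsgLib.Char.zass_three_le_card hZ
  obtain ⟨b, hb⟩ : ∃ b : Ω, b ≠ a := by
    by_contra hc
    push Not at hc
    have : Fintype.card Ω ≤ 1 := Fintype.card_le_one_iff.2 (fun x y => by rw [hc x, hc y])
    omega
  obtain ⟨c₀, hc₀a, hc₀b⟩ : ∃ c : Ω, c ≠ a ∧ c ≠ b := by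
    by_contra hc
    push Not at hc
    have : Fintype.card Ω ≤ 2 := by
      have : (Finset.univ : Finset Ω) ⊆ {a, b} := by
        intro x _
        by_cases hx : x = a
        · simp [hx]
        · simp [hc x hx]
      calc Fintype.card Ω = (Finset.univ : Finset Ω).card := rfl
        _ ≤ ({a, b} : Finset Ω).card := Finset.card_le_card this
        _ ≤ 2 := Finset.card_le_two
    omega
  have hL : ∀ c d, c ≠ a → d ≠ a → ∃ l : stabilizer G a, l • c = d := by
    intro c d hc hd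
    obtain ⟨g, h1, h2⟩ := CfsgLib.Char.zass_two hZ hc.symm hd.symm
    exact ⟨⟨g, h1⟩, h2⟩
  let H : Subgroup (stabilizer G a) := (stabilizer G b).subgroupOf (stabilizer G a)
  have hHmem : ∀ x : stabilizer G a, x ∈ H ↔ x • b = b := fun x => Iff.rfl
  have hC : IsFrobeniusComplement H := by
    refine ⟨?_, ?_, ?_⟩
    · obtain ⟨x, hx, h1, h2⟩ := CfsgLib.Char.zass_exists_nontrivial hZ hb.symm
      intro h
      have : (⟨x, h1⟩ : stabilizer G a) ∈ H := h2
      rw [h, Subgroup.mem_bot] at this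
      exact hx (congrArg Subtype.val this)
    · intro h
      obtain ⟨l, hl⟩ := hL b c₀ hb hc₀a
      have : l ∈ H := by rw [h]; trivial
      exact hc₀b (by rw [← hl]; exact this)
    · intro g hg
      rw [eq_bot_iff]
      intro x hx
      rw [Subgroup.mem_bot]
      obtain ⟨hx1, hx2⟩ := Subgroup.mem_inf.1 hx
      rw [Subgroup.mem_pointwise_smul_iff_inv_smul_mem] at hx2
      have hx3 : (g⁻¹ * x * g) • b = b := by
        have h9 : g⁻¹ * x * g ∈ H := by
          simpa [MulAut.smul_def, MulAut.conj_inv_apply] using hx2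
        exact h9
      have hx4 : x • (g • b) = g • b := by
        have := congrArg (g • ·) hx3
        simpa [mul_smul] using this
      have hgb : g • b ≠ b := fun h => hg h
      have hga : g • b ≠ a := by
        intro h
        apply hb
        have h2 : g.1 • a = a := g.2
        have h3 : g • b = g.1 • b := rfl
        rw [h3] at h
        exact MulAction.injective g.1 (h.trans h2.symm)
      apply Subtype.ext
      exact hZ.2.2.1 x.1 a b (g • b) hb.symm hgb.symm hga.symm x.2 hx1 hx4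
  obtain ⟨K₀, hK₀, hK₀n, hK₀c⟩ := CfsgLib.FGS.exists_frobenius_kernel H hC
  refine ⟨K₀.map (stabilizer G a).subtype, ?_, ?_, ?_, ?_⟩
  · rintro _ ⟨y, -, rfl⟩
    exact y.2
  · intro x hx
    have hmem : x ∈ K₀.map (stabilizer G a).subtype ↔ (⟨x, hx⟩ : stabilizer G a) ∈ K₀ := by
      constructor
      · rintro ⟨y, hy, hyx⟩
        have : y = ⟨x, hx⟩ := Subtype.ext hyx
        rwa [← this]
      · intro h
        exact ⟨_, h, rfl⟩
    rw [hmem]
    have hset : (⟨x, hx⟩ : stabilizer G a) ∈ K₀ ↔ (⟨x, hx⟩ : stabilizer G a) ∈ frobeniusKernel H := by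
      rw [← hK₀]
      rfl
    rw [hset]
    constructor
    · rintro (h | h)
      · left
        exact congrArg Subtype.val h
      · right
        intro c hc hfix
        obtain ⟨l, hl⟩ := hL b c hb hc
        apply h l
        rw [Subgroup.mem_pointwise_smul_iff_inv_smul_mem, hHmem]
        have : ((l⁻¹ * ⟨x, hx⟩ * l : stabilizer G a)) • b = b := by
          rw [mul_smul, mul_smul, hl]
          have : (⟨x, hx⟩ : stabilizer G a) • c = c := hfix
          rw [this, ← hl, inv_smul_smul]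
        simpa [MulAut.smul_def, MulAut.conj_inv_apply] using this
    · rintro (h | h)
      · left
        exact Subtype.ext h
      · right
        intro g hg
        rw [Subgroup.mem_pointwise_smul_iff_inv_smul_mem, hHmem] at hg
        have hg2 : ((g⁻¹ * ⟨x, hx⟩ * g : stabilizer G a)) • b = b := by
          simpa [MulAut.smul_def, MulAut.conj_inv_apply] using hg
        have hga : g • b ≠ a := by
          intro h'
          apply hb
          have h2 : g.1 • a = a := g.2
          have h3 : g • b = g.1 • b := rfl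
          rw [h3] at h'
          exact MulAction.injective g.1 (h'.trans h2.symm)
        apply h (g • b) hga
        have := congrArg (g • ·) hg2
        simpa [mul_smul] using this
  · rintro x hx _ ⟨k, hk, rfl⟩
    have := hK₀n.conj_mem k hk ⟨x, hx⟩
    exact ⟨_, this, rfl⟩
  · have hkey : ∀ c, c ≠ a → ∃ k : K₀, (k : stabilizer G a) • b = c := by
      intro c hc
      obtain ⟨l, hl⟩ := hL b c hb hc
      obtain ⟨⟨m, s⟩, hms⟩ := hK₀c.2 l
      refine ⟨m, ?_⟩
      have hs : s.1 • b = b := s.2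
      have : l = m.1 * s.1 := hms.symm
      rw [← hl, this, mul_smul, hs]
    intro c d hc hd
    obtain ⟨k₁, h₁⟩ := hkey c hc
    obtain ⟨k₂, h₂⟩ := hkey d hd
    refine ⟨((k₂ * k₁⁻¹ : K₀) : stabilizer G a).1, ⟨_, (k₂ * k₁⁻¹).2, rfl⟩, ?_⟩
    have h3 : ((k₂ * k₁⁻¹ : K₀) : stabilizer G a) • c = d := by
      rw [Subgroup.coe_mul, Subgroup.coe_inv, mul_smul, ← h₁, inv_smul_smul, h₂]
    exact h3

/-- The kernel lies in every nontrivial normal subgroup. -/
theorem kernel_le (hZ : IsZassenhausGroup G Ω) (N : Subgroup G) [hNn : N.Normal] (hN : N ≠ ⊥) (a : Ω)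
    (K : Subgroup G) (hKa : K ≤ stabilizer G a)
    (hKm : ∀ x, x ∈ stabilizer G a → (x ∈ K ↔ x = 1 ∨ ∀ c, c ≠ a → x • c ≠ c))
    (hKc : ∀ x ∈ stabilizer G a, ∀ k ∈ K, x * k * x⁻¹ ∈ K) : K ≤ N := by
  classical
  obtain ⟨x₀, hx₀N, hx₀1, a₀, b₀, hab, hxa, hxb⟩ := exists_fix_two hZ N hN
  obtain ⟨t, ht⟩ : ∃ t : G, t • a₀ = a := by
    haveI := hZ.2.1
    haveI : IsPretransitive G Ω := isPretransitive_of_is_two_pretransitive
    exact MulAction.exists_smul_eq G a₀ a
  set b' := t • b₀ with hb'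
  have hb'a : b' ≠ a := by
    rw [← ht, hb']
    exact fun h => hab (MulAction.injective t h).symm
  set x := t * x₀ * t⁻¹ with hx
  have hxN : x ∈ N := hNn.conj_mem x₀ hx₀N t
  have hx1 : x ≠ 1 := fun h => hx₀1 (conj_eq_one_iff.mp h)
  have hxa' : x • a = a := by
    rw [hx, ← ht, mul_smul, mul_smul, inv_smul_smul, hxa]
  have hxb' : x • b' = b' := by
    rw [hx, hb', mul_smul, mul_smul, inv_smul_smul, hxb]
  have hxs : x ∈ stabilizer G a := hxa'
  let f : K → K := fun k => ⟨k.1 * (x * k.1⁻¹ * x⁻¹), K.mul_mem k.2 (hKc x hxs _ (K.inv_mem k.2))⟩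
  have hinj : Function.Injective f := by
    intro k l hkl
    have h1 : k.1 * (x * k.1⁻¹ * x⁻¹) = l.1 * (x * l.1⁻¹ * x⁻¹) := congrArg Subtype.val hkl
    set u := l.1⁻¹ * k.1 with hu
    have huK : u ∈ K := K.mul_mem (K.inv_mem l.2) k.2
    have hcomm : u * x = x * u := by
      have h2 : k.1 * x * k.1⁻¹ = l.1 * x * l.1⁻¹ := by
        have := congrArg (· * x) h1
        simpa [mul_assoc] using this
      have h3 : l.1⁻¹ * (k.1 * x * k.1⁻¹) * k.1 = l.1⁻¹ * (l.1 * x * l.1⁻¹) * k.1 := by rw [h2]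
      simpa [hu, mul_assoc] using h3
    by_cases hu1 : u = 1
    · apply Subtype.ext
      have : l.1⁻¹ * k.1 = 1 := hu1
      exact (inv_mul_eq_one.mp this).symm
    · exfalso
      have hua : u • a = a := hKa huK
      have hub : u • b' ≠ b' := by
        rcases (hKm u (hKa huK)).1 huK with h | h
        · exact absurd h hu1
        · exact h b' hb'a
      have hfix : x • (u • b') = u • b' := by
        rw [← mul_smul, ← hcomm, mul_smul, hxb']
      have hne : u • b' ≠ a := by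
        intro h
        apply hb'a
        exact MulAction.injective u (h.trans hua.symm)
      exact hx1 (hZ.2.2.1 x a b' (u • b') hb'a.symm hub.symm hne.symm hxa' hxb' hfix)
  have hsurj : Function.Surjective f := Finite.injective_iff_surjective.1 hinj
  intro k₀ hk₀
  obtain ⟨k, hk⟩ := hsurj ⟨k₀, hk₀⟩
  have h1 : k.1 * (x * k.1⁻¹ * x⁻¹) = k₀ := congrArg Subtype.val hk
  rw [← h1]
  have h2 : k.1 * (x * k.1⁻¹ * x⁻¹) = (k.1 * x * k.1⁻¹) * x⁻¹ := by group
  rw [h2]
  exact N.mul_mem (hNn.conj_mem x hxN k.1) (N.inv_mem hxN)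

/-- Uniqueness of a regular subgroup normalised by a doubly transitive subgroup. -/
theorem reg_unique [FaithfulSMul G Ω] [Nontrivial Ω] (N : Subgroup G)
    (hN2 : ∀ a b c d : Ω, a ≠ b → c ≠ d → ∃ n ∈ N, n • a = c ∧ n • b = d)
    (R R' : Subgroup G) (hRN : R ≤ N) (hRN' : R' ≤ N)
    (hRn : ∀ n ∈ N, ∀ r ∈ R, n * r * n⁻¹ ∈ R) (hRn' : ∀ n ∈ N, ∀ r ∈ R', n * r * n⁻¹ ∈ R')
    (hRt : ∀ c d : Ω, ∃ r ∈ R, r • c = d) (hRt' : ∀ c d : Ω, ∃ r ∈ R', r • c = d)
    (hRf : ∀ r ∈ R, ∀ c : Ω, r • c = c → r = 1) (hRf' : ∀ r ∈ R', ∀ c : Ω, r • c = c → r = 1) :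
    R = R' := by
  classical
  obtain ⟨a⟩ : Nonempty Ω := inferInstance
  -- conjugacy
  have hconj : ∀ r ∈ R, ∀ s ∈ R, r ≠ 1 → s ≠ 1 → ∃ n ∈ N, n * r * n⁻¹ = s := by
    intro r hr s hs hr1 hs1
    have h1 : r • a ≠ a := fun h => hr1 (hRf r hr a h)
    have h2 : s • a ≠ a := fun h => hs1 (hRf s hs a h)
    obtain ⟨n, hn, hn1, hn2⟩ := hN2 a (r • a) a (s • a) h1.symm h2.symm
    refine ⟨n, hn, ?_⟩
    have hw : s⁻¹ * (n * r * n⁻¹) ∈ R := R.mul_mem (R.inv_mem hs) (hRn n hn r hr)
    have hw2 : (s⁻¹ * (n * r * n⁻¹)) • a = a := by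
      have h3 : n⁻¹ • a = a := by
        conv_lhs => rw [← hn1]
        rw [inv_smul_smul]
      rw [mul_smul, mul_smul, mul_smul, h3, hn2, inv_smul_smul]
    have := hRf _ hw a hw2
    exact (inv_mul_eq_one.mp this).symm
  -- nontriviality
  obtain ⟨b, hb⟩ := exists_ne a
  obtain ⟨r₀, hr₀, hr₀a⟩ := hRt a b
  have hr₀1 : r₀ ≠ 1 := by
    rintro rfl
    rw [one_smul] at hr₀a
    exact hb hr₀a.symm
  -- exponent
  haveI : Finite R := inferInstance
  obtain ⟨p, hp, hpd⟩ := Nat.exists_prime_and_dvd (orderOf_eq_one_iff.not.2 hr₀1)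
  haveI : Fact p.Prime := ⟨hp⟩
  obtain ⟨m, hm⟩ := hpd
  have hopos : 0 < orderOf r₀ := orderOf_pos r₀
  set r₁ := r₀ ^ m with hr₁
  have hr₁R : r₁ ∈ R := R.pow_mem hr₀ m
  have hr₁1 : r₁ ≠ 1 := by
    intro h
    have := orderOf_dvd_of_pow_eq_one h
    rw [hm] at this
    have hmpos : 0 < m := by
      rcases Nat.eq_zero_or_pos m with h0 | h0
      · rw [h0, mul_zero] at hm; omega
      · exact h0
    have h2 := Nat.le_of_dvd hmpos this
    have := hp.two_le
    nlinarith
  have hr₁p : r₁ ^ p = 1 := by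
    rw [hr₁, ← pow_mul, mul_comm, ← hm, pow_orderOf_eq_one]
  have hexp : ∀ s ∈ R, s ^ p = 1 := by
    intro s hs
    by_cases hs1 : s = 1
    · rw [hs1, one_pow]
    obtain ⟨n, hn, rfl⟩ := hconj r₁ hr₁R s hs hr₁1 hs1
    rw [conj_pow, hr₁p]
    group
  haveI hnt : Nontrivial R := ⟨⟨⟨r₀, hr₀⟩, 1, fun h => hr₀1 (congrArg Subtype.val h)⟩⟩
  have hpg : IsPGroup p R := by
    intro s
    refine ⟨1, ?_⟩
    apply Subtype.ext
    simpa using hexp s.1 s.2
  haveI := hpg.center_nontrivial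
  obtain ⟨z, hz⟩ := exists_ne (1 : Subgroup.center R)
  have hz1 : (z.1.1 : G) ≠ 1 := fun h => hz (Subtype.ext (Subtype.ext h))
  have hzc : ∀ t ∈ R, t * z.1.1 = z.1.1 * t := by
    intro t ht
    have := (Subgroup.mem_center_iff.1 z.2) ⟨t, ht⟩
    exact congrArg Subtype.val this
  have hab : ∀ s ∈ R, ∀ t ∈ R, t * s = s * t := by
    intro s hs t ht
    by_cases hs1 : s = 1
    · rw [hs1, one_mul, mul_one]
    obtain ⟨n, hn, rfl⟩ := hconj z.1.1 z.1.2 s hs hz1 hs1
    have h1 : n⁻¹ * t * n ∈ R := by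
      have := hRn n⁻¹ (N.inv_mem hn) t ht
      simpa using this
    have h2 := hzc _ h1
    calc t * (n * z.1.1 * n⁻¹) = n * ((n⁻¹ * t * n) * z.1.1) * n⁻¹ := by group
      _ = n * (z.1.1 * (n⁻¹ * t * n)) * n⁻¹ := by rw [h2]
      _ = (n * z.1.1 * n⁻¹) * t := by group
  -- `R ≤ R'` gives equality
  have hle_eq : R ≤ R' → R = R' := by
    intro hle
    apply le_antisymm hle
    intro r' hr'
    obtain ⟨r, hr, hra⟩ := hRt a (r' • a)
    have h1 : r⁻¹ * r' ∈ R' := R'.mul_mem (R'.inv_mem (hle hr)) hr'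
    have h2 : (r⁻¹ * r') • a = a := by rw [mul_smul, ← hra, inv_smul_smul]
    have h3 := hRf' _ h1 a h2
    rw [← inv_mul_eq_one.mp h3]
    exact hr
  by_cases hint : ∃ x ∈ R, x ∈ R' ∧ x ≠ 1
  · obtain ⟨x, hxR, hxR', hx1⟩ := hint
    apply hle_eq
    intro s hs
    by_cases hs1 : s = 1
    · rw [hs1]; exact R'.one_mem
    obtain ⟨n, hn, rfl⟩ := hconj x hxR s hs hx1 hs1
    exact hRn' n hn x hxR'
  · exfalso
    push Not at hint
    obtain ⟨r₀', hr₀', hr₀a'⟩ := hRt' a b
    have hr₀1' : r₀' ≠ 1 := by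
      rintro rfl
      rw [one_smul] at hr₀a'
      exact hb hr₀a'.symm
    have hcomm : ∀ r ∈ R, ∀ r' ∈ R', r * r' = r' * r := by
      intro r hr r' hr'
      have h1 : r * (r' * r⁻¹ * r'⁻¹) ∈ R := R.mul_mem hr (hRn r' (hRN' hr') _ (R.inv_mem hr))
      have h2 : r * (r' * r⁻¹ * r'⁻¹) = (r * r' * r⁻¹) * r'⁻¹ := by group
      have h3 : r * (r' * r⁻¹ * r'⁻¹) ∈ R' := by
        rw [h2]
        exact R'.mul_mem (hRn' r (hRN hr) r' hr') (R'.inv_mem hr')
      have h4 := hint _ h1 h3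
      have h5 : r * r' * r⁻¹ * r'⁻¹ = 1 := by rw [← h2]; exact h4
      have h6 : r * r' * r⁻¹ = r' := mul_inv_eq_one.mp h5
      exact mul_inv_eq_iff_eq_mul.mp h6
    obtain ⟨r, hr, hra⟩ := hRt a (r₀' • a)
    set s := r⁻¹ * r₀' with hs
    have hsa : s • a = a := by rw [hs, mul_smul, ← hra, inv_smul_smul]
    have hsc : ∀ t ∈ R, s * t = t * s := by
      intro t ht
      have h8 := hab r⁻¹ (R.inv_mem hr) t ht
      calc s * t = r⁻¹ * (r₀' * t) := by rw [hs, mul_assoc]
        _ = r⁻¹ * (t * r₀') := by rw [hcomm t ht r₀' hr₀']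
        _ = (r⁻¹ * t) * r₀' := by rw [mul_assoc]
        _ = (t * r⁻¹) * r₀' := by rw [h8]
        _ = t * s := by rw [hs, mul_assoc]
    have hs1 : s = 1 := by
      apply FaithfulSMul.eq_of_smul_eq_smul (α := Ω)
      intro c
      obtain ⟨t, ht, hta⟩ := hRt a c
      rw [one_smul, ← hta, ← mul_smul, hsc t ht, mul_smul, hsa]
    have h7 : r₀' = r := by
      have : r⁻¹ * r₀' = 1 := hs1
      exact (inv_mul_eq_one.mp this).symm
    exact hr₀1' (hint r₀' (h7 ▸ hr) hr₀')

/-- A nontrivial normal subgroup of a Zassenhaus group is a Zassenhaus group. -/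
theorem main_0339 (hZ : IsZassenhausGroup G Ω) (N : Subgroup G) [hNn : N.Normal] (hN : N ≠ ⊥) :
    IsZassenhausGroup N Ω := by
  classical
  haveI hfaith := hZ.1
  have hcard := CfsgLib.Char.zass_three_le_card hZ
  haveI : Nontrivial Ω := by
    rw [← Fintype.one_lt_card_iff_nontrivial]
    omega
  haveI htr := normal_transitive hZ N hN
  have hkerN : ∀ a c d : Ω, c ≠ a → d ≠ a → ∃ k ∈ N, k • a = a ∧ k • c = d := by
    intro a c d hc hd
    obtain ⟨K, hKa, hKm, hKc, hKt⟩ := exists_kernel hZ a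
    obtain ⟨k, hk, hkc⟩ := hKt c d hc hd
    exact ⟨k, kernel_le hZ N hN a K hKa hKm hKc hk, hKa hk, hkc⟩
  have h2 : ∀ a b c d : Ω, a ≠ b → c ≠ d → ∃ n ∈ N, n • a = c ∧ n • b = d := by
    intro a b c d hab hcd
    obtain ⟨n, hn⟩ := MulAction.exists_smul_eq N a c
    have hb : n.1 • b ≠ c := by
      intro h
      apply hab
      exact (MulAction.injective n.1 (h.trans hn.symm)).symm
    obtain ⟨k, hkN, hk1, hk2⟩ := hkerN c (n.1 • b) d hb hcd.symm
    refine ⟨k * n.1, N.mul_mem hkN n.2, ?_, ?_⟩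
    · rw [mul_smul]
      have : n.1 • a = c := hn
      rw [this, hk1]
    · rw [mul_smul, hk2]
  refine ⟨⟨fun {x y} h => Subtype.ext (eq_of_smul_eq_smul h)⟩, ?_, ?_, ?_, ?_⟩
  · rw [MulAction.is_two_pretransitive_iff]
    intro a b c d hab hcd
    obtain ⟨n, hn, h3, h4⟩ := h2 a b c d hab hcd
    exact ⟨⟨n, hn⟩, h3, h4⟩
  · intro g a b c hab hbc hac ha hb hc
    exact Subtype.ext (hZ.2.2.1 g.1 a b c hab hbc hac ha hb hc)
  · obtain ⟨x, hx, hx1, a, b, hab, ha, hb⟩ := exists_fix_two hZ N hN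
    exact ⟨⟨x, hx⟩, fun h => hx1 (congrArg Subtype.val h), a, b, hab, ha, hb⟩
  · intro N' hN'n hN't
    by_contra hcon
    push Not at hcon
    let R : Subgroup G := N'.map N.subtype
    have hRN : R ≤ N := by
      rintro _ ⟨y, -, rfl⟩
      exact y.2
    have hRn : ∀ n ∈ N, ∀ r ∈ R, n * r * n⁻¹ ∈ R := by
      rintro n hn _ ⟨y, hy, rfl⟩
      exact ⟨_, hN'n.conj_mem y hy ⟨n, hn⟩, rfl⟩
    have hRt : ∀ c d : Ω, ∃ r ∈ R, r • c = d := by
      intro c d
      obtain ⟨y, hy⟩ := MulAction.exists_smul_eq N' c d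
      exact ⟨y.1.1, ⟨y.1, y.2, rfl⟩, hy⟩
    have hRf : ∀ r ∈ R, ∀ c : Ω, r • c = c → r = 1 := by
      rintro _ ⟨y, hy, rfl⟩ c hc
      have h1 : (⟨y, hy⟩ : N') ∈ stabilizer N' c := hc
      rw [hcon c, Subgroup.mem_bot] at h1
      have := congrArg Subtype.val (congrArg Subtype.val h1)
      exact this
    have hRconj : ∀ g : G, R.map (MulAut.conj g).toMonoidHom = R := by
      intro g
      apply reg_unique N h2
      · rintro _ ⟨r, hr, rfl⟩
        exact hNn.conj_mem r (hRN hr) g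
      · exact hRN
      · rintro n hn _ ⟨r, hr, rfl⟩
        refine ⟨g⁻¹ * n * g * r * (g⁻¹ * n * g)⁻¹, ?_, ?_⟩
        · have h5 : g⁻¹ * n * g ∈ N := by
            have := hNn.conj_mem n hn g⁻¹
            simpa using this
          exact hRn _ h5 r hr
        · simp [MulAut.conj_apply]
          group
      · exact hRn
      · intro c d
        obtain ⟨r, hr, hrc⟩ := hRt (g⁻¹ • c) (g⁻¹ • d)
        refine ⟨g * r * g⁻¹, ⟨r, hr, rfl⟩, ?_⟩
        rw [mul_smul, mul_smul, hrc, smul_inv_smul]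
      · exact hRt
      · rintro _ ⟨r, hr, rfl⟩ c hc
        have h6 : r • (g⁻¹ • c) = g⁻¹ • c := by
          have := congrArg (g⁻¹ • ·) hc
          simpa [mul_smul, MulAut.conj_apply] using this
        have := hRf r hr _ h6
        simp [this]
      · exact hRf
    have hRnormal : R.Normal := by
      constructor
      intro r hr g
      rw [← hRconj g]
      exact ⟨r, hr, rfl⟩
    have hRtr : IsPretransitive R Ω := by
      constructor
      intro c d
      obtain ⟨r, hr, h⟩ := hRt c d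
      exact ⟨⟨r, hr⟩, h⟩
    obtain ⟨c, hc⟩ := hZ.2.2.2.2 R hRnormal hRtr
    obtain ⟨x, hx1⟩ := (Subgroup.ne_bot_iff_exists_ne_one).1 hc
    apply hx1
    apply Subtype.ext
    apply Subtype.ext
    exact hRf x.1.1 x.1.2 c x.2

/-- An involution has as many fixed points as there are points, modulo 2. -/
theorem fix_parity (v : G) (hv : v * v = 1) :
    (Fintype.card Ω) % 2 = (Nat.card {c : Ω // v • c = c}) % 2 := by
  classical
  let f : Function.End Ω := fun c => v • c
  have hf : f ^ 2 ^ 1 = 1 := by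
    funext c
    change v • v • c = c
    rw [← mul_smul, hv, one_smul]
  haveI : Fact (Nat.Prime 2) := ⟨Nat.prime_two⟩
  have := Equiv.Perm.card_fixedPoints_modEq (f := f) (p := 2) (n := 1) hf
  have h2 : Nat.card (Function.fixedPoints f) = Nat.card {c : Ω // v • c = c} := rfl
  rw [← Nat.card_eq_fintype_card (α := ↑(Function.fixedPoints f)), h2] at this
  exact this

/-- Zassenhaus group of odd degree: involutions do not fix two points. -/
theorem no_two_fix (hZ : IsZassenhausGroup G Ω) (hodd : Odd (Fintype.card Ω)) (t : G) (ht : t * t = 1)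
    (ht1 : t ≠ 1) (a b : Ω) (hab : a ≠ b) (ha : t • a = a) (hb : t • b = b) : False := by
  classical
  have h1 := fix_parity (Ω := Ω) t ht
  have h2 : {c : Ω // t • c = c} ≃ ({a, b} : Finset Ω) := by
    refine Equiv.subtypeEquivRight (fun c => ?_)
    simp only [Finset.mem_insert, Finset.mem_singleton]
    constructor
    · intro hc
      by_contra hcon
      push Not at hcon
      exact ht1 (hZ.2.2.1 t a b c hab (Ne.symm hcon.2) (Ne.symm hcon.1) ha hb hc)
    · rintro (rfl | rfl) <;> assumption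
  rw [Nat.card_congr h2, Nat.card_eq_fintype_card, Fintype.card_coe, Finset.card_pair hab] at h1
  rcases hodd with ⟨k, hk⟩
  omega

theorem odd_order_of_fix (hZ : IsZassenhausGroup G Ω) (hodd : Odd (Fintype.card Ω)) (x : G)
    (a b : Ω) (hab : a ≠ b) (ha : x • a = a) (hb : x • b = b) : Odd (orderOf x) := by
  by_contra hne
  rw [Nat.not_odd_iff_even] at hne
  obtain ⟨k, hk⟩ := hne
  have hpos := orderOf_pos x
  have hk0 : k ≠ 0 := by omega
  have h1 : x ^ k ≠ 1 := by
    intro h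
    have := orderOf_dvd_of_pow_eq_one h
    have := Nat.le_of_dvd (by omega) this
    omega
  have h2 : x ^ k * x ^ k = 1 := by
    rw [← pow_add, ← hk, pow_orderOf_eq_one]
  have h3 : ∀ (n : ℕ) (c : Ω), x • c = c → x ^ n • c = c := by
    intro n c hc
    induction n with
    | zero => simp
    | succ n ih => rw [pow_succ, mul_smul, hc, ih]
  exact no_two_fix hZ hodd (x ^ k) h2 h1 a b hab (h3 k a ha) (h3 k b hb)

/-- A Zassenhaus group of odd degree is simple. -/
theorem main_0338 (hZ : IsZassenhausGroup G Ω) (hodd : Odd (Fintype.card Ω)) : IsSimpleGroup G := by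
  classical
  obtain ⟨g₀, hg₀, -⟩ := hZ.2.2.2.1
  haveI : Nontrivial G := ⟨⟨g₀, 1, hg₀⟩⟩
  haveI hfaith := hZ.1
  have hcard := CfsgLib.Char.zass_three_le_card hZ
  haveI : Nontrivial Ω := by
    rw [← Fintype.one_lt_card_iff_nontrivial]
    omega
  refine ⟨fun N hNn => ?_⟩
  by_cases hN : N = ⊥
  · exact Or.inl hN
  right
  haveI := hNn
  haveI htr := normal_transitive hZ N hN
  -- two point stabilisers lie in `N`
  have hH : ∀ a b : Ω, a ≠ b → ∀ y : G, y • a = a → y • b = b → y ∈ N := by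
    intro a b hab
    obtain ⟨g, hga, hgb⟩ := CfsgLib.Char.zass_two hZ hab hab.symm
    have hg2a : (g ^ 2) • a = a := by rw [pow_two, mul_smul, hga, hgb]
    have hg2b : (g ^ 2) • b = b := by rw [pow_two, mul_smul, hgb, hga]
    obtain ⟨l, hl⟩ := odd_order_of_fix hZ hodd (g ^ 2) a b hab hg2a hg2b
    have h3 : ∀ (n : ℕ) (c : Ω), (g ^ 2) • c = c → (g ^ 2) ^ n • c = c := by
      intro n c hc
      induction n with
      | zero => simp
      | succ n ih => rw [pow_succ, mul_smul, hc, ih]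
    set v := (g ^ 2) ^ l * g with hv
    have hva : v • a = b := by rw [hv, mul_smul, hga, h3 l b hg2b]
    have hvb : v • b = a := by rw [hv, mul_smul, hgb, h3 l a hg2a]
    have hvv : v * v = 1 := by
      have hv' : v = g ^ (2 * l + 1) := by rw [hv, ← pow_mul, pow_succ]
      have h4 : v * v = (g ^ 2) ^ (2 * l + 1) := by
        rw [hv', ← pow_add, ← pow_mul]
        congr 1
        ring
      rw [h4, ← hl, pow_orderOf_eq_one]
    have hv1 : v ≠ 1 := by
      intro h
      rw [h, one_smul] at hva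
      exact hab hva
    have hvinv : v⁻¹ = v := inv_eq_of_mul_eq_one_left hvv
    -- fixed point of `v`
    obtain ⟨c, hc⟩ : ∃ c : Ω, v • c = c := by
      have h5 := fix_parity (Ω := Ω) v hvv
      rcases hodd with ⟨k, hk⟩
      have h6 : Nat.card {c : Ω // v • c = c} ≠ 0 := by omega
      rw [Nat.card_ne_zero] at h6
      obtain ⟨⟨c, hc⟩⟩ := h6.1
      exact ⟨c, hc⟩
    have hcuniq : ∀ d : Ω, v • d = d → d = c := by
      intro d hd
      by_contra hne
      exact no_two_fix hZ hodd v hvv hv1 d c hne hd hc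
    have hca : c ≠ a := by
      rintro rfl
      exact hab (hc.symm.trans hva)
    have hcb : c ≠ b := by
      rintro rfl
      exact hab (hvb.symm.trans hc)
    -- `v ∈ N`
    have hvN : v ∈ N := by
      obtain ⟨K, hKa, hKm, hKc, hKt⟩ := exists_kernel hZ c
      apply kernel_le hZ N hN c K hKa hKm hKc
      rw [hKm v hc]
      right
      intro d hd hfix
      exact hd (hcuniq d hfix)
    -- the commutator map
    let H : Subgroup G := stabilizer G a ⊓ stabilizer G b
    have hHmem : ∀ x : G, x ∈ H ↔ x • a = a ∧ x • b = b := fun x => Iff.rfl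
    have hHv : ∀ x ∈ H, v * x * v⁻¹ ∈ H := by
      intro x hx
      obtain ⟨h1, h2⟩ := (hHmem x).1 hx
      rw [hHmem, hvinv]
      constructor
      · rw [mul_smul, mul_smul, hva, h2, hvb]
      · rw [mul_smul, mul_smul, hvb, h1, hva]
    let f : H → H := fun h => ⟨h.1 * (v * h.1⁻¹ * v⁻¹), H.mul_mem h.2 (hHv _ (H.inv_mem h.2))⟩
    have hinj : Function.Injective f := by
      intro h k hhk
      have h1 : h.1 * (v * h.1⁻¹ * v⁻¹) = k.1 * (v * k.1⁻¹ * v⁻¹) := congrArg Subtype.val hhk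
      set u := k.1⁻¹ * h.1 with hu
      have huH : u ∈ H := H.mul_mem (H.inv_mem k.2) h.2
      have hcomm : u * v = v * u := by
        have h2 : h.1 * v * h.1⁻¹ = k.1 * v * k.1⁻¹ := by
          have := congrArg (· * v) h1
          simpa [mul_assoc] using this
        have h3 : k.1⁻¹ * (h.1 * v * h.1⁻¹) * h.1 = k.1⁻¹ * (k.1 * v * k.1⁻¹) * h.1 := by rw [h2]
        simpa [hu, mul_assoc] using h3
      have hfix : v • (u • c) = u • c := by
        rw [← mul_smul, ← hcomm, mul_smul, hc]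
      have huc : u • c = c := hcuniq _ hfix
      have hu1 : u = 1 := hZ.2.2.1 u a b c hab hcb.symm hca.symm huH.1 huH.2 huc
      apply Subtype.ext
      exact (inv_mul_eq_one.mp hu1).symm
    have hsurj : Function.Surjective f := Finite.injective_iff_surjective.1 hinj
    intro y hya hyb
    obtain ⟨h, hh⟩ := hsurj ⟨y, hya, hyb⟩
    have h1 : h.1 * (v * h.1⁻¹ * v⁻¹) = y := congrArg Subtype.val hh
    rw [← h1]
    have h2 : h.1 * (v * h.1⁻¹ * v⁻¹) = (h.1 * v * h.1⁻¹) * v⁻¹ := by group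
    rw [h2]
    exact N.mul_mem (hNn.conj_mem v hvN h.1) (N.inv_mem hvN)
  obtain ⟨a⟩ : Nonempty Ω := inferInstance
  obtain ⟨b, hb⟩ := exists_ne a
  have hGa : ∀ x : G, x • a = a → x ∈ N := by
    intro x hx
    obtain ⟨K, hKa, hKm, hKc, hKt⟩ := exists_kernel hZ a
    have hxb : x • b ≠ a := fun h => hb (MulAction.injective x (h.trans hx.symm))
    obtain ⟨k, hk, hkb⟩ := hKt b (x • b) hb hxb
    have hkN : k ∈ N := kernel_le hZ N hN a K hKa hKm hKc hk
    have h1 : k⁻¹ * x ∈ N := by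
      apply hH a b hb.symm
      · rw [mul_smul, hx]
        have : k • a = a := hKa hk
        exact inv_smul_eq_iff.mpr this.symm
      · rw [mul_smul, ← hkb, inv_smul_smul]
    have h2 : x = k * (k⁻¹ * x) := by group
    rw [h2]
    exact N.mul_mem hkN h1
  rw [eq_top_iff]
  intro g _
  obtain ⟨n, hn⟩ := MulAction.exists_smul_eq N a (g • a)
  have h1 : n.1⁻¹ * g ∈ N := by
    apply hGa
    rw [mul_smul, ← hn]
    exact inv_smul_smul n.1 a
  have h2 : g = n.1 * (n.1⁻¹ * g) := by group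
  rw [h2]
  exact N.mul_mem n.2 h1

end CfsgLib.H9.ZassN
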