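import Mathlib
import Cfsg.Agent.Lib.H9.Sharp3Mob
import Cfsg.Agent.Lib.H9.NearFieldOfSharp
import Cfsg.Agent.Lib.H9.Zass2
import Cfsg.Agent.Lib.H9.ZassN

/-! Sharply triply transitive groups of odd degree. -/

set_option autoImplicit false
set_option linter.unusedVariables false
set_option linter.unusedSectionVars false
set_option linter.unusedSimpArgs false
set_option linter.style.haveILetI false

namespace CfsgLib.H9.Sharp3Even

open MulAction Cfsg OnePoint
open CfsgLib.H9.Sharp2 CfsgLib.H9.Sharp3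

variable {T X : Type*} [Group T] [Finite T] [MulAction T X] [Fintype X]

theorem no_two_fix (hS : IsSharp3 T X) (hodd : Odd (Fintype.card X)) (t : T) (ht : t * t = 1)
    (ht1 : t ≠ 1) (a b : X) (hab : a ≠ b) (ha : t • a = a) (hb : t • b = b) : False := by
  classical
  have h1 := ZassN.fix_parity (Ω := X) t ht
  have h2 : {c : X // t • c = c} ≃ ({a, b} : Finset X) := by
    refine Equiv.subtypeEquivRight (fun c => ?_)
    simp only [Finset.mem_insert, Finset.mem_singleton]
    constructor
    · intro hc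
      by_contra hcon
      push Not at hcon
      exact ht1 (hS.sharp t a b c hab (Ne.symm hcon.1) (Ne.symm hcon.2) ha hb hc)
    · rintro (rfl | rfl) <;> assumption
  rw [Nat.card_congr h2, Nat.card_eq_fintype_card, Fintype.card_coe, Finset.card_pair hab] at h1
  rcases hodd with ⟨k, hk⟩
  omega

theorem exists_four (h4 : 4 ≤ Fintype.card X) : ∃ p₁ p₂ p₃ p₄ : X, p₁ ≠ p₂ ∧ p₁ ≠ p₃ ∧ p₂ ≠ p₃ ∧ p₁ ≠ p₄ ∧ p₂ ≠ p₄ ∧ p₃ ≠ p₄ := by
  classical
  let e := (Fintype.equivFinOfCardEq rfl : X ≃ Fin (Fintype.card X))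
  let f : Fin 4 ↪ X := (Fin.castLEEmb h4).trans e.symm.toEmbedding
  refine ⟨f 0, f 1, f 2, f 3, ?_, ?_, ?_, ?_, ?_, ?_⟩ <;> (intro h; have := f.injective h; revert this; decide)

theorem exists_third (h3 : 3 ≤ Fintype.card X) (a b : X) : ∃ c : X, c ≠ a ∧ c ≠ b := by
  classical
  by_contra hcon
  push Not at hcon
  have h1 : (Finset.univ : Finset X) ⊆ {a, b} := by
    intro x _
    by_cases hx : x = a
    · simp [hx]
    · simp [hcon x hx]
  have h2 := Finset.card_le_card h1
  have h4 : ({a, b} : Finset X).card ≤ 2 := Finset.card_le_two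
  rw [Finset.card_univ] at h2
  omega

/-- The group is a Zassenhaus group. -/
theorem isZass (hS : IsSharp3 T X) (hodd : Odd (Fintype.card X)) (h4 : 4 ≤ Fintype.card X) :
    IsZassenhausGroup T X := by
  classical
  have h3 : 3 ≤ Fintype.card X := by omega
  obtain ⟨p₁, p₂, p₃, p₄, h12, h13, h23, h14, h24, h34⟩ := exists_four h4
  refine ⟨⟨fun {g g'} H => hS.eq_of_three h12 h13 h23 (H _) (H _) (H _)⟩, ?_, ?_, ?_, ?_⟩
  · rw [MulAction.is_two_pretransitive_iff]
    intro a b c d hab hcd
    obtain ⟨e, he1, he2⟩ := exists_third h3 a b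
    obtain ⟨e', he1', he2'⟩ := exists_third h3 c d
    obtain ⟨g, hg1, hg2, -⟩ := hS.trans hab he1.symm he2.symm hcd he1'.symm he2'.symm
    exact ⟨g, hg1, hg2⟩
  · intro g a b c hab hbc hac ha hb hc
    exact hS.sharp g a b c hab hac hbc ha hb hc
  · obtain ⟨g, hg1, hg2, hg3⟩ := hS.trans h12 h13 h23 h12 h14 h24
    refine ⟨g, ?_, p₁, p₂, h12, hg1, hg2⟩
    rintro rfl
    rw [one_smul] at hg3
    exact h34 hg3
  · intro N hNn hNt
    by_contra hcon
    push Not at hcon
    -- involutions fixing `p₁`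
    have hinvol : ∀ x y : X, x ≠ p₁ → y ≠ p₁ → x ≠ y → ∃ t : T, t • p₁ = p₁ ∧ t • x = y ∧ t * t = 1 ∧ t ≠ 1 := by
      intro x y hx hy hxy
      obtain ⟨t, h5, h6, h7⟩ := hS.trans hx.symm hy.symm hxy hy.symm hx.symm hxy.symm
      refine ⟨t, h5, h6, ?_, ?_⟩
      · apply hS.sharp (t * t) p₁ x y hx.symm hy.symm hxy
        · rw [mul_smul, h5, h5]
        · rw [mul_smul, h6, h7]
        · rw [mul_smul, h7, h6]
      · rintro rfl
        rw [one_smul] at h6
        exact hxy h6
    -- every such involution inverts `N`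
    have hinvert : ∀ t : T, t • p₁ = p₁ → t * t = 1 → t ≠ 1 → ∀ y ∈ N, t * y * t⁻¹ = y⁻¹ := by
      intro t ht1 ht2 ht3
      have htinv : t⁻¹ = t := inv_eq_of_mul_eq_one_left ht2
      have hfixuniq : ∀ w : X, t • w = w → w = p₁ := by
        intro w hw
        by_contra hne
        exact no_two_fix hS hodd t ht2 ht3 w p₁ hne hw ht1
      have hcent : ∀ n ∈ N, t * n = n * t → n = 1 := by
        intro n hn hc
        have h5 : t • (n • p₁) = n • p₁ := by
          rw [← mul_smul, hc, mul_smul, ht1]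
        have h6 : n • p₁ = p₁ := hfixuniq _ h5
        have h7 : (⟨n, hn⟩ : N) ∈ stabilizer N p₁ := h6
        rw [hcon p₁, Subgroup.mem_bot] at h7
        exact congrArg Subtype.val h7
      let φ : N → N := fun n => ⟨n.1⁻¹ * (t * n.1 * t⁻¹), N.mul_mem (N.inv_mem n.2) (hNn.conj_mem _ n.2 t)⟩
      have hφ : Function.Injective φ := by
        intro n m h
        have h5 : n.1⁻¹ * (t * n.1 * t⁻¹) = m.1⁻¹ * (t * m.1 * t⁻¹) := congrArg Subtype.val h
        have h6 : n.1⁻¹ * (t * n.1) = m.1⁻¹ * (t * m.1) := by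
          have := congrArg (· * t) h5
          simpa [mul_assoc] using this
        have h7 : t * (n.1 * m.1⁻¹) = (n.1 * m.1⁻¹) * t := by
          have h8 : n.1 * (n.1⁻¹ * (t * n.1)) * m.1⁻¹ = n.1 * (m.1⁻¹ * (t * m.1)) * m.1⁻¹ := by rw [h6]
          simpa [mul_assoc] using h8
        have h8 := hcent _ (N.mul_mem n.2 (N.inv_mem m.2)) h7
        apply Subtype.ext
        exact mul_inv_eq_one.1 h8
      have hφs : Function.Surjective φ := Finite.injective_iff_surjective.1 hφ
      intro y hy
      obtain ⟨n, hn⟩ := hφs ⟨y, hy⟩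
      have h5 : n.1⁻¹ * (t * n.1 * t⁻¹) = y := congrArg Subtype.val hn
      rw [← h5, htinv]
      have h6 : (n.1⁻¹ * (t * n.1 * t))⁻¹ = t⁻¹ * n.1⁻¹ * t⁻¹ * n.1 := by group
      rw [h6, htinv]
      calc t * (n.1⁻¹ * (t * n.1 * t)) * t = t * n.1⁻¹ * t * n.1 * (t * t) := by group
        _ = _ := by rw [ht2, mul_one]
    -- two involutions
    have h2a : p₂ ≠ p₁ := h12.symm
    have h3a : p₃ ≠ p₁ := h13.symm
    have h4a : p₄ ≠ p₁ := h14.symm
    obtain ⟨t, ht1, ht2, ht3, ht4⟩ := hinvol p₂ p₃ h2a h3a h23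
    obtain ⟨t', ht1', ht2', ht3', ht4'⟩ := hinvol p₂ p₄ h2a h4a h24
    have hc : ∀ y ∈ N, (t * t') * y = y * (t * t') := by
      intro y hy
      have h5 := hinvert t ht1 ht3 ht4 y⁻¹ (N.inv_mem hy)
      have h6 := hinvert t' ht1' ht3' ht4' y hy
      have h7 : t' * y = y⁻¹ * t' := by
        rw [← h6]
        group
      have h8 : t * y⁻¹ = y * t := by
        have h9 : t * y⁻¹ * t⁻¹ = y := by rw [h5, inv_inv]
        exact mul_inv_eq_iff_eq_mul.mp h9
      calc t * t' * y = t * (t' * y) := by group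
        _ = t * (y⁻¹ * t') := by rw [h7]
        _ = (t * y⁻¹) * t' := by group
        _ = y * t * t' := by rw [h8]
        _ = _ := by group
    have htt : t * t' = 1 := by
      have hfix : ∀ w : X, (t * t') • w = w := by
        intro w
        obtain ⟨y, hy⟩ := MulAction.exists_smul_eq N p₁ w
        have hy' : y.1 • p₁ = w := hy
        rw [← hy', ← mul_smul, hc y.1 y.2, mul_smul, mul_smul, ht1', ht1]
      exact hS.sharp _ p₁ p₂ p₃ h12 h13 h23 (hfix _) (hfix _) (hfix _)
    have h5 : t' = t := by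
      have h6 : t⁻¹ = t := inv_eq_of_mul_eq_one_left ht3
      rw [← h6]
      exact eq_inv_of_mul_eq_one_right htt
    rw [h5, ht2] at ht2'
    exact h34 ht2'

/-- Two point stabilisers are abelian and inverted by swapping elements. -/
theorem H_props (hS : IsSharp3 T X) (hodd : Odd (Fintype.card X)) (h3 : 3 ≤ Fintype.card X) {a b : X} (hab : a ≠ b) :
    (∀ h ∈ stabilizer T a ⊓ stabilizer T b, ∀ h' ∈ stabilizer T a ⊓ stabilizer T b, h * h' = h' * h) ∧
    (∀ s : T, s • a = b → s • b = a → ∀ h ∈ stabilizer T a ⊓ stabilizer T b, s * h * s⁻¹ = h⁻¹) := by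
  classical
  by_cases h4 : 4 ≤ Fintype.card X
  · have hZ := isZass hS hodd h4
    haveI hsimple : IsSimpleGroup T := ZassN.main_0338 hZ hodd
    have hHodd : Odd (Nat.card ↥(stabilizer T a ⊓ stabilizer T b)) := by
      by_contra hne
      rw [Nat.not_odd_iff_even] at hne
      obtain ⟨t', ht'⟩ : ∃ t : ↥(stabilizer T a ⊓ stabilizer T b), orderOf t = 2 :=
        exists_prime_orderOf_dvd_card' 2 (even_iff_two_dvd.mp hne)
      have ht2 : t'.1 * t'.1 = 1 := by
        rw [← pow_two, ← Subgroup.orderOf_coe] at *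
        rw [← ht', pow_orderOf_eq_one]
      have ht1 : t'.1 ≠ 1 := by
        intro h
        have : t' = 1 := Subtype.ext h
        rw [this, orderOf_one] at ht'
        omega
      exact no_two_fix hS hodd t'.1 ht2 ht1 a b hab t'.2.1 t'.2.2
    have hnil : ∀ q : ℕ, q.Prime → q ∣ Nat.card ↥(stabilizer T a ⊓ stabilizer T b) →
        ¬ ∃ N : Subgroup T, N.Normal ∧ N.index = q ^ (Nat.card T).factorization q := by
      rintro q hq hqd ⟨N, hNn, hN⟩
      have hqT : q ∣ Nat.card T := hqd.trans (Subgroup.card_subgroup_dvd_card _)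
      have hv : (Nat.card T).factorization q ≠ 0 := by
        have : Nat.card T ≠ 0 := Nat.card_pos.ne'
        exact (hq.factorization_pos_of_dvd this hqT).ne'
      rcases hsimple.eq_bot_or_eq_top_of_normal N hNn with rfl | rfl
      · -- `T` would have odd order
        rw [Subgroup.index_bot] at hN
        have hq2 : q ≠ 2 := by
          rintro rfl
          rcases hHodd with ⟨k, hk⟩
          rcases hqd with ⟨c, hc⟩
          omega
        obtain ⟨x, y, hxy⟩ : ∃ x y : X, x ≠ y := ⟨a, b, hab⟩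
        obtain ⟨c, hc1, hc2⟩ := exists_third h3 a b
        obtain ⟨s, hs1, hs2, hs3⟩ := hS.trans hab hc1.symm hc2.symm hab.symm hc2.symm hc1.symm
        -- `s` has even order
        have hs4 : s ≠ 1 := by
          rintro rfl
          rw [one_smul] at hs1
          exact hab hs1
        have hss : s * s = 1 := by
          apply hS.sharp (s * s) a b c hab hc1.symm hc2.symm
          · rw [mul_smul, hs1, hs2]
          · rw [mul_smul, hs2, hs1]
          · rw [mul_smul, hs3, hs3]
        have hord : orderOf s = 2 := orderOf_eq_prime (by rw [pow_two, hss]) hs4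
        have h2T : 2 ∣ Nat.card T := by
          rw [← hord]
          exact orderOf_dvd_natCard s
        rw [hN] at h2T
        have := (Nat.prime_two.dvd_of_dvd_pow h2T)
        exact hq2 ((Nat.prime_dvd_prime_iff_eq Nat.prime_two hq).1 this).symm
      · rw [Subgroup.index_top] at hN
        have := Nat.one_lt_pow hv hq.one_lt
        omega
    obtain ⟨h1, -, h2⟩ := CfsgLib.H9.Zass.main_0739 hZ hab hHodd hnil
    refine ⟨?_, h2⟩
    intro h hh h' hh'
    have := (IsCyclic.isMulCommutative (α := ↥(stabilizer T a ⊓ stabilizer T b))).is_comm.comm ⟨h, hh⟩ ⟨h', hh'⟩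
    exact congrArg Subtype.val this
  · have hone : ∀ h ∈ stabilizer T a ⊓ stabilizer T b, h = 1 := by
      intro h hh
      obtain ⟨c, hc1, hc2⟩ := exists_third h3 a b
      have hfix : h • c = c := by
        by_contra hne
        have hcard : (Finset.univ : Finset X) = {a, b, c} := by
          have h5 : ({a, b, c} : Finset X).card = 3 := by
            rw [Finset.card_eq_three]
            exact ⟨a, b, c, hab, hc1.symm, hc2.symm, rfl⟩
          symm
          apply Finset.eq_of_subset_of_card_le (Finset.subset_univ _)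
          rw [h5, Finset.card_univ]
          omega
        have hmem : h • c ∈ (Finset.univ : Finset X) := Finset.mem_univ _
        rw [hcard] at hmem
        simp only [Finset.mem_insert, Finset.mem_singleton] at hmem
        rcases hmem with h6 | h6 | h6
        · have h7 : h • a = a := hh.1
          exact hc1 (MulAction.injective h (h6.trans h7.symm))
        · have h7 : h • b = b := hh.2
          exact hc2 (MulAction.injective h (h6.trans h7.symm))
        · exact hne h6
      exact hS.sharp h a b c hab hc1.symm hc2.symm hh.1 hh.2 hfix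
    constructor
    · intro h hh h' hh'
      rw [hone h hh, hone h' hh']
    · intro s _ _ h hh
      rw [hone h hh]
      simp

/-- A finite near-field with commutative multiplication is isomorphic to any field of the same size. -/
theorem exists_iso (Y : Type*) [Fintype Y] [nf : NearField Y] (hcomm : ∀ x y : Y, x * y = y * x)
    (F₀ : Type) [Field F₀] [Fintype F₀] (hcard : Fintype.card F₀ = Fintype.card Y) :
    ∃ ψ : Y ≃ F₀, (∀ x y, ψ (x + y) = ψ x + ψ y) ∧ (∀ x y, ψ (x * y) = ψ x * ψ y) := by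
  classical
  have hzm : ∀ a : Y, 0 * a = 0 := by
    intro a
    have h1 := NearField.right_distrib (0 : Y) 0 a
    rw [add_zero] at h1
    exact left_eq_add.mp h1
  have hld : ∀ a b c : Y, a * (b + c) = a * b + a * c := by
    intro a b c
    rw [hcomm, NearField.right_distrib, hcomm b, hcomm c]
  have hac : ∀ a b : Y, a + b = b + a := by
    intro x y
    have h1 := hld (1 + 1) x y
    rw [NearField.right_distrib, NearField.right_distrib, NearField.right_distrib] at h1
    simp only [one_mul] at h1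
    have h2 : x + (y + x) + y = x + (x + y) + y := by
      simpa only [add_assoc] using h1
    have h3 := add_right_cancel h2
    exact (add_left_cancel h3).symm
  letI R : CommRing Y :=
    { nf.toAddGroup, nf.toMonoid with
      add_comm := hac
      left_distrib := hld
      right_distrib := nf.right_distrib
      zero_mul := hzm
      mul_zero := nf.mul_zero
      mul_comm := hcomm }
  have hF : IsField Y :=
    { exists_pair_ne := ⟨0, 1, nf.zero_ne_one⟩
      mul_comm := hcomm
      mul_inv_cancel := by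
        intro a ha
        obtain ⟨b, hb, -⟩ := nf.exists_inv a ha
        exact ⟨b, hb⟩ }
  letI K : Field Y := hF.toField
  let ψ : Y ≃+* F₀ := FiniteField.ringEquivOfCardEq hcard.symm
  exact ⟨ψ.toEquiv, ψ.map_add, ψ.map_mul⟩

/-- The main structure theorem. -/
theorem main_even [Nonempty X] (hS : IsSharp3 T X) {a : ℕ} (ha : 1 ≤ a) (hcard : Fintype.card X = 2 ^ a + 1) :
    ∃ (F : Type) (_ : Field F) (_ : Fintype F), Fintype.card F = 2 ^ a ∧
      Nonempty (T ≃* Matrix.ProjGenLinGroup (Fin 2) F) ∧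
      Nonempty (T ≃* Matrix.SpecialLinearGroup (Fin 2) F) := by
  classical
  have h2a : 2 ≤ 2 ^ a := by
    calc 2 = 2 ^ 1 := rfl
      _ ≤ 2 ^ a := Nat.pow_le_pow_right (by norm_num) ha
  have heven : Even (2 ^ a) := (Nat.even_pow' (by omega)).2 even_two
  have hodd : Odd (Fintype.card X) := by
    rw [hcard]
    exact heven.add_one
  have h3 : 3 ≤ Fintype.card X := by omega
  obtain ⟨o⟩ := ‹Nonempty X›
  let Y := SubMulAction.ofStabilizer T o
  have hY : Nat.card Y + 1 = Nat.card X := SubMulAction.nat_card_ofStabilizer_add_one_eq T o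
  rw [Nat.card_eq_fintype_card (α := X), hcard] at hY
  haveI : Fintype Y := Fintype.ofFinite Y
  have hY' : Fintype.card Y = 2 ^ a := by
    rw [← Nat.card_eq_fintype_card]
    omega
  haveI : Nontrivial Y := by
    apply Fintype.one_lt_card_iff_nontrivial.1
    omega
  have hS2 : IsSharp2 (stabilizer T o) Y := hS.stabilizer o
  obtain ⟨nf, hform, hall⟩ := exists_nearField hS2
  have hzm : ∀ a : Y, 0 * a = 0 := by
    intro a
    have h1 := NearField.right_distrib (0 : Y) 0 a
    rw [add_zero] at h1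
    exact left_eq_add.mp h1
  -- the multiplications
  have hmul : ∀ x : Y, x ≠ 0 → ∃ g : T, g • o = o ∧ ∀ u : Y, g • u.1 = (u * x).1 := by
    intro x hx
    obtain ⟨g, hg⟩ := hall x 0 hx
    refine ⟨g.1, g.2, fun u => ?_⟩
    have h1 := hg u
    rw [add_zero] at h1
    exact congrArg Subtype.val h1
  have hne : (o : X) ≠ (0 : Y).1 := fun h => (0 : Y).2 h.symm
  have hcomm : ∀ x y : Y, x * y = y * x := by
    intro x y
    by_cases hx : x = 0
    · rw [hx, hzm, nf.mul_zero]
    by_cases hy : y = 0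
    · rw [hy, hzm, nf.mul_zero]
    obtain ⟨g, hg1, hg2⟩ := hmul x hx
    obtain ⟨g', hg1', hg2'⟩ := hmul y hy
    have h0 : g • (0 : Y).1 = (0 : Y).1 := by rw [hg2, hzm]
    have h0' : g' • (0 : Y).1 = (0 : Y).1 := by rw [hg2', hzm]
    have hc := (H_props hS hodd h3 hne).1 g ⟨hg1, h0⟩ g' ⟨hg1', h0'⟩
    have h5 := congrArg (· • (1 : Y).1) hc
    simp only [mul_smul] at h5
    rw [hg2', hg2, hg2, hg2', one_mul, one_mul] at h5
    exact (Subtype.ext h5).symm
  let F₀ : Type := GaloisField 2 a
  haveI : Fintype F₀ := Fintype.ofFinite F₀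
  haveI hp2 : Fact (Nat.Prime 2) := ⟨Nat.prime_two⟩
  have hF₀ : Fintype.card F₀ = 2 ^ a := by
    rw [← Nat.card_eq_fintype_card]
    exact GaloisField.card 2 a (by omega)
  obtain ⟨ψ, hψa, hψm⟩ := exists_iso Y hcomm F₀ (hF₀.trans hY'.symm)
  have hψ0 : ψ 0 = 0 := by
    have h1 := hψa 0 0
    rw [add_zero] at h1
    exact left_eq_add.mp h1
  have hψ1 : ψ 1 = 1 := by
    have h1 := hψm 1 (ψ.symm 1)
    rw [one_mul, ψ.apply_symm_apply, mul_one] at h1
    exact h1.symm
  -- the identification with the projective line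
  let f : OnePoint F₀ → X := fun z => @Option.elim F₀ X z o (fun k => (ψ.symm k).1)
  have hfInf : f OnePoint.infty = o := rfl
  have hfk : ∀ k : F₀, f (k : OnePoint F₀) = (ψ.symm k).1 := fun _ => rfl
  have hfinj : Function.Bijective f := by
    constructor
    · intro z z' hzz
      induction z using OnePoint.rec with
      | infty =>
        induction z' using OnePoint.rec with
        | infty => rfl
        | coe k =>
          rw [hfInf, hfk] at hzz
          exact absurd hzz.symm (ψ.symm k).2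
      | coe k =>
        induction z' using OnePoint.rec with
        | infty =>
          rw [hfInf, hfk] at hzz
          exact absurd hzz (ψ.symm k).2
        | coe k' =>
          rw [hfk, hfk] at hzz
          have := ψ.symm.injective (Subtype.ext hzz)
          rw [this]
    · intro x
      by_cases hx : x = o
      · exact ⟨OnePoint.infty, hx.symm⟩
      · refine ⟨((ψ ⟨x, hx⟩ : F₀) : OnePoint F₀), ?_⟩
        rw [hfk, ψ.symm_apply_apply]
  let b : OnePoint F₀ ≃ X := Equiv.ofBijective f hfinj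
  have hbInf : b OnePoint.infty = o := rfl
  have hbk : ∀ k : F₀, b (k : OnePoint F₀) = (ψ.symm k).1 := fun _ => rfl
  have hψ0' : ψ.symm 0 = 0 := by rw [← hψ0, ψ.symm_apply_apply]
  have hψ1' : ψ.symm 1 = 1 := by rw [← hψ1, ψ.symm_apply_apply]
  have haff : ∀ a c : F₀, a ≠ 0 → ∃ g : T, g • b OnePoint.infty = b OnePoint.infty ∧
      ∀ x : F₀, g • b (x : OnePoint F₀) = b ((a * x + c : F₀) : OnePoint F₀) := by
    intro a c ha0
    have hA : ψ.symm a ≠ 0 := by
      intro h
      apply ha0
      rw [← ψ.apply_symm_apply a, h, hψ0]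
    obtain ⟨g, hg⟩ := hall (ψ.symm a) (ψ.symm c) hA
    refine ⟨g.1, g.2, fun x => ?_⟩
    rw [hbk, hbk]
    have h1 := hg (ψ.symm x)
    have h2 : ψ.symm x * ψ.symm a + ψ.symm c = ψ.symm (a * x + c) := by
      apply ψ.injective
      rw [hψa, hψm, ψ.apply_symm_apply, ψ.apply_symm_apply, ψ.apply_symm_apply, ψ.apply_symm_apply, mul_comm]
    rw [h2] at h1
    exact congrArg Subtype.val h1
  have hinv : ∃ s : T, s • b OnePoint.infty = b ((0 : F₀) : OnePoint F₀) ∧
      s • b ((0 : F₀) : OnePoint F₀) = b OnePoint.infty ∧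
      ∀ x : F₀, x ≠ 0 → s • b (x : OnePoint F₀) = b ((x⁻¹ : F₀) : OnePoint F₀) := by
    have hne1 : (o : X) ≠ (1 : Y).1 := fun h => (1 : Y).2 h.symm
    have h01 : (0 : Y).1 ≠ (1 : Y).1 := fun h => nf.zero_ne_one (Subtype.ext h)
    obtain ⟨s, hs1, hs2, hs3⟩ := hS.trans hne hne1 h01 hne.symm h01 hne1
    rw [hbInf, hbk, hψ0']
    refine ⟨s, hs1, hs2, ?_⟩
    intro x hx
    rw [hbk, hbk]
    have hX : ψ.symm x ≠ 0 := by
      intro h
      apply hx
      rw [← ψ.apply_symm_apply x, h, hψ0]
    obtain ⟨g, hg1, hg2⟩ := hmul (ψ.symm x) hX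
    have h0 : g • (0 : Y).1 = (0 : Y).1 := by rw [hg2, hzm]
    have hc := (H_props hS hodd h3 hne).2 s hs1 hs2 g ⟨hg1, h0⟩
    have h5 : g • (1 : Y).1 = (ψ.symm x).1 := by rw [hg2, one_mul]
    have h6 : g • (ψ.symm x⁻¹).1 = (1 : Y).1 := by
      rw [hg2]
      congr 1
      apply ψ.injective
      rw [hψm, ψ.apply_symm_apply, ψ.apply_symm_apply, hψ1, inv_mul_cancel₀ hx]
    have h7 : s • (ψ.symm x).1 = g⁻¹ • (1 : Y).1 := by
      have h8 : s * g * s⁻¹ = g⁻¹ → s * g = g⁻¹ * s := by
        intro h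
        rw [← h]
        group
      rw [← h5, ← mul_smul, h8 hc, mul_smul, hs3]
    rw [h7, ← h6, inv_smul_smul]
  have hchar : ringChar F₀ = 2 := ringChar.eq F₀ 2
  exact ⟨F₀, inferInstance, inferInstance, hF₀, Sharp3Mob.main_pgl hS b haff hinv, Sharp3Mob.main_sl hchar hS b haff hinv⟩

end CfsgLib.H9.Sharp3Even
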