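import Mathlib
import Cfsg.Agent.Lib.H9.Sharp3Even

/-! Sharply triply transitive groups of degree `p ^ f + 1` with `f` odd. -/

set_option autoImplicit false
set_option linter.unusedVariables false
set_option linter.unusedSectionVars false
set_option linter.unusedSimpArgs false
set_option linter.style.haveILetI false

namespace CfsgLib.H9.Sharp3Odd

open MulAction Cfsg OnePoint
open CfsgLib.H9.Sharp2 CfsgLib.H9.Sharp3

section det

variable {L V : Type*} [Group L] [Finite L] [AddCommGroup V] {p f : ℕ} [Fact p.Prime]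
  [Module (ZMod p) V] [Finite V]

theorem comm_of_det (hp2 : p ≠ 2) (hfo : Odd f) (hcard : Nat.card V = p ^ f)
    (ρ : L →* (V →ₗ[ZMod p] V)) (hfpf : ∀ l : L, l ≠ 1 → ∀ v : V, ρ l v = v → v = 0)
    (hL : Nat.card L = p ^ f - 1) (τ : L ≃* L) (hτ2 : ∀ l, τ (τ l) = l)
    (ι : L) (hι1 : ι ≠ 1) (hι2 : τ ι = ι) (hι3 : ∀ l, τ l = l → l = 1 ∨ l = ι) :
    ∀ a b : L, a * b = b * a := by
  classical
  haveI : Fintype L := Fintype.ofFinite L
  have hp : p.Prime := Fact.out
  haveI : Module.Finite (ZMod p) V := Module.Finite.of_finite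
  have hfin : Module.finrank (ZMod p) V = f := by
    have h1 := Module.natCard_eq_pow_finrank (K := ZMod p) (V := V)
    rw [hcard, Nat.card_zmod] at h1
    exact (Nat.pow_right_injective hp.two_le h1).symm
  have hf0 : f ≠ 0 := by
    rcases hfo with ⟨k, hk⟩
    omega
  have hneg : (-1 : ZMod p) ≠ 1 := by
    intro h
    have h2 : ((2 : ℕ) : ZMod p) = 0 := by
      have : (1 : ZMod p) + 1 = 0 := by
        nth_rw 1 [← h]
        ring
      push_cast
      rw [← this]
      ring
    rw [ZMod.natCast_eq_zero_iff] at h2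
    exact hp2 ((Nat.prime_dvd_prime_iff_eq hp Nat.prime_two).1 h2)
  have htwo : (2 : ZMod p) ≠ 0 := by
    intro h
    apply hneg
    have : (-1 : ZMod p) = 1 - 2 := by ring
    rw [this, h, sub_zero]
  let δ : L →* ZMod p := (LinearMap.det : (V →ₗ[ZMod p] V) →* ZMod p).comp ρ
  have hδ : ∀ l, δ l = LinearMap.det (ρ l) := fun _ => rfl
  have hδ0 : ∀ l, δ l ≠ 0 := by
    intro l h
    have h1 : δ l * δ l⁻¹ = 1 := by rw [← map_mul, mul_inv_cancel, map_one]
    rw [h, zero_mul] at h1
    exact zero_ne_one h1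
  have hdetneg : ∀ A : V →ₗ[ZMod p] V, LinearMap.det (-A) = - LinearMap.det A := by
    intro A
    have h1 : -A = (-1 : ZMod p) • A := by simp
    rw [h1, LinearMap.det_smul, hfin, hfo.neg_one_pow]
    ring
  -- unique involution
  have hinvol : ∀ l : L, l ≠ 1 → l * l = 1 → ρ l = -1 := by
    intro l hl hll
    ext v
    have h1 : ρ l (v + ρ l v) = v + ρ l v := by
      rw [map_add]
      have h2 : ρ l (ρ l v) = v := by
        have : ρ (l * l) v = ρ l (ρ l v) := by rw [map_mul]; rfl
        rw [← this, hll, map_one]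
        rfl
      rw [h2, add_comm]
    have h2 := hfpf l hl _ h1
    simp only [LinearMap.neg_apply, Module.End.one_apply]
    exact eq_neg_of_add_eq_zero_right h2
  have hιι : ι * ι = 1 := by
    rcases hι3 (ι * ι) (by rw [map_mul, hι2]) with h | h
    · exact h
    · exact absurd (mul_eq_left.mp h) hι1
  have hρι := hinvol ι hι1 hιι
  have hV : ∃ v : V, v ≠ 0 := by
    have h1 : 1 < Nat.card V := by
      rw [hcard]
      exact Nat.one_lt_pow hf0 hp.one_lt
    haveI := Finite.one_lt_card_iff_nontrivial.1 h1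
    exact exists_ne 0
  obtain ⟨v₀, hv₀⟩ := hV
  have huniq : ∀ l : L, l ≠ 1 → l * l = 1 → l = ι := by
    intro l hl hll
    by_contra hne
    have h1 : l * ι⁻¹ ≠ 1 := fun h => hne (mul_inv_eq_one.mp h)
    apply hv₀
    apply hfpf _ h1
    have h2 := hinvol l hl hll
    have h3 : ρ (l * ι⁻¹) = 1 := by
      have h4 : ρ (l * ι⁻¹) * ρ ι = ρ l := by rw [← map_mul, inv_mul_cancel_right]
      rw [hρι, h2] at h4
      have h5 : ρ (l * ι⁻¹) * (-1) * (-1) = (-1) * (-1) := by rw [h4]
      simpa using h5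
    rw [h3]
    rfl
  have hδι : δ ι = -1 := by
    rw [hδ, hρι, hdetneg, map_one]
  -- inverted elements
  have D1 : ∀ g w : L, g * w * g⁻¹ = w⁻¹ → w ≠ 1 → δ w = -1 := by
    intro g w hgw hw
    let T : V →ₗ[ZMod p] V := ρ w - 1
    have hT : LinearMap.det T ≠ 0 := by
      intro h
      have h1 := LinearMap.bot_lt_ker_of_det_eq_zero h
      rw [bot_lt_iff_ne_bot, Submodule.ne_bot_iff] at h1
      obtain ⟨v, hv1, hv2⟩ := h1
      apply hv2
      apply hfpf w hw
      have h2 : T v = 0 := hv1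
      simp only [T, LinearMap.sub_apply, Module.End.one_apply] at h2
      exact sub_eq_zero.mp h2
    have h1 : g * w = w⁻¹ * g := by
      rw [← hgw]
      group
    have h2 : ρ g * T = (ρ w⁻¹ - 1) * ρ g := by
      simp only [T, mul_sub, sub_mul, mul_one, one_mul]
      rw [← map_mul, ← map_mul, h1]
    have h3 : δ g * LinearMap.det T = LinearMap.det (ρ w⁻¹ - 1) * δ g := by
      rw [hδ, ← map_mul, h2, map_mul]
    have h4 : LinearMap.det (ρ w⁻¹ - 1) = LinearMap.det T := by
      apply mul_right_cancel₀ (hδ0 g)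
      rw [← h3, mul_comm]
    have h5 : ρ w⁻¹ - 1 = -(ρ w⁻¹ * T) := by
      simp only [T, mul_sub, mul_one]
      rw [← map_mul, inv_mul_cancel, map_one]
      abel
    rw [h5, hdetneg, map_mul] at h4
    have h6 : - (δ w⁻¹) = 1 := by
      apply mul_right_cancel₀ hT
      rw [one_mul]
      calc - (δ w⁻¹) * LinearMap.det T = -(LinearMap.det (ρ w⁻¹) * LinearMap.det T) := by
            rw [hδ]
            ring
        _ = LinearMap.det T := h4
    have h7 : δ w⁻¹ = -1 := by
      rw [← h6]
      ring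
    have h8 : δ w * δ w⁻¹ = 1 := by rw [← map_mul, mul_inv_cancel, map_one]
    rw [h7] at h8
    have h9 : δ w = -1 := by
      have : δ w * (-1) * (-1) = 1 * (-1) := by rw [h8]
      simpa using this
    exact h9
  have D2 : ∀ g y : L, g * y * g⁻¹ = ι * y → False := by
    intro g y hgy
    have h1 : g * y = ι * y * g := by
      rw [← hgy]
      group
    have h2 := congrArg ρ h1
    rw [map_mul, map_mul, map_mul, hρι] at h2
    have h3 := congrArg LinearMap.det h2
    rw [map_mul, map_mul, neg_one_mul, hdetneg, ← hδ, ← hδ] at h3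
    have h4 : 2 * (δ g * δ y) = 0 := by
      have : δ g * δ y = - δ y * δ g := h3
      have h5 : - δ y * δ g = - (δ g * δ y) := by ring
      rw [h5] at this
      linear_combination this
    rcases mul_eq_zero.mp h4 with h | h
    · exact htwo h
    · rcases mul_eq_zero.mp h with h | h
      · exact hδ0 _ h
      · exact hδ0 _ h
  -- powers of two
  have hpow2 : ∀ (y : L) (j : ℕ), orderOf y = 2 ^ (j + 1) → y ^ (2 ^ j) = ι := by
    intro y j hy
    apply huniq
    · apply pow_ne_one_of_lt_orderOf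
      · positivity
      · rw [hy, pow_succ]
        have : 0 < 2 ^ j := by positivity
        omega
    · rw [← pow_add, ← two_mul, ← pow_succ', ← hy, pow_orderOf_eq_one]
  -- the parity homomorphism
  have hp1 : p - 1 ≠ 0 := by
    have := hp.two_le
    omega
  obtain ⟨k, m, hm, hkm⟩ := Nat.exists_eq_two_pow_mul_odd hp1
  have hk0 : k ≠ 0 := by
    rintro rfl
    have hpo : Odd p := hp.odd_of_ne_two hp2
    rcases hpo with ⟨a, ha⟩
    rcases hm with ⟨b, hb⟩
    simp only [pow_zero, one_mul] at hkm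
    omega
  obtain ⟨k', rfl⟩ := Nat.exists_eq_succ_of_ne_zero hk0
  simp only [Nat.succ_eq_add_one] at hkm
  have hhalf : (p - 1) / 2 = 2 ^ k' * m := by
    rw [hkm, pow_succ]
    have : 2 ^ k' * 2 * m = 2 * (2 ^ k' * m) := by ring
    rw [this]
    exact Nat.mul_div_cancel_left _ (by norm_num)
  let ε : L → ZMod p := fun l => δ l ^ (2 ^ k' * m)
  have hεmul : ∀ a b, ε (a * b) = ε a * ε b := by
    intro a b
    simp only [ε, map_mul, mul_pow]
  have hε2 : ∀ l, ε l * ε l = 1 := by
    intro l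
    simp only [ε]
    rw [← pow_add, ← two_mul, ← mul_assoc, ← pow_succ']
    have h1 : 2 ^ (k' + 1) * m = p - 1 := by rw [hkm]
    rw [h1]
    exact ZMod.pow_card_sub_one_eq_one (hδ0 l)
  have hε3 : ∀ l, ε l = 1 ∨ ε l = -1 := by
    intro l
    have h1 := hε2 l
    exact mul_self_eq_one_iff.mp h1
  have hεpow : ∀ (l : L) (n : ℕ), ε (l ^ n) = ε l ^ n := by
    intro l n
    simp only [ε, map_pow]
    rw [← pow_mul, ← pow_mul, mul_comm]
  have hE : ∀ (l : L) (j u : ℕ), orderOf l = 2 ^ j * u → Odd u →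
      (j = k' + 1 → ε l = -1) ∧ (j ≠ k' + 1 → ε l = 1) := by
    intro l j u hlo hu
    have hu0 : u ≠ 0 := by
      rcases hu with ⟨a, ha⟩
      omega
    have hyo : orderOf (l ^ u) = 2 ^ j := by
      rw [orderOf_pow' l hu0, hlo]
      have h1 : Nat.gcd (2 ^ j * u) u = u := Nat.gcd_eq_right (Dvd.intro_left _ rfl)
      rw [h1]
      exact Nat.mul_div_cancel _ (Nat.pos_of_ne_zero hu0)
    have hεu : ε (l ^ u) = ε l := by
      rw [hεpow]
      rcases hε3 l with h | h
      · rw [h, one_pow]
      · rw [h, hu.neg_one_pow]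
    rcases Nat.eq_zero_or_pos j with rfl | hj
    · have h1 : l ^ u = 1 := by
        rw [← orderOf_eq_one_iff, hyo, pow_zero]
      have h2 : ε (l ^ u) = 1 := by
        rw [h1]
        simp [ε]
      rw [hεu] at h2
      exact ⟨fun h => by omega, fun _ => h2⟩
    · obtain ⟨j', rfl⟩ := Nat.exists_eq_succ_of_ne_zero (Nat.pos_iff_ne_zero.mp hj)
      have h1 := hpow2 (l ^ u) j' hyo
      have h2 : δ (l ^ u) ^ (2 ^ j') = -1 := by
        rw [← map_pow, h1, hδι]
      -- `j' ≤ k'`
      have h3 : j' ≤ k' := by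
        by_contra hlt
        push Not at hlt
        obtain ⟨e, he⟩ := Nat.exists_eq_add_of_lt hlt
        have h4 : δ (l ^ u) ^ (p - 1) = 1 := ZMod.pow_card_sub_one_eq_one (hδ0 _)
        have h5 : (δ (l ^ u) ^ (p - 1)) ^ (2 ^ e) = 1 := by rw [h4, one_pow]
        have h6 : (p - 1) * 2 ^ e = 2 ^ j' * m := by
          rw [hkm, he]
          have : k' + e + 1 = (k' + 1) + e := by ring
          rw [this, pow_add]
          ring
        rw [← pow_mul, h6, pow_mul, h2, hm.neg_one_pow] at h5
        exact hneg h5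
      rw [← hεu]
      constructor
      · intro hjk
        have : j' = k' := by omega
        subst this
        simp only [ε]
        rw [pow_mul, h2, hm.neg_one_pow]
      · intro hjk
        have hlt : j' < k' := by omega
        obtain ⟨e, he⟩ := Nat.exists_eq_add_of_lt hlt
        simp only [ε]
        have h6 : 2 ^ k' * m = 2 ^ j' * (2 ^ (e + 1) * m) := by
          rw [he]
          have : j' + e + 1 = j' + (e + 1) := by ring
          rw [this, pow_add]
          ring
        rw [h6, pow_mul, h2]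
        have h7 : Even (2 ^ (e + 1) * m) := by
          apply Even.mul_right
          rw [pow_succ]
          exact even_two.mul_left _
        exact h7.neg_one_pow
  have hετ : ∀ l, ε (τ l) = ε l := by
    intro l
    have h0 : orderOf l ≠ 0 := (orderOf_pos l).ne'
    obtain ⟨j, u, hu, hlo⟩ := Nat.exists_eq_two_pow_mul_odd h0
    have hto : orderOf (τ l) = 2 ^ j * u := by
      rw [MulEquiv.orderOf_eq, hlo]
    by_cases hj : j = k' + 1
    · rw [(hE l j u hlo hu).1 hj, (hE (τ l) j u hto hu).1 hj]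
    · rw [(hE l j u hlo hu).2 hj, (hE (τ l) j u hto hu).2 hj]
  -- an element with `ε = -1`
  have h2k : 2 ^ (k' + 1) ∣ Nat.card L := by
    rw [hL]
    have h1 : p - 1 ∣ p ^ f - 1 := by
      have := Nat.sub_dvd_pow_sub_pow p 1 f
      rwa [one_pow] at this
    exact (Dvd.intro _ hkm.symm).trans h1
  haveI : Fact (Nat.Prime 2) := ⟨Nat.prime_two⟩
  obtain ⟨Q, hQ⟩ := Sylow.exists_subgroup_card_pow_prime 2 h2k
  have hQinj : Function.Injective (δ.comp Q.subtype) := by
    intro a b hab
    by_contra hne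
    have h1 : a⁻¹ * b ≠ 1 := by
      intro h
      exact hne (inv_mul_eq_one.mp h)
    have h2 : δ ((a⁻¹ * b : Q) : L) = 1 := by
      have h3 : δ (a : L) = δ (b : L) := hab
      have h4 : δ (a : L) * δ ((a : L)⁻¹) = 1 := by rw [← map_mul, mul_inv_cancel, map_one]
      rw [Subgroup.coe_mul, Subgroup.coe_inv, map_mul, ← h3, mul_comm]
      exact h4
    have h3 : orderOf (a⁻¹ * b) ∣ 2 ^ (k' + 1) := by
      rw [← hQ]
      exact orderOf_dvd_natCard _
    obtain ⟨j, -, hj⟩ := (Nat.dvd_prime_pow Nat.prime_two).1 h3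
    have hj0 : j ≠ 0 := by
      rintro rfl
      rw [pow_zero, orderOf_eq_one_iff] at hj
      exact h1 hj
    obtain ⟨j', rfl⟩ := Nat.exists_eq_succ_of_ne_zero hj0
    have h4 : orderOf (((a⁻¹ * b : Q)) : L) = 2 ^ (j' + 1) := by
      rw [Subgroup.orderOf_coe, hj]
    have h5 := hpow2 _ j' h4
    have h6 := congrArg δ h5
    rw [map_pow, h2, one_pow, hδι] at h6
    exact hneg h6.symm
  haveI hQc : IsCyclic Q := isCyclic_of_subgroup_isDomain (δ.comp Q.subtype) hQinj
  obtain ⟨g₀', hg₀'⟩ := IsCyclic.exists_generator (α := Q)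
  have hg₀o : orderOf (g₀' : L) = 2 ^ (k' + 1) * 1 := by
    rw [Subgroup.orderOf_coe, orderOf_eq_card_of_forall_mem_zpowers hg₀', hQ, mul_one]
  let g₀ : L := g₀'
  have hg₀ : ε g₀ = -1 := (hE g₀ (k' + 1) 1 hg₀o odd_one).1 rfl
  -- the set of elements with `ε = 1`
  have hεone : ε 1 = 1 := by simp [ε]
  have hεinv : ∀ a, ε a⁻¹ = ε a := by
    intro a
    have h1 : ε a * ε a⁻¹ = 1 := by rw [← hεmul, mul_inv_cancel, hεone]
    have h2 := hε2 a
    apply mul_left_cancel₀ (a := ε a)
    · intro h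
      rw [h, zero_mul] at h2
      exact zero_ne_one h2
    · rw [h1, h2]
  let φ : L → L := fun l => l * (τ l)⁻¹
  let K : Finset L := Finset.univ.filter (fun l => ε l = 1)
  have hφK : (Finset.univ.image φ) ⊆ K := by
    intro y hy
    obtain ⟨l, -, rfl⟩ := Finset.mem_image.mp hy
    simp only [K, Finset.mem_filter, Finset.mem_univ, true_and, φ]
    rw [hεmul, hεinv, hετ, hε2]
  have hfib : Fintype.card L ≤ 2 * (Finset.univ.image φ).card := by
    have := Finset.card_le_mul_card_image (f := φ) (Finset.univ : Finset L) 2 (by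
      intro b hb
      obtain ⟨l₀, -, rfl⟩ := Finset.mem_image.mp hb
      have hsub : (Finset.univ.filter (fun a => φ a = φ l₀)) ⊆ ({l₀, l₀ * ι} : Finset L) := by
        intro a ha
        have ha' : φ a = φ l₀ := by simpa using ha
        have h1 : τ (l₀⁻¹ * a) = l₀⁻¹ * a := by
          simp only [φ] at ha'
          rw [map_mul, map_inv]
          have h2 : a * (τ a)⁻¹ = l₀ * (τ l₀)⁻¹ := ha'
          have h3 : l₀⁻¹ * a = (τ l₀)⁻¹ * τ a := by
            have h4 : l₀⁻¹ * (a * (τ a)⁻¹) * τ a = l₀⁻¹ * (l₀ * (τ l₀)⁻¹) * τ a := by rw [h2]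
            simpa [mul_assoc] using h4
          exact h3.symm
        simp only [Finset.mem_insert, Finset.mem_singleton]
        rcases hι3 _ h1 with h | h
        · left
          exact (inv_mul_eq_one.mp h).symm
        · right
          rw [← h]
          group
      exact (Finset.card_le_card hsub).trans Finset.card_le_two)
    simpa using this
  have hKcard : 2 * K.card = Fintype.card L := by
    have h1 : K.card = (Finset.univ.filter (fun l => ¬ ε l = 1)).card := by
      apply Finset.card_bij (fun a _ => g₀ * a)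
      · intro a ha
        simp only [K, Finset.mem_filter, Finset.mem_univ, true_and] at ha
        simp only [Finset.mem_filter, Finset.mem_univ, true_and]
        rw [hεmul, hg₀, ha, mul_one]
        exact hneg
      · intro a _ b _ hab
        exact mul_left_cancel hab
      · intro b hb
        simp only [Finset.mem_filter, Finset.mem_univ, true_and] at hb
        refine ⟨g₀⁻¹ * b, ?_, by group⟩
        simp only [K, Finset.mem_filter, Finset.mem_univ, true_and]
        have h2 : ε b = -1 := (hε3 b).resolve_left hb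
        rw [hεmul, hεinv, hg₀, h2]
        ring
    have h2 := Finset.card_filter_add_card_filter_not (s := (Finset.univ : Finset L)) (fun l => ε l = 1)
    rw [Finset.card_univ] at h2
    have h3 : (Finset.univ.filter (fun l => ε l = 1)) = K := rfl
    rw [h3, ← h1] at h2
    omega
  have hKeq : Finset.univ.image φ = K := by
    apply Finset.eq_of_subset_of_card_le hφK
    omega
  have hinvK : ∀ y, ε y = 1 → τ y = y⁻¹ := by
    intro y hy
    have h1 : y ∈ K := by simp [K, hy]
    rw [← hKeq] at h1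
    obtain ⟨l, -, rfl⟩ := Finset.mem_image.mp h1
    simp only [φ]
    rw [map_mul, map_inv, hτ2]
    group
  have hKcomm : ∀ x y, ε x = 1 → ε y = 1 → x * y = y * x := by
    intro x y hx hy
    have h1 := hinvK (x * y) (by rw [hεmul, hx, hy, one_mul])
    rw [map_mul, hinvK x hx, hinvK y hy] at h1
    have h2 : (x * y)⁻¹ = y⁻¹ * x⁻¹ := by group
    rw [h2] at h1
    have h3 : x⁻¹ * y⁻¹ * (y * x) = 1 := by group
    rw [h1] at h3
    have h4 : (y⁻¹ * x⁻¹) * (y * x) = 1 := h3
    have h5 : (x * y)⁻¹ * (y * x) = 1 := by rw [mul_inv_rev]; exact h4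
    exact (inv_mul_eq_one.mp h5)
  have hcentral : ∀ y, ε y = 1 → g₀ * y = y * g₀ := by
    intro y hy
    let w : L := g₀ * y * g₀⁻¹ * y⁻¹
    have hεw : ε w = 1 := by
      simp only [w]
      rw [hεmul, hεmul, hεmul, hεinv, hεinv, hy, mul_one, mul_one, hε2]
    have hg2 : ε (g₀ * g₀) = 1 := by rw [hεmul, hε2]
    have hcomm2 : (g₀ * g₀) * y = y * (g₀ * g₀) := hKcomm _ _ hg2 hy
    have hinvw : ∀ n : ℕ, g₀ * w ^ n * g₀⁻¹ = (w ^ n)⁻¹ := by
      have h1 : g₀ * w * g₀⁻¹ = w⁻¹ := by
        simp only [w]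
        have h2 : g₀ * (g₀ * y * g₀⁻¹ * y⁻¹) * g₀⁻¹ = ((g₀ * g₀) * y) * (g₀⁻¹ * g₀⁻¹) * (g₀ * y⁻¹ * g₀⁻¹) := by group
        rw [h2, hcomm2]
        group
      intro n
      have h3 : g₀ * w ^ n * g₀⁻¹ = (g₀ * w * g₀⁻¹) ^ n := by
        rw [conj_pow]
      rw [h3, h1, inv_pow]
    have hw2 : w * w = 1 := by
      by_contra hne
      have h1 := hinvw 2
      have h2 : w ^ 2 = w * w := pow_two w
      rw [h2] at h1
      have h3 := D1 g₀ (w * w) h1 hne
      have hw1 : w ≠ 1 := by
        rintro h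
        apply hne
        rw [h, one_mul]
      have h4 := hinvw 1
      rw [pow_one] at h4
      have h5 := D1 g₀ w h4 hw1
      rw [map_mul, h5] at h3
      apply hneg
      rw [← h3]
      ring
    have hw : w = 1 := by
      by_contra hne
      have h1 := huniq w hne hw2
      apply D2 g₀ y
      rw [← h1]
      simp only [w]
      group
    have h1 : g₀ * y * g₀⁻¹ * y⁻¹ = 1 := hw
    have h2 : g₀ * y * g₀⁻¹ = y := by
      rwa [mul_inv_eq_one] at h1
    exact mul_inv_eq_iff_eq_mul.mp h2
  have hsplit : ∀ a, ε a = 1 ∨ (ε (g₀⁻¹ * a) = 1 ∧ a = g₀ * (g₀⁻¹ * a)) := by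
    intro a
    rcases hε3 a with h | h
    · exact Or.inl h
    · right
      refine ⟨?_, by group⟩
      rw [hεmul, hεinv, hg₀, h]
      ring
  intro a b
  rcases hsplit a with ha | ⟨ha, ha'⟩ <;> rcases hsplit b with hb | ⟨hb, hb'⟩
  · exact hKcomm a b ha hb
  · generalize g₀⁻¹ * b = y at hb hb'
    rw [hb', ← mul_assoc, ← hcentral a ha, mul_assoc, hKcomm a y ha hb, ← mul_assoc]
  · generalize g₀⁻¹ * a = y at ha ha'
    rw [ha', mul_assoc, hKcomm y b ha hb, ← mul_assoc, ← mul_assoc, hcentral b hb]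
  · generalize g₀⁻¹ * a = y at ha ha'
    generalize g₀⁻¹ * b = y' at hb hb'
    rw [ha', hb']
    calc g₀ * y * (g₀ * y') = g₀ * (y * g₀) * y' := by group
      _ = g₀ * (g₀ * y) * y' := by rw [hcentral y ha]
      _ = g₀ * g₀ * (y * y') := by group
      _ = g₀ * g₀ * (y' * y) := by rw [hKcomm y y' ha hb]
      _ = g₀ * (g₀ * y') * y := by group
      _ = g₀ * (y' * g₀) * y := by rw [hcentral y' hb]
      _ = _ := by group

/-- The linear version with an action. -/
theorem comm_of_act (hp2 : p ≠ 2) (hfo : Odd f) (hcard : Nat.card V = p ^ f)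
    (act : L → V → V) (hact1 : ∀ x, act 1 x = x) (hactm : ∀ a b x, act (a * b) x = act a (act b x))
    (hadd : ∀ l x y, act l (x + y) = act l x + act l y)
    (hfpf : ∀ l : L, l ≠ 1 → ∀ v : V, act l v = v → v = 0)
    (hL : Nat.card L = p ^ f - 1) (τ : L ≃* L) (hτ2 : ∀ l, τ (τ l) = l)
    (ι : L) (hι1 : ι ≠ 1) (hι2 : τ ι = ι) (hι3 : ∀ l, τ l = l → l = 1 ∨ l = ι) :
    ∀ a b : L, a * b = b * a := by
  let ρ : L →* (V →ₗ[ZMod p] V) :=
    { toFun := fun l => AddMonoidHom.toZModLinearMap p (AddMonoidHom.mk' (act l) (hadd l))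
      map_one' := by
        apply LinearMap.ext
        intro x
        exact hact1 x
      map_mul' := by
        intro a b
        apply LinearMap.ext
        intro x
        exact hactm a b x }
  have hρ : ∀ l v, ρ l v = act l v := fun _ _ => rfl
  exact comm_of_det hp2 hfo hcard ρ (by simpa only [hρ] using hfpf) hL τ hτ2 ι hι1 hι2 hι3

/-- The linear version packaged for near-fields. -/
theorem comm_of_nearField {Y : Type*} [nf : NearField Y] [Finite Y] {L : Type*} [Group L] [Finite L] {p f : ℕ}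
    [Fact p.Prime] (hp2 : p ≠ 2) (hfo : Odd f) (hcard : Nat.card Y = p ^ f)
    (hac : ∀ a b : Y, a + b = b + a) (hexp : ∀ b : Y, p • b = 0)
    (act : L → Y → Y) (hact1 : ∀ x, act 1 x = x) (hactm : ∀ a b x, act (a * b) x = act a (act b x))
    (hadd : ∀ l x y, act l (x + y) = act l x + act l y)
    (hfpf : ∀ l : L, l ≠ 1 → ∀ v : Y, act l v = v → v = 0)
    (hL : Nat.card L = p ^ f - 1) (τ : L ≃* L) (hτ2 : ∀ l, τ (τ l) = l)
    (ι : L) (hι1 : ι ≠ 1) (hι2 : τ ι = ι) (hι3 : ∀ l, τ l = l → l = 1 ∨ l = ι) :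
    ∀ a b : L, a * b = b * a := by
  let I1 : AddCommGroup Y := { nf.toAddGroup with add_comm := hac }
  let I2 : Module (ZMod p) Y := AddCommGroup.zmodModule hexp
  exact @comm_of_act L Y _ _ I1 p f _ I2 _ hp2 hfo hcard act hact1 hactm hadd hfpf hL τ hτ2 ι hι1 hι2 hι3

/-- The involutory map of a field satisfying the functional equation is the inversion. -/
theorem tau_eq_inv {F : Type*} [Field F] (h2 : (2 : F) ≠ 0) (t : F → F)
    (ht0 : ∀ x, x ≠ 0 → t x ≠ 0) (hmul : ∀ x y, x ≠ 0 → y ≠ 0 → t (x * y) = t x * t y)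
    (hinv : ∀ x, x ≠ 0 → t (t x) = x)
    (hfix : ∀ x, x ≠ 0 → t x = x → x = 1 ∨ x = -1)
    (hfun : ∀ x, x ≠ 0 → x ≠ -1 → t (t x + 1) = 1 - t (x + 1)) :
    ∀ x, x ≠ 0 → t x * x = 1 := by
  have hneg : (-1 : F) ≠ 0 := neg_ne_zero.mpr one_ne_zero
  have hne : (-1 : F) ≠ 1 := by
    intro h
    apply h2
    linear_combination -h
  have ht1 : t 1 = 1 := by
    have h1 := hmul 1 1 one_ne_zero one_ne_zero
    rw [one_mul] at h1
    have h3 := ht0 1 one_ne_zero
    exact (mul_left_cancel₀ h3 (by rw [← h1, mul_one])).symm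
  have htinv : ∀ x, x ≠ 0 → t x⁻¹ = (t x)⁻¹ := by
    intro x hx
    have h1 := hmul x x⁻¹ hx (inv_ne_zero hx)
    rw [mul_inv_cancel₀ hx, ht1] at h1
    exact eq_inv_of_mul_eq_one_right h1.symm
  have htm1 : t (-1) = -1 := by
    have h1 := hmul (-1) (-1) hneg hneg
    have h3 : (-1 : F) * (-1) = 1 := by ring
    rw [h3, ht1] at h1
    have h4 : (t (-1) - 1) * (t (-1) + 1) = 0 := by linear_combination -h1
    rcases mul_eq_zero.mp h4 with h | h
    · exfalso
      have h5 : t (-1) = 1 := sub_eq_zero.mp h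
      have h6 := hinv (-1) hneg
      rw [h5, ht1] at h6
      exact hne h6.symm
    · linear_combination h
  let P : F → Prop := fun x => x = 0 ∨ t x * x = 1
  have hP1 : ∀ x, P x → P (x + 1) := by
    rintro x (rfl | hx)
    · right
      rw [zero_add, ht1, one_mul]
    · by_cases hx0 : x = 0
      · right
        rw [hx0, zero_add, ht1, one_mul]
      by_cases hxm : x = -1
      · left
        rw [hxm]
        ring
      right
      have hx1 : x + 1 ≠ 0 := by
        intro h
        apply hxm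
        linear_combination h
      have h1 := hfun x hx0 hxm
      have h3 : t x = x⁻¹ := eq_inv_of_mul_eq_one_left hx
      have h4 : t x + 1 = (x + 1) * x⁻¹ := by
        rw [h3]
        field_simp
        ring
      rw [h4, hmul _ _ hx1 (inv_ne_zero hx0), htinv x hx0, h3, inv_inv] at h1
      linear_combination h1
  have hPm : ∀ x y, P x → P y → P (x * y) := by
    rintro x y (rfl | hx) (rfl | hy)
    · left; ring
    · left; ring
    · left; ring
    · right
      have hx0 : x ≠ 0 := by
        rintro rfl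
        simp at hx
      have hy0 : y ≠ 0 := by
        rintro rfl
        simp at hy
      rw [hmul x y hx0 hy0]
      linear_combination y * t y * hx + hy
  have hPneg : P (-1) := by
    right
    rw [htm1]
    ring
  have hPs : ∀ x, P x → P (x - 1) := by
    intro x hx
    have h1 := hPm _ _ hPneg (hP1 _ (hPm _ _ hPneg hx))
    have h3 : (-1) * ((-1) * x + 1) = x - 1 := by ring
    rwa [h3] at h1
  have hPi : ∀ x, P x → P x⁻¹ := by
    rintro x (rfl | hx)
    · left
      simp
    · right
      have hx0 : x ≠ 0 := by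
        rintro rfl
        simp at hx
      rw [htinv x hx0, ← mul_inv, hx, inv_one]
  intro a ha0
  by_contra hcon
  have ha1 : t a * a = -1 := by
    have h1 : t (t a * a) = t a * a := by
      rw [hmul _ _ (ht0 a ha0) ha0, hinv a ha0, mul_comm]
    have h3 : t a * a ≠ 0 := mul_ne_zero (ht0 a ha0) ha0
    exact (hfix _ h3 h1).resolve_left hcon
  have hPa : ¬ P a := by
    rintro (h | h)
    · exact ha0 h
    · exact hcon h
  have hPa1 : ¬ P (a + 1) := by
    intro h
    have := hPs _ h
    rw [add_sub_cancel_right] at this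
    exact hPa this
  have h1 : a + 1 ≠ 0 := fun h => hPa1 (Or.inl h)
  have h3 : t (a + 1) * (a + 1) = -1 := by
    have h4 : t (t (a + 1) * (a + 1)) = t (a + 1) * (a + 1) := by
      rw [hmul _ _ (ht0 _ h1) h1, hinv _ h1, mul_comm]
    have h5 : t (a + 1) * (a + 1) ≠ 0 := mul_ne_zero (ht0 _ h1) h1
    rcases hfix _ h5 h4 with h | h
    · exact absurd (Or.inr h) hPa1
    · exact h
  have h4 : P ((a + 1) * a⁻¹) := by
    right
    rw [hmul _ _ h1 (inv_ne_zero ha0), htinv a ha0]
    have h5 : t a ≠ 0 := ht0 a ha0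
    field_simp
    have h6 : t a * a = -1 := ha1
    linear_combination h3 - h6
  have h5 : (a + 1) * a⁻¹ = a⁻¹ + 1 := by
    field_simp
    ring
  rw [h5] at h4
  have h6 := hPs _ h4
  rw [add_sub_cancel_right] at h6
  have h7 := hPi _ h6
  rw [inv_inv] at h7
  exact hPa h7

end det

section main

variable {T X : Type*} [Group T] [Finite T] [MulAction T X] [Fintype X]

theorem main_odd [Nonempty X] (hS : IsSharp3 T X) {p f : ℕ} (hp : p.Prime) (hp2 : p ≠ 2) (hfo : Odd f)
    (hcard : Fintype.card X = p ^ f + 1) :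
    ∃ (F : Type) (_ : Field F) (_ : Fintype F), Fintype.card F = p ^ f ∧
      Nonempty (T ≃* Matrix.ProjGenLinGroup (Fin 2) F) := by
  classical
  haveI hpf : Fact p.Prime := ⟨hp⟩
  have hf0 : f ≠ 0 := by
    rcases hfo with ⟨k, hk⟩
    omega
  have hpodd : Odd p := hp.odd_of_ne_two hp2
  have hpfodd : Odd (p ^ f) := hpodd.pow
  have hpge : 2 ≤ p ^ f := by
    calc 2 ≤ p := hp.two_le
      _ = p ^ 1 := (pow_one p).symm
      _ ≤ p ^ f := Nat.pow_le_pow_right hp.pos (by omega)
  obtain ⟨o⟩ := ‹Nonempty X›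
  let Y := SubMulAction.ofStabilizer T o
  have hY : Nat.card Y + 1 = Nat.card X := SubMulAction.nat_card_ofStabilizer_add_one_eq T o
  rw [Nat.card_eq_fintype_card (α := X), hcard] at hY
  haveI : Fintype Y := Fintype.ofFinite Y
  have hYc : Nat.card Y = p ^ f := by omega
  have hY' : Fintype.card Y = p ^ f := by
    rw [← Nat.card_eq_fintype_card]
    exact hYc
  haveI : Nontrivial Y := by
    apply Fintype.one_lt_card_iff_nontrivial.1
    omega
  have hS2 : IsSharp2 (stabilizer T o) Y := hS.stabilizer o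
  obtain ⟨p', j, hp', hj, hcardp, hord⟩ := exists_card_eq_prime_pow hS2
  have hpp : p' = p := by
    rw [hYc] at hcardp
    have h1 : p ∣ p' ^ j := by
      rw [← hcardp]
      exact dvd_pow_self p hf0
    exact ((Nat.prime_dvd_prime_iff_eq hp hp').1 (hp.dvd_of_dvd_pow h1)).symm
  subst hpp
  obtain ⟨nf, hform, hall⟩ := exists_nearField hS2
  have hzm : ∀ a : Y, 0 * a = 0 := by
    intro a
    have h1 := NearField.right_distrib (0 : Y) 0 a
    rw [add_zero] at h1
    exact left_eq_add.mp h1
  have hone : (1 : Y) ≠ 0 := nf.zero_ne_one.symm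
  have htrans : ∀ b : Y, ∃ g : stabilizer T o, ∀ x : Y, g • x = x + b := by
    intro b
    obtain ⟨g, hg⟩ := hall 1 b hone
    exact ⟨g, fun x => by rw [hg, mul_one]⟩
  have hker : ∀ (b : Y) (g : stabilizer T o), b ≠ 0 → (∀ x : Y, g • x = x + b) → g ∈ kernel hS2 := by
    intro b g hb hg
    refine Or.inr ?_
    intro x h
    rw [hg] at h
    exact hb (add_eq_left.mp h)
  have hac : ∀ a b : Y, a + b = b + a := by
    intro a b
    by_cases ha : a = 0
    · rw [ha, zero_add, add_zero]
    by_cases hb : b = 0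
    · rw [hb, zero_add, add_zero]
    obtain ⟨g, hg⟩ := htrans a
    obtain ⟨g', hg'⟩ := htrans b
    have hc : g * g' = g' * g := kernel_comm hS2 (hker a g ha hg) (hker b g' hb hg')
    have h1 := congrArg (· • (0 : Y)) hc
    simp only [mul_smul] at h1
    rw [hg', hg, hg, hg', zero_add, zero_add] at h1
    exact h1.symm
  have hexp : ∀ b : Y, p' • b = 0 := by
    intro b
    by_cases hb : b = 0
    · rw [hb, nsmul_zero]
    obtain ⟨g, hg⟩ := htrans b
    have hg1 : g ≠ 1 := by
      rintro rfl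
      have := hg 0
      rw [one_smul, zero_add] at this
      exact hb this.symm
    have hgo := hord g (hker b g hb hg) hg1
    have hpow : ∀ n : ℕ, (g ^ n) • (0 : Y) = n • b := by
      intro n
      induction n with
      | zero => rw [pow_zero, one_smul, zero_nsmul]
      | succ n ih =>
        rw [pow_succ', mul_smul, ih, hg, succ_nsmul]
    rw [← hpow, ← hgo, pow_orderOf_eq_one, one_smul]
  have hne : (o : X) ≠ (0 : Y).1 := fun h => (0 : Y).2 h.symm
  have hne1 : (o : X) ≠ (1 : Y).1 := fun h => (1 : Y).2 h.symm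
  have h01 : (0 : Y).1 ≠ (1 : Y).1 := fun h => nf.zero_ne_one (Subtype.ext h)
  let H : Subgroup T := stabilizer T o ⊓ stabilizer T (0 : Y).1
  let act : H → Y → Y := fun h y => (⟨h.1, h.2.1⟩ : stabilizer T o) • y
  have hactv : ∀ h y, (act h y).1 = h.1 • y.1 := fun _ _ => rfl
  have hact1 : ∀ x, act 1 x = x := fun x => Subtype.ext (one_smul T x.1)
  have hactm : ∀ a b x, act (a * b) x = act a (act b x) := fun a b x => Subtype.ext (mul_smul a.1 b.1 x.1)
  have hactform : ∀ h : H, ∃ a : Y, a ≠ 0 ∧ ∀ x, act h x = x * a := by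
    intro h
    obtain ⟨a, b, ha, hx⟩ := hform ⟨h.1, h.2.1⟩
    have h0 : act h 0 = 0 := Subtype.ext h.2.2
    have h1 := hx 0
    have h2 : act h 0 = 0 * a + b := h1
    rw [h0, hzm, zero_add] at h2
    refine ⟨a, ha, fun x => ?_⟩
    have h3 : act h x = x * a + b := hx x
    rw [h3, ← h2, add_zero]
  have hadd : ∀ l x y, act l (x + y) = act l x + act l y := by
    intro l x y
    obtain ⟨a, -, ha⟩ := hactform l
    rw [ha, ha, ha, NearField.right_distrib]
  have hfpf : ∀ l : H, l ≠ 1 → ∀ v : Y, act l v = v → v = 0 := by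
    intro l hl v hv
    by_contra hv0
    apply hl
    apply Subtype.ext
    have h1 : v.1 ≠ (0 : Y).1 := fun h => hv0 (Subtype.ext h)
    exact hS.sharp l.1 o (0 : Y).1 v.1 hne (fun h => v.2 h.symm) h1.symm l.2.1 l.2.2 (congrArg Subtype.val hv)
  have hmm : ∀ x : Y, x ≠ 0 → ∃ h : H, ∀ u, act h u = u * x := by
    intro x hx
    obtain ⟨g, hg⟩ := hall x 0 hx
    have h0 : g.1 • (0 : Y).1 = (0 : Y).1 := by
      have := congrArg Subtype.val (hg 0)
      rw [hzm, add_zero] at this
      exact this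
    refine ⟨⟨g.1, g.2, h0⟩, fun u => ?_⟩
    have h1 := hg u
    rw [add_zero] at h1
    exact h1
  have hL : Nat.card H = p' ^ f - 1 := by
    have hbij : Function.Bijective (fun h : H => (⟨act h 1, by
        obtain ⟨a, ha0, ha⟩ := hactform h
        rw [ha, one_mul]
        exact ha0⟩ : {y : Y // y ≠ 0})) := by
      constructor
      · intro h h' hh
        have h1 : act h 1 = act h' 1 := congrArg Subtype.val hh
        apply Subtype.ext
        exact hS.eq_of_three hne hne1 h01 (h.2.1.trans h'.2.1.symm) (h.2.2.trans h'.2.2.symm) (congrArg Subtype.val h1)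
      · rintro ⟨y, hy⟩
        obtain ⟨h, hh⟩ := hmm y hy
        refine ⟨h, Subtype.ext ?_⟩
        show act h 1 = y
        rw [hh, one_mul]
    rw [Nat.card_congr (Equiv.ofBijective _ hbij), Nat.card_eq_fintype_card, Fintype.card_subtype_compl,
      Fintype.card_subtype_eq, hY']
  -- the involution
  obtain ⟨s, hs1, hs2, hs3⟩ := hS.trans hne hne1 h01 hne.symm h01 hne1
  have hss : s * s = 1 := by
    apply hS.sharp (s * s) o (0 : Y).1 (1 : Y).1 hne hne1 h01
    · rw [mul_smul, hs1, hs2]
    · rw [mul_smul, hs2, hs1]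
    · rw [mul_smul, hs3, hs3]
  have hsi : s⁻¹ = s := inv_eq_of_mul_eq_one_left hss
  have hconj : ∀ h : H, s * h.1 * s⁻¹ ∈ H := by
    intro h
    constructor
    · show (s * h.1 * s⁻¹) • o = o
      rw [hsi, mul_smul, mul_smul, hs1, show h.1 • (0 : Y).1 = (0 : Y).1 from h.2.2, hs2]
    · show (s * h.1 * s⁻¹) • (0 : Y).1 = (0 : Y).1
      rw [hsi, mul_smul, mul_smul, hs2, show h.1 • o = o from h.2.1, hs1]
  let τf : H → H := fun h => ⟨s * h.1 * s⁻¹, hconj h⟩
  have hτf : ∀ h, τf (τf h) = h := by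
    intro h
    apply Subtype.ext
    show s * (s * h.1 * s⁻¹) * s⁻¹ = h.1
    rw [hsi]
    calc s * (s * h.1 * s) * s = (s * s) * h.1 * (s * s) := by group
      _ = h.1 := by rw [hss]; group
  let τ : H ≃* H :=
    { toFun := τf
      invFun := τf
      left_inv := hτf
      right_inv := hτf
      map_mul' := by
        intro a b
        apply Subtype.ext
        show s * (a.1 * b.1) * s⁻¹ = (s * a.1 * s⁻¹) * (s * b.1 * s⁻¹)
        group }
  have hτv : ∀ h : H, (τ h).1 = s * h.1 * s⁻¹ := fun _ => rfl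
  -- the fixed points of `s`
  have hpar := ZassN.fix_parity (Ω := X) s hss
  have hexe : ∃ e : X, e ≠ (1 : Y).1 ∧ s • e = e := by
    by_contra hcon
    push Not at hcon
    have h1 : Nat.card {c : X // s • c = c} = 1 := by
      apply Nat.card_eq_one_iff_unique.2
      refine ⟨⟨?_⟩, ⟨⟨(1 : Y).1, hs3⟩⟩⟩
      rintro ⟨a, ha⟩ ⟨b, hb⟩
      apply Subtype.ext
      have ha' : a = (1 : Y).1 := by
        by_contra h
        exact hcon a h ha
      have hb' : b = (1 : Y).1 := by
        by_contra h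
        exact hcon b h hb
      exact ha'.trans hb'.symm
    rw [h1, hcard] at hpar
    rcases hpfodd with ⟨k, hk⟩
    omega
  obtain ⟨e, he1, he2⟩ := hexe
  have heo : e ≠ o := by
    rintro rfl
    rw [hs1] at he2
    exact hne he2.symm
  let e' : Y := ⟨e, heo⟩
  have he'1 : e' ≠ 1 := fun h => he1 (congrArg Subtype.val h)
  have he'0 : e' ≠ 0 := by
    intro h
    have h1 : e = (0 : Y).1 := congrArg Subtype.val h
    rw [h1, hs2] at he2
    exact hne he2
  have hs1n : s ≠ 1 := by
    rintro rfl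
    rw [one_smul] at hs1
    exact hne hs1
  have hfixS : ∀ c : X, s • c = c → c = (1 : Y).1 ∨ c = e := by
    intro c hc
    by_contra hcon
    push Not at hcon
    exact hs1n (hS.sharp s (1 : Y).1 e c he1.symm hcon.1.symm hcon.2.symm hs3 he2 hc)
  obtain ⟨ι, hι⟩ := hmm e' he'0
  have hι1 : ι ≠ 1 := by
    rintro rfl
    have := hι 1
    rw [hact1, one_mul] at this
    exact he'1 this.symm
  have hτs : ∀ l : H, (τ l).1 • (1 : Y).1 = s • (act l 1).1 := by
    intro l
    rw [hτv, hactv, hsi, mul_smul, mul_smul, hs3]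
  have hι2 : τ ι = ι := by
    apply Subtype.ext
    apply hS.eq_of_three hne hne1 h01 ((τ ι).2.1.trans ι.2.1.symm) ((τ ι).2.2.trans ι.2.2.symm)
    rw [hτs, hι, one_mul]
    have h1 : ι.1 • (1 : Y).1 = (act ι 1).1 := rfl
    rw [h1, hι, one_mul]
    exact he2
  have hι3 : ∀ l, τ l = l → l = 1 ∨ l = ι := by
    intro l hl
    have h1 : s • (act l 1).1 = (act l 1).1 := by
      rw [← hτs, hl]
      rfl
    rcases hfixS _ h1 with h | h
    · left
      apply Subtype.ext
      exact hS.eq_of_three hne hne1 h01 (l.2.1.trans (one_smul T o).symm) (l.2.2.trans (one_smul T _).symm)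
        (h.trans (one_smul T _).symm)
    · right
      apply Subtype.ext
      apply hS.eq_of_three hne hne1 h01 (l.2.1.trans ι.2.1.symm) (l.2.2.trans ι.2.2.symm)
      have h2 : ι.1 • (1 : Y).1 = (act ι 1).1 := rfl
      rw [h2, hι, one_mul]
      exact h
  have hHc := comm_of_nearField hp2 hfo hYc hac hexp act hact1 hactm hadd hfpf hL τ (fun l => hτf l) ι hι1 hι2 hι3
  have hcomm : ∀ x y : Y, x * y = y * x := by
    intro x y
    by_cases hx : x = 0
    · rw [hx, hzm, nf.mul_zero]
    by_cases hy : y = 0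
    · rw [hy, hzm, nf.mul_zero]
    obtain ⟨g, hg⟩ := hmm x hx
    obtain ⟨g', hg'⟩ := hmm y hy
    have h1 := congrArg (fun l => act l 1) (hHc g g')
    simp only [hactm] at h1
    rw [hg', hg, hg, hg', one_mul, one_mul] at h1
    exact h1.symm
  let F₀ : Type := GaloisField p' f
  haveI : Fintype F₀ := Fintype.ofFinite F₀
  have hF₀ : Fintype.card F₀ = p' ^ f := by
    rw [← Nat.card_eq_fintype_card]
    exact GaloisField.card p' f hf0
  obtain ⟨ψ, hψa, hψm⟩ := Sharp3Even.exists_iso Y hcomm F₀ (hF₀.trans hY'.symm)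
  have hψ0 : ψ 0 = 0 := by
    have h1 := hψa 0 0
    rw [add_zero] at h1
    exact left_eq_add.mp h1
  have hψ1 : ψ 1 = 1 := by
    have h1 := hψm 1 (ψ.symm 1)
    rw [one_mul, ψ.apply_symm_apply, mul_one] at h1
    exact h1.symm
  have hψ0' : ψ.symm 0 = 0 := by rw [← hψ0, ψ.symm_apply_apply]
  have hψ1' : ψ.symm 1 = 1 := by rw [← hψ1, ψ.symm_apply_apply]
  have hψne : ∀ x : F₀, x ≠ 0 → ψ.symm x ≠ 0 := by
    intro x hx h
    apply hx
    rw [← ψ.apply_symm_apply x, h, hψ0]
  have hψne' : ∀ y : Y, y ≠ 0 → ψ y ≠ 0 := by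
    intro y hy h
    apply hy
    apply ψ.injective
    rw [h, hψ0]
  have hcharF : CharP F₀ p' := inferInstance
  have h2F : (2 : F₀) ≠ 0 := by
    intro h
    have h1 : ((2 : ℕ) : F₀) = 0 := by exact_mod_cast h
    rw [CharP.cast_eq_zero_iff F₀ p' 2] at h1
    exact hp2 ((Nat.prime_dvd_prime_iff_eq hp Nat.prime_two).1 h1)
  -- the map `t`
  let t : Y → Y := fun y => if h : s • y.1 = o then 0 else ⟨s • y.1, h⟩
  have hsy : ∀ y : Y, y ≠ 0 → s • y.1 ≠ o := by
    intro y hy h
    apply hy
    apply Subtype.ext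
    apply MulAction.injective s
    show s • y.1 = s • (0 : Y).1
    rw [h, hs2]
  have htv : ∀ y : Y, y ≠ 0 → (t y).1 = s • y.1 := by
    intro y hy
    simp only [t]
    rw [dif_neg (hsy y hy)]
  have ht0y : ∀ y : Y, y ≠ 0 → t y ≠ 0 := by
    intro y hy h
    have h1 := htv y hy
    rw [h] at h1
    have h2 : y.1 = o := by
      apply MulAction.injective s
      show s • y.1 = s • o
      rw [← h1, hs1]
    exact y.2 h2
  have hmul0 : ∀ x y : Y, x ≠ 0 → y ≠ 0 → x * y ≠ 0 := by
    intro x y hx hy h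
    obtain ⟨y', hy1, -⟩ := nf.exists_inv y hy
    apply hx
    calc x = x * (y * y') := by rw [hy1, mul_one]
      _ = (x * y) * y' := by rw [mul_assoc]
      _ = 0 := by rw [h, hzm]
  have htm : ∀ x y : Y, x ≠ 0 → y ≠ 0 → t (x * y) = t x * t y := by
    intro x y hx hy
    obtain ⟨g, hg⟩ := hmm y hy
    obtain ⟨g', hg'⟩ := hmm (t y) (ht0y y hy)
    have h1 : τ g = g' := by
      apply Subtype.ext
      apply hS.eq_of_three hne hne1 h01 ((τ g).2.1.trans g'.2.1.symm) ((τ g).2.2.trans g'.2.2.symm)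
      rw [hτs, hg, one_mul, ← htv y hy]
      have h2 : g'.1 • (1 : Y).1 = (act g' 1).1 := rfl
      rw [h2, hg', one_mul]
    apply Subtype.ext
    rw [htv _ (hmul0 x y hx hy)]
    have h2 : (x * y).1 = g.1 • x.1 := by
      rw [← hg]
      rfl
    have h3 : s • g.1 • x.1 = (τ g).1 • s • x.1 := by
      rw [hτv, hsi, mul_smul, mul_smul, ← mul_smul s s, hss, one_smul]
    rw [h2, h3, h1, ← htv x hx]
    have h4 : g'.1 • (t x).1 = (act g' (t x)).1 := rfl
    rw [h4, hg']
  have htt : ∀ y : Y, y ≠ 0 → t (t y) = y := by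
    intro y hy
    apply Subtype.ext
    rw [htv _ (ht0y y hy), htv y hy, ← mul_smul, hss, one_smul]
  have hte : t e' = e' := by
    apply Subtype.ext
    rw [htv _ he'0]
    exact he2
  have hee : e' * e' = 1 := by
    have h1 : t (e' * e') = e' * e' := by rw [htm _ _ he'0 he'0, hte]
    have h2 : s • (e' * e').1 = (e' * e').1 := by
      rw [← htv _ (hmul0 _ _ he'0 he'0), h1]
    rcases hfixS _ h2 with h | h
    · exact Subtype.ext h
    · exfalso
      have h3 : e' * e' = e' := Subtype.ext h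
      obtain ⟨e'', he1', -⟩ := nf.exists_inv e' he'0
      apply he'1
      calc e' = e' * (e' * e'') := by rw [he1', mul_one]
        _ = (e' * e') * e'' := by rw [mul_assoc]
        _ = 1 := by rw [h3, he1']
  have hψe : ψ e' = -1 := by
    have h1 : ψ e' * ψ e' = 1 := by rw [← hψm, hee, hψ1]
    have h2 : ψ e' ≠ 1 := by
      intro h
      apply he'1
      apply ψ.injective
      rw [h, hψ1]
    have h3 : (ψ e' - 1) * (ψ e' + 1) = 0 := by linear_combination h1
    rcases mul_eq_zero.mp h3 with h | h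
    · exact absurd (sub_eq_zero.mp h) h2
    · linear_combination h
  have he1 : e' + 1 = 0 := by
    apply ψ.injective
    rw [hψa, hψe, hψ1, hψ0]
    ring
  -- the functional equation
  obtain ⟨g₁, hg₁⟩ := htrans 1
  let t₁ : T := g₁.1
  have ht₁o : t₁ • o = o := g₁.2
  have ht₁ : ∀ u : Y, t₁ • u.1 = (u + 1).1 := fun u => congrArg Subtype.val (hg₁ u)
  let ζ : T := ι.1
  have hζo : ζ • o = o := ι.2.1
  have hζ : ∀ u : Y, ζ • u.1 = (u * e').1 := fun u => congrArg Subtype.val (hι u)
  have hoe : o ≠ e := heo.symm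
  have h0e : (0 : Y).1 ≠ e := fun h => he'0 (Subtype.ext h.symm)
  have hrel : s * t₁ * s = t₁ * ζ * s * t₁ := by
    apply hS.eq_of_three hne hoe h0e
    · simp only [mul_smul]
      rw [ht₁o, hs1, hζ, hzm, ht₁, zero_add, hs3]
    · simp only [mul_smul]
      rw [hs2, ht₁o, hs1, ht₁, zero_add, hs3, hζ, one_mul, ht₁, he1]
    · simp only [mul_smul]
      have h1 : t₁ • e = (e' + 1).1 := ht₁ e'
      rw [he2, h1, he1, hs2, hζo, ht₁o]
  have hfunY : ∀ y : Y, y ≠ 0 → y ≠ e' → t (t y + 1) = t (y + 1) * e' + 1 := by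
    intro y hy0 hye
    have hy1 : y + 1 ≠ 0 := by
      intro h
      apply hye
      exact add_right_cancel (h.trans he1.symm)
    have hty1 : t y + 1 ≠ 0 := by
      intro h
      have h1 : t y = e' := add_right_cancel (h.trans he1.symm)
      apply hye
      rw [← htt y hy0, h1, hte]
    have h1 := congrArg (· • y.1) hrel
    simp only [mul_smul] at h1
    rw [← htv y hy0, ht₁, ht₁, ← htv _ hty1, ← htv _ hy1, hζ, ht₁] at h1
    exact Subtype.ext h1
  let t₀ : F₀ → F₀ := fun x => ψ (t (ψ.symm x))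
  have hinvF := tau_eq_inv h2F t₀
    (fun x hx => hψne' _ (ht0y _ (hψne x hx)))
    (by
      intro x y hx hy
      simp only [t₀]
      rw [← hψm, ← htm _ _ (hψne x hx) (hψne y hy)]
      congr 2
      apply ψ.injective
      rw [hψm, ψ.apply_symm_apply, ψ.apply_symm_apply, ψ.apply_symm_apply])
    (by
      intro x hx
      simp only [t₀]
      rw [ψ.symm_apply_apply, htt _ (hψne x hx), ψ.apply_symm_apply])
    (by
      intro x hx h
      simp only [t₀] at h
      have h1 : t (ψ.symm x) = ψ.symm x := by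
        apply ψ.injective
        rw [h, ψ.apply_symm_apply]
      have h2 : s • (ψ.symm x).1 = (ψ.symm x).1 := by
        rw [← htv _ (hψne x hx), h1]
      rcases hfixS _ h2 with h3 | h3
      · left
        have h4 : ψ.symm x = 1 := Subtype.ext h3
        rw [← ψ.apply_symm_apply x, h4, hψ1]
      · right
        have h4 : ψ.symm x = e' := Subtype.ext h3
        rw [← ψ.apply_symm_apply x, h4, hψe])
    (by
      intro x hx hxm
      have hy : ψ.symm x ≠ e' := by
        intro h
        apply hxm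
        rw [← ψ.apply_symm_apply x, h, hψe]
      have h1 := hfunY _ (hψne x hx) hy
      simp only [t₀]
      have h2 : ψ.symm (ψ (t (ψ.symm x)) + 1) = t (ψ.symm x) + 1 := by
        apply ψ.injective
        rw [ψ.apply_symm_apply, hψa, hψ1]
      have h3 : ψ.symm (x + 1) = ψ.symm x + 1 := by
        apply ψ.injective
        rw [ψ.apply_symm_apply, hψa, hψ1, ψ.apply_symm_apply]
      rw [h2, h3, h1, hψa, hψm, hψe, hψ1]
      ring)
  -- the identification with the projective line
  let b₀ : OnePoint F₀ → X := fun z => @Option.elim F₀ X z o (fun k => (ψ.symm k).1)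
  have hfInf : b₀ OnePoint.infty = o := rfl
  have hfk : ∀ k : F₀, b₀ (k : OnePoint F₀) = (ψ.symm k).1 := fun _ => rfl
  have hfinj : Function.Bijective b₀ := by
    constructor
    · intro z z' hzz
      induction z using OnePoint.rec with
      | infty =>
        induction z' using OnePoint.rec with
        | infty => rfl
        | coe k =>
          rw [hfInf, hfk] at hzz
          exact absurd hzz.symm (ψ.symm k).2
      | coe k =>
        induction z' using OnePoint.rec with
        | infty =>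
          rw [hfInf, hfk] at hzz
          exact absurd hzz (ψ.symm k).2
        | coe k' =>
          rw [hfk, hfk] at hzz
          have := ψ.symm.injective (Subtype.ext hzz)
          rw [this]
    · intro x
      by_cases hx : x = o
      · exact ⟨OnePoint.infty, hx.symm⟩
      · refine ⟨((ψ ⟨x, hx⟩ : F₀) : OnePoint F₀), ?_⟩
        rw [hfk, ψ.symm_apply_apply]
  let b : OnePoint F₀ ≃ X := Equiv.ofBijective b₀ hfinj
  have hbInf : b OnePoint.infty = o := rfl
  have hbk : ∀ k : F₀, b (k : OnePoint F₀) = (ψ.symm k).1 := fun _ => rfl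
  have haff : ∀ a c : F₀, a ≠ 0 → ∃ g : T, g • b OnePoint.infty = b OnePoint.infty ∧
      ∀ x : F₀, g • b (x : OnePoint F₀) = b ((a * x + c : F₀) : OnePoint F₀) := by
    intro a c ha0
    obtain ⟨g, hg⟩ := hall (ψ.symm a) (ψ.symm c) (hψne a ha0)
    refine ⟨g.1, g.2, fun x => ?_⟩
    rw [hbk, hbk]
    have h1 := hg (ψ.symm x)
    have h2 : ψ.symm x * ψ.symm a + ψ.symm c = ψ.symm (a * x + c) := by
      apply ψ.injective
      rw [hψa, hψm, ψ.apply_symm_apply, ψ.apply_symm_apply, ψ.apply_symm_apply, ψ.apply_symm_apply, mul_comm]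
    rw [h2] at h1
    exact congrArg Subtype.val h1
  have hinv : ∃ s : T, s • b OnePoint.infty = b ((0 : F₀) : OnePoint F₀) ∧
      s • b ((0 : F₀) : OnePoint F₀) = b OnePoint.infty ∧
      ∀ x : F₀, x ≠ 0 → s • b (x : OnePoint F₀) = b ((x⁻¹ : F₀) : OnePoint F₀) := by
    rw [hbInf, hbk, hψ0']
    refine ⟨s, hs1, hs2, ?_⟩
    intro x hx
    rw [hbk, hbk, ← htv _ (hψne x hx)]
    congr 1
    have h1 : t₀ x = x⁻¹ := eq_inv_of_mul_eq_one_left (hinvF x hx)
    apply ψ.injective
    rw [ψ.apply_symm_apply, ← h1]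
  exact ⟨F₀, inferInstance, inferInstance, hF₀, Sharp3Mob.main_pgl hS b haff hinv⟩

end main

end CfsgLib.H9.Sharp3Odd
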