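import Mathlib

set_option autoImplicit false

namespace CfsgLib.H9.Shintani

variable {X : Type*} [Group X] (σ : MulAut X)

theorem pow_comm_apply (e : ℕ) (a : X) : (σ ^ e) (σ a) = σ ((σ ^ e) a) := by
  have h : σ ^ e * σ = σ * σ ^ e := (pow_succ σ e).symm.trans (pow_succ' σ e)
  exact congrArg (fun τ : MulAut X => τ a) h

theorem mem_eqLocus_iff (τ : MulAut X) (k : X) :
    k ∈ (MulEquiv.toMonoidHom τ).eqLocus (MonoidHom.id X) ↔ τ k = k := Iff.rfl

/-- The telescoping of the norm. -/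
theorem norm_eq (a : X) (d : ℕ) :
    ((List.range d).map (fun i => (σ ^ i) (a * (σ a)⁻¹))).prod = a * ((σ ^ d) a)⁻¹ := by
  induction d with
  | zero => simp
  | succ d ih =>
    rw [List.range_succ, List.map_append, List.prod_append, ih]
    simp only [List.map_cons, List.map_nil, List.prod_cons, List.prod_nil, mul_one, map_mul, map_inv]
    rw [pow_comm_apply, pow_succ]
    simp only [MulAut.mul_apply]
    rw [pow_comm_apply]
    group

theorem fix_pow {σ : MulAut X} {h : X} (hh : σ h = h) (e : ℕ) : (σ ^ e) h = h := by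
  induction e with
  | zero => simp
  | succ e ih =>
    rw [pow_succ, MulAut.mul_apply, hh, ih]

/-- the core of the centraliser correspondence -/
theorem fix_iff_comm (a k : X) (e : ℕ) (h1 : σ (a⁻¹ * k * a) = a⁻¹ * k * a) :
    (σ ^ e) k = k ↔ (a⁻¹ * k * a) * (((σ ^ e) a)⁻¹ * a) = (((σ ^ e) a)⁻¹ * a) * (a⁻¹ * k * a) := by
  have H := fix_pow h1 e
  simp only [map_mul, map_inv] at H
  set b := (σ ^ e) a
  set k' := (σ ^ e) k
  constructor
  · intro hk
    rw [hk] at H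
    calc a⁻¹ * k * a * (b⁻¹ * a) = b⁻¹ * k * b * (b⁻¹ * a) := by rw [H]
      _ = b⁻¹ * a * (a⁻¹ * k * a) := by group
  · intro hc
    have h2 : b⁻¹ * a * (a⁻¹ * k * a) = b⁻¹ * k * a := by group
    rw [h2, ← H] at hc
    have h3 : b⁻¹ * k' * b * (b⁻¹ * a) = b⁻¹ * k' * a := by group
    rw [h3] at hc
    have h4 : b⁻¹ * k' = b⁻¹ * k := mul_right_cancel hc
    exact mul_left_cancel h4

/-- The Shintani image is fixed by `σ`. -/
theorem image_fixed (e : ℕ) (a : X) (hg : (σ ^ e) (a * (σ a)⁻¹) = a * (σ a)⁻¹) :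
    σ (((σ ^ e) a)⁻¹ * a) = ((σ ^ e) a)⁻¹ * a := by
  simp only [map_mul, map_inv] at hg ⊢
  rw [pow_comm_apply] at hg
  set b := (σ ^ e) a
  have h1 : (σ b)⁻¹ * σ a = b⁻¹ * (b * (σ b)⁻¹) * σ a := by group
  rw [h1, hg]
  group

/-- The `d`-fold power of the Shintani image. -/
theorem image_pow (e d : ℕ) (a : X) (hg : (σ ^ e) (a * (σ a)⁻¹) = a * (σ a)⁻¹) :
    (((σ ^ d) ^ e) a)⁻¹ * a = (((σ ^ e) a)⁻¹ * a) ^ d := by
  have hx := image_fixed σ e a hg
  set x := ((σ ^ e) a)⁻¹ * a with hxdef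
  induction d with
  | zero => simp
  | succ d ih =>
    have h1 : (σ ^ (d + 1)) ^ e = (σ ^ d) ^ e * σ ^ e := by
      rw [← pow_mul, ← pow_mul, ← pow_add]
      congr 1
      ring
    have hfix : ((σ ^ d) ^ e) x = x := by
      rw [← pow_mul]
      exact fix_pow hx _
    have h2 : (((σ ^ (d + 1)) ^ e) a)⁻¹ * a = ((σ ^ d) ^ e) x * ((((σ ^ d) ^ e) a)⁻¹ * a) := by
      rw [h1, MulAut.mul_apply, hxdef, map_mul, map_inv]
      group
    rw [h2, hfix, ih, pow_succ']

end CfsgLib.H9.Shintani
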