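import Cfsg.Agent.S0245
import Cfsg.Agent.Lib.ClassMax.Zsigmondy

/-! Faithful representations of symplectic groups over their own field. -/

namespace CfsgLib.H9.SpDegree

open Matrix

theorem main_2394 {F : Type*} [Field F] [Fintype F] (n : ℕ) {d : ℕ}
    (ρ : ↥(Matrix.symplecticGroup (Fin n) F) →* GL (Fin d) F) (hρ : Function.Injective ρ) : 2 * n ≤ d := by
  classical
  by_contra hlt
  push Not at hlt
  set q := Fintype.card F with hq
  have hq2 : 2 ≤ q := Fintype.one_lt_card
  have hcard := Cfsg.Agent.S0245.result (F := F) hq.symm n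
  have hdvd : Nat.card (Matrix.symplecticGroup (Fin n) F) ∣ Nat.card (GL (Fin d) F) :=
    Subgroup.card_dvd_of_injective ρ hρ
  rw [hcard, Matrix.card_GL_field, ← hq] at hdvd
  have hn : 1 ≤ n := by omega
  by_cases hn1 : n = 1
  · subst hn1
    have hd : d = 0 ∨ d = 1 := by omega
    simp only [Finset.sum_range_one, Finset.prod_range_one, one_pow] at hdvd
    have hpos : 0 < q ^ (2 * (0 + 1)) - 1 := by
      have : 4 ≤ q ^ 2 := by nlinarith
      simp only [zero_add, mul_one]
      omega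
    have hle := Nat.le_of_dvd (by
      rcases hd with rfl | rfl
      · simp
      · simp [Fin.prod_univ_succ]; omega) hdvd
    rcases hd with rfl | rfl
    · simp at hle
      nlinarith
    · simp [Fin.prod_univ_succ] at hle
      have : 4 ≤ q ^ 2 := by nlinarith
      have h2 : q ≤ q * (q ^ 2 - 1) := Nat.le_mul_of_pos_right _ (by omega)
      omega
  have hn2 : 2 ≤ n := by omega
  by_cases hex : q = 2 ∧ 2 * n = 6
  · obtain ⟨h2, h6⟩ := hex
    have hn3 : n = 3 := by omega
    subst hn3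
    rw [h2] at hdvd
    have hd : d ≤ 5 := by omega
    interval_cases d <;> simp [Fin.prod_univ_succ, Finset.prod_range_succ] at hdvd <;> omega
  obtain ⟨r, hr, hr1, hr2⟩ := CfsgLib.ClassMax.Zsig.zsigmondy q (2 * n) (by omega) (by omega) hex (by omega)
  have hrSp : r ∣ q ^ (n ^ 2) * ∏ i ∈ Finset.range n, (q ^ (2 * (i + 1)) - 1) := by
    refine Dvd.dvd.mul_left ?_ _
    have := Finset.dvd_prod_of_mem (fun i => q ^ (2 * (i + 1)) - 1) (Finset.mem_range.2 (show n - 1 < n by omega))
    have e : 2 * (n - 1 + 1) = 2 * n := by omega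
    simp only [e] at this
    exact hr1.trans this
  have hrGL := hrSp.trans hdvd
  obtain ⟨j, -, hj⟩ := (Prime.dvd_finset_prod_iff hr.prime _).1 hrGL
  have hjd : (j : ℕ) < d := j.2
  have e1 : q ^ d - q ^ (j : ℕ) = q ^ (j : ℕ) * (q ^ (d - j) - 1) := by
    rw [Nat.mul_sub, mul_one, ← pow_add, Nat.add_sub_cancel' hjd.le]
  rw [e1] at hj
  have hcop : r.Coprime q := by
    refine (Nat.Prime.coprime_iff_not_dvd hr).2 fun h => ?_
    have h1 : r ∣ q ^ (2 * n) := h.trans (dvd_pow_self _ (by omega))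
    have h2 : r ∣ q ^ (2 * n) - (q ^ (2 * n) - 1) := Nat.dvd_sub h1 hr1
    have h3 : 1 ≤ q ^ (2 * n) := Nat.one_le_pow _ _ (by omega)
    have e2 : q ^ (2 * n) - (q ^ (2 * n) - 1) = 1 := by omega
    rw [e2] at h2
    exact hr.one_lt.ne' (Nat.dvd_one.1 h2)
  have h4 : r ∣ q ^ (d - j) - 1 := Nat.Coprime.dvd_of_dvd_mul_left (Nat.Coprime.pow_right _ hcop) hj
  exact hr2 (d - j) (by omega) (by omega) h4

end CfsgLib.H9.SpDegree
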