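import Mathlib
import Cfsg.Agent.Lib.H9.AltRank

/-! Every element of `Sp_{2m}` in characteristic two preserves a quadratic form. -/

set_option autoImplicit false
set_option linter.unusedVariables false
set_option linter.unusedSectionVars false
set_option linter.unusedSimpArgs false
set_option linter.style.haveILetI false

namespace CfsgLib.H9.SpQuad

open Matrix Module
open CfsgLib.H9.AltRank (symp_apply symp_inv)

variable {F : Type*} [Field F] [Fintype F] [CharP F 2] {m : ℕ}

theorem two_zero : (2 : F) = 0 := by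
  have := CharP.cast_eq_zero F 2
  exact_mod_cast this

theorem neg_self' (a : F) : -a = a := by
  have : a + a = 0 := by
    have h1 : a + a = 2 * a := by ring
    rw [h1, two_zero, zero_mul]
  exact neg_eq_of_add_eq_zero_left this

theorem add_self' (a : F) : a + a = 0 := by
  have h1 : a + a = 2 * a := by ring
  rw [h1, two_zero, zero_mul]

/-- The basic form. -/
noncomputable def Q₀ (m : ℕ) (F : Type*) [Field F] : QuadraticForm F (Fin m ⊕ Fin m → F) :=
  ∑ i : Fin m, QuadraticMap.linMulLin (LinearMap.proj (Sum.inl i)) (LinearMap.proj (Sum.inr i))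

theorem Q₀_apply (v : Fin m ⊕ Fin m → F) : Q₀ m F v = ∑ i, v (Sum.inl i) * v (Sum.inr i) := by
  simp [Q₀, QuadraticMap.sum_apply, QuadraticMap.linMulLin_apply]

theorem Q₀_add (u v : Fin m ⊕ Fin m → F) : Q₀ m F (u + v) = Q₀ m F u + Q₀ m F v + Cfsg.sympForm m F u v := by
  rw [Q₀_apply, Q₀_apply, Q₀_apply, symp_apply, ← Finset.sum_add_distrib, ← Finset.sum_add_distrib]
  apply Finset.sum_congr rfl
  intro i _
  simp only [Pi.add_apply, neg_self']
  ring

/-- The main statement. -/
theorem main (A : Matrix.symplecticGroup (Fin m) F) :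
    ∃ Q : QuadraticForm F (Fin m ⊕ Fin m → F), (∀ u v : Fin m ⊕ Fin m → F, QuadraticMap.polar ⇑Q u v = Cfsg.sympForm m F u v) ∧
      ∀ v : Fin m ⊕ Fin m → F, Q ((A : Matrix (Fin m ⊕ Fin m) (Fin m ⊕ Fin m) F).mulVec v) = Q v := by
  classical
  set M : Matrix (Fin m ⊕ Fin m) (Fin m ⊕ Fin m) F := (A : Matrix (Fin m ⊕ Fin m) (Fin m ⊕ Fin m) F) with hM
  have hsym : M ∈ Matrix.symplecticGroup (Fin m) F := A.2
  let ct : (Fin m ⊕ Fin m → F) → F := fun v => Q₀ m F (M *ᵥ v) + Q₀ m F v
  have hct_add : ∀ u v, ct (u + v) = ct u + ct v := by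
    intro u v
    simp only [ct, Matrix.mulVec_add, Q₀_add, symp_inv hsym]
    have := add_self' (Cfsg.sympForm m F u v)
    linear_combination this
  have hct_smul : ∀ (t : F) v, ct (t • v) = t ^ 2 * ct v := by
    intro t v
    simp only [ct, Matrix.mulVec_smul, QuadraticMap.map_smul, smul_eq_mul]
    ring
  let φ : F ≃+* F := frobeniusEquiv F 2
  have hφ : ∀ x : F, φ x = x ^ 2 := fun x => rfl
  let c : (Fin m ⊕ Fin m → F) →ₗ[F] F :=
    { toFun := fun v => φ.symm (ct v)
      map_add' := fun u v => by rw [hct_add, map_add]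
      map_smul' := fun t v => by
        rw [hct_smul, map_mul, RingHom.id_apply, smul_eq_mul]
        congr 1
        rw [← hφ, RingEquiv.symm_apply_apply] }
  have hc : ∀ v, (c v) ^ 2 = ct v := by
    intro v
    rw [← hφ]
    exact RingEquiv.apply_symm_apply _ _
  let D : (Fin m ⊕ Fin m → F) →ₗ[F] (Fin m ⊕ Fin m → F) := M.mulVecLin - LinearMap.id
  have hcann : c ∈ (LinearMap.ker D).dualAnnihilator := by
    rw [Submodule.mem_dualAnnihilator]
    intro v hv
    have h1 : M *ᵥ v = v := by
      have h2 : M *ᵥ v - v = 0 := hv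
      exact sub_eq_zero.mp h2
    have h3 : (c v) ^ 2 = 0 := by
      rw [hc]
      simp only [ct, h1]
      exact add_self' _
    exact pow_eq_zero_iff (two_ne_zero) |>.mp h3
  rw [← LinearMap.range_dualMap_eq_dualAnnihilator_ker] at hcann
  obtain ⟨l, hl⟩ := hcann
  have hl' : ∀ v, l (M *ᵥ v - v) = c v := by
    intro v
    have := congrArg (fun f => f v) hl
    exact this
  refine ⟨Q₀ m F + QuadraticMap.linMulLin l l, ?_, ?_⟩
  · intro u v
    simp only [QuadraticMap.polar, QuadraticMap.add_apply, QuadraticMap.linMulLin_apply, map_add, Q₀_add]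
    have := add_self' (l u * l v)
    linear_combination this
  · intro v
    simp only [QuadraticMap.add_apply, QuadraticMap.linMulLin_apply]
    have h1 := hc v
    rw [← hl', map_sub] at h1
    simp only [ct] at h1
    have h2 := add_self' (l (M *ᵥ v) * l v)
    have h3 := add_self' (Q₀ m F v)
    have h4 := add_self' (l v * l v)
    have h5 := add_self' (l (M *ᵥ v) * l (M *ᵥ v))
    have h6 : (2 : F) = 0 := two_zero
    linear_combination (-1 : F) * h1 + (-(l (M *ᵥ v)) * l v - Q₀ m F v + l (M *ᵥ v) * l (M *ᵥ v)) * h6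

end CfsgLib.H9.SpQuad
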