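import Mathlib
import Cfsg.Agent.Lib.H9.Count
import Cfsg.Agent.Lib.H9.SqZero
import Cfsg.Agent.Lib.ClassGeo.Trans
import Cfsg.Prelude.Def_ClassicalGeometry

/-! The centraliser of a transvection in `GL_n(q)`. -/

set_option autoImplicit false
set_option linter.unusedVariables false
set_option linter.unusedSectionVars false
set_option linter.unusedSimpArgs false
set_option linter.style.haveILetI false

namespace CfsgLib.H9.TransCent

open Matrix Module

variable {F : Type*} [Field F] [Fintype F] {n : ℕ}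

/-- The pairs `(a, b)`, `a, b ≠ 0`, `b ⬝ a = 0`. -/
abbrev Pairs (F : Type*) [Field F] [Fintype F] (n : ℕ) :=
  {p : (Fin n → F) × (Fin n → F) // p.1 ≠ 0 ∧ p.2 ≠ 0 ∧ p.2 ⬝ᵥ p.1 = 0}

/-- Square-zero rank-one matrices. -/
abbrev Xset (F : Type*) [Field F] [Fintype F] (n : ℕ) :=
  {N : Matrix (Fin n) (Fin n) F // N * N = 0 ∧ N.rank = 1}

theorem card_hyperplane (a : Fin n → F) (ha : a ≠ 0) :
    Nat.card {b : Fin n → F // b ⬝ᵥ a = 0} * Fintype.card F = Fintype.card F ^ n := by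
  classical
  -- the functional `b ↦ b ⬝ a` has fibres of constant size
  let φ : (Fin n → F) →ₗ[F] F :=
    { toFun := fun b => b ⬝ᵥ a
      map_add' := by intro x y; rw [add_dotProduct]
      map_smul' := by intro c x; simp [smul_dotProduct] }
  have hsurj : Function.Surjective φ := by
    obtain ⟨i, hi⟩ : ∃ i, a i ≠ 0 := by
      by_contra h
      push Not at h
      exact ha (funext h)
    intro c
    refine ⟨Pi.single i (c / a i), ?_⟩
    change Pi.single i (c / a i) ⬝ᵥ a = c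
    rw [single_dotProduct]
    field_simp
  have hker : Nat.card {b : Fin n → F // b ⬝ᵥ a = 0} = Nat.card (LinearMap.ker φ) := by
    apply Nat.card_congr
    exact Equiv.subtypeEquivRight (fun b => by
      rw [LinearMap.mem_ker]
      rfl)
  rw [hker]
  have h1 := LinearMap.finrank_range_add_finrank_ker φ
  rw [LinearMap.range_eq_top.2 hsurj, finrank_top, finrank_self, finrank_pi_fintype] at h1
  simp only [finrank_self, Finset.sum_const, Finset.card_univ, Fintype.card_fin, smul_eq_mul, mul_one] at h1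
  rw [Module.natCard_eq_pow_finrank (K := F) (V := LinearMap.ker φ), Nat.card_eq_fintype_card]
  have h2 : Fintype.card F ^ n = Fintype.card F ^ (1 + finrank F (LinearMap.ker φ)) := by rw [h1]
  rw [h2, pow_add, pow_one, mul_comm]

theorem card_sub_one {α : Type*} [Finite α] {P : α → Prop} (x : α) (hx : P x) :
    Nat.card {b // P b ∧ b ≠ x} + 1 = Nat.card {b // P b} := by
  classical
  haveI := Fintype.ofFinite α
  rw [Nat.card_eq_fintype_card, Nat.card_eq_fintype_card, Fintype.card_subtype, Fintype.card_subtype]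
  have h1 : (Finset.univ.filter P) = insert x (Finset.univ.filter (fun b => P b ∧ b ≠ x)) := by
    ext b
    simp only [Finset.mem_filter, Finset.mem_univ, true_and, Finset.mem_insert]
    by_cases hb : b = x
    · subst hb; simp [hx]
    · simp [hb]
  rw [h1, Finset.card_insert_of_notMem]
  simp

theorem card_pairs (hn : 1 ≤ n) :
    Nat.card (Pairs F n) = (Fintype.card F ^ n - 1) * (Fintype.card F ^ (n - 1) - 1) := by
  classical
  set q := Fintype.card F with hq
  have hq0 : 0 < q := Fintype.card_pos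
  have hb : Nat.card {a : Fin n → F // a ≠ 0} = q ^ n - 1 := by
    have h1 := card_sub_one (α := Fin n → F) (P := fun _ => True) 0 trivial
    have h2 : Nat.card {b : Fin n → F // True} = q ^ n := by
      rw [Nat.card_congr (Equiv.subtypeUnivEquiv (fun _ => trivial))]
      simp [hq, Nat.card_eq_fintype_card]
    rw [h2] at h1
    have h3 : Nat.card {a : Fin n → F // a ≠ 0} = Nat.card {b : Fin n → F // True ∧ b ≠ 0} :=
      Nat.card_congr (Equiv.subtypeEquivRight (fun a => by simp))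
    omega
  have hfib : ∀ a : {a : Fin n → F // a ≠ 0},
      Nat.card {p : Pairs F n // (⟨p.1.1, p.2.1⟩ : {a : Fin n → F // a ≠ 0}) = a} = q ^ (n - 1) - 1 := by
    rintro ⟨a, ha⟩
    have h1 := card_hyperplane a ha
    have h2 : Nat.card {b : Fin n → F // b ⬝ᵥ a = 0} = q ^ (n - 1) := by
      have h3 : q ^ n = q ^ (n - 1) * q := by
        rw [← pow_succ]; congr 1; omega
      rw [h3] at h1
      exact Nat.eq_of_mul_eq_mul_right hq0 h1
    have h4 := card_sub_one (α := Fin n → F) (P := fun b => b ⬝ᵥ a = 0) 0 (zero_dotProduct a)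
    rw [h2] at h4
    have e : {p : Pairs F n // (⟨p.1.1, p.2.1⟩ : {a : Fin n → F // a ≠ 0}) = ⟨a, ha⟩} ≃
        {b : Fin n → F // b ⬝ᵥ a = 0 ∧ b ≠ 0} :=
      { toFun := fun p => ⟨p.1.1.2, by
          have h5 : p.1.1.1 = a := congrArg Subtype.val p.2
          have := p.1.2.2.2
          rw [h5] at this
          exact ⟨this, p.1.2.2.1⟩⟩
        invFun := fun b => ⟨⟨(a, b.1), ha, b.2.2, b.2.1⟩, rfl⟩
        left_inv := by
          rintro ⟨⟨⟨a', b'⟩, h1, h2, h3⟩, h⟩
          have h5 : a' = a := congrArg Subtype.val h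
          subst h5
          rfl
        right_inv := by
          rintro ⟨b, h⟩
          rfl }
    rw [Nat.card_congr e]
    omega
  rw [CfsgLib.H9.natCard_eq_of_fibers (fun p : Pairs F n => (⟨p.1.1, p.2.1⟩ : {a : Fin n → F // a ≠ 0})) _ hfib, hb]

/-- `vecMulVec` of a pair lies in the set. -/
theorem mem_X (p : Pairs F n) : (vecMulVec p.1.1 p.1.2) * (vecMulVec p.1.1 p.1.2) = 0 ∧
    (vecMulVec p.1.1 p.1.2).rank = 1 := by
  obtain ⟨⟨a, b⟩, ha, hb, hab⟩ := p
  simp only at ha hb hab ⊢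
  constructor
  · rw [vecMulVec_mul_vecMulVec, hab, zero_smul]
    ext i j
    simp [vecMulVec_apply]
  · apply le_antisymm (Matrix.rank_vecMulVec_le a b)
    rw [Nat.one_le_iff_ne_zero]
    intro h0
    have h1 := CfsgLib.H9.SqZero.eq_zero_of_rank h0
    obtain ⟨i, hi⟩ : ∃ i, a i ≠ 0 := by
      by_contra h
      push Not at h
      exact ha (funext h)
    obtain ⟨j, hj⟩ : ∃ i, b i ≠ 0 := by
      by_contra h
      push Not at h
      exact hb (funext h)
    have h2 := congrFun (congrFun h1 i) j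
    rw [vecMulVec_apply] at h2
    exact (mul_ne_zero hi hj) h2

/-- Pairs versus matrices. -/
theorem card_pairs_eq (hn : 1 ≤ n) : Nat.card (Pairs F n) = Nat.card (Xset F n) * (Fintype.card F - 1) := by
  classical
  refine CfsgLib.H9.natCard_eq_of_fibers (fun p : Pairs F n => (⟨vecMulVec p.1.1 p.1.2, mem_X p⟩ : Xset F n)) _ ?_
  rintro ⟨N, hN0, hN1⟩
  obtain ⟨a₀, b₀, ha₀, hb₀, rfl⟩ := CfsgLib.ClassGeo.rank_one_decomp N hN1
  obtain ⟨i₀, hi₀⟩ : ∃ i, a₀ i ≠ 0 := by
    by_contra h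
    push Not at h
    exact ha₀ (funext h)
  obtain ⟨j₀, hj₀⟩ : ∃ i, b₀ i ≠ 0 := by
    by_contra h
    push Not at h
    exact hb₀ (funext h)
  have hab : b₀ ⬝ᵥ a₀ = 0 := by
    rw [vecMulVec_mul_vecMulVec] at hN0
    have h2 := congrFun (congrFun hN0 i₀) j₀
    simp only [vecMulVec_apply, Pi.smul_apply, smul_eq_mul, Matrix.zero_apply] at h2
    rcases mul_eq_zero.1 h2 with h3 | h3
    · exact absurd h3 hi₀
    · rcases mul_eq_zero.1 h3 with h4 | h4
      · exact h4
      · exact absurd h4 hj₀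
  have hunits : Fintype.card F - 1 = Nat.card Fˣ := by rw [Nat.card_units, Nat.card_eq_fintype_card]
  rw [hunits]
  symm
  refine Nat.card_congr (Equiv.ofBijective (fun c : Fˣ =>
    (⟨⟨((c : F) • a₀, ((c⁻¹ : Fˣ) : F) • b₀), ?_, ?_, ?_⟩, ?_⟩ :
      {p : Pairs F n // (⟨vecMulVec p.1.1 p.1.2, mem_X p⟩ : Xset F n) = ⟨vecMulVec a₀ b₀, hN0, hN1⟩})) ⟨?_, ?_⟩)
  · exact smul_ne_zero c.ne_zero ha₀
  · exact smul_ne_zero (c⁻¹).ne_zero hb₀
  · simp only [smul_dotProduct, dotProduct_smul, hab, smul_zero]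
  · apply Subtype.ext
    ext i j
    simp only [vecMulVec_apply, Pi.smul_apply, smul_eq_mul]
    have : ((c⁻¹ : Fˣ) : F) * (c : F) = 1 := by simp
    linear_combination (a₀ i * b₀ j) * this
  · intro c d hcd
    have h1 : (c : F) • a₀ = (d : F) • a₀ := congrArg (fun x => x.1.1.1) hcd
    have h2 := congrFun h1 i₀
    simp only [Pi.smul_apply, smul_eq_mul] at h2
    exact Units.ext (mul_right_cancel₀ hi₀ h2)
  · rintro ⟨⟨⟨a, b⟩, ha, hb, hbab⟩, hmat⟩
    have hmat' : vecMulVec a b = vecMulVec a₀ b₀ := congrArg Subtype.val hmat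
    simp only at ha hb hbab hmat'
    have hent : ∀ i j, a i * b j = a₀ i * b₀ j := fun i j => by
      have := congrFun (congrFun hmat' i) j
      simpa [vecMulVec_apply] using this
    have hbj : b j₀ ≠ 0 := by
      intro h
      have h1 := hent i₀ j₀
      rw [h, mul_zero] at h1
      exact (mul_ne_zero hi₀ hj₀) h1.symm
    let c : Fˣ := Units.mk0 (b₀ j₀ / b j₀) (div_ne_zero hj₀ hbj)
    have hcval : (c : F) = b₀ j₀ / b j₀ := rfl
    have haeq : a = (c : F) • a₀ := by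
      ext i
      simp only [Pi.smul_apply, smul_eq_mul, hcval]
      have h1 := hent i j₀
      field_simp
      linear_combination h1
    have hbeq : b = ((c⁻¹ : Fˣ) : F) • b₀ := by
      ext l
      simp only [Pi.smul_apply, smul_eq_mul, Units.val_inv_eq_inv_val, hcval]
      have h1 := hent i₀ l
      rw [haeq] at h1
      simp only [Pi.smul_apply, smul_eq_mul, hcval] at h1
      rw [inv_div]
      field_simp at h1 ⊢
      linear_combination h1
    refine ⟨c, ?_⟩
    apply Subtype.ext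
    apply Subtype.ext
    exact Prod.ext haeq.symm hbeq.symm

/-- The conjugation map has fibres of the size of the centralizer. -/
theorem card_GL_eq (t : GL (Fin n) F) (ht : Cfsg.IsTransvection (t : Matrix (Fin n) (Fin n) F)) :
    Nat.card (GL (Fin n) F) = Nat.card (Xset F n) * Nat.card ↥(Subgroup.centralizer ({t} : Set (GL (Fin n) F))) := by
  classical
  set N₀ : Matrix (Fin n) (Fin n) F := (t : Matrix (Fin n) (Fin n) F) - 1 with hN₀
  obtain ⟨hr, hsq⟩ := ht
  have hconjval : ∀ g : GL (Fin n) F, ((g : Matrix (Fin n) (Fin n) F) * N₀ * ((g⁻¹ : GL (Fin n) F) : Matrix (Fin n) (Fin n) F)) * ((g : Matrix (Fin n) (Fin n) F) * N₀ * ((g⁻¹ : GL (Fin n) F) : Matrix (Fin n) (Fin n) F)) = 0 ∧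
      ((g : Matrix (Fin n) (Fin n) F) * N₀ * ((g⁻¹ : GL (Fin n) F) : Matrix (Fin n) (Fin n) F)).rank = 1 := by
    intro g
    have hinv : ((g⁻¹ : GL (Fin n) F) : Matrix (Fin n) (Fin n) F) * (g : Matrix (Fin n) (Fin n) F) = 1 := by
      rw [← Units.val_mul, inv_mul_cancel, Units.val_one]
    constructor
    · calc _ = (g : Matrix (Fin n) (Fin n) F) * N₀ * (((g⁻¹ : GL (Fin n) F) : Matrix (Fin n) (Fin n) F) * (g : Matrix (Fin n) (Fin n) F)) * N₀ * ((g⁻¹ : GL (Fin n) F) : Matrix (Fin n) (Fin n) F) := by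
            simp only [Matrix.mul_assoc]
        _ = 0 := by
            rw [hinv, Matrix.mul_one, Matrix.mul_assoc (g : Matrix (Fin n) (Fin n) F), hsq]
            simp
    · have hdg : IsUnit (g : Matrix (Fin n) (Fin n) F).det := (Matrix.isUnit_iff_isUnit_det _).1 g.isUnit
      have hdg' : IsUnit ((g⁻¹ : GL (Fin n) F) : Matrix (Fin n) (Fin n) F).det := (Matrix.isUnit_iff_isUnit_det _).1 (g⁻¹).isUnit
      rw [Matrix.rank_mul_eq_left_of_isUnit_det _ _ hdg', Matrix.rank_mul_eq_right_of_isUnit_det _ _ hdg, hr]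
  refine CfsgLib.H9.natCard_eq_of_fibers (fun g : GL (Fin n) F => (⟨_, hconjval g⟩ : Xset F n)) _ ?_
  rintro ⟨N₁, hN1sq, hN1r⟩
  obtain ⟨Q₁, Q₂, hQ₁, hQ₂⟩ := CfsgLib.H9.SqZero.exists_conj N₀ N₁ hsq hN1sq (by rw [hr, hN1r])
  let g₀ : GL (Fin n) F := Q₂ * Q₁⁻¹
  have hinv₁ : ((Q₁⁻¹ : GL (Fin n) F) : Matrix (Fin n) (Fin n) F) * (Q₁ : Matrix (Fin n) (Fin n) F) = 1 := by
    rw [← Units.val_mul, inv_mul_cancel, Units.val_one]
  have hinv₂ : ((Q₁⁻¹ : GL (Fin n) F) : Matrix (Fin n) (Fin n) F) * N₀ * (Q₁ : Matrix (Fin n) (Fin n) F) =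
      CfsgLib.H9.InvolRank.lowL n N₀.rank F := by
    rw [Matrix.mul_assoc, ← hQ₁, ← Matrix.mul_assoc, hinv₁, Matrix.one_mul]
  have hkey : (g₀ : Matrix (Fin n) (Fin n) F) * N₀ = N₁ * (g₀ : Matrix (Fin n) (Fin n) F) := by
    have h1 : (g₀ : Matrix (Fin n) (Fin n) F) = (Q₂ : Matrix (Fin n) (Fin n) F) * ((Q₁⁻¹ : GL (Fin n) F) : Matrix (Fin n) (Fin n) F) := rfl
    rw [h1, ← Matrix.mul_assoc N₁, ← hQ₂, ← hinv₂]
    simp only [Matrix.mul_assoc]
    have h3 : (Q₁ : Matrix (Fin n) (Fin n) F) * ((Q₁⁻¹ : GL (Fin n) F) : Matrix (Fin n) (Fin n) F) = 1 := by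
      rw [← Units.val_mul, mul_inv_cancel, Units.val_one]
    rw [h3, Matrix.mul_one]
  have hP : ∀ g : GL (Fin n) F, ((g : Matrix (Fin n) (Fin n) F) * N₀ * ((g⁻¹ : GL (Fin n) F) : Matrix (Fin n) (Fin n) F) = N₁) ↔
      (g : Matrix (Fin n) (Fin n) F) * N₀ = N₁ * (g : Matrix (Fin n) (Fin n) F) := by
    intro g
    have h1 : ((g⁻¹ : GL (Fin n) F) : Matrix (Fin n) (Fin n) F) * (g : Matrix (Fin n) (Fin n) F) = 1 := by
      rw [← Units.val_mul, inv_mul_cancel, Units.val_one]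
    have h2 : (g : Matrix (Fin n) (Fin n) F) * ((g⁻¹ : GL (Fin n) F) : Matrix (Fin n) (Fin n) F) = 1 := by
      rw [← Units.val_mul, mul_inv_cancel, Units.val_one]
    constructor
    · intro h
      rw [← h, Matrix.mul_assoc _ _ (g : Matrix (Fin n) (Fin n) F), h1, Matrix.mul_one]
    · intro h
      rw [h, Matrix.mul_assoc, h2, Matrix.mul_one]
  have hC : ∀ h : GL (Fin n) F, h ∈ Subgroup.centralizer ({t} : Set (GL (Fin n) F)) ↔
      (h : Matrix (Fin n) (Fin n) F) * N₀ = N₀ * (h : Matrix (Fin n) (Fin n) F) := by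
    intro h
    rw [Subgroup.mem_centralizer_singleton_iff]
    constructor
    · intro h1
      have h2 := congrArg (fun u : GL (Fin n) F => (u : Matrix (Fin n) (Fin n) F)) h1
      simp only [Units.val_mul] at h2
      rw [hN₀, Matrix.mul_sub, Matrix.sub_mul, h2, Matrix.mul_one, Matrix.one_mul]
    · intro h1
      apply Units.ext
      simp only [Units.val_mul]
      have h3 : (t : Matrix (Fin n) (Fin n) F) = N₀ + 1 := by rw [hN₀]; abel
      rw [h3, Matrix.mul_add, Matrix.add_mul, h1, Matrix.mul_one, Matrix.one_mul]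
  symm
  refine Nat.card_congr ⟨fun h => ⟨g₀ * h.1, ?_⟩, fun g => ⟨g₀⁻¹ * g.1, ?_⟩, ?_, ?_⟩
  · apply Subtype.ext
    apply (hP _).2
    have h1 := (hC h.1).1 h.2
    simp only [Units.val_mul]
    rw [Matrix.mul_assoc, h1, ← Matrix.mul_assoc, hkey, Matrix.mul_assoc]
  · rw [hC]
    have h1 : (g.1 : Matrix (Fin n) (Fin n) F) * N₀ = N₁ * (g.1 : Matrix (Fin n) (Fin n) F) :=
      (hP g.1).1 (congrArg Subtype.val g.2)
    simp only [Units.val_mul]
    have h2 : ((g₀⁻¹ : GL (Fin n) F) : Matrix (Fin n) (Fin n) F) * N₁ = N₀ * ((g₀⁻¹ : GL (Fin n) F) : Matrix (Fin n) (Fin n) F) := by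
      have h3 : ((g₀⁻¹ : GL (Fin n) F) : Matrix (Fin n) (Fin n) F) * (g₀ : Matrix (Fin n) (Fin n) F) = 1 := by
        rw [← Units.val_mul, inv_mul_cancel, Units.val_one]
      have h4 : (g₀ : Matrix (Fin n) (Fin n) F) * ((g₀⁻¹ : GL (Fin n) F) : Matrix (Fin n) (Fin n) F) = 1 := by
        rw [← Units.val_mul, mul_inv_cancel, Units.val_one]
      calc _ = ((g₀⁻¹ : GL (Fin n) F) : Matrix (Fin n) (Fin n) F) * N₁ * ((g₀ : Matrix (Fin n) (Fin n) F) * ((g₀⁻¹ : GL (Fin n) F) : Matrix (Fin n) (Fin n) F)) := by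
            rw [h4, Matrix.mul_one]
        _ = ((g₀⁻¹ : GL (Fin n) F) : Matrix (Fin n) (Fin n) F) * (N₁ * (g₀ : Matrix (Fin n) (Fin n) F)) * ((g₀⁻¹ : GL (Fin n) F) : Matrix (Fin n) (Fin n) F) := by
            simp only [Matrix.mul_assoc]
        _ = _ := by
            rw [← hkey, ← Matrix.mul_assoc, h3, Matrix.one_mul]
    rw [Matrix.mul_assoc, h1, ← Matrix.mul_assoc, h2, Matrix.mul_assoc]
  · intro h
    apply Subtype.ext
    simp
  · intro g
    apply Subtype.ext
    simp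

/-- The centraliser of a transvection. -/
theorem main {q : ℕ} (hF : Fintype.card F = q) (hn : 2 ≤ n) (t : GL (Fin n) F)
    (ht : Cfsg.IsTransvection (t : Matrix (Fin n) (Fin n) F)) :
    Nat.card ↥(Subgroup.centralizer ({t} : Set (GL (Fin n) F))) =
      q ^ (2 * n - 3) * (q - 1) * ∏ i : Fin (n - 2), (q ^ (n - 2) - q ^ (i : ℕ)) := by
  classical
  obtain ⟨k, rfl⟩ : ∃ k, n = k + 2 := ⟨n - 2, by omega⟩
  simp only [Nat.add_sub_cancel]
  have h2k : 2 * (k + 2) - 3 = 2 * k + 1 := by omega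
  rw [h2k]
  have h1 := card_GL_eq t ht
  have h2 := card_pairs (F := F) (n := k + 2) (by omega)
  have h3 := card_pairs_eq (F := F) (n := k + 2) (by omega)
  rw [hF] at h2 h3
  rw [h3] at h2
  rw [Matrix.card_GL_field, hF] at h1
  have hq2 : 2 ≤ q := by rw [← hF]; exact Fintype.one_lt_card
  set C := Nat.card ↥(Subgroup.centralizer ({t} : Set (GL (Fin (k + 2)) F))) with hC
  set X := Nat.card (Xset F (k + 2)) with hX
  -- the product formula
  have hprod : ∏ i : Fin (k + 2), (q ^ (k + 2) - q ^ (i : ℕ)) =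
      (q ^ (k + 2) - 1) * (q ^ (k + 1) - 1) * (q ^ (2 * k + 1) * ∏ i : Fin k, (q ^ k - q ^ (i : ℕ))) := by
    rw [Fin.prod_univ_succ, Fin.prod_univ_succ]
    simp only [Fin.val_zero, pow_zero, Fin.val_succ, zero_add, pow_one]
    have h4 : ∀ i : Fin k, q ^ (k + 2) - q ^ ((i : ℕ) + 1 + 1) = q ^ 2 * (q ^ k - q ^ (i : ℕ)) := by
      intro i
      rw [Nat.mul_sub, ← pow_add, ← pow_add]
      congr 2 <;> ring
    simp only [h4]
    rw [Finset.prod_mul_distrib, Finset.prod_const, Finset.card_univ, Fintype.card_fin]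
    have h5 : q ^ (k + 2) - q = q * (q ^ (k + 1) - 1) := by
      rw [Nat.mul_sub, mul_one, ← pow_succ']
    rw [h5, pow_add q (2 * k) 1, pow_one, pow_mul]
    ring
  rw [hprod] at h1
  have hpos1 : 0 < q ^ (k + 2) - 1 := by
    have := Nat.one_lt_pow (n := k + 2) (by omega) (by omega : 1 < q)
    omega
  have hpos2 : 0 < q ^ (k + 1) - 1 := by
    have := Nat.one_lt_pow (n := k + 1) (by omega) (by omega : 1 < q)
    omega
  have hA : k + 2 - 1 = k + 1 := by omega
  rw [hA] at h2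
  have hq1 : 0 < q - 1 := by omega
  -- `X (q - 1) = AB`, `AB (q^.. P) = X C`
  have h6 : ((q ^ (k + 2) - 1) * (q ^ (k + 1) - 1)) * (q ^ (2 * k + 1) * (q - 1) * ∏ i : Fin k, (q ^ k - q ^ (i : ℕ))) =
      ((q ^ (k + 2) - 1) * (q ^ (k + 1) - 1)) * C := by
    rw [← h2]
    calc X * (q - 1) * (q ^ (2 * k + 1) * (q - 1) * ∏ i : Fin k, (q ^ k - q ^ (i : ℕ)))
        = (X * (q - 1)) * (q ^ (2 * k + 1) * ∏ i : Fin k, (q ^ k - q ^ (i : ℕ))) * (q - 1) := by ring
      _ = ((q ^ (k + 2) - 1) * (q ^ (k + 1) - 1) * (q ^ (2 * k + 1) * ∏ i : Fin k, (q ^ k - q ^ (i : ℕ)))) * (q - 1) := by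
          rw [h2]
      _ = X * C * (q - 1) := by rw [← h1]
      _ = X * (q - 1) * C := by ring
  exact (Nat.eq_of_mul_eq_mul_left (Nat.mul_pos hpos1 hpos2) h6).symm

end CfsgLib.H9.TransCent
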