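import Mathlib
import Cfsg.Agent.Lib.H9.Count
import Cfsg.Agent.Lib.H9.TransCent
import Cfsg.Agent.Lib.ClassGeo.SpTrans
import Cfsg.Agent.S0245

/-! The centraliser of a transvection in `Sp_2m(q)`, `q` even. -/

set_option autoImplicit false
set_option linter.unusedVariables false
set_option linter.unusedSectionVars false
set_option linter.unusedSimpArgs false
set_option linter.style.haveILetI false

namespace CfsgLib.H9.SpTransCent

open Matrix Module Cfsg CfsgLib.ClassGeo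

variable {F : Type*} [Field F] [Fintype F] [CharP F 2] {m : ℕ}

theorem exists_vector (t : symplecticGroup (Fin m) F)
    (ht : ((t : Matrix (Fin m ⊕ Fin m) (Fin m ⊕ Fin m) F) - 1).rank = 1) :
    ∃ v : Fin m ⊕ Fin m → F, v ≠ 0 ∧ ∀ x, (t : Matrix (Fin m ⊕ Fin m) (Fin m ⊕ Fin m) F) *ᵥ x = x + sympForm m F x v • v := by
  classical
  obtain ⟨a, b, ha, hb, hN⟩ := rank_one_decomp _ ht
  have htx : ∀ x, (t : Matrix (Fin m ⊕ Fin m) (Fin m ⊕ Fin m) F) *ᵥ x = x + (b ⬝ᵥ x) • a := by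
    intro x
    have h1 : (t : Matrix (Fin m ⊕ Fin m) (Fin m ⊕ Fin m) F) = 1 + vecMulVec a b := by
      rw [← hN]; abel
    rw [h1, Matrix.add_mulVec, Matrix.one_mulVec, Matrix.vecMulVec_mulVec]
    ext i
    simp [mul_comm]
  have hiso : ∀ x y, (b ⬝ᵥ y) * sympForm m F x a = (b ⬝ᵥ x) * sympForm m F y a := by
    intro x y
    have h1 := sp_preserves t x y
    rw [htx, htx, symp_add_left, symp_add_right, symp_add_right, symp_smul_left, symp_smul_right, symp_smul_right,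
      symp_smul_left, symp_self, symp_skew a y] at h1
    linear_combination h1
  obtain ⟨i, hi⟩ : ∃ i, b i ≠ 0 := by
    by_contra h
    push Not at h
    exact hb (funext h)
  let y₀ : Fin m ⊕ Fin m → F := Pi.single i (b i)⁻¹
  have hy₀ : b ⬝ᵥ y₀ = 1 := by
    simp only [y₀, dotProduct_single]
    field_simp
  set e := sympForm m F y₀ a with he
  have hfx : ∀ x, sympForm m F x a = (b ⬝ᵥ x) * e := by
    intro x
    have := hiso x y₀
    rwa [hy₀, one_mul] at this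
  have he0 : e ≠ 0 := by
    intro h0
    apply ha
    apply symp_nondeg
    intro x
    rw [hfx, h0, mul_zero]
  have hchar : ringChar F = 2 := ringChar.eq F 2
  obtain ⟨d, hd⟩ := FiniteField.isSquare_of_char_two hchar e⁻¹
  have hd0 : d ≠ 0 := by
    rintro rfl
    rw [mul_zero] at hd
    exact inv_ne_zero he0 hd
  refine ⟨d • a, smul_ne_zero hd0 ha, ?_⟩
  intro x
  rw [htx, symp_smul_right, smul_smul, hfx]
  congr 2
  calc b ⬝ᵥ x = (d * d) * ((b ⬝ᵥ x) * e) := by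
        rw [← hd]; field_simp
    _ = d * ((b ⬝ᵥ x) * e) * d := by ring

theorem comm_iff (t g : symplecticGroup (Fin m) F) (v : Fin m ⊕ Fin m → F) (hv : v ≠ 0)
    (htv : ∀ x, (t : Matrix (Fin m ⊕ Fin m) (Fin m ⊕ Fin m) F) *ᵥ x = x + sympForm m F x v • v) :
    g ∈ Subgroup.centralizer ({t} : Set (symplecticGroup (Fin m) F)) ↔
      (g : Matrix (Fin m ⊕ Fin m) (Fin m ⊕ Fin m) F) *ᵥ v = v := by
  classical
  rw [Subgroup.mem_centralizer_singleton_iff]
  have hmulg : ∀ x, ((g * t : symplecticGroup (Fin m) F) : Matrix (Fin m ⊕ Fin m) (Fin m ⊕ Fin m) F) *ᵥ x =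
      (g : Matrix (Fin m ⊕ Fin m) (Fin m ⊕ Fin m) F) *ᵥ x + sympForm m F x v • ((g : Matrix (Fin m ⊕ Fin m) (Fin m ⊕ Fin m) F) *ᵥ v) := by
    intro x
    change ((g : Matrix (Fin m ⊕ Fin m) (Fin m ⊕ Fin m) F) * (t : Matrix (Fin m ⊕ Fin m) (Fin m ⊕ Fin m) F)) *ᵥ x = _
    rw [← Matrix.mulVec_mulVec, htv, Matrix.mulVec_add, Matrix.mulVec_smul]
  have hmult : ∀ x, ((t * g : symplecticGroup (Fin m) F) : Matrix (Fin m ⊕ Fin m) (Fin m ⊕ Fin m) F) *ᵥ x =
      (g : Matrix (Fin m ⊕ Fin m) (Fin m ⊕ Fin m) F) *ᵥ x + sympForm m F ((g : Matrix (Fin m ⊕ Fin m) (Fin m ⊕ Fin m) F) *ᵥ x) v • v := by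
    intro x
    change ((t : Matrix (Fin m ⊕ Fin m) (Fin m ⊕ Fin m) F) * (g : Matrix (Fin m ⊕ Fin m) (Fin m ⊕ Fin m) F)) *ᵥ x = _
    rw [← Matrix.mulVec_mulVec, htv]
  constructor
  · intro hc
    have hc' : ∀ x, sympForm m F x v • ((g : Matrix (Fin m ⊕ Fin m) (Fin m ⊕ Fin m) F) *ᵥ v) =
        sympForm m F ((g : Matrix (Fin m ⊕ Fin m) (Fin m ⊕ Fin m) F) *ᵥ x) v • v := by
      intro x
      have h1 := hmulg x
      rw [hc, hmult] at h1
      exact (add_left_cancel h1).symm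
    -- `x` with `f(x,v) = 1`
    obtain ⟨x₀, hx₀⟩ : ∃ x₀, sympForm m F x₀ v = 1 := by
      by_contra hall
      have h0 : ∀ x, sympForm m F x v = 0 := by
        intro x
        by_contra hne
        apply hall
        refine ⟨(sympForm m F x v)⁻¹ • x, ?_⟩
        rw [symp_smul_left, inv_mul_cancel₀ hne]
      exact hv (symp_nondeg h0)
    set c := sympForm m F ((g : Matrix (Fin m ⊕ Fin m) (Fin m ⊕ Fin m) F) *ᵥ x₀) v with hc0
    have hgv : (g : Matrix (Fin m ⊕ Fin m) (Fin m ⊕ Fin m) F) *ᵥ v = c • v := by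
      have := hc' x₀
      rwa [hx₀, one_smul] at this
    have h2 := sp_preserves g x₀ v
    rw [hx₀, hgv, symp_smul_right, ← hc0] at h2
    have h3 : (c - 1) * (c - 1) = 0 := by
      have h4 : (2 : F) = 0 := CharTwo.two_eq_zero
      linear_combination h2 + (1 - c) * h4
    have h5 : c = 1 := by
      have := mul_self_eq_zero.1 h3
      exact sub_eq_zero.1 this
    rw [hgv, h5, one_smul]
  · intro hg
    apply Subtype.ext
    apply matrix_eq_of_mulVec
    intro x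
    have h1 := hmulg x
    have h2 := hmult x
    change _ = ((t * g : symplecticGroup (Fin m) F) : Matrix (Fin m ⊕ Fin m) (Fin m ⊕ Fin m) F) *ᵥ x
    rw [h1, h2, hg]
    congr 2
    conv_rhs => rw [← hg]
    rw [sp_preserves]

/-- Stabilizers. -/
theorem card_sp_eq (t : symplecticGroup (Fin m) F) (v : Fin m ⊕ Fin m → F) (hv : v ≠ 0)
    (htv : ∀ x, (t : Matrix (Fin m ⊕ Fin m) (Fin m ⊕ Fin m) F) *ᵥ x = x + sympForm m F x v • v) :
    Nat.card (symplecticGroup (Fin m) F) = (Fintype.card F ^ (2 * m) - 1) *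
      Nat.card ↥(Subgroup.centralizer ({t} : Set (symplecticGroup (Fin m) F))) := by
  classical
  have hne : ∀ g : symplecticGroup (Fin m) F, (g : Matrix (Fin m ⊕ Fin m) (Fin m ⊕ Fin m) F) *ᵥ v ≠ 0 := by
    intro g h
    apply hv
    have := sp_inv_mulVec g v
    rw [h, Matrix.mulVec_zero] at this
    exact this.symm
  have hcard : Nat.card {w : Fin m ⊕ Fin m → F // w ≠ 0} = Fintype.card F ^ (2 * m) - 1 := by
    have h1 := CfsgLib.H9.TransCent.card_sub_one (α := Fin m ⊕ Fin m → F) (P := fun _ => True) 0 trivial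
    have h2 : Nat.card {b : Fin m ⊕ Fin m → F // True} = Fintype.card F ^ (2 * m) := by
      rw [Nat.card_congr (Equiv.subtypeUnivEquiv (fun _ => trivial))]
      simp [Nat.card_eq_fintype_card, two_mul]
    rw [h2] at h1
    have h3 : Nat.card {a : Fin m ⊕ Fin m → F // a ≠ 0} = Nat.card {b : Fin m ⊕ Fin m → F // True ∧ b ≠ 0} :=
      Nat.card_congr (Equiv.subtypeEquivRight (fun a => by simp))
    omega
  rw [← hcard]
  refine CfsgLib.H9.natCard_eq_of_fibers (fun g : symplecticGroup (Fin m) F => (⟨_, hne g⟩ : {w : Fin m ⊕ Fin m → F // w ≠ 0})) _ ?_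
  rintro ⟨w, hw⟩
  obtain ⟨g₀, -, hg₀⟩ := sp_trans_vec (⊤ : Submodule F (Fin m ⊕ Fin m → F))
    (fun u _ hu => symp_nondeg' (fun w => hu w trivial)) v w trivial trivial hv hw
  symm
  refine Nat.card_congr ⟨fun h => ⟨g₀ * h.1, ?_⟩, fun g => ⟨g₀⁻¹ * g.1, ?_⟩, ?_, ?_⟩
  · apply Subtype.ext
    change ((g₀ : Matrix (Fin m ⊕ Fin m) (Fin m ⊕ Fin m) F) * ((h.1 : symplecticGroup (Fin m) F) : Matrix (Fin m ⊕ Fin m) (Fin m ⊕ Fin m) F)) *ᵥ v = w
    rw [← Matrix.mulVec_mulVec, (comm_iff t h.1 v hv htv).1 h.2, hg₀]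
  · rw [comm_iff t _ v hv htv]
    have h1 : (g.1 : Matrix (Fin m ⊕ Fin m) (Fin m ⊕ Fin m) F) *ᵥ v = w := congrArg Subtype.val g.2
    change (((g₀⁻¹ : symplecticGroup (Fin m) F) : Matrix (Fin m ⊕ Fin m) (Fin m ⊕ Fin m) F) * (g.1 : Matrix (Fin m ⊕ Fin m) (Fin m ⊕ Fin m) F)) *ᵥ v = v
    rw [← Matrix.mulVec_mulVec, h1, ← hg₀, sp_inv_mulVec]
  · intro h
    apply Subtype.ext
    simp
  · intro g
    apply Subtype.ext
    simp

/-- The theorem. -/
theorem main {q : ℕ} (hF : Fintype.card F = q) (hm : 1 ≤ m) (t : symplecticGroup (Fin m) F)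
    (ht : ((t : Matrix (Fin m ⊕ Fin m) (Fin m ⊕ Fin m) F) - 1).rank = 1) :
    Nat.card ↥(Subgroup.centralizer ({t} : Set (symplecticGroup (Fin m) F))) =
      q ^ (2 * m - 1) * (q ^ ((m - 1) ^ 2) * ∏ i : Fin (m - 1), (q ^ (2 * ((i : ℕ) + 1)) - 1)) := by
  classical
  obtain ⟨v, hv, htv⟩ := exists_vector t ht
  have h1 := card_sp_eq t v hv htv
  rw [Cfsg.Agent.S0245.result hF m, hF] at h1
  obtain ⟨k, rfl⟩ : ∃ k, m = k + 1 := ⟨m - 1, by omega⟩
  simp only [Nat.add_sub_cancel]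
  rw [Finset.prod_range_succ] at h1
  have hq2 : 2 ≤ q := by rw [← hF]; exact Fintype.one_lt_card
  have hpos : 0 < q ^ (2 * (k + 1)) - 1 := by
    have := Nat.one_lt_pow (n := 2 * (k + 1)) (by omega) (by omega : 1 < q)
    omega
  apply Nat.eq_of_mul_eq_mul_left hpos
  have h4 : ∏ i : Fin k, (q ^ (2 * ((i : ℕ) + 1)) - 1) = ∏ i ∈ Finset.range k, (q ^ (2 * (i + 1)) - 1) :=
    Fin.prod_univ_eq_prod_range (fun i => q ^ (2 * (i + 1)) - 1) k
  rw [← h1]
  change _ = (q ^ (2 * (k + 1)) - 1) * (q ^ (2 * (k + 1) - 1) * (q ^ k ^ 2 * ∏ i : Fin k, (q ^ (2 * ((i : ℕ) + 1)) - 1)))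
  rw [h4]
  have h2 : 2 * (k + 1) - 1 = 2 * k + 1 := by omega
  rw [h2]
  have h3 : q ^ ((k + 1) ^ 2) = q ^ (2 * k + 1) * q ^ (k ^ 2) := by
    rw [← pow_add]; congr 1; ring
  rw [h3]
  ring

end CfsgLib.H9.SpTransCent
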