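import Mathlib
import Cfsg.Agent.Lib.H9.SpTransCent
import Cfsg.Prelude.Def_SporadicB

/-! Symplectic transvections over the field with two elements are 3-transpositions. -/

set_option autoImplicit false
set_option linter.unusedVariables false
set_option linter.unusedSectionVars false
set_option linter.unusedSimpArgs false
set_option linter.style.haveILetI false

namespace CfsgLib.H9.SpThree

open Matrix Module Cfsg CfsgLib.ClassGeo

variable {m : ℕ}

local notation "F2" => ZMod 2

abbrev Sp (m : ℕ) := symplecticGroup (Fin m) (ZMod 2)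

theorem spT_ne_one (v : Fin m ⊕ Fin m → F2) (hv : v ≠ 0) : spT v 1 ≠ (1 : Sp m) := by
  intro h
  apply hv
  apply symp_nondeg
  intro x
  have h1 := spT_mulVec v 1 x
  rw [h] at h1
  have h2 : (((1 : Sp m) : Matrix (Fin m ⊕ Fin m) (Fin m ⊕ Fin m) F2)) *ᵥ x = x := by
    rw [Submonoid.coe_one, one_mulVec]
  rw [h2, one_mul] at h1
  have h3 : sympForm m F2 x v • v = 0 := by
    have := congrArg (· - x) h1
    simpa using this.symm
  rcases smul_eq_zero.1 h3 with h4 | h4
  · exact h4
  · exact absurd h4 hv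

theorem spT_mem_D (v : Fin m ⊕ Fin m → F2) (hv : v ≠ 0) :
    (((spT v 1 : Sp m) : Matrix (Fin m ⊕ Fin m) (Fin m ⊕ Fin m) F2) - 1).rank = 1 := by
  have h0 : ((spT v 1 : Sp m) : Matrix (Fin m ⊕ Fin m) (Fin m ⊕ Fin m) F2) - 1 ≠ 0 := by
    intro h
    apply spT_ne_one v hv
    apply Subtype.ext
    rw [Submonoid.coe_one]
    exact sub_eq_zero.1 h
  have h1 : ((spT v 1 : Sp m) : Matrix (Fin m ⊕ Fin m) (Fin m ⊕ Fin m) F2) - 1
      = (1 : F2) • vecMulVec v (Matrix.J (Fin m) F2 *ᵥ v) := by
    change sympTransvection m v 1 - 1 = _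
    rw [sympTransvection, add_sub_cancel_left]
  have h2 : (((spT v 1 : Sp m) : Matrix (Fin m ⊕ Fin m) (Fin m ⊕ Fin m) F2) - 1).rank ≤ 1 := by
    rw [h1, one_smul]
    exact Matrix.rank_vecMulVec_le _ _
  have h3 : (((spT v 1 : Sp m) : Matrix (Fin m ⊕ Fin m) (Fin m ⊕ Fin m) F2) - 1).rank ≠ 0 := by
    intro h
    apply h0
    rw [Matrix.rank, Submodule.finrank_eq_zero] at h
    ext i j
    have h5 := congrArg (fun L => (L : Submodule F2 _)) h
    have h6 : Matrix.mulVecLin (((spT v 1 : Sp m) : Matrix (Fin m ⊕ Fin m) (Fin m ⊕ Fin m) F2) - 1) (Pi.single j 1) ∈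
        LinearMap.range (Matrix.mulVecLin (((spT v 1 : Sp m) : Matrix (Fin m ⊕ Fin m) (Fin m ⊕ Fin m) F2) - 1)) :=
      ⟨_, rfl⟩
    rw [h, Submodule.mem_bot] at h6
    have h7 := congrFun h6 i
    have h8 : (1 : Matrix (Fin m ⊕ Fin m) (Fin m ⊕ Fin m) F2) i j = (Pi.single j 1 : Fin m ⊕ Fin m → F2) i := by
      simp [Matrix.one_apply, Pi.single_apply]
    rw [Matrix.sub_apply, h8]
    simpa using h7
  omega

theorem eq_spT (t : Sp m) (ht : ((t : Matrix (Fin m ⊕ Fin m) (Fin m ⊕ Fin m) F2) - 1).rank = 1) :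
    ∃ v : Fin m ⊕ Fin m → F2, v ≠ 0 ∧ t = spT v 1 := by
  obtain ⟨v, hv, h⟩ := SpTransCent.exists_vector t ht
  refine ⟨v, hv, ?_⟩
  apply Subtype.ext
  apply matrix_eq_of_mulVec
  intro x
  rw [h, spT_mulVec, one_mul]

theorem skew2 (u v : Fin m ⊕ Fin m → F2) : sympForm m F2 u v = sympForm m F2 v u := by
  rw [symp_skew u v]
  have : ∀ a : F2, -a = a := by decide
  exact this _

theorem spT_sq (v : Fin m ⊕ Fin m → F2) : (spT v 1 : Sp m) ^ 2 = 1 := by
  apply Subtype.ext
  rw [pow_two, Submonoid.coe_mul, Submonoid.coe_one]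
  apply matrix_eq_of_mulVec
  intro x
  rw [← mulVec_mulVec, spT_mulVec, spT_mulVec, one_mulVec, one_mul, one_mul]
  simp only [symp_add_left, symp_smul_left, symp_self]
  funext i
  simp only [Pi.add_apply, Pi.smul_apply, smul_eq_mul]
  generalize sympForm m F2 x v = a
  generalize x i = b
  generalize v i = c
  revert a b c
  decide

theorem spT_prod (u v : Fin m ⊕ Fin m → F2) :
    ((spT u 1 : Sp m) * spT v 1) ^ 2 = 1 ∨ ((spT u 1 : Sp m) * spT v 1) ^ 3 = 1 := by
  have hcase : ∀ a : F2, a = 0 ∨ a = 1 := by decide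
  rcases hcase (sympForm m F2 u v) with h | h
  · left
    apply Subtype.ext
    rw [pow_two, Submonoid.coe_mul, Submonoid.coe_mul, Submonoid.coe_one]
    apply matrix_eq_of_mulVec
    intro x
    have h' : sympForm m F2 v u = 0 := by rw [skew2, h]
    simp only [← mulVec_mulVec, spT_mulVec, one_mulVec, one_mul, symp_add_left, symp_smul_left, symp_self, h, h',
      mul_zero, add_zero, zero_mul, zero_add, smul_zero]
    funext i
    simp only [Pi.add_apply, Pi.smul_apply, smul_eq_mul]
    generalize sympForm m F2 x v = a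
    generalize sympForm m F2 x u = a'
    generalize x i = b
    generalize v i = c
    generalize u i = c'
    revert a a' b c c'
    decide
  · right
    apply Subtype.ext
    rw [pow_three]
    simp only [Submonoid.coe_mul, Submonoid.coe_one]
    apply matrix_eq_of_mulVec
    intro x
    have h' : sympForm m F2 v u = 1 := by rw [skew2, h]
    simp only [← mulVec_mulVec, spT_mulVec, one_mulVec, one_mul, symp_add_left, symp_smul_left, symp_self, h, h',
      mul_zero, add_zero, zero_mul, zero_add, smul_zero, mul_one, symp_add_right]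
    funext i
    simp only [Pi.add_apply, Pi.smul_apply, smul_eq_mul]
    generalize sympForm m F2 x v = a
    generalize sympForm m F2 x u = a'
    generalize x i = b
    generalize v i = c
    generalize u i = c'
    revert a a' b c c'
    decide

theorem spT_conj (g : Sp m) (v : Fin m ⊕ Fin m → F2) :
    g * spT v 1 * g⁻¹ = spT ((g : Matrix (Fin m ⊕ Fin m) (Fin m ⊕ Fin m) F2) *ᵥ v) 1 := by
  rw [mul_inv_eq_iff_eq_mul]
  apply Subtype.ext
  rw [Submonoid.coe_mul, Submonoid.coe_mul]
  apply matrix_eq_of_mulVec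
  intro x
  rw [← mulVec_mulVec, ← mulVec_mulVec, spT_mulVec, spT_mulVec, one_mul, one_mul, mulVec_add, mulVec_smul, sp_preserves]

theorem main (hn : 1 ≤ m) :
    IsThreeTranspositionClass {g : Sp m | ((g : Matrix (Fin m ⊕ Fin m) (Fin m ⊕ Fin m) F2) - 1).rank = 1} := by
  classical
  refine ⟨⟨?_, ?_⟩, ?_, ?_⟩
  · intro d hd
    obtain ⟨v, hv, rfl⟩ := eq_spT d hd
    exact orderOf_eq_prime (spT_sq v) (spT_ne_one v hv)
  · intro d hd e he
    obtain ⟨v, hv, rfl⟩ := eq_spT d hd
    obtain ⟨w, hw, rfl⟩ := eq_spT e he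
    exact spT_prod v w
  · let e₀ : Fin m ⊕ Fin m → F2 := Pi.single (Sum.inl ⟨0, hn⟩) 1
    have he₀ : e₀ ≠ 0 := by
      intro h
      have := congrFun h (Sum.inl ⟨0, hn⟩)
      simp [e₀] at this
    refine ⟨spT e₀ 1, spT_mem_D e₀ he₀, ?_⟩
    ext t
    constructor
    · intro ht
      obtain ⟨w, hw, rfl⟩ := eq_spT t ht
      obtain ⟨A, -, hA⟩ := sp_trans_vec (m := m) (F := F2) ⊤
        (fun u _ hu => symp_nondeg' (fun x => hu x trivial)) e₀ w trivial trivial he₀ hw
      change IsConj _ _
      rw [isConj_iff]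
      refine ⟨A, ?_⟩
      rw [spT_conj, hA]
    · intro ht
      obtain ⟨A, rfl⟩ := isConj_iff.1 ht
      rw [spT_conj]
      apply spT_mem_D
      intro h
      apply he₀
      have h5 := congrArg (fun y => ((A⁻¹ : Sp m) : Matrix (Fin m ⊕ Fin m) (Fin m ⊕ Fin m) F2) *ᵥ y) h
      simp only [mulVec_zero] at h5
      rw [mulVec_mulVec, ← Submonoid.coe_mul, inv_mul_cancel, Submonoid.coe_one, one_mulVec] at h5
      exact h5
  · rw [eq_top_iff, ← sp_TG_eq_top (m := m) (F := F2), spTG]
    apply (Subgroup.closure_le _).2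
    rintro A ⟨w, c, hA⟩
    have hcase : ∀ a : F2, a = 0 ∨ a = 1 := by decide
    have hA' : A = spT w c := Subtype.ext hA
    by_cases hw : w = 0
    · have : A = 1 := by
        rw [hA']
        apply Subtype.ext
        apply matrix_eq_of_mulVec
        intro x
        rw [spT_mulVec, hw, Submonoid.coe_one, one_mulVec]
        simp
      rw [this]
      exact one_mem _
    rcases hcase c with rfl | rfl
    · have : A = 1 := by
        rw [hA']
        apply Subtype.ext
        apply matrix_eq_of_mulVec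
        intro x
        rw [spT_mulVec, Submonoid.coe_one, one_mulVec]
        simp
      rw [this]
      exact one_mem _
    · rw [hA']
      exact Subgroup.subset_closure (spT_mem_D w hw)

end CfsgLib.H9.SpThree
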