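import Mathlib
import Cfsg.Agent.Lib.H9.StemTools
import Cfsg.Agent.Lib.H9.PSL2Class
import Cfsg.Prelude.Def_KGroupFacts

/-! Stem extensions of `SL₂(q)`, `q ≠ 4, 9`. -/

set_option autoImplicit false
set_option linter.unusedVariables false
set_option linter.unusedSectionVars false
set_option linter.unusedSimpArgs false
set_option linter.style.haveILetI false

namespace CfsgLib.H9.StemSL2

open CfsgLib.H9.SL2Cl CfsgLib.H9.Torus CfsgLib.H9.Stem
open CfsgLib.H9.BorelChar (zS zS_00 zS_01 zS_10 zS_11 zS_central zS_sq)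
open scoped commutatorElement

variable {F : Type*} [Field F]

theorem U_mul (a b : F) : U a * U b = U (a + b) := by
  apply sl_ext <;> simp [mul_00, mul_01, mul_10, mul_11, U]
  ring

theorem U_zero : U (0 : F) = 1 := by
  apply sl_ext <;> simp [U]

theorem U_inv (a : F) : (U a)⁻¹ = U (-a) := by
  rw [inv_eq_iff_mul_eq_one, U_mul]
  simp [U_zero]

theorem dg_U (a : Fˣ) (u : F) : dg a * U u * (dg a)⁻¹ = U ((a : F) ^ 2 * u) := by
  rw [mul_inv_eq_iff_eq_mul]
  apply sl_ext <;> simp [mul_00, mul_01, mul_10, mul_11, U, dg]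
  · field_simp
  
/-- upper unitriangular subgroup. -/
def US (F : Type*) [Field F] : Subgroup (SL2 F) where
  carrier := {g | ∃ u, g = U u}
  mul_mem' := by
    rintro _ _ ⟨a, rfl⟩ ⟨b, rfl⟩
    exact ⟨a + b, U_mul a b⟩
  one_mem' := ⟨0, U_zero.symm⟩
  inv_mem' := by
    rintro _ ⟨a, rfl⟩
    exact ⟨-a, U_inv a⟩

theorem card_US [Fintype F] : Nat.card (US F) = Fintype.card F := by
  rw [← Nat.card_eq_fintype_card]
  apply Nat.card_congr
  refine ⟨fun x => x.1.1 0 1, fun u => ⟨U u, u, rfl⟩, ?_, ?_⟩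
  · rintro ⟨_, u, rfl⟩
    apply Subtype.ext
    rfl
  · intro u
    rfl

section Triple

variable [Fintype F]

theorem exists_triple (hnp : ¬ (Fintype.card F).Prime) (h4 : Fintype.card F ≠ 4) (h9 : Fintype.card F ≠ 9) :
    ∃ a b d : Fˣ, (a : F) ^ 2 + (b : F) ^ 2 = (d : F) ^ 2 ∧
      ((d : F) ^ 2)⁻¹ ≠ ((a : F) ^ 2)⁻¹ + ((b : F) ^ 2)⁻¹ := by
  classical
  haveI := ringChar.charP F
  obtain ⟨n, hp, hq⟩ := FiniteField.card F (ringChar F)
  have hn2 : 2 ≤ (n : ℕ) := by
    by_contra h
    have h1 : (n : ℕ) = 1 := by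
      have := n.pos
      omega
    rw [h1, pow_one] at hq
    exact hnp (hq ▸ hp)
  by_cases h2 : ringChar F = 2
  · -- characteristic two
    have hq4 : 4 < Fintype.card F := by
      rw [hq, h2]
      have h3 : (n : ℕ) ≠ 2 := by
        intro h
        apply h4
        rw [hq, h2, h]
        norm_num
      have h5 : 3 ≤ (n : ℕ) := by omega
      calc 4 < 2 ^ 3 := by norm_num
        _ ≤ 2 ^ (n : ℕ) := Nat.pow_le_pow_right (by norm_num) h5
    have h20 : (2 : F) = 0 := by
      have := CharP.cast_eq_zero F (ringChar F)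
      rw [h2] at this
      exact_mod_cast this
    let P : Polynomial F := Polynomial.X ^ 4 - Polynomial.X
    have hPm : P.Monic := by
      simp only [P]
      monicity!
    have hPd : P.natDegree = 4 := by
      simp only [P]
      compute_degree!
    obtain ⟨b, hb⟩ := Polynomial.exists_eval_ne_zero_of_natDegree_lt_card P hPm.ne_zero (by
      rw [hPd, Cardinal.mk_fintype]
      exact_mod_cast hq4)
    have hb' : b ^ 4 - b ≠ 0 := by simpa [P] using hb
    have hb0 : b ≠ 0 := by
      rintro rfl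
      simp at hb'
    have hb1 : 1 + b ≠ 0 := by
      intro h
      apply hb'
      have h3 : b = 1 := by
        have : b = -1 := by linear_combination h
        rw [this]
        linear_combination -h20
      rw [h3]
      ring
    refine ⟨1, Units.mk0 b hb0, Units.mk0 (1 + b) hb1, ?_, ?_⟩
    · simp only [Units.val_one, Units.val_mk0]
      linear_combination (-b) * h20
    · simp only [Units.val_one, Units.val_mk0, one_pow, inv_one]
      intro h
      have hd2 : (1 + b) ^ 2 ≠ 0 := pow_ne_zero 2 hb1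
      have hb2 : b ^ 2 ≠ 0 := pow_ne_zero 2 hb0
      have h6 : b ^ 2 = (1 + b) ^ 2 * (b ^ 2 + 1) := by
        field_simp at h
        linear_combination h
      have h8 : (b ^ 2 + b + 1) ^ 2 = 0 := by
        linear_combination (-1 : F) * h6 + (b ^ 2) * h20
      have h9' : b ^ 2 + b + 1 = 0 := pow_eq_zero_iff (two_ne_zero) |>.mp h8
      apply hb'
      linear_combination (b ^ 2 - b) * h9'
  · -- odd characteristic
    have h2F : (2 : F) ≠ 0 := Ring.two_ne_zero h2
    have hq13 : 13 < Fintype.card F := by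
      rw [hq]
      by_cases h3 : ringChar F = 3
      · rw [h3]
        have h5 : (n : ℕ) ≠ 2 := by
          intro h
          apply h9
          rw [hq, h3, h]
          norm_num
        have h6 : 3 ≤ (n : ℕ) := by omega
        calc 13 < 3 ^ 3 := by norm_num
          _ ≤ 3 ^ (n : ℕ) := Nat.pow_le_pow_right (by norm_num) h6
      · have h5 : 5 ≤ ringChar F := by
          have := hp.two_le
          by_contra h
          have h6 : ringChar F = 2 ∨ ringChar F = 3 ∨ ringChar F = 4 := by omega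
          rcases h6 with h6 | h6 | h6
          · exact h2 h6
          · exact h3 h6
          · rw [h6] at hp
            norm_num at hp
        calc 13 < 5 ^ 2 := by norm_num
          _ ≤ (ringChar F) ^ 2 := Nat.pow_le_pow_left h5 2
          _ ≤ (ringChar F) ^ (n : ℕ) := Nat.pow_le_pow_right hp.pos hn2
    let P : Polynomial F := Polynomial.X ^ 13 + 13 * Polynomial.X ^ 9 - 13 * Polynomial.X ^ 5 - Polynomial.X
    have hPm : P.Monic := by
      simp only [P]
      monicity!
    have hPd : P.natDegree = 13 := by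
      simp only [P]
      compute_degree!
    obtain ⟨t, ht⟩ := Polynomial.exists_eval_ne_zero_of_natDegree_lt_card P hPm.ne_zero (by
      rw [hPd, Cardinal.mk_fintype]
      exact_mod_cast hq13)
    have ht' : t * (t ^ 4 - 1) * (t ^ 8 + 14 * t ^ 4 + 1) ≠ 0 := by
      intro h
      apply ht
      simp only [P, Polynomial.eval_sub, Polynomial.eval_add, Polynomial.eval_mul, Polynomial.eval_pow,
        Polynomial.eval_X, Polynomial.eval_ofNat]
      linear_combination h
    have ht0 : t ≠ 0 := fun h => ht' (by rw [h]; ring)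
    have ht4 : t ^ 4 - 1 ≠ 0 := fun h => ht' (by rw [h]; ring)
    have ht8 : t ^ 8 + 14 * t ^ 4 + 1 ≠ 0 := fun h => ht' (by rw [h]; ring)
    have ha : 2 * t ≠ 0 := mul_ne_zero h2F ht0
    have hb : 1 - t ^ 2 ≠ 0 := fun h => ht4 (by linear_combination (-(1 + t ^ 2)) * h)
    have hd : 1 + t ^ 2 ≠ 0 := fun h => ht4 (by linear_combination (t ^ 2 - 1) * h)
    refine ⟨Units.mk0 _ ha, Units.mk0 _ hb, Units.mk0 _ hd, ?_, ?_⟩
    · simp only [Units.val_mk0]
      ring
    · simp only [Units.val_mk0]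
      intro h
      have ha2 : (2 * t) ^ 2 ≠ 0 := pow_ne_zero 2 ha
      have hb2 : (1 - t ^ 2) ^ 2 ≠ 0 := pow_ne_zero 2 hb
      have hd2 : (1 + t ^ 2) ^ 2 ≠ 0 := pow_ne_zero 2 hd
      field_simp at h
      apply ht8
      linear_combination (-1 : F) * h
      
end Triple

section Lift

variable {Γ : Type*} [Group Γ] (σ : Γ →* SL2 F) (hs : Function.Surjective σ)
  (hker : σ.ker ≤ Subgroup.center Γ)

include hker

theorem central_of (y : Γ) (hy : σ y = 1) (e : Γ) : y * e = e * y :=
  (Subgroup.mem_center_iff.mp (hker (MonoidHom.mem_ker.mpr hy)) e).symm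

theorem comm_congr (e e' f f' : Γ) (he : σ e = σ e') (hf : σ f = σ f') : ⁅e, f⁆ = ⁅e', f'⁆ := by
  have h1 : σ (e⁻¹ * e') = 1 := by simp [he]
  have h2 : σ (f⁻¹ * f') = 1 := by simp [hf]
  obtain ⟨y, hy⟩ : ∃ y, y = e⁻¹ * e' := ⟨_, rfl⟩
  obtain ⟨y', hy'⟩ : ∃ y', y' = f⁻¹ * f' := ⟨_, rfl⟩
  rw [← hy] at h1
  rw [← hy'] at h2
  have he' : e' = e * y := by rw [hy]; group
  have hf' : f' = f * y' := by rw [hy']; group
  have c1 := central_of σ hker y h1
  have c2 := central_of σ hker y' h2
  rw [he', hf', commutatorElement_def, commutatorElement_def]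
  calc e * f * e⁻¹ * f⁻¹ = e * f * (y' * y'⁻¹) * e⁻¹ * f⁻¹ := by group
    _ = e * f * y' * (y'⁻¹ * e⁻¹) * f⁻¹ := by group
    _ = e * f * y' * (e⁻¹ * y'⁻¹) * f⁻¹ := by
      have : y'⁻¹ * e⁻¹ = e⁻¹ * y'⁻¹ := by
        rw [← mul_inv_rev, ← mul_inv_rev, c2]
      rw [this]
    _ = e * (f * y') * (y * y⁻¹) * e⁻¹ * (f * y')⁻¹ := by group
    _ = e * (f * y' * y) * y⁻¹ * e⁻¹ * (f * y')⁻¹ := by group
    _ = e * (y * (f * y')) * y⁻¹ * e⁻¹ * (f * y')⁻¹ := by rw [c1 (f * y')]
    _ = e * y * (f * y') * (e * y)⁻¹ * (f * y')⁻¹ := by group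

include hs in
theorem unip_comm_nonprime [Fintype F] (hnp : ¬ (Fintype.card F).Prime) (h4 : Fintype.card F ≠ 4)
    (h9 : Fintype.card F ≠ 9) (e f : Γ) (u v : F) (he : σ e = U u) (hf : σ f = U v) : e * f = f * e := by
  choose L hL using fun u : F => hs (U u)
  let Φ : F → F → Γ := fun u v => ⁅L u, L v⁆
  have hΦσ : ∀ u v, σ (Φ u v) = 1 := by
    intro u v
    simp only [Φ, commutatorElement_def, map_mul, map_inv, hL]
    rw [U_mul, U_inv, U_mul, U_inv, U_mul]
    have : u + v + -u + -v = 0 := by ring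
    rw [this, U_zero]
  have hΦc : ∀ u v w, Φ u v * w = w * Φ u v := fun u v w => central_of σ hker _ (hΦσ u v) w
  have hcong : ∀ a b u v, σ a = U u → σ b = U v → ⁅a, b⁆ = Φ u v := by
    intro a b u v ha hb
    exact comm_congr σ hker a (L u) b (L v) (by rw [ha, hL]) (by rw [hb, hL])
  have add1 : ∀ u u' v, Φ (u + u') v = Φ u v * Φ u' v := by
    intro u u' v
    rw [← hcong (L u * L u') (L v) (u + u') v (by rw [map_mul, hL, hL, U_mul]) (hL v)]
    calc ⁅L u * L u', L v⁆ = L u * ⁅L u', L v⁆ * (L v * (L u)⁻¹ * (L v)⁻¹) := by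
          simp only [commutatorElement_def]; group
      _ = L u * Φ u' v * (L v * (L u)⁻¹ * (L v)⁻¹) := rfl
      _ = Φ u' v * L u * (L v * (L u)⁻¹ * (L v)⁻¹) := by rw [hΦc]
      _ = Φ u' v * ⁅L u, L v⁆ := by
          show ⁅L u', L v⁆ * L u * (L v * (L u)⁻¹ * (L v)⁻¹) = ⁅L u', L v⁆ * ⁅L u, L v⁆
          simp only [commutatorElement_def]; group
      _ = Φ u v * Φ u' v := hΦc _ _ _
  have add2 : ∀ u v v', Φ u (v + v') = Φ u v * Φ u v' := by
    intro u v v'
    rw [← hcong (L u) (L v * L v') u (v + v') (hL u) (by rw [map_mul, hL, hL, U_mul])]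
    calc ⁅L u, L v * L v'⁆ = ⁅L u, L v⁆ * (L v * ⁅L u, L v'⁆ * (L v)⁻¹) := by
          simp only [commutatorElement_def]; group
      _ = Φ u v * (L v * Φ u v' * (L v)⁻¹) := rfl
      _ = Φ u v * (Φ u v' * L v * (L v)⁻¹) := by rw [← hΦc u v' (L v)]
      _ = Φ u v * Φ u v' := by group
  have hinv : ∀ (a : Fˣ) u v, Φ ((a : F) ^ 2 * u) ((a : F) ^ 2 * v) = Φ u v := by
    intro a u v
    obtain ⟨D, hD⟩ := hs (dg a)
    have hDU : ∀ w, σ (D * L w * D⁻¹) = U ((a : F) ^ 2 * w) := by
      intro w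
      rw [map_mul, map_mul, map_inv, hD, hL, dg_U]
    rw [← hcong _ _ _ _ (hDU u) (hDU v)]
    calc ⁅D * L u * D⁻¹, D * L v * D⁻¹⁆ = D * ⁅L u, L v⁆ * D⁻¹ := by
          simp only [commutatorElement_def]; group
      _ = D * Φ u v * D⁻¹ := rfl
      _ = Φ u v * D * D⁻¹ := by rw [hΦc]
      _ = Φ u v := by group
  have hadj : ∀ (a : Fˣ) u v, Φ ((a : F) ^ 2 * u) v = Φ u (((a : F) ^ 2)⁻¹ * v) := by
    intro a u v
    have h1 := hinv a u (((a : F) ^ 2)⁻¹ * v)
    have h2 : (a : F) ^ 2 * (((a : F) ^ 2)⁻¹ * v) = v := by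
      have : (a : F) ^ 2 ≠ 0 := pow_ne_zero 2 a.ne_zero
      field_simp
    rw [h2] at h1
    exact h1
  obtain ⟨a, b, d, hrel, hne⟩ := exists_triple hnp h4 h9
  set s₁ : F := (a : F) ^ 2 with hs₁
  set s₂ : F := (b : F) ^ 2 with hs₂
  set s₃ : F := (d : F) ^ 2 with hs₃
  set c : F := s₃⁻¹ - (s₁⁻¹ + s₂⁻¹) with hc
  have hc0 : c ≠ 0 := sub_ne_zero.mpr hne
  have hkey : ∀ u v, Φ u (c * v) = 1 := by
    intro u v
    have h1 : Φ (s₃ * u) v = Φ u (s₃⁻¹ * v) := hadj d u v
    have h2 : Φ (s₃ * u) v = Φ (s₁ * u) v * Φ (s₂ * u) v := by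
      rw [← add1, ← hrel]
      congr 1
      ring
    rw [hadj a u v, hadj b u v, ← add2] at h2
    rw [h1] at h2
    have h3 : s₃⁻¹ * v = c * v + (s₁⁻¹ * v + s₂⁻¹ * v) := by
      rw [hc]
      ring
    rw [h3, add2] at h2
    exact mul_eq_right.mp h2
  have hall : ∀ u v, Φ u v = 1 := by
    intro u v
    have := hkey u (c⁻¹ * v)
    rwa [mul_inv_cancel_left₀ hc0] at this
  have h5 := hcong e f u v he hf
  rw [hall] at h5
  exact commutatorElement_eq_one_iff_mul_comm.mp h5

include hs in
theorem unip_comm_prime [Fintype F] (hp : (Fintype.card F).Prime) (e f : Γ) (u v : F) (he : σ e = U u)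
    (hf : σ f = U v) : e * f = f * e := by
  haveI : Fact (Fintype.card F).Prime := ⟨hp⟩
  by_cases hu : u = 0
  · apply central_of σ hker e
    rw [he, hu, U_zero]
  · have h1 : (v / u) ∈ AddSubgroup.zmultiples (1 : F) :=
      mem_zmultiples_of_prime_card (Nat.card_eq_fintype_card) one_ne_zero
    have h2 := mem_multiples_iff_mem_zmultiples.mpr h1
    obtain ⟨n, hn⟩ := h2
    have h3 : (n : F) * u = v := by
      have : (n : F) = v / u := by
        rw [← hn]
        simp
      rw [this]
      field_simp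
    apply comm_of_cyclic σ hker (U u) e he e f 1 n
    · rw [pow_one, he]
    · rw [hf, U_pow, h3]

include hs in
theorem unip_comm [Fintype F] (h4 : Fintype.card F ≠ 4)
    (h9 : Fintype.card F ≠ 9) (e f : Γ) (u v : F) (he : σ e = U u) (hf : σ f = U v) : e * f = f * e := by
  by_cases hp : (Fintype.card F).Prime
  · exact unip_comm_prime σ hs hker hp e f u v he hf
  · exact unip_comm_nonprime σ hs hker hp h4 h9 e f u v he hf

end Lift

section Good

variable {Γ : Type*} [Group Γ] (σ : Γ →* SL2 F)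

/-- the central part meets the commutator subgroup of the preimage trivially. -/
def Good (H : Subgroup (SL2 F)) : Prop :=
  ∀ x : H.comap σ, x ∈ commutator (H.comap σ) → σ x = 1 → x = 1

theorem good_of_comm (H : Subgroup (SL2 F))
    (hcomm : ∀ a ∈ H.comap σ, ∀ b ∈ H.comap σ, a * b = b * a) : Good σ H := by
  intro x hx _
  have hle : commutator (H.comap σ) ≤ ⊥ := by
    rw [commutator_def, Subgroup.commutator_le]
    intro g _ h _
    rw [Subgroup.mem_bot, commutatorElement_eq_one_iff_mul_comm]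
    exact Subtype.ext (hcomm g.1 g.2 h.1 h.2)
  exact Subgroup.mem_bot.mp (hle hx)

theorem cyc_gen (T : Subgroup (SL2 F)) [Finite T] (hT : IsCyclic T) :
    ∃ τ ∈ T, ∃ t : T, t.1 = τ ∧ (∀ x, x ∈ Subgroup.zpowers t) ∧ ∀ a ∈ T, ∃ i : ℕ, a = τ ^ i := by
  obtain ⟨t, ht⟩ := hT.exists_generator
  refine ⟨t.1, t.2, t, rfl, ht, ?_⟩
  intro a ha
  have h1 : (⟨a, ha⟩ : T) ∈ Submonoid.powers t := mem_powers_iff_mem_zpowers.mpr (ht _)
  obtain ⟨i, hi⟩ := (Submonoid.mem_powers_iff _ _).mp h1
  refine ⟨i, ?_⟩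
  have := congrArg Subtype.val hi
  simpa using this.symm

theorem good_of_cyclic (hs : Function.Surjective σ) (hker : σ.ker ≤ Subgroup.center Γ)
    (T : Subgroup (SL2 F)) [Finite T] (hT : IsCyclic T) : Good σ T := by
  obtain ⟨τ, -, -, -, -, hgen⟩ := cyc_gen T hT
  obtain ⟨α, hα⟩ := hs τ
  apply good_of_comm
  intro a ha b hb
  obtain ⟨i, hi⟩ := hgen _ ha
  obtain ⟨j, hj⟩ := hgen _ hb
  exact comm_of_cyclic σ hker τ α hα a b i j hi hj

theorem good_US [Fintype F] (hs : Function.Surjective σ) (hker : σ.ker ≤ Subgroup.center Γ)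
    (h4 : Fintype.card F ≠ 4) (h9 : Fintype.card F ≠ 9) : Good σ (US F) := by
  apply good_of_comm
  rintro a ⟨u, hu⟩ b ⟨v, hv⟩
  exact unip_comm σ hs hker h4 h9 a b u v hu hv

theorem sq_one (h2 : (2 : F) ≠ 0) {x : SL2 F} (hx : x * x = 1) : x = 1 ∨ x = zS F := by
  have h00 := congrArg (fun g : SL2 F => g.1 0 0) hx
  have h01 := congrArg (fun g : SL2 F => g.1 0 1) hx
  have h10 := congrArg (fun g : SL2 F => g.1 1 0) hx
  have h11 := congrArg (fun g : SL2 F => g.1 1 1) hx
  simp only [mul_00, mul_01, mul_10, mul_11, one_00, one_01, one_10, one_11] at h00 h01 h10 h11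
  have hdet := det_eq x
  have htr : x.1 0 0 + x.1 1 1 ≠ 0 := by
    intro h
    have h3 : x.1 1 1 = - x.1 0 0 := by linear_combination h
    rw [h3] at hdet
    apply h2
    linear_combination (-1 : F) * hdet - h00
  have hb : x.1 0 1 = 0 := by
    have : x.1 0 1 * (x.1 0 0 + x.1 1 1) = 0 := by linear_combination h01
    exact (mul_eq_zero.mp this).resolve_right htr
  have hc : x.1 1 0 = 0 := by
    have : x.1 1 0 * (x.1 0 0 + x.1 1 1) = 0 := by linear_combination h10
    exact (mul_eq_zero.mp this).resolve_right htr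
  have had : x.1 0 0 = x.1 1 1 := by
    have h3 : x.1 0 0 * x.1 0 0 = 1 := by rw [hb] at h00; linear_combination h00
    have h4 : x.1 0 0 * x.1 1 1 = 1 := by rw [hb] at hdet; linear_combination hdet
    have ha0 : x.1 0 0 ≠ 0 := fun h => by rw [h] at h3; simp at h3
    exact mul_left_cancel₀ ha0 (h3.trans h4.symm)
  have hsq : (x.1 0 0 - 1) * (x.1 0 0 + 1) = 0 := by
    rw [hb] at h00
    linear_combination h00
  rcases mul_eq_zero.mp hsq with h | h
  · left
    have h1 : x.1 0 0 = 1 := by linear_combination h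
    apply sl_ext
    · rw [h1, one_00]
    · rw [hb, one_01]
    · rw [hc, one_10]
    · rw [← had, h1, one_11]
  · right
    have h1 : x.1 0 0 = -1 := by linear_combination h
    apply sl_ext
    · rw [h1, zS_00]
    · rw [hb, zS_01]
    · rw [hc, zS_10]
    · rw [← had, h1, zS_11]

theorem good_dic (hs : Function.Surjective σ) (hker : σ.ker ≤ Subgroup.center Γ)
    (T : Subgroup (SL2 F)) [Finite T] (hcyc : IsCyclic T) (m : ℕ) (hm0 : 0 < m)
    (hT : Nat.card T = m) (hN : Nat.card (Subgroup.normalizer (T : Set (SL2 F))) = 2 * m) (hm : Even m)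
    (hinv : ∀ x, x ∈ Subgroup.normalizer (T : Set (SL2 F)) → x ∉ T → ∀ a ∈ T, x * a * x⁻¹ = a⁻¹)
    (hz : ∀ x : SL2 F, x * x = 1 → x ∈ T) : Good σ (Subgroup.normalizer (T : Set (SL2 F))) := by
  classical
  set N := Subgroup.normalizer (T : Set (SL2 F)) with hNdef
  have hle : T ≤ N := Subgroup.le_normalizer
  have hidx : (T.subgroupOf N).index = 2 := by
    have h1 := Subgroup.card_mul_index (T.subgroupOf N)
    rw [Nat.card_congr (Subgroup.subgroupOfEquivOfLe hle).toEquiv, hT, hN] at h1
    have h2 : m * (T.subgroupOf N).index = m * 2 := by rw [h1]; ring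
    exact Nat.eq_of_mul_eq_mul_left hm0 h2
  have hne : T.subgroupOf N ≠ ⊤ := by
    intro h
    rw [h, Subgroup.index_top] at hidx
    omega
  obtain ⟨x', hx'⟩ : ∃ x' : N, x' ∉ T.subgroupOf N := by
    by_contra hcon
    push Not at hcon
    exact hne (eq_top_iff.mpr (fun y _ => hcon y))
  have hxT : (x' : SL2 F) ∉ T := fun h => hx' (Subgroup.mem_subgroupOf.mpr h)
  set x : SL2 F := x'.1 with hx
  have hxN : x ∈ N := x'.2
  have hxx : x * x ∈ T := by
    have h1 : x' * x' ∈ T.subgroupOf N := (Subgroup.mul_mem_iff_of_index_two hidx).mpr Iff.rfl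
    exact Subgroup.mem_subgroupOf.mp h1
  obtain ⟨τ, hτT, t, htτ, htgen, hgen⟩ := cyc_gen T hcyc
  have hord : orderOf τ = m := by
    rw [← htτ, Subgroup.orderOf_coe, orderOf_eq_card_of_forall_mem_zpowers htgen, hT]
  obtain ⟨m', hm'⟩ := hm
  have hord2 : orderOf τ = 2 * m' := by rw [hord, hm']; ring
  have hxτ : x * τ * x⁻¹ = τ⁻¹ := hinv x hxN hxT τ hτT
  have hxx2 : x * x = τ ^ m' := by
    obtain ⟨i, hi⟩ := hgen _ hxx
    have h1 : (x * x) * (x * x) = 1 := by
      have h2 := hinv x hxN hxT _ hxx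
      have h3 : x * (x * x) * x⁻¹ = x * x := by group
      rw [h3] at h2
      calc (x * x) * (x * x) = (x * x) * (x * x)⁻¹ := by
            conv_lhs => rw [h2]
            rw [← h2]
        _ = 1 := by group
    have hne1 : x * x ≠ 1 := fun h => hxT (hz x h)
    rw [hi] at h1 hne1 ⊢
    have h2 : τ ^ (2 * i) = 1 := by
      rw [two_mul, pow_add]
      exact h1
    have h3 := orderOf_dvd_of_pow_eq_one h2
    rw [hord2] at h3
    have h4 : m' ∣ i := Nat.dvd_of_mul_dvd_mul_left (by norm_num) h3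
    obtain ⟨k, rfl⟩ := h4
    have h5 : τ ^ (2 * m') = 1 := by rw [← hord2]; exact pow_orderOf_eq_one τ
    rcases Nat.even_or_odd k with hk | hk
    · exfalso
      apply hne1
      obtain ⟨l, rfl⟩ := hk
      have : m' * (l + l) = (2 * m') * l := by ring
      rw [this, pow_mul, h5, one_pow]
    · obtain ⟨l, rfl⟩ := hk
      have : m' * (2 * l + 1) = (2 * m') * l + m' := by ring
      rw [this, pow_add, pow_mul, h5, one_pow, one_mul]
  -- pass to the preimage
  let E := N.comap σ
  let σ' : E →* SL2 F := σ.comp E.subtype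
  have hker' : σ'.ker ≤ Subgroup.center E := by
    intro y hy
    rw [Subgroup.mem_center_iff]
    intro g
    apply Subtype.ext
    have h1 : y.1 ∈ σ.ker := hy
    exact Subgroup.mem_center_iff.mp (hker h1) g.1
  obtain ⟨α₀, hα₀⟩ := hs τ
  obtain ⟨β₀, hβ₀⟩ := hs x
  let α : E := ⟨α₀, by
    show σ α₀ ∈ N
    rw [hα₀]
    exact hle hτT⟩
  let β : E := ⟨β₀, by
    show σ β₀ ∈ N
    rw [hβ₀]
    exact hxN⟩
  have hα : σ' α = τ := hα₀
  have hβ : σ' β = x := hβ₀
  let A : Subgroup E := T.comap σ'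
  have hmemN : ∀ g : E, σ' g ∈ N := fun g => g.2
  haveI hAn : A.Normal := by
    constructor
    intro a ha g
    show σ' (g * a * g⁻¹) ∈ T
    rw [map_mul, map_mul, map_inv]
    exact (Subgroup.mem_normalizer_iff.mp (hmemN g) (σ' a)).mp ha
  have hA : ∀ a ∈ A, ∀ b ∈ A, a * b = b * a := by
    intro a ha b hb
    obtain ⟨i, hi⟩ := hgen _ ha
    obtain ⟨j, hj⟩ := hgen _ hb
    exact comm_of_cyclic σ' hker' τ α hα a b i j hi hj
  have hgenE : ∀ e : E, ∃ n : ℕ, ∃ a ∈ A, e = β ^ n * a := by
    intro e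
    by_cases he : σ' e ∈ T
    · exact ⟨0, e, he, by simp⟩
    · refine ⟨1, β⁻¹ * e, ?_, by simp⟩
      show σ' (β⁻¹ * e) ∈ T
      rw [map_mul, map_inv, hβ]
      have h1 : (⟨σ' e, hmemN e⟩ : N) ∉ T.subgroupOf N := fun h => he (Subgroup.mem_subgroupOf.mp h)
      have h2 : x'⁻¹ ∉ T.subgroupOf N := fun h => hx' (by simpa using (Subgroup.inv_mem _ h))
      have h3 : x'⁻¹ * (⟨σ' e, hmemN e⟩ : N) ∈ T.subgroupOf N :=
        (Subgroup.mul_mem_iff_of_index_two hidx).mpr (iff_of_false h2 h1)
      exact Subgroup.mem_subgroupOf.mp h3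
  intro y hy hσy
  obtain ⟨a, ha, hya⟩ := comm_form A hA β hgenE y hy
  obtain ⟨j, hj⟩ := hgen _ ha
  have h1 : σ' (β * a * β⁻¹ * a⁻¹) = 1 := by
    rw [← hya]
    exact hσy
  have h2 := dic_key σ' hker' τ x m' hord2 hxτ hxx2 α β hα hβ a j hj h1
  rw [hya, h2]

end Good

section Main

variable [Fintype F] {Γ : Type*} [Group Γ] [Finite Γ] (σ : Γ →* SL2 F)

theorem not_of_good (hσ : Cfsg.IsStemExtension σ) (H : Subgroup (SL2 F)) (hG : Good σ H) (z : Γ) (hz : σ z = 1)
    (hr : (orderOf z).Prime) (hi : ¬ orderOf z ∣ H.index) : False := by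
  obtain ⟨hs, hc, hd⟩ := hσ
  have hzker : z ∈ σ.ker := hz
  have hzH : z ∈ H.comap σ := by
    show σ z ∈ H
    rw [hz]
    exact H.one_mem
  have hidx : (H.comap σ).index = H.index := Subgroup.index_comap_of_surjective H hs
  have hcop : Nat.Coprime (orderOf z) (H.comap σ).index := by
    rw [hidx]
    exact (Nat.Prime.coprime_iff_not_dvd hr).mpr hi
  have h1 := mem_comm_of_coprime _ z hzH (hc hzker) (hd hzker) hcop
  have h2 := hG _ h1 hz
  have h3 : z = 1 := congrArg Subtype.val h2
  rw [h3, orderOf_one] at hr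
  exact Nat.not_prime_one hr

theorem dg_inj : Function.Injective (dg : Fˣ →* SL2 F) := by
  intro a b h
  apply Units.ext
  exact congrArg (fun g : SL2 F => g.1 0 0) h

theorem central_mem (h2 : (2 : F) ≠ 0) (c : SL2 F) (x : SL2 F) (hx : x * x = 1) :
    x ∈ Subgroup.centralizer ({c} : Set (SL2 F)) := by
  rw [Subgroup.mem_centralizer_singleton_iff]
  rcases sq_one h2 hx with rfl | rfl
  · simp
  · exact zS_central c

theorem stem_ker_bot (h4 : Fintype.card F ≠ 4) (h9 : Fintype.card F ≠ 9) (hσ : Cfsg.IsStemExtension σ) :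
    σ.ker = ⊥ := by
  classical
  by_contra hne
  obtain ⟨⟨y, hy⟩, hy1⟩ := (Subgroup.ne_bot_iff_exists_ne_one).mp hne
  have hy1' : y ≠ 1 := fun h => hy1 (Subtype.ext h)
  have hyord : orderOf y ≠ 1 := by
    rw [Ne, orderOf_eq_one_iff]
    exact hy1'
  have hypos : orderOf y ≠ 0 := (orderOf_pos y).ne'
  set r := (orderOf y).minFac with hrdef
  have hrp : r.Prime := Nat.minFac_prime hyord
  have hrd : r ∣ orderOf y := Nat.minFac_dvd _
  set z := y ^ (orderOf y / r) with hzdef
  have hzo : orderOf z = r := orderOf_pow_orderOf_div hypos hrd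
  have hz : σ z = 1 := by
    have : σ y = 1 := hy
    rw [hzdef, map_pow, this, one_pow]
  have hs := hσ.1
  have hc := hσ.2.1
  obtain ⟨hq1⟩ : PLift (1 < Fintype.card F) := ⟨Fintype.one_lt_card⟩
  have hcard : Nat.card (SL2 F) = (Fintype.card F + 1) * (Fintype.card F * (Fintype.card F - 1)) := card_SL2_eq
  have hidxc : ∀ H : Subgroup (SL2 F), H.index * Nat.card H = (Fintype.card F + 1) * (Fintype.card F * (Fintype.card F - 1)) := by
    intro H
    rw [← hcard]
    exact H.index_mul_card
  haveI hcp := ringChar.charP F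
  obtain ⟨n, hp, hq⟩ := FiniteField.card F (ringChar F)
  have hdq : ∀ l : ℕ, l.Prime → l ∣ Fintype.card F → l = ringChar F := by
    intro l hl hd
    rw [hq] at hd
    exact (Nat.prime_dvd_prime_iff_eq hl hp).mp (hl.dvd_of_dvd_pow hd)
  have hpq : ringChar F ∣ Fintype.card F := by
    rw [hq]
    exact dvd_pow_self _ n.ne_zero
  have hq0 : Fintype.card F - 1 ≠ 0 := by omega
  have hrule : ∀ a b : ℕ, a = b + 2 → r ∣ a → r ∣ b → r = 2 := by
    intro a b hab h1 h2
    have h3 : r ∣ 2 := by
      rw [hab] at h1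
      exact (Nat.dvd_add_right h2).mp h1
    exact (Nat.prime_dvd_prime_iff_eq hrp Nat.prime_two).mp h3
  by_cases hrchar : r = ringChar F
  · -- the unipotent case
    apply not_of_good σ hσ (US F) (good_US σ hs hc h4 h9) z hz (by rw [hzo]; exact hrp)
    rw [hzo]
    intro hd
    have h1 := hidxc (US F)
    rw [card_US] at h1
    have h2 : (US F).index = (Fintype.card F + 1) * (Fintype.card F - 1) := by
      have h3 : (US F).index * Fintype.card F = ((Fintype.card F + 1) * (Fintype.card F - 1)) * Fintype.card F := by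
        rw [h1]; ring
      exact Nat.eq_of_mul_eq_mul_right (by omega) h3
    rw [h2] at hd
    have h5 : r ∣ Fintype.card F := hrchar ▸ hpq
    rcases (Nat.Prime.dvd_mul hrp).mp hd with h6 | h6
    · have := (Nat.dvd_add_right h5).mp h6
      exact hrp.one_lt.ne' (Nat.dvd_one.mp this)
    · have h7 : r ∣ Fintype.card F - (Fintype.card F - 1) := Nat.dvd_sub h5 h6
      have h8 : Fintype.card F - (Fintype.card F - 1) = 1 := by omega
      rw [h8] at h7
      exact hrp.one_lt.ne' (Nat.dvd_one.mp h7)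
  · have hrq : ¬ r ∣ Fintype.card F := fun h => hrchar (hdq r hrp h)
    by_cases hr2 : r = 2
    · -- dicyclic case
      have hchar2 : ringChar F ≠ 2 := fun h => hrchar (hr2.trans h.symm)
      have hodd : Odd (Fintype.card F) := Nat.odd_iff.mpr (FiniteField.odd_card_of_char_ne_two hchar2)
      have h2F : (2 : F) ≠ 0 := Ring.two_ne_zero hchar2
      have hmod : Fintype.card F % 4 = 1 ∨ Fintype.card F % 4 = 3 := by
        obtain ⟨k, hk⟩ := hodd
        omega
      rcases hmod with hm4 | hm4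
      · have hq3 : 3 < Fintype.card F := by omega
        obtain ⟨d, hd⟩ := exists_reg hodd hq3
        obtain ⟨-, hN, -, -⟩ := hd.main hodd
        set T := Subgroup.centralizer ({d} : Set (SL2 F)) with hT
        have hG := good_dic σ hs hc T hd.cent_cyclic (Fintype.card F - 1) (by omega) hd.card_cent hN
          (by
            obtain ⟨k, hk⟩ := hodd
            exact ⟨k, by omega⟩)
          (fun x hx hxT a ha => hd.inv_conj hodd (hd.anti hodd hx hxT) ha)
          (fun x hx => central_mem h2F d x hx)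
        apply not_of_good σ hσ _ hG z hz (by rw [hzo]; exact hrp)
        rw [hzo, hr2]
        rintro ⟨k, hk⟩
        have h1 := hidxc (Subgroup.normalizer (T : Set (SL2 F)))
        rw [hN, hk] at h1
        have h3 : (4 * k) * (Fintype.card F - 1) = ((Fintype.card F + 1) * Fintype.card F) * (Fintype.card F - 1) := by
          linear_combination h1
        have h5 := Nat.eq_of_mul_eq_mul_right (by omega) h3
        have h6 : ((Fintype.card F + 1) * Fintype.card F) % 4 = 2 := by
          rw [Nat.mul_mod]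
          have : (Fintype.card F + 1) % 4 = 2 := by omega
          rw [this, hm4]
        omega
      · obtain ⟨g, hg⟩ := exists_ell (F := F)
        obtain ⟨hN, -⟩ := ell_package hodd hg
        set T := Subgroup.centralizer ({g} : Set (SL2 F)) with hT
        have hG := good_dic σ hs hc T (cent_cyclic hg) (Fintype.card F + 1) (by omega) (cent_card hodd hg) hN
          (by
            obtain ⟨k, hk⟩ := hodd
            exact ⟨k + 1, by omega⟩)
          (fun x hx hxT a ha => conj_inv_of_conj hg.h10 (inv_of_norm hodd hg hx hxT) ha)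
          (fun x hx => central_mem h2F g x hx)
        apply not_of_good σ hσ _ hG z hz (by rw [hzo]; exact hrp)
        rw [hzo, hr2]
        rintro ⟨k, hk⟩
        have h1 := hidxc (Subgroup.normalizer (T : Set (SL2 F)))
        rw [hN, hk] at h1
        have h3 : (4 * k) * (Fintype.card F + 1) = (Fintype.card F * (Fintype.card F - 1)) * (Fintype.card F + 1) := by
          linear_combination h1
        have h5 := Nat.eq_of_mul_eq_mul_right (by omega) h3
        have h6 : (Fintype.card F * (Fintype.card F - 1)) % 4 = 2 := by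
          rw [Nat.mul_mod]
          have : (Fintype.card F - 1) % 4 = 2 := by omega
          rw [this, hm4]
        omega
    · by_cases hrd1 : r ∣ Fintype.card F + 1
      · obtain ⟨g, hg⟩ := exists_ell (F := F)
        haveI : Finite (Subgroup.centralizer ({g} : Set (SL2 F))) := inferInstance
        apply not_of_good σ hσ _ (good_of_cyclic σ hs hc _ (cent_cyclic hg)) z hz (by rw [hzo]; exact hrp)
        rw [hzo]
        intro hd
        have h1 := hidxc (Subgroup.centralizer ({g} : Set (SL2 F)))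
        rw [CfsgLib.H9.PSL2.cent_card_all hg] at h1
        have h2 : (Subgroup.centralizer ({g} : Set (SL2 F))).index = Fintype.card F * (Fintype.card F - 1) := by
          have h3 : (Subgroup.centralizer ({g} : Set (SL2 F))).index * (Fintype.card F + 1) =
              (Fintype.card F * (Fintype.card F - 1)) * (Fintype.card F + 1) := by
            rw [h1]; ring
          exact Nat.eq_of_mul_eq_mul_right (by omega) h3
        rw [h2] at hd
        rcases (Nat.Prime.dvd_mul hrp).mp hd with h6 | h6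
        · exact hrq h6
        · exact hr2 (hrule _ _ (by omega) hrd1 h6)
      · -- split torus
        let T : Subgroup (SL2 F) := (dg : Fˣ →* SL2 F).range
        have hTc : IsCyclic T := isCyclic_of_surjective (dg : Fˣ →* SL2 F).rangeRestrict (dg : Fˣ →* SL2 F).rangeRestrict_surjective
        have hTcard : Nat.card T = Fintype.card F - 1 := by
          rw [← Nat.card_congr (MonoidHom.ofInjective (dg_inj (F := F))).toEquiv, Nat.card_eq_fintype_card,
            Fintype.card_units]
        apply not_of_good σ hσ T (good_of_cyclic σ hs hc T hTc) z hz (by rw [hzo]; exact hrp)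
        rw [hzo]
        intro hd
        have h1 := hidxc T
        rw [hTcard] at h1
        have h2 : T.index = (Fintype.card F + 1) * Fintype.card F := by
          have h3 : T.index * (Fintype.card F - 1) = ((Fintype.card F + 1) * Fintype.card F) * (Fintype.card F - 1) := by
            rw [h1]; ring
          exact Nat.eq_of_mul_eq_mul_right (by omega) h3
        rw [h2] at hd
        rcases (Nat.Prime.dvd_mul hrp).mp hd with h6 | h6
        · exact hrd1 h6
        · exact hrq h6

end Main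

theorem main_2117 {F : Type*} [Field F] [Fintype F] (h4 : Fintype.card F ≠ 4) (h9 : Fintype.card F ≠ 9) :
    Cfsg.HasCyclicSchurMultiplier (Matrix.SpecialLinearGroup (Fin 2) F) 1 := by
  classical
  constructor
  · refine ⟨Matrix.SpecialLinearGroup (Fin 2) F, inferInstance, inferInstance, MonoidHom.id _, ⟨Function.surjective_id, ?_, ?_⟩, ?_⟩
    · rw [MonoidHom.ker_id]
      exact bot_le
    · rw [MonoidHom.ker_id]
      exact bot_le
    · rw [MonoidHom.ker_id]
      haveI : Unique (Multiplicative (ZMod 1)) := inferInstanceAs (Unique (Multiplicative (ZMod 1)))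
      exact ⟨MulEquiv.ofUnique⟩
  · intro Γ _ _ σ hσ
    have hb := stem_ker_bot σ h4 h9 hσ
    refine ⟨1, ?_⟩
    rintro ⟨x, hx⟩
    refine ⟨1, ?_⟩
    apply Subtype.ext
    rw [hb] at hx
    have := Subgroup.mem_bot.mp hx
    simp [this]

end CfsgLib.H9.StemSL2
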