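import Mathlib
import Cfsg.Agent.Lib.ClassGeo.Basic

/-! Sylow subgroups of `GL_n(q)` for large primes: number theory and the torus. -/

namespace CfsgLib.H9.SylLarge

open Polynomial

variable (r : ℕ) [hr : Fact r.Prime]

include hr in
lemma sylow_iso {G A : Type*} [Group G] [Finite G] [Group A] [Finite A] (φ : A →* G)
    (hφ : Function.Injective φ)
    (hc : Nat.card A = r ^ padicValNat r (Nat.card G)) (P : Sylow r G) :
    Nonempty ((P : Subgroup G) ≃* A) := by
  classical
  have h1 : Nat.card φ.range = r ^ (Nat.card G).factorization r := by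
    rw [Nat.card_congr (MonoidHom.ofInjective hφ).symm.toEquiv, hc, Nat.factorization_def _ hr.out]
  refine ⟨(Sylow.equiv P (Sylow.ofCard φ.range h1)).trans ?_⟩
  exact (MulEquiv.subgroupCongr (Sylow.coe_ofCard φ.range h1)).trans (MonoidHom.ofInjective hφ).symm

include hr in
lemma val_geom (x j : ℕ) (hx : 1 < x) (h : r ∣ x - 1) (hj : ¬ r ∣ j) :
    padicValNat r (x ^ j - 1) = padicValNat r (x - 1) := by
  obtain ⟨y, rfl⟩ : ∃ y, x = y + 1 := ⟨x - 1, by omega⟩
  have hy : r ∣ y := by simpa using h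
  have h1 : (∑ i ∈ Finset.range j, (y + 1) ^ i) * y + 1 = (y + 1) ^ j := geom_sum_mul_add y j
  have h2 : (y + 1) ^ j - 1 = (∑ i ∈ Finset.range j, (y + 1) ^ i) * y := by omega
  have hS : ¬ r ∣ ∑ i ∈ Finset.range j, (y + 1) ^ i := by
    intro hd
    apply hj
    have h3 : ((∑ i ∈ Finset.range j, (y + 1) ^ i : ℕ) : ZMod r) = 0 :=
      (ZMod.natCast_eq_zero_iff _ _).2 hd
    have hy0 : (y : ZMod r) = 0 := (ZMod.natCast_eq_zero_iff _ _).2 hy
    push_cast at h3
    simp [hy0] at h3
    exact (ZMod.natCast_eq_zero_iff _ _).1 h3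
  have hy1 : y ≠ 0 := by omega
  have hS0 : (∑ i ∈ Finset.range j, (y + 1) ^ i) ≠ 0 := fun h0 => hS (by simp [h0])
  rw [h2, padicValNat.mul hS0 hy1, padicValNat.eq_zero_of_not_dvd hS]
  simp

include hr in
lemma dvd_pow_sub_one_iff (q j : ℕ) (hq : 1 ≤ q) :
    r ∣ q ^ j - 1 ↔ orderOf (q : ZMod r) ∣ j := by
  rw [orderOf_dvd_iff_pow_eq_one, ← ZMod.natCast_eq_zero_iff, Nat.cast_sub (Nat.one_le_pow _ _ hq)]
  push_cast
  rw [sub_eq_zero]

include hr in
lemma orderOf_pos (q : ℕ) (hrq : ¬ r ∣ q) : 0 < orderOf (q : ZMod r) := by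
  have hu : (q : ZMod r) ≠ 0 := fun h => hrq ((ZMod.natCast_eq_zero_iff _ _).1 h)
  have : IsOfFinOrder (q : ZMod r) := by
    rw [isOfFinOrder_iff_pow_eq_one]
    exact ⟨r - 1, by have := hr.out.two_le; omega, ZMod.pow_card_sub_one_eq_one hu⟩
  exact this.orderOf_pos

include hr in
/-- the `r`-part of `Φ_d(q)` is that of `q^d-1`. -/
lemma val_cyclo (q : ℕ) (hq : 1 < q) (hrq : ¬ r ∣ q) :
    padicValNat r ((cyclotomic (orderOf (q : ZMod r)) ℤ).eval (q : ℤ)).natAbs
      = padicValNat r (q ^ orderOf (q : ZMod r) - 1) := by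
  classical
  set d := orderOf (q : ZMod r) with hd
  have hd0 : 0 < d := orderOf_pos r q hrq
  have h1 : ∏ i ∈ Nat.divisors d, cyclotomic i ℤ = X ^ d - 1 :=
    prod_cyclotomic_eq_X_pow_sub_one hd0 ℤ
  rw [← Nat.insert_self_properDivisors hd0.ne', Finset.prod_insert Nat.self_notMem_properDivisors] at h1
  have h2 := congrArg (eval (q : ℤ)) h1
  simp only [eval_mul, eval_prod, eval_sub, eval_pow, eval_X, eval_one] at h2
  set A := (cyclotomic d ℤ).eval (q : ℤ) with hA
  set B := ∏ j ∈ d.properDivisors, (cyclotomic j ℤ).eval (q : ℤ) with hB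
  have hqd : 1 < q ^ d := Nat.one_lt_pow hd0.ne' hq
  have h3 : A.natAbs * B.natAbs = q ^ d - 1 := by
    rw [← Int.natAbs_mul, h2]
    have : ((q : ℤ) ^ d - 1) = ((q ^ d - 1 : ℕ) : ℤ) := by
      rw [Nat.cast_sub hqd.le]; push_cast; ring
    rw [this, Int.natAbs_natCast]
  have hpos : q ^ d - 1 ≠ 0 := by omega
  have hA0 : A.natAbs ≠ 0 := fun h => hpos (by rw [← h3, h, zero_mul])
  have hB0 : B.natAbs ≠ 0 := fun h => hpos (by rw [← h3, h, mul_zero])
  have hBr : ¬ r ∣ B.natAbs := by
    intro hdv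
    have hpi : Prime (r : ℤ) := Nat.prime_iff_prime_int.1 hr.out
    have hdv' : (r : ℤ) ∣ B := Int.natCast_dvd.2 hdv
    rw [hB] at hdv'
    obtain ⟨e, he, hde⟩ := (Prime.dvd_finsetProd_iff hpi _).1 hdv'
    have he1 := Nat.mem_properDivisors.1 he
    have he0 : 0 < e := Nat.pos_of_dvd_of_pos he1.1 hd0
    have h4 : (cyclotomic e ℤ).eval (q : ℤ) ∣ (q : ℤ) ^ e - 1 := by
      have := eval_dvd (x := (q : ℤ)) (cyclotomic.dvd_X_pow_sub_one e ℤ)
      simpa using this
    have h5 : (r : ℤ) ∣ ((q ^ e - 1 : ℕ) : ℤ) := by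
      have h6 : ((q ^ e - 1 : ℕ) : ℤ) = (q : ℤ) ^ e - 1 := by
        rw [Nat.cast_sub (Nat.one_le_pow _ _ (by omega))]; push_cast; ring
      rw [h6]
      exact hde.trans h4
    have h7 : r ∣ q ^ e - 1 := Int.natCast_dvd_natCast.1 h5
    have h8 := (dvd_pow_sub_one_iff r q e (by omega)).1 h7
    exact absurd (Nat.le_of_dvd he0 h8) (by omega)
  rw [← h3, padicValNat.mul hA0 hB0, padicValNat.eq_zero_of_not_dvd hBr]
  simp

include hr in
lemma val_pow_sub_one_of_dvd (q j : ℕ) (hq : 1 < q) (hj0 : 0 < j) (hjr : j < r)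
    (h : orderOf (q : ZMod r) ∣ j) (hrq : ¬ r ∣ q) :
    padicValNat r (q ^ j - 1) = padicValNat r (q ^ orderOf (q : ZMod r) - 1) := by
  set d := orderOf (q : ZMod r) with hd
  have hd0 : 0 < d := orderOf_pos r q hrq
  obtain ⟨c, rfl⟩ := h
  have hc0 : 0 < c := Nat.pos_of_mul_pos_left (by omega) |> fun h => by
    rcases Nat.eq_zero_or_pos c with h0 | h0
    · subst h0; simp at hj0
    · exact h0
  have hcr : ¬ r ∣ c := fun hh => by
    have := Nat.le_of_dvd hc0 hh
    have : c ≤ d * c := Nat.le_mul_of_pos_left c hd0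
    omega
  rw [pow_mul]
  apply val_geom r (q ^ d) c (Nat.one_lt_pow hd0.ne' hq) _ hcr
  exact (dvd_pow_sub_one_iff r q d (by omega)).2 (dvd_refl _)

include hr in
/-- valuation of `|GL_n(q)|`. -/
lemma val_prod (q n : ℕ) (hq : 1 < q) (hn : n < r) (hrq : ¬ r ∣ q) :
    padicValNat r (∏ i : Fin n, (q ^ n - q ^ (i : ℕ)))
      = (n / orderOf (q : ZMod r)) * padicValNat r (q ^ orderOf (q : ZMod r) - 1) := by
  classical
  set d := orderOf (q : ZMod r) with hd
  have hne : ∀ i : Fin n, q ^ n - q ^ (i : ℕ) ≠ 0 := fun i => by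
    have := Nat.pow_lt_pow_right hq i.2
    omega
  have h1 : padicValNat r (∏ i : Fin n, (q ^ n - q ^ (i : ℕ)))
      = ∑ i : Fin n, padicValNat r (q ^ n - q ^ (i : ℕ)) := by
    have := Nat.factorization_prod (S := Finset.univ) (g := fun i : Fin n => q ^ n - q ^ (i : ℕ))
      (fun i _ => hne i)
    have h2 := congrArg (fun f => f r) this
    simp only [Finsupp.coe_finsetSum, Finset.sum_apply] at h2
    simpa [Nat.factorization_def _ hr.out] using h2
  rw [h1]
  have h2 : ∀ i : Fin n, padicValNat r (q ^ n - q ^ (i : ℕ))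
      = padicValNat r (q ^ (n - i : ℕ) - 1) := by
    intro i
    have h3 : q ^ n - q ^ (i : ℕ) = q ^ (i : ℕ) * (q ^ (n - i : ℕ) - 1) := by
      rw [Nat.mul_sub, mul_one, ← pow_add]
      congr 2
      omega
    have h4 : q ^ (n - i : ℕ) - 1 ≠ 0 := by
      have : 1 < q ^ (n - i : ℕ) := Nat.one_lt_pow (by omega) hq
      omega
    have h5 : ¬ r ∣ q ^ (i : ℕ) := fun h => hrq (hr.out.dvd_of_dvd_pow h)
    rw [h3, padicValNat.mul (by positivity) h4, padicValNat.eq_zero_of_not_dvd h5]
    simp
  simp only [h2]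
  -- reindex
  have h3 : ∑ i : Fin n, padicValNat r (q ^ (n - i : ℕ) - 1)
      = ∑ j ∈ Finset.Ioc 0 n, padicValNat r (q ^ j - 1) := by
    rw [Fin.sum_univ_eq_sum_range (fun i => padicValNat r (q ^ (n - i) - 1)) n]
    apply Finset.sum_bij (fun i _ => n - i)
    · intro a ha
      simp only [Finset.mem_range] at ha
      simp only [Finset.mem_Ioc]
      omega
    · intro a ha b hb hab
      simp only [Finset.mem_range] at ha hb
      omega
    · intro b hb
      simp only [Finset.mem_Ioc] at hb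
      exact ⟨n - b, by simp only [Finset.mem_range]; omega, by omega⟩
    · intro a ha
      rfl
  rw [h3]
  have h4 : ∀ j ∈ Finset.Ioc 0 n, padicValNat r (q ^ j - 1)
      = if d ∣ j then padicValNat r (q ^ d - 1) else 0 := by
    intro j hj
    simp only [Finset.mem_Ioc] at hj
    split_ifs with hdj
    · exact val_pow_sub_one_of_dvd r q j hq hj.1 (by omega) hdj hrq
    · apply padicValNat.eq_zero_of_not_dvd
      rwa [dvd_pow_sub_one_iff r q j (by omega)]
  rw [Finset.sum_congr rfl h4, ← Finset.sum_filter, Finset.sum_const, Nat.Ioc_filter_dvd_card_eq_div]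
  simp

section Torus

variable {F L : Type*} [Field F] [Field L] [Algebra F L]

/-- the torus action on `L^k × F^s`. -/
noncomputable def torusEnd (C : Subgroup Lˣ) (k s : ℕ) :
    (Fin k → C) →* Module.End F ((Fin k → L) × (Fin s → F)) where
  toFun c := LinearMap.prodMap
    (LinearMap.pi (fun i => (LinearMap.mulLeft F (((c i : C) : Lˣ) : L)) ∘ₗ LinearMap.proj i))
    LinearMap.id
  map_one' := by
    ext x <;> simp
  map_mul' c c' := by
    ext x <;> simp [mul_assoc]

lemma torusEnd_injective (C : Subgroup Lˣ) (k s : ℕ) :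
    Function.Injective (torusEnd (F := F) (L := L) C k s) := by
  classical
  intro c c' h
  funext i
  have h1 := congrArg (fun f => (f (Pi.single i 1, 0)).1 i) h
  simp [torusEnd] at h1
  exact Subtype.ext (Units.ext h1)

lemma finrank_torus [Module.Finite F L] (k s d : ℕ) (hd : Module.finrank F L = d) :
    Module.finrank F ((Fin k → L) × (Fin s → F)) = k * d + s := by
  rw [Module.finrank_prod, Module.finrank_pi_fintype]
  simp [hd]

/-- injective homs to `End` of an `n`-dimensional space give injective homs to `GL_n`. -/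
lemma exists_gl_hom {A V : Type*} [Group A] [AddCommGroup V] [Module F V] [Module.Finite F V] (n : ℕ)
    (hV : Module.finrank F V = n) (φ : A →* Module.End F V) (hφ : Function.Injective φ) :
    ∃ ψ : A →* Matrix.GeneralLinearGroup (Fin n) F, Function.Injective ψ := by
  classical
  let b : Module.Basis (Fin n) F V := Module.finBasisOfFinrankEq F V hV
  let e : Module.End F V ≃ₐ[F] Matrix (Fin n) (Fin n) F := LinearMap.toMatrixAlgEquiv b
  let φ' : A →* Matrix (Fin n) (Fin n) F := (e : Module.End F V →* Matrix (Fin n) (Fin n) F).comp φ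
  refine ⟨φ'.toHomUnits, ?_⟩
  intro a a' h
  apply hφ
  apply e.injective
  have := congrArg Units.val h
  simpa [φ'] using this

end Torus

end CfsgLib.H9.SylLarge

namespace CfsgLib.H9.SylLarge

open Polynomial

lemma zmod_equiv (C : Type*) [Group C] [IsCyclic C] (m : ℕ) (hm : Nat.card C = m) :
    Nonempty (Multiplicative (ZMod m) ≃* C) := by
  subst hm
  exact ⟨zmodCyclicMulEquiv inferInstance⟩

/-- a cyclic subgroup of order `m` in the units of a finite field, when `m ∣ |L| - 1`. -/
lemma exists_cyclic (L : Type*) [Field L] [Finite L] (m : ℕ) (hm : m ∣ Nat.card L - 1) :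
    ∃ C : Subgroup Lˣ, IsCyclic C ∧ Nat.card C = m := by
  classical
  haveI := Fintype.ofFinite L
  have hc : Nat.card Lˣ = Nat.card L - 1 := by
    rw [Nat.card_eq_fintype_card, Nat.card_eq_fintype_card, Fintype.card_units]
  obtain ⟨g, hg⟩ := IsCyclic.exists_ofOrder_eq_natCard (α := Lˣ)
  rw [hc] at hg
  obtain ⟨c, hc'⟩ := hm
  have hc0 : Nat.card L - 1 ≠ 0 := by
    have : 1 < Nat.card L := Finite.one_lt_card
    omega
  refine ⟨Subgroup.zpowers (g ^ c), inferInstance, ?_⟩
  rw [Nat.card_zpowers, orderOf_pow_of_dvd (Nat.ne_of_gt (Nat.pos_of_ne_zero (fun h => hc0 (by rw [hc', h, mul_zero])))) (by rw [hg, hc']; exact dvd_mul_left _ _), hg, hc']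
  exact Nat.mul_div_cancel _ (Nat.pos_of_ne_zero (fun h => hc0 (by rw [hc', h, mul_zero])))

/-- The main theorem for `GL_n(q)`. -/
theorem main_gl {F : Type*} [Field F] [Fintype F] {q : ℕ} (hq : Fintype.card F = q) (n : ℕ)
    (r : ℕ) [hr : Fact r.Prime] (hrn : n < r) (hrq : ¬ r ∣ q) (P : Sylow r (GL (Fin n) F)) :
    Nonempty (↥(P : Subgroup (GL (Fin n) F)) ≃*
      (Fin (n / orderOf (q : ZMod r)) →
        Multiplicative (ZMod (r ^ padicValNat r ((Polynomial.cyclotomic (orderOf (q : ZMod r)) ℤ).eval (q : ℤ)).natAbs)))) := by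
  classical
  have hq1 : 1 < q := by rw [← hq]; exact Fintype.one_lt_card
  set d := orderOf (q : ZMod r) with hd
  have hd0 : 0 < d := orderOf_pos r q hrq
  rw [val_cyclo r q hq1 hrq, ← hd]
  set v := padicValNat r (q ^ d - 1) with hv
  set m := r ^ v with hm
  have : NeZero m := ⟨pow_ne_zero _ hr.out.ne_zero⟩
  -- the field
  let p := ringChar F
  have : Fact p.Prime := ⟨CharP.char_is_prime F p⟩
  have : CharP F p := ringChar.charP F
  let L := FiniteField.Extension F p d
  have : NeZero d := ⟨hd0.ne'⟩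
  have hL : Module.finrank F L = d := FiniteField.finrank_extension F p d
  have hLc : Nat.card L = q ^ d := by
    rw [FiniteField.natCard_extension, Nat.card_eq_fintype_card, hq]
  have hmd : m ∣ Nat.card L - 1 := by
    rw [hLc]
    exact pow_padicValNat_dvd
  obtain ⟨C, hCc, hCm⟩ := exists_cyclic L m hmd
  obtain ⟨e⟩ := zmod_equiv C m hCm
  set k := n / d with hk
  set s := n % d with hs
  have hn : k * d + s = n := Nat.div_add_mod' n d
  have hV : Module.finrank F ((Fin k → L) × (Fin s → F)) = n := by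
    rw [finrank_torus k s d hL, hn]
  let φ : (Fin k → Multiplicative (ZMod m)) →* Module.End F ((Fin k → L) × (Fin s → F)) :=
    (torusEnd (F := F) (L := L) C k s).comp
      (MulEquiv.piCongrRight (fun _ : Fin k => e)).toMonoidHom
  have hφ : Function.Injective φ :=
    (torusEnd_injective C k s).comp (MulEquiv.piCongrRight (fun _ : Fin k => e)).injective
  obtain ⟨ψ, hψ⟩ := exists_gl_hom n hV φ hφ
  apply sylow_iso r ψ hψ _ P
  have h1 : Nat.card (GL (Fin n) F) = ∏ i : Fin n, (q ^ n - q ^ (i : ℕ)) := by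
    rw [Matrix.card_GL_field, hq]
  rw [h1, val_prod r q n hq1 hrn hrq, ← hd, ← hk, ← hv]
  simp [Nat.card_pi, hm, pow_mul, mul_comm]
  ring

/-- the diagonal torus of `SL_{n+1}`. -/
noncomputable def slDiag {F : Type*} [Field F] (C : Subgroup Fˣ) (n : ℕ) :
    (Fin n → C) →* Matrix.SpecialLinearGroup (Fin (n + 1)) F where
  toFun c := ⟨Matrix.diagonal (Fin.snoc (fun i => (((c i : C) : Fˣ) : F)) (((∏ i, (c i : C) : Fˣ)⁻¹ : Fˣ) : F)), by
    rw [Matrix.det_diagonal, Fin.prod_univ_castSucc]
    simp only [Fin.snoc_castSucc, Fin.snoc_last]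
    have h : ∏ i, (((c i : C) : Fˣ) : F) = ((∏ i, (c i : C) : Fˣ) : F) := by
      simp
    rw [h]
    exact Units.mul_inv _⟩
  map_one' := by
    ext i j
    simp only [Matrix.SpecialLinearGroup.coe_mk, Matrix.SpecialLinearGroup.coe_one]
    refine Fin.lastCases ?_ (fun i => ?_) i
    · by_cases h : Fin.last n = j
      · subst h
        simp
      · simp [Matrix.diagonal_apply_ne, Matrix.one_apply_ne, h]
    · by_cases h : i.castSucc = j
      · subst h
        simp
      · simp [Matrix.diagonal_apply_ne, Matrix.one_apply_ne, h]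
  map_mul' c c' := by
    apply Subtype.ext
    show Matrix.diagonal _ = Matrix.diagonal _ * Matrix.diagonal _
    rw [Matrix.diagonal_mul_diagonal]
    congr 1
    funext i
    refine Fin.lastCases ?_ (fun i => ?_) i
    · simp [Finset.prod_mul_distrib, mul_comm]
    · simp

lemma slDiag_apply {F : Type*} [Field F] (C : Subgroup Fˣ) (n : ℕ) (c : Fin n → C) (i : Fin n) :
    ((slDiag C n c : Matrix.SpecialLinearGroup (Fin (n + 1)) F) : Matrix _ _ F) i.castSucc i.castSucc
      = ((c i : C) : Fˣ) := by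
  show Matrix.diagonal _ _ _ = _
  rw [Matrix.diagonal_apply_eq, Fin.snoc_castSucc]

lemma slDiag_injective {F : Type*} [Field F] (C : Subgroup Fˣ) (n : ℕ) :
    Function.Injective (slDiag C n) := by
  intro c c' h
  funext i
  have h1 := congrArg (fun g : Matrix.SpecialLinearGroup (Fin (n + 1)) F => (g : Matrix _ _ F) i.castSucc i.castSucc) h
  rw [slDiag_apply, slDiag_apply] at h1
  exact Subtype.ext (Units.ext h1)

end CfsgLib.H9.SylLarge

namespace CfsgLib.H9.SylLarge

open Polynomial

/-- The main theorem for `SL_n(q)`. -/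
theorem main_sl {F : Type*} [Field F] [Fintype F] {q : ℕ} (hq : Fintype.card F = q) (n : ℕ)
    (r : ℕ) [hr : Fact r.Prime] (hrn : n < r) (hrq : ¬ r ∣ q)
    (P : Sylow r (Matrix.SpecialLinearGroup (Fin n) F)) :
    Nonempty (↥(P : Subgroup (Matrix.SpecialLinearGroup (Fin n) F)) ≃*
      (Fin ((Finset.Icc 2 n).filter (fun i => orderOf (q : ZMod r) ∣ i)).card →
        Multiplicative (ZMod (r ^ padicValNat r ((Polynomial.cyclotomic (orderOf (q : ZMod r)) ℤ).eval (q : ℤ)).natAbs)))) := by
  classical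
  have hq1 : 1 < q := by rw [← hq]; exact Fintype.one_lt_card
  set d := orderOf (q : ZMod r) with hd
  have hd0 : 0 < d := orderOf_pos r q hrq
  have hvv := val_cyclo r q hq1 hrq
  rw [← hd] at hvv
  rcases Nat.eq_zero_or_pos n with rfl | hn0
  · -- trivial
    have hemp : (Finset.Icc 2 0).filter (fun i => d ∣ i) = ∅ := by
      ext i; simp
    rw [hemp, Finset.card_empty]
    have : NeZero (r ^ padicValNat r ((Polynomial.cyclotomic d ℤ).eval (q : ℤ)).natAbs) :=
      ⟨pow_ne_zero _ hr.out.ne_zero⟩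
    apply sylow_iso r (1 : _ →* _) _ _ P
    · intro a b _
      funext i
      exact i.elim0
    · have : Nat.card (Matrix.SpecialLinearGroup (Fin 0) F) = 1 := by
        rw [Nat.card_eq_one_iff_unique]
        refine ⟨?_, ⟨1⟩⟩
        constructor
        intro a b
        apply Subtype.ext
        ext i
        exact i.elim0
      rw [this]
      simp
  have hcard := CfsgLib.ClassGeo.q_sub_one_mul_card_SL (F := F) hq n hn0
  by_cases hd1 : d = 1
  · -- `r ∣ q - 1`
    have hrq1 : r ∣ q - 1 := by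
      have := (dvd_pow_sub_one_iff r q 1 (by omega)).2 (by rw [← hd, hd1])
      simpa using this
    obtain ⟨n', rfl⟩ : ∃ n', n = n' + 1 := ⟨n - 1, by omega⟩
    have hfilter : (Finset.Icc 2 (n' + 1)).filter (fun i => d ∣ i) = Finset.Icc 2 (n' + 1) := by
      apply Finset.filter_true_of_mem
      intro i _
      rw [hd1]; exact one_dvd _
    have hc : (Finset.Icc 2 (n' + 1)).card = n' := by simp
    have hqd1 : q ^ d - 1 = q - 1 := by rw [hd1, pow_one]
    rw [hfilter, hc, hvv, hqd1]
    set v := padicValNat r (q - 1) with hv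
    set m := r ^ v with hm
    have : NeZero m := ⟨pow_ne_zero _ hr.out.ne_zero⟩
    have hF : Nat.card F = q := by rw [Nat.card_eq_fintype_card, hq]
    have hmd : m ∣ Nat.card F - 1 := by
      rw [hF]
      exact pow_padicValNat_dvd
    obtain ⟨C, hCc, hCm⟩ := exists_cyclic F m hmd
    obtain ⟨e⟩ := zmod_equiv C m hCm
    let φ : (Fin n' → Multiplicative (ZMod m)) →* Matrix.SpecialLinearGroup (Fin (n' + 1)) F :=
      (slDiag C n').comp (MulEquiv.piCongrRight (fun _ : Fin n' => e)).toMonoidHom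
    have hφ : Function.Injective φ :=
      (slDiag_injective C n').comp (MulEquiv.piCongrRight (fun _ : Fin n' => e)).injective
    apply sylow_iso r φ hφ _ P
    have h2 := val_prod r q (n' + 1) hq1 hrn hrq
    rw [← hd, hd1] at h2
    rw [← hcard] at h2
    have hq10 : q - 1 ≠ 0 := by omega
    have hSL0 : Nat.card (Matrix.SpecialLinearGroup (Fin (n' + 1)) F) ≠ 0 := Nat.card_pos.ne'
    rw [padicValNat.mul hq10 hSL0] at h2
    simp only [pow_one, Nat.div_one] at h2
    have h3 : padicValNat r (Nat.card (Matrix.SpecialLinearGroup (Fin (n' + 1)) F)) = n' * v := by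
      rw [← hv] at h2
      have : (n' + 1) * v = v + n' * v := by ring
      omega
    rw [h3]
    simp [Nat.card_pi, hm, pow_mul, mul_comm]
    ring
  · -- `r ∤ q - 1`: the Sylow subgroup is Sylow in `GL_n`
    have hrq1 : ¬ r ∣ q - 1 := by
      intro h
      have := (dvd_pow_sub_one_iff r q 1 (by omega)).1 (by simpa using h)
      rw [← hd] at this
      exact hd1 (Nat.dvd_one.1 this)
    have hfilter : ((Finset.Icc 2 n).filter (fun i => d ∣ i)).card = n / d := by
      rw [← Nat.Ioc_filter_dvd_card_eq_div]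
      congr 1
      ext i
      simp only [Finset.mem_filter, Finset.mem_Icc, Finset.mem_Ioc]
      constructor
      · rintro ⟨⟨h1, h2⟩, h3⟩
        exact ⟨⟨by omega, h2⟩, h3⟩
      · rintro ⟨⟨h1, h2⟩, h3⟩
        refine ⟨⟨?_, h2⟩, h3⟩
        by_contra h4
        have : i = 1 := by omega
        subst this
        exact hd1 (Nat.dvd_one.1 h3)
    let ι : Matrix.SpecialLinearGroup (Fin n) F →* GL (Fin n) F := Matrix.SpecialLinearGroup.toGL
    have hι : Function.Injective ι := by
      intro a b h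
      apply Subtype.ext
      have := congrArg Units.val h
      simpa [ι] using this
    have hcGL : Nat.card (GL (Fin n) F) = (q - 1) * Nat.card (Matrix.SpecialLinearGroup (Fin n) F) := by
      rw [hcard, Matrix.card_GL_field, hq]
    have hval : padicValNat r (Nat.card (GL (Fin n) F))
        = padicValNat r (Nat.card (Matrix.SpecialLinearGroup (Fin n) F)) := by
      have hq10 : q - 1 ≠ 0 := by omega
      have hSL0 : Nat.card (Matrix.SpecialLinearGroup (Fin n) F) ≠ 0 := Nat.card_pos.ne'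
      rw [hcGL, padicValNat.mul hq10 hSL0, padicValNat.eq_zero_of_not_dvd hrq1, zero_add]
    have hQ : Nat.card ((P : Subgroup _).map ι) = r ^ (Nat.card (GL (Fin n) F)).factorization r := by
      rw [Subgroup.card_map_of_injective hι, Sylow.card_eq_multiplicity,
        Nat.factorization_def _ hr.out, Nat.factorization_def _ hr.out, hval]
    let Q : Sylow r (GL (Fin n) F) := Sylow.ofCard _ hQ
    obtain ⟨e⟩ := main_gl hq n r hrn hrq Q
    rw [hfilter]
    refine ⟨?_⟩
    refine ((P : Subgroup (Matrix.SpecialLinearGroup (Fin n) F)).equivMapOfInjective ι hι).trans ?_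
    exact (MulEquiv.subgroupCongr (Sylow.coe_ofCard _ hQ).symm).trans e

end CfsgLib.H9.SylLarge
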