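import Mathlib

set_option autoImplicit false

namespace CfsgLib.H9

/-- Criterion for triple transitivity: a doubly transitive faithful group with point stabilisers of
even order, such that the setwise stabiliser of any pair is transitive on the remaining points, is
triply transitive. -/
theorem three_trans_of_set_stabilizer {G Ω : Type*} [Group G] [Finite G] [MulAction G Ω]
    [FaithfulSMul G Ω] (h2 : MulAction.IsMultiplyPretransitive G Ω 2)
    (heven : ∀ a : Ω, Even (Nat.card (MulAction.stabilizer G a)))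
    (hT : ∀ a b c₀ c₁ : Ω, a ≠ b → c₀ ≠ a → c₀ ≠ b → c₁ ≠ a → c₁ ≠ b →
      ∃ g : G, ((g • a = a ∧ g • b = b) ∨ (g • a = b ∧ g • b = a)) ∧ g • c₀ = c₁) :
    MulAction.IsMultiplyPretransitive G Ω 3 := by
  classical
  by_cases hne : Nonempty Ω
  swap
  · rw [not_nonempty_iff] at hne
    exact ⟨fun x y => ⟨1, by ext i; exact (hne.false (x i)).elim⟩⟩
  obtain ⟨x⟩ := hne
  -- an involution fixing `x`
  have h2d : 2 ∣ Nat.card (MulAction.stabilizer G x) := (heven x).two_dvd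
  obtain ⟨t, ht⟩ := exists_prime_orderOf_dvd_card' 2 h2d
  have ht1 : (t : G) ≠ 1 := by
    intro h
    have : t = 1 := Subtype.ext h
    rw [this, orderOf_one] at ht
    omega
  have htx : (t : G) • x = x := t.2
  have htt : ∀ w : Ω, (t : G) • (t : G) • w = w := by
    intro w
    rw [← mul_smul]
    have : (t : G) * t = 1 := by
      have h3 : t ^ 2 = 1 := by rw [← ht]; exact pow_orderOf_eq_one t
      have := congrArg Subtype.val h3
      simpa [sq] using this
    rw [this, one_smul]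
  obtain ⟨y, hy⟩ : ∃ y : Ω, (t : G) • y ≠ y := by
    by_contra hcon
    push Not at hcon
    apply ht1
    apply FaithfulSMul.eq_of_smul_eq_smul (α := Ω)
    intro w
    rw [hcon w, one_smul]
  set z := (t : G) • y with hz
  have hyx : y ≠ x := by
    rintro rfl
    exact hy htx
  have hzx : z ≠ x := by
    intro h
    have : (t : G) • y = (t : G) • x := by rw [htx]; exact h
    exact hyx (smul_left_cancel _ this)
  have hzy : z ≠ y := hy
  have hty : (t : G) • z = y := htt y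
  -- the relation
  let Rel : (Ω × Ω × Ω) → (Ω × Ω × Ω) → Prop := fun A B =>
    ∃ g : G, g • A.1 = B.1 ∧ g • A.2.1 = B.2.1 ∧ g • A.2.2 = B.2.2
  have Rrefl : ∀ A, Rel A A := fun A => ⟨1, by simp, by simp, by simp⟩
  have Rsymm : ∀ A B, Rel A B → Rel B A := by
    rintro A B ⟨g, h1, h3, h4⟩
    exact ⟨g⁻¹, by rw [← h1, inv_smul_smul], by rw [← h3, inv_smul_smul], by rw [← h4, inv_smul_smul]⟩
  have Rtrans : ∀ A B C, Rel A B → Rel B C → Rel A C := by
    rintro A B C ⟨g, h1, h3, h4⟩ ⟨k, h5, h6, h7⟩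
    exact ⟨k * g, by rw [mul_smul, h1, h5], by rw [mul_smul, h3, h6], by rw [mul_smul, h4, h7]⟩
  rw [MulAction.is_two_pretransitive_iff] at h2
  -- (*)
  have hstar : ∀ p q r : Ω, p ≠ q → p ≠ r → q ≠ r → Rel (p, q, r) (x, y, z) ∨ Rel (p, q, r) (y, x, z) := by
    intro p q r hpq hpr hqr
    obtain ⟨g, hg1, hg2⟩ := h2 hpq (Ne.symm hyx)
    have h1 : g • r ≠ x := fun h => hpr (smul_left_cancel g (hg1.trans h.symm))
    have h3 : g • r ≠ y := fun h => hqr (smul_left_cancel g (hg2.trans h.symm))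
    obtain ⟨k, hk, hkz⟩ := hT x y (g • r) z (Ne.symm hyx) h1 h3 hzx hzy
    rcases hk with ⟨hk1, hk2⟩ | ⟨hk1, hk2⟩
    · left
      exact ⟨k * g, by simp only [mul_smul, hg1, hk1], by simp only [mul_smul, hg2, hk2],
        by simp only [mul_smul, hkz]⟩
    · right
      exact ⟨k * g, by simp only [mul_smul, hg1, hk1], by simp only [mul_smul, hg2, hk2],
        by simp only [mul_smul, hkz]⟩
  -- `t` relations
  have ht1' : Rel (x, y, z) (x, z, y) := ⟨t, htx, rfl, hty⟩
  have ht2' : Rel (y, x, z) (z, x, y) := ⟨t, rfl, htx, hty⟩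
  have ht3' : Rel (y, z, x) (z, y, x) := ⟨t, rfl, hty, htx⟩
  have hkey : Rel (x, y, z) (y, x, z) := by
    rcases hstar y z x hzy.symm hyx hzx with ⟨h, h1, h3, h4⟩ | ⟨h, h1, h3, h4⟩
    · -- `h : y ↦ x, z ↦ y, x ↦ z`
      have e1 : Rel (x, y, z) (z, x, y) := ⟨h, h4, h1, h3⟩
      exact Rtrans _ _ _ e1 (Rsymm _ _ ht2')
    · -- `h : y ↦ y, z ↦ x, x ↦ z`
      have e1 : Rel (x, y, z) (z, y, x) := ⟨h, h4, h1, h3⟩
      have e2 : Rel (z, y, x) (y, z, x) := Rsymm _ _ ht3'
      have e3 : Rel (y, z, x) (y, x, z) := ⟨h, h1, h3, h4⟩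
      exact Rtrans _ _ _ e1 (Rtrans _ _ _ e2 e3)
  have hall : ∀ p q r : Ω, p ≠ q → p ≠ r → q ≠ r → Rel (p, q, r) (x, y, z) := by
    intro p q r hpq hpr hqr
    rcases hstar p q r hpq hpr hqr with h | h
    · exact h
    · exact Rtrans _ _ _ h (Rsymm _ _ hkey)
  refine ⟨fun φ ψ => ?_⟩
  have hφ : Rel (φ 0, φ 1, φ 2) (x, y, z) := hall _ _ _ (by simp) (by simp) (by simp)
  have hψ : Rel (ψ 0, ψ 1, ψ 2) (x, y, z) := hall _ _ _ (by simp) (by simp) (by simp)
  obtain ⟨g, h1, h3, h4⟩ := Rtrans _ _ _ hφ (Rsymm _ _ hψ)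
  refine ⟨g, ?_⟩
  ext i
  fin_cases i
  · exact h1
  · exact h3
  · exact h4

end CfsgLib.H9
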