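import Mathlib

/-! A square matrix over a field is similar to its transpose. -/

set_option autoImplicit false
set_option linter.unusedVariables false
set_option linter.unusedSectionVars false
set_option linter.unusedSimpArgs false
set_option linter.style.haveILetI false

namespace CfsgLib.H9.TransConj

open Polynomial Matrix Module DirectSum

universe u

variable {F : Type u} [Field F]

/-- Frobenius functional on `F[X]/(f)`. -/
theorem exists_monic_lam {f : F[X]} (hf : f.Monic) :
    ∃ l : F[X] →ₗ[F] F, (∀ a, f ∣ a → l a = 0) ∧ ∀ a, ¬ f ∣ a → ∃ b, l (a * b) ≠ 0 := by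
  refine ⟨(Polynomial.lcoeff F (f.natDegree - 1)) ∘ₗ modByMonicHom f, ?_, ?_⟩
  · intro a ha
    have h0 : a %ₘ f = 0 := (Polynomial.modByMonic_eq_zero_iff_dvd hf).2 ha
    simp [modByMonicHom, h0]
  · intro a ha
    have hr : a %ₘ f ≠ 0 := fun h => ha ((Polynomial.modByMonic_eq_zero_iff_dvd hf).1 h)
    set r := a %ₘ f with hrdef
    have hlt : r.degree < f.degree := Polynomial.degree_modByMonic_lt a hf
    have hlt' : r.natDegree < f.natDegree := by
      exact Polynomial.natDegree_lt_natDegree hr hlt
    set k := f.natDegree - 1 - r.natDegree with hk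
    refine ⟨X ^ k, ?_⟩
    have hadd : a * X ^ k = r * X ^ k + f * (a /ₘ f * X ^ k) := by
      have := Polynomial.modByMonic_add_div a f
      calc a * X ^ k = (a %ₘ f + f * (a /ₘ f)) * X ^ k := by rw [this]
        _ = _ := by rw [← hrdef]; ring
    have hmod : (a * X ^ k) %ₘ f = r * X ^ k := by
      have hdeg : (r * X ^ k).degree < f.degree := by
        rw [Polynomial.degree_mul, Polynomial.degree_X_pow, Polynomial.degree_eq_natDegree hr,
          Polynomial.degree_eq_natDegree hf.ne_zero]
        rw [← Nat.cast_add]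
        exact_mod_cast (by omega : r.natDegree + k < f.natDegree)
      rw [hadd]
      exact (Polynomial.div_modByMonic_unique (a /ₘ f * X ^ k) (r * X ^ k) hf ⟨by ring, hdeg⟩).2
    have h : ((Polynomial.lcoeff F (f.natDegree - 1)) ∘ₗ modByMonicHom f) (a * X ^ k) = r.leadingCoeff := by
      simp only [LinearMap.comp_apply, modByMonicHom, LinearMap.coe_mk, AddHom.coe_mk, hmod,
        Polynomial.lcoeff_apply]
      have : f.natDegree - 1 = r.natDegree + k := by omega
      rw [this, Polynomial.coeff_mul_X_pow]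
      rfl
    rw [h]
    exact Polynomial.leadingCoeff_ne_zero.2 hr

theorem exists_lam {f : F[X]} (hf : f ≠ 0) :
    ∃ l : F[X] →ₗ[F] F, (∀ a, f ∣ a → l a = 0) ∧ ∀ a, ¬ f ∣ a → ∃ b, l (a * b) ≠ 0 := by
  have hm : (f * C f.leadingCoeff⁻¹).Monic := Polynomial.monic_mul_leadingCoeff_inv hf
  obtain ⟨l, h1, h2⟩ := exists_monic_lam hm
  have hu : IsUnit (C f.leadingCoeff⁻¹ : F[X]) :=
    Polynomial.isUnit_C.2 (isUnit_iff_ne_zero.2 (inv_ne_zero (Polynomial.leadingCoeff_ne_zero.2 hf)))
  have hiff : ∀ a, (f * C f.leadingCoeff⁻¹) ∣ a ↔ f ∣ a := fun a => hu.mul_right_dvd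
  exact ⟨l, fun a ha => h1 a ((hiff a).2 ha), fun a ha => h2 a (fun h => ha ((hiff a).1 h))⟩

/-- Coordinates attached to the primary decomposition. -/
theorem exists_coord {n : Type*} [Fintype n] [DecidableEq n] (A : Matrix n n F) :
    ∃ (ι : Type u) (_ : Fintype ι) (f : ι → F[X]) (π : ι → (n → F) → F[X]),
      (∀ i, f i ≠ 0) ∧ (∀ i u v, f i ∣ π i (u + v) - (π i u + π i v)) ∧
      (∀ i (c : F) u, f i ∣ π i (c • u) - C c * π i u) ∧
      (∀ i u, f i ∣ π i (A *ᵥ u) - X * π i u) ∧
      (∀ u, (∀ i, f i ∣ π i u) → u = 0) ∧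
      (∀ i a, ∃ w, f i ∣ π i w - a ∧ ∀ j, j ≠ i → f j ∣ π j w) := by
  classical
  let φ : (n → F) →ₗ[F] (n → F) := A.mulVecLin
  let N := Module.AEval' φ
  have hfin : Module.Finite F[X] N := Module.Finite.of_restrictScalars_finite F F[X] N
  have htor : Module.IsTorsion F[X] N := Module.AEval.isTorsion_of_finiteDimensional F (n → F) φ
  obtain ⟨ι, hι, p, hp, e, ⟨E⟩⟩ := Module.equiv_directSum_of_isTorsion htor
  let f : ι → F[X] := fun i => p i ^ e i
  have hf : ∀ i, f i ≠ 0 := fun i => pow_ne_zero _ (hp i).ne_zero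
  let mkq : ∀ i, F[X] → F[X] ⧸ (Submodule.span F[X] {p i ^ e i}) := fun i a => Submodule.Quotient.mk a
  have hmkq : ∀ i a b, mkq i a = mkq i b ↔ f i ∣ a - b := by
    intro i a b
    simp only [mkq]
    rw [Submodule.Quotient.eq, Submodule.mem_span_singleton]
    constructor
    · rintro ⟨c, hc⟩
      exact ⟨c, by rw [← hc]; simp [f, mul_comm]⟩
    · rintro ⟨c, hc⟩
      exact ⟨c, by rw [hc]; simp [f, mul_comm]⟩
  have hsurj : ∀ i (x : F[X] ⧸ (Submodule.span F[X] {p i ^ e i})), ∃ a, mkq i a = x :=
    fun i x => Submodule.Quotient.mk_surjective _ x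
  choose r hr using hsurj
  let co : (n → F) → ⨁ i, F[X] ⧸ (Submodule.span F[X] {p i ^ e i}) :=
    fun u => E (Module.AEval'.of φ u)
  refine ⟨ι, hι, f, fun i u => r i (co u i), hf, ?_, ?_, ?_, ?_, ?_⟩
  · intro i u v
    rw [← hmkq, hr]
    have h1 : co (u + v) = co u + co v := by simp [co]
    rw [h1, DirectSum.add_apply]
    simp only [mkq]
    rw [Submodule.Quotient.mk_add]
    have hu := hr i (co u i)
    have hv := hr i (co v i)
    simp only [mkq] at hu hv
    rw [hu, hv]
  · intro i c u
    rw [← hmkq, hr]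
    have h1 : co (c • u) = (C c : F[X]) • co u := by
      simp only [co]
      rw [← map_smul, Module.AEval.C_smul, map_smul]
    rw [h1, DirectSum.smul_apply]
    simp only [mkq]
    have hu := hr i (co u i)
    simp only [mkq] at hu
    rw [← smul_eq_mul, Submodule.Quotient.mk_smul, hu]
  · intro i u
    rw [← hmkq, hr]
    have h1 : co (A *ᵥ u) = (X : F[X]) • co u := by
      simp only [co]
      rw [← map_smul, Module.AEval'.X_smul_of]
      rfl
    rw [h1, DirectSum.smul_apply]
    simp only [mkq]
    have hu := hr i (co u i)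
    simp only [mkq] at hu
    rw [← smul_eq_mul, Submodule.Quotient.mk_smul, hu]
  · intro u hu
    have h0 : co u = 0 := by
      apply DFinsupp.ext
      intro i
      have h1 : mkq i (r i (co u i)) = mkq i 0 := by
        rw [hmkq, sub_zero]
        exact hu i
      rw [hr] at h1
      rw [h1]
      simp [mkq]
    have h2 : Module.AEval'.of φ u = 0 := by
      simpa [co] using h0
    simpa using h2
  · intro i a
    let y : ⨁ i, F[X] ⧸ (Submodule.span F[X] {p i ^ e i}) := DirectSum.of _ i (mkq i a)
    refine ⟨(Module.AEval'.of φ).symm (E.symm y), ?_, ?_⟩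
    · have h1 : co ((Module.AEval'.of φ).symm (E.symm y)) = y := by
        simp [co]
      show f i ∣ r i (co _ i) - a
      rw [h1, ← hmkq, hr]
      simp only [y]
      rw [DirectSum.of_eq_same]
    · intro j hj
      have h1 : co ((Module.AEval'.of φ).symm (E.symm y)) = y := by
        simp [co]
      show f j ∣ r j (co _ j)
      rw [h1]
      have h2 : mkq j (r j (y j)) = mkq j 0 := by
        rw [hr]
        simp only [y]
        rw [DirectSum.of_eq_of_ne]
        · simp [mkq]
        · exact hj
      have := (hmkq j _ _).1 h2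
      simpa using this

/-- Every square matrix over a field is similar to its transpose. -/
theorem main {n : Type*} [Fintype n] [DecidableEq n] (A : Matrix n n F) : IsConj A A.transpose := by
  classical
  obtain ⟨ι, hι, f, π, hf, hadd, hsmul, hX, hinj, hex⟩ := exists_coord A
  choose l hl1 hl2 using fun i => exists_lam (hf i)
  have hcongr : ∀ i a a' b b', f i ∣ a - a' → f i ∣ b - b' → l i (a * b) = l i (a' * b') := by
    intro i a a' b b' h1 h2
    have h3 : f i ∣ a * b - a' * b' := by
      have : a * b - a' * b' = (a - a') * b + a' * (b - b') := by ring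
      rw [this]
      exact dvd_add (h1.mul_right _) (h2.mul_left _)
    have := hl1 i _ h3
    rw [map_sub] at this
    exact sub_eq_zero.mp this
  let B : (n → F) →ₗ[F] (n → F) →ₗ[F] F :=
    LinearMap.mk₂ F (fun u v => ∑ i, l i (π i u * π i v))
      (by
        intro u u' v
        rw [← Finset.sum_add_distrib]
        apply Finset.sum_congr rfl
        intro i _
        rw [← map_add, ← add_mul]
        exact hcongr i _ _ _ _ (hadd i u u') (by simp))
      (by
        intro c u v
        rw [smul_eq_mul, Finset.mul_sum]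
        apply Finset.sum_congr rfl
        intro i _
        have h := hcongr i _ (C c * π i u) (π i v) (π i v) (hsmul i c u) (by simp)
        rw [h, mul_assoc, Polynomial.C_mul', map_smul, smul_eq_mul])
      (by
        intro u v v'
        rw [← Finset.sum_add_distrib]
        apply Finset.sum_congr rfl
        intro i _
        rw [← map_add, ← mul_add]
        exact hcongr i _ _ _ _ (by simp) (hadd i v v'))
      (by
        intro c u v
        rw [smul_eq_mul, Finset.mul_sum]
        apply Finset.sum_congr rfl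
        intro i _
        have h := hcongr i (π i u) (π i u) _ (C c * π i v) (by simp) (hsmul i c v)
        rw [h, show π i u * (C c * π i v) = C c * (π i u * π i v) by ring, Polynomial.C_mul',
          map_smul, smul_eq_mul])
  have hB : ∀ u v, B u v = ∑ i, l i (π i u * π i v) := fun u v => rfl
  have hBA : ∀ u v, B (A *ᵥ u) v = B u (A *ᵥ v) := by
    intro u v
    rw [hB, hB]
    apply Finset.sum_congr rfl
    intro i _
    have h1 := hcongr i _ _ (π i v) (π i v) (hX i u) (by simp)
    have h2 := hcongr i (π i u) (π i u) _ _ (by simp) (hX i v)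
    rw [h1, h2]
    congr 1
    ring
  let S := LinearMap.toMatrix₂' F B
  have hS : ∀ u v, B u v = u ⬝ᵥ S *ᵥ v := by
    intro u v
    rw [← Matrix.toLinearMap₂'_apply', Matrix.toLinearMap₂'_toMatrix']
  have hcomm : S * A = Aᵀ * S := by
    have hext : ∀ M N : Matrix n n F, (∀ u v, u ⬝ᵥ M *ᵥ v = u ⬝ᵥ N *ᵥ v) → M = N := by
      intro M N h
      ext i j
      have := h (Pi.single i 1) (Pi.single j 1)
      simpa [Matrix.mulVec_single_one] using this
    apply hext
    intro u v
    rw [← Matrix.mulVec_mulVec, ← Matrix.mulVec_mulVec, ← hS]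
    rw [← hBA, hS, Matrix.dotProduct_mulVec u Aᵀ, Matrix.vecMul_transpose]
  have hinjS : Function.Injective S.mulVec := by
    have h0 : ∀ v, S *ᵥ v = 0 → v = 0 := by
      intro v hv
      by_contra hne
      have hi : ∃ i, ¬ f i ∣ π i v := by
        by_contra hall
        push Not at hall
        exact hne (hinj v hall)
      obtain ⟨i, hi⟩ := hi
      obtain ⟨b, hb⟩ := hl2 i _ hi
      obtain ⟨w, hw1, hw2⟩ := hex i b
      have h1 : B w v = 0 := by rw [hS, hv]; simp
      rw [hB, Finset.sum_eq_single i] at h1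
      · apply hb
        rw [mul_comm, ← h1]
        exact hcongr i _ _ _ _ (dvd_sub_comm.1 hw1) (by simp)
      · intro j _ hj
        exact hl1 j _ ((hw2 j hj).mul_right _)
      · intro h
        exact absurd (Finset.mem_univ i) h
    intro v w hvw
    have h1 : S *ᵥ (v - w) = 0 := by
      rw [Matrix.mulVec_sub]
      exact sub_eq_zero.mpr hvw
    exact sub_eq_zero.mp (h0 _ h1)
  have hunit : IsUnit S := Matrix.mulVec_injective_iff_isUnit.1 hinjS
  obtain ⟨U, hU⟩ := hunit
  refine ⟨U, ?_⟩
  rw [SemiconjBy, hU]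
  exact hcomm

open scoped Matrix in
/-- Symplectic matrices are similar to their inverses. -/
theorem main_symp {m : ℕ} (A : Matrix.symplecticGroup (Fin m) F) :
    IsConj (A : Matrix (Fin m ⊕ Fin m) (Fin m ⊕ Fin m) F)
      ((A⁻¹ : Matrix.symplecticGroup (Fin m) F) : Matrix (Fin m ⊕ Fin m) (Fin m ⊕ Fin m) F) := by
  classical
  have h1 := main (A : Matrix (Fin m ⊕ Fin m) (Fin m ⊕ Fin m) F)
  refine h1.trans ?_
  have hJ : (Matrix.J (Fin m) F) * (Matrix.J (Fin m) F) = -1 := Matrix.J_squared _ _
  let U : (Matrix (Fin m ⊕ Fin m) (Fin m ⊕ Fin m) F)ˣ :=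
    ⟨-Matrix.J (Fin m) F, Matrix.J (Fin m) F, by simp [hJ], by simp [hJ]⟩
  refine ⟨U, ?_⟩
  rw [SemiconjBy, SymplecticGroup.coe_inv]
  show -Matrix.J (Fin m) F * _ = _ * (-Matrix.J (Fin m) F)
  have h2 : Matrix.J (Fin m) F * -Matrix.J (Fin m) F = 1 := by simp [hJ]
  rw [Matrix.mul_assoc _ (Matrix.J (Fin m) F), h2, Matrix.mul_one]

end CfsgLib.H9.TransConj
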