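import Mathlib

/-! `n`-th roots of `-1` in finite fields. -/

set_option autoImplicit false
set_option linter.unusedVariables false

namespace CfsgLib.H9.Val2

open Matrix

theorem val_eq {n k n' : ℕ} (h : n = 2 ^ k * n') (hn' : Odd n') : padicValNat 2 n = k := by
  subst h
  have h1 : n' ≠ 0 := hn'.pos.ne'
  rw [padicValNat.mul (pow_ne_zero _ two_ne_zero) h1, padicValNat.prime_pow,
    padicValNat.eq_zero_of_not_dvd (by
      intro h2
      exact (Nat.not_even_iff_odd.mpr hn') (even_iff_two_dvd.mpr h2)), add_zero]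

theorem exists_split {n : ℕ} (hn : 1 ≤ n) : ∃ n', n = 2 ^ padicValNat 2 n * n' ∧ Odd n' := by
  obtain ⟨k, n', hodd, h⟩ := Nat.exists_eq_two_pow_mul_odd (by omega : n ≠ 0)
  refine ⟨n', ?_, hodd⟩
  rw [val_eq h hodd]
  exact h

variable {F : Type*} [Field F] [Fintype F]

theorem sq_eq_one_iff_of_side_lemma {x : F} (h : x ^ 2 = 1) : x = 1 ∨ x = -1 := by
  have h1 : (x - 1) * (x + 1) = 0 := by linear_combination h
  rcases mul_eq_zero.mp h1 with h2 | h2
  · left
    linear_combination h2
  · right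
    linear_combination h2

theorem root_neg_one {q : ℕ} (hF : Fintype.card F = q) (hq : Odd q) {n : ℕ} (hn : 1 ≤ n) :
    (∃ c : F, c ≠ 0 ∧ c ^ n = -1) ↔ padicValNat 2 n < padicValNat 2 (q - 1) := by
  have hq2 : 2 ≤ q := by
    have := Fintype.one_lt_card (α := F)
    omega
  have hq3 : 3 ≤ q := by
    obtain ⟨t, ht⟩ := hq
    omega
  have hm : 1 ≤ q - 1 := by omega
  have hne : (-1 : F) ≠ 1 := by
    intro h
    have h2 : ringChar F = 2 := by
      by_contra hh
      exact Ring.neg_one_ne_one_of_char_ne_two hh h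
    have h3 := FiniteField.even_card_of_char_two h2
    rw [hF] at h3
    exact (Nat.not_even_iff_odd.mpr hq) (Nat.even_iff.mpr h3)
  obtain ⟨n', hn', hodd⟩ := exists_split hn
  obtain ⟨m', hm', hodd'⟩ := exists_split hm
  generalize padicValNat 2 n = b at hn' ⊢
  generalize padicValNat 2 (q - 1) = a at hm' ⊢
  have hone : ∀ c : F, c ≠ 0 → c ^ (q - 1) = 1 := by
    intro c hc
    rw [← hF]
    exact FiniteField.pow_card_sub_one_eq_one c hc
  constructor
  · rintro ⟨c, hc, hc2⟩
    by_contra hh
    push Not at hh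
    obtain ⟨t, ht⟩ := pow_dvd_pow 2 hh
    have h1 : c ^ (n * m') = 1 := by
      have : n * m' = (q - 1) * (t * n') := by
        rw [hn', hm', ht]
        ring
      rw [this, pow_mul, hone c hc, one_pow]
    rw [pow_mul, hc2, hodd'.neg_one_pow] at h1
    exact hne h1
  · intro hlt
    obtain ⟨ζ, hζ⟩ := IsCyclic.exists_generator (α := Fˣ)
    have hord : orderOf ζ = q - 1 := by
      rw [orderOf_eq_card_of_forall_mem_zpowers hζ, Nat.card_units, Nat.card_eq_fintype_card, hF]
    obtain ⟨e, rfl⟩ : ∃ e, a = b + 1 + e := ⟨a - (b + 1), by omega⟩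
    have hpos : 0 < q - 1 := hm
    have hsq : ((ζ : F) ^ (2 ^ (b + e) * m')) ^ 2 = 1 := by
      rw [← pow_mul]
      have : 2 ^ (b + e) * m' * 2 = q - 1 := by
        rw [hm']
        ring
      rw [this]
      exact hone _ ζ.ne_zero
    have hne1 : (ζ : F) ^ (2 ^ (b + e) * m') ≠ 1 := by
      intro h
      have h2 : ζ ^ (2 ^ (b + e) * m') = 1 := by
        apply Units.ext
        simpa using h
      have h3 := Nat.le_of_dvd (by
        have := hodd'.pos
        positivity) (orderOf_dvd_of_pow_eq_one h2)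
      rw [hord, hm'] at h3
      have h4 : 2 ^ (b + 1 + e) * m' = 2 * (2 ^ (b + e) * m') := by ring
      have h5 : 0 < 2 ^ (b + e) * m' := by
        have := hodd'.pos
        positivity
      rw [h4] at h3
      omega
    have hneg : (ζ : F) ^ (2 ^ (b + e) * m') = -1 := by
      rcases sq_eq_one_iff_of_side_lemma hsq with h | h
      · exact absurd h hne1
      · exact h
    refine ⟨(ζ : F) ^ (2 ^ e * m'), pow_ne_zero _ ζ.ne_zero, ?_⟩
    rw [hn', ← pow_mul]
    have : 2 ^ e * m' * (2 ^ b * n') = 2 ^ (b + e) * m' * n' := by ring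
    rw [this, pow_mul, hneg, hodd.neg_one_pow]

theorem prod_if {F : Type*} [Field F] {n i : ℕ} (hi : i ≤ n) :
    (∏ j : Fin n, (if (j : ℕ) < i then (-1 : F) else 1)) = (-1) ^ i := by
  rw [Fin.prod_univ_eq_prod_range (fun j => if j < i then (-1 : F) else 1) n, Finset.prod_ite,
    Finset.prod_const, Finset.prod_const_one, mul_one]
  congr 1
  have : Finset.filter (fun j => j < i) (Finset.range n) = Finset.range i := by
    ext j
    simp only [Finset.mem_filter, Finset.mem_range]
    omega
  rw [this, Finset.card_range]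

theorem main_2575 {q : ℕ} (hF : Fintype.card F = q) (hq : Odd q) {n : ℕ} (hn : 1 ≤ n) (i : ℕ) (hi : i ≤ n) :
    (∃ c : F, c ≠ 0 ∧ (c • Matrix.diagonal (fun j : Fin n => if (j : ℕ) < i then (-1 : F) else 1)).det = 1) ↔
      (Even i ∨ padicValNat 2 n < padicValNat 2 (q - 1)) := by
  have hdet : ∀ c : F, (c • Matrix.diagonal (fun j : Fin n => if (j : ℕ) < i then (-1 : F) else 1)).det =
      c ^ n * (-1) ^ i := by
    intro c
    rw [Matrix.det_smul, Matrix.det_diagonal, prod_if hi, Fintype.card_fin]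
  simp only [hdet]
  rw [← root_neg_one hF hq hn]
  constructor
  · rintro ⟨c, hc, h⟩
    rcases Nat.even_or_odd i with h1 | h1
    · exact Or.inl h1
    · right
      refine ⟨c, hc, ?_⟩
      rw [h1.neg_one_pow] at h
      linear_combination -h
  · rintro (h | ⟨c, hc, h⟩)
    · exact ⟨1, one_ne_zero, by simp [h.neg_one_pow]⟩
    · rcases Nat.even_or_odd i with h1 | h1
      · exact ⟨1, one_ne_zero, by simp [h1.neg_one_pow]⟩
      · refine ⟨c, hc, ?_⟩
        rw [h, h1.neg_one_pow]
        ring

theorem main_2576 {q : ℕ} (hF : Fintype.card F = q) (hq : Odd q) {m : ℕ} (hm : 1 ≤ m) (μ : F)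
    (hμ : orderOf μ = 2 ^ padicValNat 2 (q - 1)) :
    (∃ c : F, c ≠ 0 ∧ (c • Matrix.blockDiagonal (fun _ : Fin m => !![(0 : F), 1; μ, 0])).det = 1) ↔
      (q % 4 = 3 ∨ padicValNat 2 (q - 1) < padicValNat 2 (2 * m)) := by
  have hq3 : 3 ≤ q := by
    have := Fintype.one_lt_card (α := F)
    obtain ⟨t, ht⟩ := hq
    omega
  have hm1 : 1 ≤ q - 1 := by omega
  have hone : ∀ c : F, c ≠ 0 → c ^ (q - 1) = 1 := by
    intro c hc
    rw [← hF]
    exact FiniteField.pow_card_sub_one_eq_one c hc
  have hdet : ∀ c : F, (c • Matrix.blockDiagonal (fun _ : Fin m => !![(0 : F), 1; μ, 0])).det =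
      (c ^ 2 * (-μ)) ^ m := by
    intro c
    rw [Matrix.det_smul, Matrix.det_blockDiagonal]
    simp only [Matrix.det_fin_two_of, Finset.prod_const, Finset.card_univ, Fintype.card_fin,
      Fintype.card_prod]
    rw [mul_pow, ← pow_mul]
    congr 2
    ring
  simp only [hdet]
  obtain ⟨m', hm', hodd'⟩ := Val2.exists_split hm1
  obtain ⟨n', hn', hoddn⟩ := Val2.exists_split hm
  have hv : padicValNat 2 (2 * m) = padicValNat 2 m + 1 := by
    apply val_eq (n' := n') _ hoddn
    nth_rewrite 1 [hn']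
    ring
  rw [hv]
  generalize padicValNat 2 (q - 1) = a at hm' hμ ⊢
  generalize padicValNat 2 m = e at hn' ⊢
  have ha1 : 1 ≤ a := by
    by_contra hh
    have h0 : a = 0 := by omega
    rw [h0, pow_zero, one_mul] at hm'
    obtain ⟨t, ht⟩ := hq
    obtain ⟨s, hs⟩ := hodd'
    omega
  by_cases hq4 : q % 4 = 3
  · -- `μ = -1`
    have ha2 : a = 1 := by
      by_contra hh
      obtain ⟨k, hk⟩ : ∃ k, a = k + 2 := ⟨a - 2, by omega⟩
      rw [hk] at hm'
      have : q - 1 = 4 * (2 ^ k * m') := by
        rw [hm']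
        ring
      omega
    rw [ha2, pow_one] at hμ
    have hμ2 : μ ^ 2 = 1 := by
      rw [← hμ]
      exact pow_orderOf_eq_one μ
    have hμ3 : μ ≠ 1 := by
      intro h
      rw [h, orderOf_one] at hμ
      omega
    have hμ4 : μ = -1 := (sq_eq_one_iff_of_side_lemma hμ2).resolve_left hμ3
    simp only [hq4, true_or, iff_true]
    exact ⟨1, one_ne_zero, by simp [hμ4]⟩
  · have ha2 : 2 ≤ a := by
      by_contra hh
      have h1 : a = 1 := by omega
      rw [h1, pow_one] at hm'
      obtain ⟨s, hs⟩ := hodd'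
      apply hq4
      omega
    simp only [hq4, false_or]
    constructor
    · rintro ⟨c, hc, h⟩
      by_contra hh
      have hle : e + 1 ≤ a := by omega
      obtain ⟨k, hk⟩ : ∃ k, a = e + 1 + k := ⟨a - (e + 1), by omega⟩
      have h1 : ((c ^ 2 * (-μ)) ^ m) ^ (2 ^ k * m') = 1 := by rw [h, one_pow]
      rw [← pow_mul] at h1
      have h2 : m * (2 ^ k * m') = 2 ^ (a - 1) * (m' * n') := by
        have : a - 1 = e + k := by omega
        rw [this]
        nth_rewrite 1 [hn']
        ring
      rw [h2, mul_pow, ← pow_mul, neg_pow μ] at h1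
      have h3 : 2 * (2 ^ (a - 1) * (m' * n')) = (q - 1) * n' := by
        have : 2 * 2 ^ (a - 1) = 2 ^ a := by
          rw [← pow_succ']
          congr 1
          omega
        rw [hm']
        rw [← this]
        ring
      rw [h3, pow_mul, hone c hc, one_pow, one_mul] at h1
      have h4 : Even (2 ^ (a - 1) * (m' * n')) := by
        apply Even.mul_right
        apply Even.pow_of_ne_zero even_two
        omega
      rw [h4.neg_one_pow, one_mul] at h1
      have h5 := orderOf_dvd_of_pow_eq_one h1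
      rw [hμ] at h5
      have h6 : 2 ^ a = 2 * 2 ^ (a - 1) := by
        rw [← pow_succ']
        congr 1
        omega
      rw [h6, mul_comm 2] at h5
      have h7 := Nat.dvd_of_mul_dvd_mul_left (by positivity) h5
      have h8 : Odd (m' * n') := hodd'.mul hoddn
      exact (Nat.not_even_iff_odd.mpr h8) (even_iff_two_dvd.mpr h7)
    · intro hlt
      refine ⟨1, one_ne_zero, ?_⟩
      rw [one_pow, one_mul]
      have h1 : 2 ^ a ∣ m := by
        rw [hn']
        exact Dvd.dvd.mul_right (pow_dvd_pow 2 (by omega)) _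
      have h2 : μ ^ m = 1 := by
        apply orderOf_dvd_iff_pow_eq_one.mp
        rw [hμ]
        exact h1
      have h3 : Even m := by
        rw [even_iff_two_dvd]
        exact (dvd_pow_self 2 (by omega : a ≠ 0)).trans h1
      rw [neg_pow, h3.neg_one_pow, one_mul, h2]

end CfsgLib.H9.Val2
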