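import Cfsg.Agent.Lib.H9.WagnerOdd
import Cfsg.Agent.Lib.H9.SylowConj
import Mathlib

/-! Reduction of Wagner's theorem to the core counting lemma, via Witt's lemma. -/

set_option autoImplicit false

namespace CfsgLib.H9.Wagner

open Equiv Equiv.Perm

section Conj

variable {T : Type*} [Group T] [Finite T]

/-- Subgroups of order `p ^ e` of a subgroup `S` with `p ^ (e + 1) ∤ |S|` are conjugate in `S`. -/
theorem conj_of_card {p e : ℕ} [Fact p.Prime] {S Q₁ Q₂ : Subgroup T} (h₁ : Q₁ ≤ S) (h₂ : Q₂ ≤ S)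
    (c₁ : Nat.card Q₁ = p ^ e) (c₂ : Nat.card Q₂ = p ^ e) (hn : ¬ p ^ (e + 1) ∣ Nat.card S) :
    ∃ h ∈ S, ∀ x, x ∈ Q₁ ↔ h * x * h⁻¹ ∈ Q₂ := by
  have hp : p.Prime := Fact.out
  have hS : Nat.card S ≠ 0 := Nat.card_pos.ne'
  have hd : p ^ e ∣ Nat.card S := c₁ ▸ Subgroup.card_dvd_of_le h₁
  have hfac : (Nat.card S).factorization p = e := by
    apply le_antisymm
    · by_contra hlt
      push Not at hlt
      exact hn ((hp.pow_dvd_iff_le_factorization hS).mpr hlt)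
    · exact (hp.pow_dvd_iff_le_factorization hS).mp hd
  have cardsub : ∀ Q : Subgroup T, Q ≤ S → Nat.card (Q.subgroupOf S) = Nat.card Q :=
    fun Q hQ => Nat.card_congr (Subgroup.subgroupOfEquivOfLe hQ).toEquiv
  let P₁ : Sylow p S := Sylow.ofCard (Q₁.subgroupOf S) (by rw [cardsub Q₁ h₁, c₁, hfac])
  let P₂ : Sylow p S := Sylow.ofCard (Q₂.subgroupOf S) (by rw [cardsub Q₂ h₂, c₂, hfac])
  obtain ⟨h, hh⟩ := MulAction.exists_smul_eq S P₁ P₂
  refine ⟨h, h.2, fun x => ?_⟩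
  have hP₁ : ∀ y : S, y ∈ (P₁ : Subgroup S) ↔ (y : T) ∈ Q₁ := fun y => by
    change y ∈ Q₁.subgroupOf S ↔ _
    rw [Subgroup.mem_subgroupOf]
  have hP₂ : ∀ y : S, y ∈ (P₂ : Subgroup S) ↔ (y : T) ∈ Q₂ := fun y => by
    change y ∈ Q₂.subgroupOf S ↔ _
    rw [Subgroup.mem_subgroupOf]
  have hk : ∀ y : S, (h * y * h⁻¹ : S) ∈ (P₂ : Subgroup S) ↔ y ∈ (P₁ : Subgroup S) := by
    intro y
    rw [← hh, CfsgLib.H9.mem_smul_sylow]
    have : h⁻¹ * (h * y * h⁻¹) * h = y := by group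
    rw [this]
  constructor
  · intro hx
    have hxS := h₁ hx
    have := (hk ⟨x, hxS⟩).mpr ((hP₁ _).mpr hx)
    exact (hP₂ _).mp this
  · intro hx
    have hxS : x ∈ S := by
      have h3 := h₂ hx
      have : x = (h : T)⁻¹ * ((h : T) * x * (h : T)⁻¹) * h := by group
      rw [this]
      exact S.mul_mem (S.mul_mem (S.inv_mem h.2) h3) h.2
    have := (hk ⟨x, hxS⟩).mp ((hP₂ _).mpr hx)
    exact (hP₁ _).mp this

/-- A Witt-type consequence of `conj_of_card`. -/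
theorem normalizing_conj {p e : ℕ} [Fact p.Prime] {S P : Subgroup T} {g : T} (hP : P ≤ S)
    (hgP : ∀ x ∈ P, g * x * g⁻¹ ∈ S) (c : Nat.card P = p ^ e) (hn : ¬ p ^ (e + 1) ∣ Nat.card S) :
    ∃ h ∈ S, h * g ∈ Subgroup.normalizer (P : Set T) := by
  let Q : Subgroup T := P.map (MulAut.conj g).toMonoidHom
  have hQ : ∀ y, y ∈ Q ↔ g⁻¹ * y * g ∈ P := by
    intro y
    constructor
    · rintro ⟨x, hx, rfl⟩
      have : g⁻¹ * (MulAut.conj g).toMonoidHom x * g = x := by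
        simp [MulAut.conj_apply, mul_assoc]
      rw [this]
      exact hx
    · intro hy
      refine ⟨_, hy, ?_⟩
      simp [MulAut.conj_apply, mul_assoc]
  have hQle : Q ≤ S := by
    rintro y ⟨x, hx, rfl⟩
    exact hgP x hx
  have hQc : Nat.card Q = p ^ e := by
    rw [← c]
    exact Subgroup.card_map_of_injective (MulAut.conj g).injective
  obtain ⟨h, hh, hk⟩ := conj_of_card hQle hP hQc c hn
  refine ⟨h, hh, ?_⟩
  rw [Subgroup.mem_normalizer_iff]
  intro x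
  have h1 : g * x * g⁻¹ ∈ Q ↔ x ∈ P := by
    rw [hQ]
    have : g⁻¹ * (g * x * g⁻¹) * g = x := by group
    rw [this]
  rw [← h1, hk]
  have : h * g * x * (h * g)⁻¹ = h * (g * x * g⁻¹) * h⁻¹ := by group
  rw [this]

end Conj

variable {α : Type*} [Fintype α] [DecidableEq α]

theorem app_inv {Y : Type*} (g : Perm Y) (x : Y) : g (g⁻¹ x) = x := by simp

/-- Point stabiliser of a permutation group (explicit carrier). -/
def Fix1 (N : Subgroup (Perm α)) (x : α) : Subgroup (Perm α) where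
  carrier := {g | g ∈ N ∧ g x = x}
  mul_mem' := by
    rintro a b ⟨ha, ha'⟩ ⟨hb, hb'⟩
    exact ⟨N.mul_mem ha hb, by rw [Perm.mul_apply, hb', ha']⟩
  one_mem' := ⟨N.one_mem, rfl⟩
  inv_mem' := by
    rintro a ⟨ha, ha'⟩
    exact ⟨N.inv_mem ha, by rw [Perm.inv_eq_iff_eq]; exact ha'.symm⟩

theorem mem_Fix1 {N : Subgroup (Perm α)} {x : α} {g : Perm α} :
    g ∈ Fix1 N x ↔ g ∈ N ∧ g x = x := Iff.rfl

theorem Fix1_le (N : Subgroup (Perm α)) (x : α) : Fix1 N x ≤ N := fun _ h => h.1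

/-- The fixed point set of a subgroup. -/
abbrev FixY (P : Subgroup (Perm α)) : Type _ := {y : α // ∀ p ∈ P, p y = y}

theorem norm_fix {P : Subgroup (Perm α)} {w : Perm α} (hw : w ∈ Subgroup.normalizer (P : Set (Perm α)))
    {y : α} (hy : ∀ p ∈ P, p y = y) : ∀ p ∈ P, p (w y) = w y := by
  intro p hp
  have h1 : w⁻¹ * p * w ∈ P := by
    rw [Subgroup.mem_normalizer_iff] at hw
    rw [hw]
    have : w * (w⁻¹ * p * w) * w⁻¹ = p := by group
    rwa [this]
  have h2 := hy _ h1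
  have h3 : w⁻¹ (p (w y)) = y := by simpa [Perm.mul_apply] using h2
  rw [Perm.inv_eq_iff_eq] at h3
  exact h3

theorem exists_restr {P : Subgroup (Perm α)} {w : Perm α}
    (hw : w ∈ Subgroup.normalizer (P : Set (Perm α))) :
    ∃ σ : Perm (FixY P), ∀ y : FixY P, (σ y : α) = w y := by
  refine ⟨w.subtypePerm (fun x => ⟨fun h => ?_, fun h => norm_fix hw h⟩), fun y => rfl⟩
  have := norm_fix (Subgroup.inv_mem _ hw) h
  simpa using this

/-- The group induced on the fixed points of `P` by the normaliser of `P` in `H`. -/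
def restr (P H : Subgroup (Perm α)) : Subgroup (Perm (FixY P)) where
  carrier := {σ | ∃ w ∈ H, w ∈ Subgroup.normalizer (P : Set (Perm α)) ∧ ∀ y : FixY P, (σ y : α) = w y}
  mul_mem' := by
    rintro σ τ ⟨w, hw, hw', hσ⟩ ⟨v, hv, hv', hτ⟩
    refine ⟨w * v, H.mul_mem hw hv, Subgroup.mul_mem _ hw' hv', fun y => ?_⟩
    rw [Perm.mul_apply, hσ, hτ, Perm.mul_apply]
  one_mem' := ⟨1, H.one_mem, Subgroup.one_mem _, fun y => rfl⟩
  inv_mem' := by
    rintro σ ⟨w, hw, hw', hσ⟩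
    refine ⟨w⁻¹, H.inv_mem hw, Subgroup.inv_mem _ hw', fun y => ?_⟩
    have := hσ (σ⁻¹ y)
    rw [app_inv] at this
    rw [this, inv_app]

theorem wagner_core (hodd : Odd (Fintype.card α)) (G N : Subgroup (Perm α)) (hNG : N ≤ G)
    (hnorm : ∀ g ∈ G, ∀ t ∈ N, g * t * g⁻¹ ∈ N)
    (hG : ∀ a b c a' b' c' : α, a ≠ b → a ≠ c → b ≠ c → a' ≠ b' → a' ≠ c' → b' ≠ c' →
      ∃ g ∈ G, g a = a' ∧ g b = b' ∧ g c = c')
    (hN : ∀ a b a' b' : α, a ≠ b → a' ≠ b' → ∃ t ∈ N, t a = a' ∧ t b = b')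
    (a b c c' : α) (hab : a ≠ b) (hac : a ≠ c) (hbc : b ≠ c) (hac' : a ≠ c') (hbc' : b ≠ c') :
    ∃ n ∈ N, n a = a ∧ n b = b ∧ n c = c' := by
  classical
  haveI : Fact (Nat.Prime 2) := ⟨Nat.prime_two⟩
  let D₀ := Fix1 (Fix1 N a) b
  let e := (Nat.card D₀).factorization 2
  obtain ⟨K, hK⟩ := Sylow.exists_subgroup_card_pow_prime (G := D₀) 2 (n := e) (Nat.ordProj_dvd _ _)
  let P : Subgroup (Perm α) := K.map D₀.subtype
  have hPcard : Nat.card P = 2 ^ e := by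
    rw [← hK]
    exact Subgroup.card_map_of_injective D₀.subtype_injective
  have hPle : P ≤ D₀ := Subgroup.map_subtype_le K
  have hne : ¬ 2 ^ (e + 1) ∣ Nat.card D₀ :=
    Nat.pow_succ_factorization_not_dvd Nat.card_pos.ne' Nat.prime_two
  have hDcard : ∀ x y, x ≠ y → ¬ 2 ^ (e + 1) ∣ Nat.card (Fix1 (Fix1 N x) y) := by
    intro x y hxy
    obtain ⟨n, hn, hna, hnb⟩ := hN a b x y hab hxy
    have heq : Fix1 (Fix1 N x) y = D₀.map (MulAut.conj n).toMonoidHom := by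
      ext g
      constructor
      · rintro ⟨⟨hg, hgx⟩, hgy⟩
        refine ⟨n⁻¹ * g * n, ⟨⟨N.mul_mem (N.mul_mem (N.inv_mem hn) hg) hn, ?_⟩, ?_⟩, ?_⟩
        · rw [Perm.mul_apply, Perm.mul_apply, hna, hgx, ← hna, inv_app]
        · rw [Perm.mul_apply, Perm.mul_apply, hnb, hgy, ← hnb, inv_app]
        · simp [MulAut.conj_apply, mul_assoc]
      · rintro ⟨k, ⟨⟨hk, hka⟩, hkb⟩, rfl⟩
        have hk' : (MulAut.conj n).toMonoidHom k = n * k * n⁻¹ := rfl
        rw [hk']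
        refine ⟨⟨hnorm n (hNG hn) k hk, ?_⟩, ?_⟩
        · rw [Perm.mul_apply, Perm.mul_apply, ← hna, inv_app, hka]
        · rw [Perm.mul_apply, Perm.mul_apply, ← hnb, inv_app, hkb]
    rw [heq, Subgroup.card_map_of_injective (MulAut.conj n).injective]
    exact hne
  have hPN : ∀ p ∈ P, p ∈ N := fun p hp => (hPle hp).1.1
  have hPa : ∀ p ∈ P, p a = a := fun p hp => (hPle hp).1.2
  have hPb : ∀ p ∈ P, p b = b := fun p hp => (hPle hp).2
  have hPD : ∀ x y, (∀ p ∈ P, p x = x) → (∀ p ∈ P, p y = y) → P ≤ Fix1 (Fix1 N x) y :=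
    fun x y hx hy p hp => ⟨⟨hPN p hp, hx p hp⟩, hy p hp⟩
  -- Witt for pairs
  have hW2 : ∀ x y x' y', (∀ p ∈ P, p x' = x') → (∀ p ∈ P, p y' = y') → x ≠ y → x' ≠ y' →
      (∀ p ∈ P, p x = x) → (∀ p ∈ P, p y = y) →
      ∃ w ∈ N, w ∈ Subgroup.normalizer (P : Set (Perm α)) ∧ w x = x' ∧ w y = y' := by
    intro x y x' y' hx' hy' hxy hxy' hx hy
    obtain ⟨n, hn, hnx, hny⟩ := hN x y x' y' hxy hxy'
    obtain ⟨h, hh, hk⟩ := normalizing_conj (p := 2) (e := e) (S := Fix1 (Fix1 N x') y') (P := P)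
      (g := n) (hPD x' y' hx' hy') (by
        intro p hp
        refine ⟨⟨hnorm n (hNG hn) p (hPN p hp), ?_⟩, ?_⟩
        · rw [Perm.mul_apply, Perm.mul_apply, ← hnx, inv_app, hx p hp]
        · rw [Perm.mul_apply, Perm.mul_apply, ← hny, inv_app, hy p hp]) hPcard (hDcard x' y' hxy')
    refine ⟨h * n, N.mul_mem hh.1.1 hn, hk, ?_, ?_⟩
    · rw [Perm.mul_apply, hnx, hh.1.2]
    · rw [Perm.mul_apply, hny, hh.2]
  -- Witt for triples
  have hW3 : ∀ x y z x' y' z', (∀ p ∈ P, p x = x) → (∀ p ∈ P, p y = y) → (∀ p ∈ P, p z = z) →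
      (∀ p ∈ P, p x' = x') → (∀ p ∈ P, p y' = y') → (∀ p ∈ P, p z' = z') →
      x ≠ y → x ≠ z → y ≠ z → x' ≠ y' → x' ≠ z' → y' ≠ z' →
      ∃ w ∈ G, w ∈ Subgroup.normalizer (P : Set (Perm α)) ∧ w x = x' ∧ w y = y' ∧ w z = z' := by
    intro x y z x' y' z' hx hy hz hx' hy' hz' hxy hxz hyz hxy' hxz' hyz'
    obtain ⟨g, hg, hgx, hgy, hgz⟩ := hG x y z x' y' z' hxy hxz hyz hxy' hxz' hyz'
    have hndvd : ¬ 2 ^ (e + 1) ∣ Nat.card (Fix1 (Fix1 (Fix1 N x') y') z') := fun hd =>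
      hDcard x' y' hxy' (hd.trans (Subgroup.card_dvd_of_le (Fix1_le _ _)))
    obtain ⟨h, hh, hk⟩ := normalizing_conj (p := 2) (e := e) (S := Fix1 (Fix1 (Fix1 N x') y') z')
      (P := P) (g := g) (fun p hp => ⟨hPD x' y' hx' hy' hp, hz' p hp⟩) (by
        intro p hp
        refine ⟨⟨⟨hnorm g hg p (hPN p hp), ?_⟩, ?_⟩, ?_⟩
        · rw [Perm.mul_apply, Perm.mul_apply, ← hgx, inv_app, hx p hp]
        · rw [Perm.mul_apply, Perm.mul_apply, ← hgy, inv_app, hy p hp]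
        · rw [Perm.mul_apply, Perm.mul_apply, ← hgz, inv_app, hz p hp]) hPcard hndvd
    refine ⟨h * g, G.mul_mem (hNG hh.1.1.1) hg, hk, ?_, ?_, ?_⟩
    · rw [Perm.mul_apply, hgx, hh.1.1.2]
    · rw [Perm.mul_apply, hgy, hh.1.2]
    · rw [Perm.mul_apply, hgz, hh.2]
  -- size of the fixed point set
  have hPp : IsPGroup 2 P := IsPGroup.of_card hPcard
  let a' : FixY P := ⟨a, hPa⟩
  let b' : FixY P := ⟨b, hPb⟩
  have hab' : a' ≠ b' := fun h => hab (congrArg Subtype.val h)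
  have hYodd : Odd (Fintype.card (FixY P)) := by
    have h1 := hPp.card_modEq_card_fixedPoints α
    have h2 : Nat.card (MulAction.fixedPoints P α) = Fintype.card (FixY P) := by
      rw [← Nat.card_eq_fintype_card]
      refine Nat.card_congr (Equiv.subtypeEquivRight (fun y => ?_))
      rw [MulAction.mem_fixedPoints]
      exact ⟨fun h p hp => h ⟨p, hp⟩, fun h p => h p.1 p.2⟩
    rw [h2, Nat.card_eq_fintype_card] at h1
    obtain ⟨m, hm⟩ := hodd
    rw [Nat.odd_iff]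
    have h3 := h1
    unfold Nat.ModEq at h3
    omega
  have hY3 : 3 ≤ Fintype.card (FixY P) := by
    have h1 : 1 < Fintype.card (FixY P) := Fintype.one_lt_card_iff.mpr ⟨a', b', hab'⟩
    rcases hYodd with ⟨m, hm⟩
    omega
  -- a third fixed point
  obtain ⟨c₁, hc₁a, hc₁b⟩ : ∃ c₁ : FixY P, c₁ ≠ a' ∧ c₁ ≠ b' := by
    have h1 : ({a', b'} : Finset (FixY P)).card < (Finset.univ : Finset (FixY P)).card := by
      rw [Finset.card_univ]
      refine lt_of_le_of_lt (Finset.card_le_two) ?_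
      omega
    obtain ⟨x, -, hx⟩ := Finset.exists_mem_notMem_of_card_lt_card h1
    simp only [Finset.mem_insert, Finset.mem_singleton, not_or] at hx
    exact ⟨x, hx.1, hx.2⟩
  have hc₁a' : a ≠ (c₁ : α) := fun h => hc₁a (Subtype.ext h.symm)
  have hc₁b' : b ≠ (c₁ : α) := fun h => hc₁b (Subtype.ext h.symm)
  -- moving points into the fixed point set
  have hmove : ∀ z, a ≠ z → b ≠ z → ∃ h ∈ D₀, ∀ p ∈ P, p (h z) = h z := by
    intro z haz hbz
    obtain ⟨g, hg, hga, hgb, hgz⟩ := hG a b c₁ a b z hab hc₁a' hc₁b' hab haz hbz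
    obtain ⟨h, hh, hk⟩ := normalizing_conj (p := 2) (e := e) (S := D₀) (P := P) (g := g) hPle (by
        intro p hp
        refine ⟨⟨hnorm g hg p (hPN p hp), ?_⟩, ?_⟩
        · rw [Perm.mul_apply, Perm.mul_apply, ← hga, inv_app, hPa p hp]
        · rw [Perm.mul_apply, Perm.mul_apply, ← hgb, inv_app, hPb p hp]) hPcard hne
    refine ⟨h, hh, ?_⟩
    have := norm_fix hk c₁.2
    rw [Perm.mul_apply, hgz] at this
    exact this
  -- the hypothesis on involutions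
  have hinv : ∀ t ∈ restr P N, t * t = 1 → ∀ x y : FixY P, x ≠ y → t x = x → t y = y → t = 1 := by
    rintro t ⟨w, hwN, hwP, hwt⟩ htt x y hxy htx hty
    have hxy' : (x : α) ≠ y := fun h => hxy (Subtype.ext h)
    have hwx : w x = x := by rw [← hwt, htx]
    have hwy : w y = y := by rw [← hwt, hty]
    have hwD : w ∈ Fix1 (Fix1 N x) y := ⟨⟨hwN, hwx⟩, hwy⟩
    obtain ⟨s, o, ho, hso⟩ := Nat.exists_eq_two_pow_mul_odd (orderOf_pos w).ne'
    let v := w ^ o
    have hvD : v ∈ Fix1 (Fix1 N x) y := Subgroup.pow_mem _ hwD _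
    have hvP : v ∈ Subgroup.normalizer (P : Set (Perm α)) := Subgroup.pow_mem _ hwP _
    have hv2 : v ^ 2 ^ s = 1 := by
      simp only [v]
      rw [← pow_mul, mul_comm, ← hso]
      exact pow_orderOf_eq_one w
    have hvP2 : IsPGroup 2 (Subgroup.zpowers v) := by
      obtain ⟨r, -, hr⟩ := (Nat.dvd_prime_pow Nat.prime_two).mp (orderOf_dvd_of_pow_eq_one hv2)
      exact IsPGroup.of_card (n := r) (by rw [Nat.card_zpowers, hr])
    have hle : Subgroup.zpowers v ≤ Subgroup.normalizer (P : Set (Perm α)) :=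
      Subgroup.zpowers_le.mpr hvP
    have hsup := hvP2.to_sup_of_normal_right' hPp hle
    have hsupD : Subgroup.zpowers v ⊔ P ≤ Fix1 (Fix1 N x) y :=
      sup_le (Subgroup.zpowers_le.mpr hvD) (hPD x y x.2 y.2)
    obtain ⟨r, hr⟩ := IsPGroup.iff_card.mp hsup
    have hrle : r ≤ e := by
      by_contra hlt
      push Not at hlt
      apply hDcard x y hxy'
      have h1 : 2 ^ (e + 1) ∣ 2 ^ r := pow_dvd_pow 2 hlt
      have h2 := Subgroup.card_dvd_of_le hsupD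
      rw [hr] at h2
      exact h1.trans h2
    have hsupeq : P = Subgroup.zpowers v ⊔ P := by
      refine Subgroup.eq_of_le_of_card_ge le_sup_right ?_
      rw [hr, hPcard]
      exact Nat.pow_le_pow_right (by norm_num) hrle
    have hvmem : v ∈ P := by
      rw [hsupeq]
      exact (le_sup_left : Subgroup.zpowers v ≤ _) (Subgroup.mem_zpowers v)
    have hpow : ∀ k : ℕ, ∀ y : FixY P, ((t ^ k) y : α) = (w ^ k) y := by
      intro k
      induction k with
      | zero => intro y; rfl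
      | succ k ih =>
        intro y
        rw [pow_succ, pow_succ, Perm.mul_apply, Perm.mul_apply, ih, hwt]
    have hto : t ^ o = 1 := by
      ext y
      rw [hpow]
      exact y.2 v hvmem
    obtain ⟨m, hm⟩ := ho
    rw [hm, pow_succ, pow_mul, pow_two, htt, one_pow, one_mul] at hto
    exact hto
  -- the point stabiliser count on the fixed points
  obtain ⟨h, hhD, hhF⟩ := hmove c hac hbc
  obtain ⟨h', hh'D, hh'F⟩ := hmove c' hac' hbc'
  have hh1 : h a = a := hhD.1.2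
  have hh2 : h b = b := hhD.2
  have hh1' : h' a = a := hh'D.1.2
  have hh2' : h' b = b := hh'D.2
  have hhN : h ∈ N := hhD.1.1
  have hhN' : h' ∈ N := hh'D.1.1
  let c₀ : FixY P := ⟨h c, hhF⟩
  let c₀' : FixY P := ⟨h' c', hh'F⟩
  have hac₀ : a' ≠ c₀ := fun hq => hac (h.injective ((hh1).trans (congrArg Subtype.val hq)))
  have hbc₀ : b' ≠ c₀ := fun hq => hbc (h.injective ((hh2).trans (congrArg Subtype.val hq)))
  have hac₀' : a' ≠ c₀' := fun hq => hac' (h'.injective ((hh1').trans (congrArg Subtype.val hq)))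
  have hbc₀' : b' ≠ c₀' := fun hq => hbc' (h'.injective ((hh2').trans (congrArg Subtype.val hq)))
  obtain ⟨σ, ⟨w, hwN, -, hwσ⟩, hσa, hσb, hσc⟩ := core_odd hYodd hY3 (restr P G) (restr P N)
    (by
      rintro σ ⟨w, hwN, hw, hσ⟩
      exact ⟨w, hNG hwN, hw, hσ⟩)
    (by
      rintro σ ⟨w, hwG, hw, hσ⟩ τ ⟨v, hvN, hv, hτ⟩
      refine ⟨w * v * w⁻¹, hnorm w hwG v hvN, Subgroup.mul_mem _ (Subgroup.mul_mem _ hw hv)
        (Subgroup.inv_mem _ hw), fun y => ?_⟩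
      have h1 : ((σ⁻¹ y : FixY P) : α) = w⁻¹ y := by
        have := hσ (σ⁻¹ y)
        rw [app_inv] at this
        rw [this, inv_app]
      rw [Perm.mul_apply, Perm.mul_apply, hσ, hτ, h1, Perm.mul_apply, Perm.mul_apply])
    (by
      intro x y z x' y' z' hxy hxz hyz hxy' hxz' hyz'
      obtain ⟨w, hwG, hw, hwx, hwy, hwz⟩ := hW3 x y z x' y' z' x.2 y.2 z.2 x'.2 y'.2 z'.2
        (fun h => hxy (Subtype.ext h)) (fun h => hxz (Subtype.ext h)) (fun h => hyz (Subtype.ext h))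
        (fun h => hxy' (Subtype.ext h)) (fun h => hxz' (Subtype.ext h)) (fun h => hyz' (Subtype.ext h))
      obtain ⟨σ, hσ⟩ := exists_restr hw
      exact ⟨σ, ⟨w, hwG, hw, hσ⟩, Subtype.ext (by rw [hσ, hwx]), Subtype.ext (by rw [hσ, hwy]),
        Subtype.ext (by rw [hσ, hwz])⟩)
    (by
      intro x y x' y' hxy hxy'
      obtain ⟨w, hwN, hw, hwx, hwy⟩ := hW2 x y x' y' x'.2 y'.2 (fun h => hxy (Subtype.ext h))
        (fun h => hxy' (Subtype.ext h)) x.2 y.2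
      obtain ⟨σ, hσ⟩ := exists_restr hw
      exact ⟨σ, ⟨w, hwN, hw, hσ⟩, Subtype.ext (by rw [hσ, hwx]), Subtype.ext (by rw [hσ, hwy])⟩)
    hinv a' b' c₀ c₀' hab' hac₀ hbc₀ hac₀' hbc₀'
  have hwa : w a = a := by
    have := hwσ a'
    rw [hσa] at this
    exact this.symm
  have hwb : w b = b := by
    have := hwσ b'
    rw [hσb] at this
    exact this.symm
  have hwc : w (h c) = h' c' := by
    have := hwσ c₀
    rw [hσc] at this
    exact this.symm
  refine ⟨h'⁻¹ * w * h, N.mul_mem (N.mul_mem (N.inv_mem hhN') hwN) hhN, ?_, ?_, ?_⟩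
  · rw [Perm.mul_apply, Perm.mul_apply, hh1, hwa]
    conv_lhs => rw [← hh1']
    exact inv_app _ _
  · rw [Perm.mul_apply, Perm.mul_apply, hh2, hwb]
    conv_lhs => rw [← hh2']
    exact inv_app _ _
  · rw [Perm.mul_apply, Perm.mul_apply, hwc, inv_app]

end CfsgLib.H9.Wagner
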