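import Mathlib

/-! The heart of Wagner's theorem: a normal, doubly transitive subgroup of a triply transitive
group of odd degree, in which no involution fixes two points, is triply transitive. -/

set_option autoImplicit false

namespace CfsgLib.H9.Wagner

open Equiv Equiv.Perm

/-- Two involutions whose product has odd order are conjugate by a power of the product. -/
theorem conj_of_odd_mul {T : Type*} [Group T] {u t : T} (hu : u * u = 1) (ht : t * t = 1)
    (hodd : Odd (orderOf (u * t))) : ∃ k : ℕ, ((u * t) ^ k)⁻¹ * u * (u * t) ^ k = t := by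
  obtain ⟨m, hm⟩ := hodd
  have huinv : u⁻¹ = u := inv_eq_of_mul_eq_one_left hu
  have htinv : t⁻¹ = t := inv_eq_of_mul_eq_one_left ht
  set r := u * t with hr
  have hrinv : r⁻¹ = t * u := by rw [hr, mul_inv_rev, huinv, htinv]
  have h1 : u * r * u⁻¹ = r⁻¹ := by
    rw [hrinv, hr, huinv]
    calc u * (u * t) * u = (u * u) * t * u := by group
      _ = t * u := by rw [hu, one_mul]
  have hpow : r ^ (2 * m + 1) = 1 := by rw [← hm]; exact pow_orderOf_eq_one r
  refine ⟨m + 1, ?_⟩
  set s := r ^ (m + 1) with hs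
  have h2 : u * s * u⁻¹ = s⁻¹ := by
    rw [hs, ← conj_pow, h1, inv_pow]
  have h3 : s * s = r := by
    rw [hs, ← pow_add, show m + 1 + (m + 1) = (2 * m + 1) + 1 by ring, pow_succ, hpow, one_mul]
  have h4 : u * s = s⁻¹ * u := by
    rw [← h2]; group
  calc s⁻¹ * u * s = s⁻¹ * (u * s) := by group
    _ = s⁻¹ * (s⁻¹ * u) := by rw [h4]
    _ = (s * s)⁻¹ * u := by group
    _ = r⁻¹ * u := by rw [h3]
    _ = t := by rw [hrinv, mul_assoc, hu, mul_one]

/-- If the product of two distinct involutions has even order, a non-identity power commutes with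
both. -/
theorem exists_central_of_even_mul {T : Type*} [Group T] [Finite T] {u t : T} (hu : u * u = 1)
    (ht : t * t = 1) (hne : u ≠ t) (heven : ¬ Odd (orderOf (u * t))) :
    ∃ z : T, z ≠ 1 ∧ z * z = 1 ∧ z ∈ Subgroup.zpowers (u * t) ∧ u * z = z * u ∧ t * z = z * t := by
  have huinv : u⁻¹ = u := inv_eq_of_mul_eq_one_left hu
  have htinv : t⁻¹ = t := inv_eq_of_mul_eq_one_left ht
  set r := u * t with hr
  have hrinv : r⁻¹ = t * u := by rw [hr, mul_inv_rev, huinv, htinv]
  have hpos : 0 < orderOf r := orderOf_pos r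
  obtain ⟨m, hm⟩ : ∃ m, orderOf r = 2 * m := by
    have := Nat.not_odd_iff_even.mp heven
    obtain ⟨m, hm⟩ := this
    exact ⟨m, by omega⟩
  have hmpos : 0 < m := by omega
  let z := r ^ m
  have hz1 : z ≠ 1 := by
    intro h
    have := orderOf_le_of_pow_eq_one hmpos h
    omega
  have hzz : z * z = 1 := by
    simp only [z]
    rw [← pow_add, show m + m = 2 * m by ring, ← hm]
    exact pow_orderOf_eq_one r
  have hzinv : z⁻¹ = z := inv_eq_of_mul_eq_one_left hzz
  have h1 : u * r * u⁻¹ = r⁻¹ := by
    rw [hrinv, hr, huinv]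
    calc u * (u * t) * u = (u * u) * t * u := by group
      _ = t * u := by rw [hu, one_mul]
  have h2 : t * r * t⁻¹ = r⁻¹ := by
    rw [hrinv, hr, htinv]
    calc t * (u * t) * t = t * u * (t * t) := by group
      _ = t * u := by rw [ht, mul_one]
  have hu' : u * z * u⁻¹ = z⁻¹ := by
    simp only [z]
    rw [← conj_pow, h1, inv_pow]
  have ht' : t * z * t⁻¹ = z⁻¹ := by
    simp only [z]
    rw [← conj_pow, h2, inv_pow]
  refine ⟨z, hz1, hzz, Subgroup.npow_mem_zpowers r m, ?_, ?_⟩
  · rw [hzinv] at hu'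
    calc u * z = (u * z * u⁻¹) * u := by group
      _ = z * u := by rw [hu']
  · rw [hzinv] at ht'
    calc t * z = (t * z * t⁻¹) * t := by group
      _ = z * t := by rw [ht']

theorem inv_app {Y : Type*} (g : Perm Y) (x : Y) : g⁻¹ (g x) = x := by simp

/-- An involution on a set of odd size has a fixed point. -/
theorem exists_fixed_of_odd {Y : Type*} [Fintype Y] [DecidableEq Y] (hodd : Odd (Fintype.card Y))
    (t : Perm Y) (ht : t * t = 1) : ∃ x, t x = x := by
  classical
  by_contra hne
  push Not at hne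
  let f : Function.End Y := ⇑t
  have hf : f ^ 2 ^ 1 = 1 := by
    funext x
    have := congrArg (fun f : Perm Y => f x) ht
    change t (t x) = x
    simpa using this
  haveI : Fact (Nat.Prime 2) := ⟨Nat.prime_two⟩
  have h := Equiv.Perm.card_fixedPoints_modEq (p := 2) (n := 1) (f := f) hf
  have h0 : Fintype.card (Function.fixedPoints f) = 0 := by
    rw [Fintype.card_eq_zero_iff]
    exact ⟨fun x => hne x.1 x.2⟩
  rw [h0] at h
  obtain ⟨m, hm⟩ := hodd
  have := h
  unfold Nat.ModEq at this
  omega

/-- **The core counting lemma** (odd case of Wagner's theorem). -/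
theorem core_odd {Y : Type*} [Fintype Y] [DecidableEq Y] (hodd : Odd (Fintype.card Y))
    (h3 : 3 ≤ Fintype.card Y) (A B : Subgroup (Perm Y)) (hBA : B ≤ A)
    (hnorm : ∀ g ∈ A, ∀ t ∈ B, g * t * g⁻¹ ∈ B)
    (hA : ∀ a b c a' b' c' : Y, a ≠ b → a ≠ c → b ≠ c → a' ≠ b' → a' ≠ c' → b' ≠ c' →
      ∃ g ∈ A, g a = a' ∧ g b = b' ∧ g c = c')
    (hB : ∀ a b a' b' : Y, a ≠ b → a' ≠ b' → ∃ t ∈ B, t a = a' ∧ t b = b')
    (hinv : ∀ t ∈ B, t * t = 1 → ∀ x y : Y, x ≠ y → t x = x → t y = y → t = 1)
    (a b c c' : Y) (hab : a ≠ b) (hac : a ≠ c) (hbc : b ≠ c) (hac' : a ≠ c') (hbc' : b ≠ c') :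
    ∃ n ∈ B, n a = a ∧ n b = b ∧ n c = c' := by
  classical
  -- an involution fixing any prescribed point
  have hexinv : ∀ x : Y, ∃ t ∈ B, t * t = 1 ∧ t ≠ 1 ∧ t x = x := by
    intro x
    obtain ⟨g, hg, hga, hgb⟩ := hB a b b a hab (Ne.symm hab)
    have hg2a : (g ^ 2) a = a := by
      rw [pow_two, Perm.mul_apply, hga, hgb]
    have hg2b : (g ^ 2) b = b := by
      rw [pow_two, Perm.mul_apply, hgb, hga]
    -- the order of `g ^ 2` is odd
    have hoddo : Odd (orderOf (g ^ 2)) := by
      by_contra hev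
      obtain ⟨m, hm⟩ := Nat.not_odd_iff_even.mp hev
      have hpos := orderOf_pos (g ^ 2)
      have hm0 : 0 < m := by omega
      have hz : ((g ^ 2) ^ m) ≠ 1 := by
        intro h
        have := orderOf_le_of_pow_eq_one hm0 h
        omega
      refine hz (hinv _ (B.pow_mem (B.pow_mem hg _) _) ?_ a b hab ?_ ?_)
      · rw [← pow_add, ← hm]; exact pow_orderOf_eq_one _
      · have : ∀ k : ℕ, ((g ^ 2) ^ k) a = a := by
          intro k
          induction k with
          | zero => simp
          | succ k ih => rw [pow_succ, Perm.mul_apply, hg2a, ih]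
        exact this m
      · have : ∀ k : ℕ, ((g ^ 2) ^ k) b = b := by
          intro k
          induction k with
          | zero => simp
          | succ k ih => rw [pow_succ, Perm.mul_apply, hg2b, ih]
        exact this m
    obtain ⟨m, hm⟩ := hoddo
    set o := orderOf (g ^ 2) with ho
    let t := g ^ o
    have htB : t ∈ B := B.pow_mem hg _
    have htt : t * t = 1 := by
      have : t * t = (g ^ 2) ^ o := by
        simp only [t]
        rw [← pow_add, ← pow_mul]
        congr 1
        ring
      rw [this, ho]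
      exact pow_orderOf_eq_one _
    have hta : t a = b := by
      have : ∀ k : ℕ, ((g ^ 2) ^ k) a = a := by
        intro k
        induction k with
        | zero => simp
        | succ k ih => rw [pow_succ, Perm.mul_apply, hg2a, ih]
      have h2 : t = g * (g ^ 2) ^ m := by
        simp only [t]
        rw [hm, ← pow_mul, ← pow_succ']
      rw [h2, Perm.mul_apply, this, hga]
    have ht1 : t ≠ 1 := by
      intro h
      rw [h, Perm.one_apply] at hta
      exact hab hta
    obtain ⟨y, hy⟩ := exists_fixed_of_odd hodd t htt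
    -- move the fixed point to `x`
    have hcard : ∃ z : Y, z ≠ y := by
      by_cases hya : y = a
      · exact ⟨b, fun h => hab (by rw [← hya, h])⟩
      · exact ⟨a, fun h => hya h.symm⟩
    obtain ⟨z, hz⟩ := hcard
    have hcard2 : ∃ w : Y, w ≠ x := by
      by_cases hxa : x = a
      · exact ⟨b, fun h => hab (by rw [← hxa, h])⟩
      · exact ⟨a, fun h => hxa h.symm⟩
    obtain ⟨w, hw⟩ := hcard2
    obtain ⟨h, hh, hhy, -⟩ := hB y z x w (Ne.symm hz) (Ne.symm hw)
    refine ⟨h * t * h⁻¹, hnorm h (hBA hh) t htB, ?_, ?_, ?_⟩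
    · calc h * t * h⁻¹ * (h * t * h⁻¹) = h * (t * t) * h⁻¹ := by group
        _ = 1 := by rw [htt]; group
    · intro h1
      have : t = 1 := by
        calc t = h⁻¹ * (h * t * h⁻¹) * h := by group
          _ = 1 := by rw [h1]; group
      exact ht1 this
    · have hxh : h⁻¹ x = y := by rw [← hhy, inv_app]
      rw [Perm.mul_apply, Perm.mul_apply, hxh, hy, hhy]
  -- conjugacy of involutions with a common fixed point
  have hconj : ∀ u ∈ B, u * u = 1 → u ≠ 1 → u a = a → ∀ u' ∈ B, u' * u' = 1 → u' ≠ 1 → u' a = a →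
      ∃ w ∈ B, w a = a ∧ w * u * w⁻¹ = u' := by
    obtain ⟨t, htB, htt, ht1, htb⟩ := hexinv b
    have key : ∀ u ∈ B, u * u = 1 → u ≠ 1 → u a = a → ∃ r ∈ B, r b = a ∧ r⁻¹ * u * r = t := by
      intro u huB huu hu1 hua
      have hne : u ≠ t := by
        rintro rfl
        exact hu1 (hinv u huB huu a b hab hua htb)
      by_cases hoddut : Odd (orderOf (u * t))
      · obtain ⟨k, hk⟩ := conj_of_odd_mul huu htt hoddut
        refine ⟨(u * t) ^ k, B.pow_mem (B.mul_mem huB htB) _, ?_, hk⟩
        set r := (u * t) ^ k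
        -- `r b` is fixed by `u`, so it is `a`
        have hfix : u (r b) = r b := by
          have h1 : u * r = r * t := by
            rw [← hk]; group
          have := congrArg (fun f : Perm Y => f b) h1
          simpa [Perm.mul_apply, htb] using this
        by_contra hra
        exact hu1 (hinv u huB huu (r b) a hra hfix hua)
      · exfalso
        obtain ⟨z, hz1, hzz, hzmem, hzu, hzt⟩ := exists_central_of_even_mul huu htt hne hoddut
        have hzB : z ∈ B := by
          have : Subgroup.zpowers (u * t) ≤ B := by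
            rw [Subgroup.zpowers_le]
            exact B.mul_mem huB htB
          exact this hzmem
        have hza : z a = a := by
          have hf : u (z a) = z a := by
            have := congrArg (fun f : Perm Y => f a) hzu
            simpa [Perm.mul_apply, hua] using this
          by_contra hne'
          exact hu1 (hinv u huB huu (z a) a hne' hf hua)
        have hzb : z b = b := by
          have hf : t (z b) = z b := by
            have := congrArg (fun f : Perm Y => f b) hzt
            simpa [Perm.mul_apply, htb] using this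
          by_contra hne'
          exact ht1 (hinv t htB htt (z b) b hne' hf htb)
        exact hz1 (hinv z hzB hzz a b hab hza hzb)
    intro u huB huu hu1 hua u' hu'B hu'u' hu'1 hu'a
    obtain ⟨r, hrB, hrb, hr⟩ := key u huB huu hu1 hua
    obtain ⟨r', hr'B, hr'b, hr'⟩ := key u' hu'B hu'u' hu'1 hu'a
    refine ⟨r' * r⁻¹, B.mul_mem hr'B (B.inv_mem hrB), ?_, ?_⟩
    · have : r⁻¹ a = b := by rw [← hrb, inv_app]
      rw [Perm.mul_apply, this, hr'b]
    · calc r' * r⁻¹ * u * (r' * r⁻¹)⁻¹ = r' * (r⁻¹ * u * r) * r'⁻¹ := by group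
        _ = r' * (r'⁻¹ * u' * r') * r'⁻¹ := by rw [hr, hr']
        _ = u' := by group
  -- the set of involutions fixing `a`
  let I : Finset (Perm Y) := Finset.univ.filter (fun t => t ∈ B ∧ t * t = 1 ∧ t ≠ 1 ∧ t a = a)
  have hmemI : ∀ t, t ∈ I ↔ t ∈ B ∧ t * t = 1 ∧ t ≠ 1 ∧ t a = a := by
    intro t; simp [I]
  have hIfix : ∀ t ∈ I, ∀ x, x ≠ a → t x ≠ x := by
    intro t ht x hx hfix
    rw [hmemI] at ht
    exact ht.2.2.1 (hinv t ht.1 ht.2.1 x a hx hfix ht.2.2.2)
  have hIa : ∀ t ∈ I, ∀ x, x ≠ a → t x ≠ a := by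
    intro t ht x hx h
    rw [hmemI] at ht
    exact hx (t.injective (h.trans ht.2.2.2.symm))
  -- the constant `μ`
  let M : Y → Y → ℕ := fun x y => (I.filter (fun t => t x = y)).card
  have hMle : ∀ x y x' y' : Y, x ≠ a → y ≠ a → x ≠ y → x' ≠ a → y' ≠ a → x' ≠ y' →
      M x y ≤ M x' y' := by
    intro x y x' y' hx hy hxy hx' hy' hxy'
    obtain ⟨g, hg, hga, hgx, hgy⟩ := hA a x y a x' y' (Ne.symm hx) (Ne.symm hy) hxy
      (Ne.symm hx') (Ne.symm hy') hxy'
    refine Finset.card_le_card_of_injOn (fun t => g * t * g⁻¹) ?_ ?_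
    · intro t ht
      have ht' := Finset.mem_filter.mp (Finset.mem_coe.mp ht)
      have h1 := (hmemI t).mp ht'.1
      refine Finset.mem_coe.mpr (Finset.mem_filter.mpr ⟨(hmemI _).mpr ⟨hnorm g hg t h1.1, ?_, ?_, ?_⟩, ?_⟩)
      · calc g * t * g⁻¹ * (g * t * g⁻¹) = g * (t * t) * g⁻¹ := by group
          _ = 1 := by rw [h1.2.1]; group
      · intro h
        apply h1.2.2.1
        have h' : g * t * g⁻¹ = 1 := h
        calc t = g⁻¹ * (g * t * g⁻¹) * g := by group
          _ = 1 := by rw [h']; group
      · have : g⁻¹ a = a := by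
          conv_lhs => rw [← hga]
          exact inv_app g a
        rw [Perm.mul_apply, Perm.mul_apply, this, h1.2.2.2, hga]
      · have : g⁻¹ x' = x := by rw [← hgx]; exact inv_app g x
        rw [Perm.mul_apply, Perm.mul_apply, this, ht'.2, hgy]
    · intro s _ t _ h
      exact mul_left_cancel (mul_right_cancel h)
  have hMeq : ∀ x y x' y' : Y, x ≠ a → y ≠ a → x ≠ y → x' ≠ a → y' ≠ a → x' ≠ y' →
      M x y = M x' y' := fun x y x' y' hx hy hxy hx' hy' hxy' =>
    le_antisymm (hMle x y x' y' hx hy hxy hx' hy' hxy') (hMle x' y' x y hx' hy' hxy' hx hy hxy)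
  let μ := M b c
  have hMμ : ∀ x y : Y, x ≠ a → y ≠ a → x ≠ y → M x y = μ := fun x y hx hy hxy =>
    hMeq x y b c hx hy hxy (Ne.symm hab) (Ne.symm hac) hbc
  have hn2 : ((Finset.univ.erase a).erase b).card = Fintype.card Y - 2 := by
    rw [Finset.card_erase_of_mem (by simp [Ne.symm hab]), Finset.card_erase_of_mem (by simp)]
    rw [Finset.card_univ]
    omega
  have hIcard : I.card = (Fintype.card Y - 2) * μ := by
    have hmaps : ∀ t ∈ I, t b ∈ (Finset.univ.erase a).erase b := by
      intro t ht
      simp only [Finset.mem_erase, Finset.mem_univ, and_true]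
      exact ⟨hIfix t ht b (Ne.symm hab), hIa t ht b (Ne.symm hab)⟩
    rw [Finset.card_eq_sum_card_fiberwise hmaps]
    rw [Finset.sum_congr rfl (g := fun _ => μ), Finset.sum_const, hn2, smul_eq_mul]
    intro y hy
    simp only [Finset.mem_erase, Finset.mem_univ, and_true] at hy
    exact hMμ b y (Ne.symm hab) hy.2 (Ne.symm hy.1)
  have hIne : I.Nonempty := by
    obtain ⟨t, h1, h2, h3', h4⟩ := hexinv a
    exact ⟨t, (hmemI t).mpr ⟨h1, h2, h3', h4⟩⟩
  have hμpos : 0 < μ := by
    have := Finset.card_pos.mpr hIne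
    rw [hIcard] at this
    exact Nat.pos_of_ne_zero (fun h0 => by rw [h0, mul_zero] at this; exact lt_irrefl 0 this)
  -- the relation `R`
  let R : Y → Y → Prop := fun x y => ∃ g ∈ B, g a = a ∧ g b = x ∧ g c = y
  have hRmove : ∀ w ∈ B, w a = a → ∀ x y, R x y → R (w x) (w y) := by
    rintro w hw hwa x y ⟨g, hg, hga, hgb, hgc⟩
    refine ⟨w * g, B.mul_mem hw hg, ?_, ?_, ?_⟩
    · rw [Perm.mul_apply, hga, hwa]
    · rw [Perm.mul_apply, hgb]
    · rw [Perm.mul_apply, hgc]
  have hinvfix : ∀ w : Perm Y, w a = a → w⁻¹ a = a := by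
    intro w hw
    conv_lhs => rw [← hw]
    exact inv_app w a
  have hRne : ∀ x y, R x y → x ≠ a ∧ y ≠ a ∧ x ≠ y := by
    rintro x y ⟨g, hg, hga, rfl, rfl⟩
    refine ⟨?_, ?_, ?_⟩
    · intro h; exact hab (g.injective (hga.trans h.symm))
    · intro h; exact hac (g.injective (hga.trans h.symm))
    · intro h; exact hbc (g.injective h)
  let RS : Y → Finset Y := fun x => Finset.univ.filter (R x)
  let d := (RS b).card
  have hRS : ∀ x, x ≠ a → (RS x).card = d := by
    intro x hx
    obtain ⟨g, hg, hga, hgb⟩ := hB a b a x hab (Ne.symm hx)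
    apply le_antisymm
    · refine Finset.card_le_card_of_injOn (fun y => g⁻¹ y) ?_ ?_
      · intro y hy
        have hy' : R x y := (Finset.mem_filter.mp (Finset.mem_coe.mp hy)).2
        refine Finset.mem_coe.mpr (Finset.mem_filter.mpr ⟨Finset.mem_univ _, ?_⟩)
        have := hRmove g⁻¹ (B.inv_mem hg) (hinvfix g hga) x y hy'
        have hxb : g⁻¹ x = b := by rw [← hgb]; exact inv_app g b
        rwa [hxb] at this
      · intro s _ t _ h
        exact g⁻¹.injective h
    · refine Finset.card_le_card_of_injOn (fun y => g y) ?_ ?_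
      · intro y hy
        have hy' : R b y := (Finset.mem_filter.mp (Finset.mem_coe.mp hy)).2
        refine Finset.mem_coe.mpr (Finset.mem_filter.mpr ⟨Finset.mem_univ _, ?_⟩)
        have := hRmove g hg hga b y hy'
        rwa [hgb] at this
      · intro s _ t _ h
        exact g.injective h
  -- count by `x`
  have hcountx : ∀ x ∈ Finset.univ.erase a, (I.filter (fun t => R x (t x))).card = d * μ := by
    intro x hx
    have hxa : x ≠ a := (Finset.mem_erase.mp hx).1
    have hmaps : ∀ t ∈ I.filter (fun t => R x (t x)), t x ∈ RS x := by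
      intro t ht
      exact Finset.mem_filter.mpr ⟨Finset.mem_univ _, (Finset.mem_filter.mp ht).2⟩
    rw [Finset.card_eq_sum_card_fiberwise hmaps]
    rw [Finset.sum_congr rfl (g := fun _ => μ), Finset.sum_const, hRS x hxa, smul_eq_mul]
    intro y hy
    have hy' : R x y := (Finset.mem_filter.mp hy).2
    have hne := hRne x y hy'
    rw [← hMμ x y hne.1 hne.2.1 hne.2.2]
    simp only [M]
    congr 1
    ext t
    simp only [Finset.mem_filter]
    constructor
    · rintro ⟨⟨h1, -⟩, h2⟩
      exact ⟨h1, h2⟩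
    · rintro ⟨h1, h2⟩
      exact ⟨⟨h1, by rw [h2]; exact hy'⟩, h2⟩
  -- count by `t`
  obtain ⟨t₀, ht₀⟩ := hIne
  let f := ((Finset.univ.erase a).filter (fun x => R x (t₀ x))).card
  have hcountt : ∀ t ∈ I, ((Finset.univ.erase a).filter (fun x => R x (t x))).card = f := by
    have hle : ∀ u ∈ I, ∀ u' ∈ I, ((Finset.univ.erase a).filter (fun x => R x (u x))).card ≤
        ((Finset.univ.erase a).filter (fun x => R x (u' x))).card := by
      intro u hu u' hu'
      have h1 := (hmemI u).mp hu
      have h2 := (hmemI u').mp hu'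
      obtain ⟨w, hw, hwa, hwu⟩ := hconj u h1.1 h1.2.1 h1.2.2.1 h1.2.2.2 u' h2.1 h2.2.1 h2.2.2.1 h2.2.2.2
      refine Finset.card_le_card_of_injOn (fun x => w x) ?_ ?_
      · intro x hx
        have hx' := Finset.mem_filter.mp (Finset.mem_coe.mp hx)
        refine Finset.mem_coe.mpr (Finset.mem_filter.mpr ⟨?_, ?_⟩)
        · simp only [Finset.mem_erase, Finset.mem_univ, and_true]
          intro h
          exact (Finset.mem_erase.mp hx'.1).1 (w.injective (h.trans hwa.symm))
        · have := hRmove w hw hwa x (u x) hx'.2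
          have hh : u' (w x) = w (u x) := by
            rw [← hwu]
            simp [Perm.mul_apply]
          rw [hh]
          exact this
      · intro s _ t _ h
        exact w.injective h
    intro t ht
    exact le_antisymm (hle t ht t₀ ht₀) (hle t₀ ht₀ t ht)
  have hdouble := Finset.sum_card_bipartiteAbove_eq_sum_card_bipartiteBelow
    (s := Finset.univ.erase a) (t := I) (fun x t => R x (t x))
  have hL : ∑ x ∈ Finset.univ.erase a, (Finset.bipartiteAbove (fun (x : Y) (t : Perm Y) => R x (t x)) I x).card =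
      (Fintype.card Y - 1) * (d * μ) := by
    refine (Finset.sum_congr rfl (g := fun _ => d * μ) hcountx).trans ?_
    rw [Finset.sum_const, smul_eq_mul,
      Finset.card_erase_of_mem (Finset.mem_univ _), Finset.card_univ]
  have hR : ∑ t ∈ I, (Finset.bipartiteBelow (fun (x : Y) (t : Perm Y) => R x (t x)) (Finset.univ.erase a) t).card =
      I.card * f := by
    refine (Finset.sum_congr rfl (g := fun _ => f) hcountt).trans ?_
    rw [Finset.sum_const, smul_eq_mul]
  rw [hL, hR, hIcard] at hdouble
  -- conclude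
  have hkey : (Fintype.card Y - 1) * d = (Fintype.card Y - 2) * f := by
    have : μ * ((Fintype.card Y - 1) * d) = μ * ((Fintype.card Y - 2) * f) := by
      calc μ * ((Fintype.card Y - 1) * d) = (Fintype.card Y - 1) * (d * μ) := by ring
        _ = (Fintype.card Y - 2) * μ * f := hdouble
        _ = μ * ((Fintype.card Y - 2) * f) := by ring
    exact Nat.eq_of_mul_eq_mul_left hμpos this
  have hdvd : (Fintype.card Y - 2) ∣ d := by
    have h1 : (Fintype.card Y - 2) ∣ (Fintype.card Y - 1) * d := ⟨f, hkey⟩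
    have hcop : Nat.Coprime (Fintype.card Y - 2) (Fintype.card Y - 1) := by
      have : Fintype.card Y - 1 = (Fintype.card Y - 2) + 1 := by omega
      rw [this]
      simp
    exact hcop.dvd_of_dvd_mul_left h1
  have hdpos : 0 < d := by
    apply Finset.card_pos.mpr
    refine ⟨c, Finset.mem_filter.mpr ⟨Finset.mem_univ _, 1, B.one_mem, rfl, rfl, rfl⟩⟩
  have hsub : RS b ⊆ (Finset.univ.erase a).erase b := by
    intro y hy
    have hy' : R b y := (Finset.mem_filter.mp hy).2
    have hne := hRne b y hy'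
    simp only [Finset.mem_erase, Finset.mem_univ, and_true]
    exact ⟨Ne.symm hne.2.2, hne.2.1⟩
  have hdle : d ≤ Fintype.card Y - 2 := by
    rw [← hn2]
    exact Finset.card_le_card hsub
  have hdeq : d = Fintype.card Y - 2 := le_antisymm hdle (Nat.le_of_dvd hdpos hdvd)
  have hseteq : RS b = (Finset.univ.erase a).erase b :=
    Finset.eq_of_subset_of_card_le hsub (by rw [hn2]; exact hdeq.ge)
  have hc' : c' ∈ RS b := by
    rw [hseteq]
    simp only [Finset.mem_erase, Finset.mem_univ, and_true]
    exact ⟨Ne.symm hbc', Ne.symm hac'⟩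
  obtain ⟨n, hn, hna, hnb, hnc⟩ := (Finset.mem_filter.mp hc').2
  exact ⟨n, hn, hna, hnb, hnc⟩

end CfsgLib.H9.Wagner
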