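import Cfsg.Agent.Lib.H9.WagnerCore
import Mathlib

/-! Witt's lemma on transitive extensions: double coset analysis. -/

set_option autoImplicit false

namespace CfsgLib.H9.WittExt

open Equiv Equiv.Perm CfsgLib.H9.Wagner

section Abstract

variable {P : Type*} [Group P]

/-- The union of `B` and `B s B` is a subgroup. -/
theorem double_coset_closed (A B H : Subgroup P) (u s : P)
    (hB : ∀ x, x ∈ B ↔ x ∈ A ∨ ∃ a ∈ A, ∃ b ∈ A, x = a * u * b) (hAB : A ≤ B) (hu : u ∈ B)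
    (hHA : H ≤ A) (hs2 : s * s ∈ H) (hn : ∀ a ∈ A, s * a * s⁻¹ ∈ A) (hn' : ∀ a ∈ A, s⁻¹ * a * s ∈ A)
    (hbr : ∃ h ∈ H, s * u * s = u * s * u * h) :
    ∃ C : Subgroup P, ∀ x, x ∈ C ↔ x ∈ B ∨ ∃ a ∈ B, ∃ b ∈ B, x = a * s * b := by
  have hHB : H ≤ B := hHA.trans hAB
  have hsinv : s⁻¹ = s * (s * s)⁻¹ := by group
  -- the key fact
  have key : ∀ b ∈ B, s * b * s ∈ B ∨ ∃ a ∈ B, ∃ c ∈ B, s * b * s = a * s * c := by
    intro b hb
    rcases (hB b).mp hb with hb | ⟨a, ha, a', ha', rfl⟩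
    · left
      have e : s * b * s = (s * b * s⁻¹) * (s * s) := by group
      rw [e]
      exact hAB (A.mul_mem (hn b hb) (hHA hs2))
    · right
      obtain ⟨h, hh, hbr⟩ := hbr
      refine ⟨(s * a * s⁻¹) * u, B.mul_mem (hAB (hn a ha)) hu, u * h * (s⁻¹ * a' * s),
        B.mul_mem (B.mul_mem hu (hHB hh)) (hAB (hn' a' ha')), ?_⟩
      calc s * (a * u * a') * s = (s * a * s⁻¹) * (s * u * s) * (s⁻¹ * a' * s) := by group
        _ = (s * a * s⁻¹) * (u * s * u * h) * (s⁻¹ * a' * s) := by rw [hbr]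
        _ = _ := by group
  refine ⟨{ carrier := {x | x ∈ B ∨ ∃ a ∈ B, ∃ b ∈ B, x = a * s * b}
            mul_mem' := ?_
            one_mem' := Or.inl B.one_mem
            inv_mem' := ?_ }, fun x => Iff.rfl⟩
  · rintro x y (hx | ⟨a, ha, b, hb, rfl⟩) (hy | ⟨c, hc, d, hd, rfl⟩)
    · exact Or.inl (B.mul_mem hx hy)
    · exact Or.inr ⟨x * c, B.mul_mem hx hc, d, hd, by group⟩
    · exact Or.inr ⟨a, ha, b * y, B.mul_mem hb hy, by group⟩
    · rcases key (b * c) (B.mul_mem hb hc) with h | ⟨e, he, f, hf, h⟩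
      · left
        have e' : a * s * b * (c * s * d) = a * (s * (b * c) * s) * d := by group
        rw [e']
        exact B.mul_mem (B.mul_mem ha h) hd
      · right
        refine ⟨a * e, B.mul_mem ha he, f * d, B.mul_mem hf hd, ?_⟩
        have e' : a * s * b * (c * s * d) = a * (s * (b * c) * s) * d := by group
        rw [e', h]
        group
  · rintro x (hx | ⟨a, ha, b, hb, rfl⟩)
    · exact Or.inl (B.inv_mem hx)
    · right
      refine ⟨b⁻¹, B.inv_mem hb, (s * s)⁻¹ * a⁻¹, B.mul_mem (B.inv_mem (hHB hs2)) (B.inv_mem ha), ?_⟩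
      group

/-- The braid relation modulo `H`. -/
theorem braid_of {H : Subgroup P} {a b : P} (ha2 : a * a ∈ H) (hb2 : b * b ∈ H) (h3 : (a * b) ^ 3 ∈ H)
    (hna : ∀ h ∈ H, a⁻¹ * h * a ∈ H) (hnb : ∀ h ∈ H, b⁻¹ * h * b ∈ H) :
    ∃ h ∈ H, b * a * b = a * b * a * h := by
  set h := (a * b) ^ 3 with hh
  have h1 : (a * a)⁻¹ * h ∈ H := H.mul_mem (H.inv_mem ha2) h3
  have h2 := H.mul_mem (hnb _ h1) (H.inv_mem hb2)
  have h4 := H.mul_mem (hna _ h2) (H.inv_mem ha2)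
  refine ⟨_, h4, ?_⟩
  have e : (a * b) ^ 3 = a * b * (a * b) * (a * b) := by rw [pow_succ, pow_two]
  rw [hh, e]
  group

/-- A conjugation preserving a subgroup of a finite group also preserves it in the inverse
direction. -/
theorem inv_conj_mem [Finite P] {H : Subgroup P} {s : P} (h : ∀ x ∈ H, s * x * s⁻¹ ∈ H) :
    ∀ x ∈ H, s⁻¹ * x * s ∈ H := by
  have hle : H.map (MulAut.conj s).toMonoidHom ≤ H := by
    rintro _ ⟨x, hx, rfl⟩
    exact h x hx
  have hc : Nat.card (H.map (MulAut.conj s).toMonoidHom) = Nat.card H :=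
    Subgroup.card_map_of_injective (MulAut.conj s).injective
  have heq := Subgroup.eq_of_le_of_card_ge hle hc.ge
  intro x hx
  rw [← heq] at hx
  obtain ⟨y, hy, rfl⟩ := hx
  have : s⁻¹ * (MulAut.conj s).toMonoidHom y * s = y := by
    simp [MulAut.conj_apply, mul_assoc]
  rw [this]
  exact hy

end Abstract

variable {α : Type*} [Fintype α] [DecidableEq α]

/-- The hypotheses of Witt's lemma. -/
structure D (t : ℕ) (q : ℕ → α) (G : Subgroup (Perm α)) (s : ℕ → Perm α) (H : Subgroup (Perm α)) :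
    Prop where
  ht : 2 ≤ t
  hq : ∀ i j : ℕ, 1 ≤ i → i ≤ t → 1 ≤ j → j ≤ t → q i = q j → i = j
  hfix : ∀ g ∈ G, ∀ i : ℕ, 3 ≤ i → i ≤ t → g (q i) = q i
  h2 : ∀ a b c d : α, (∀ i, 3 ≤ i → i ≤ t → a ≠ q i ∧ b ≠ q i ∧ c ≠ q i ∧ d ≠ q i) → a ≠ b → c ≠ d →
    ∃ g ∈ G, g a = c ∧ g b = d
  hs1 : s 1 ∈ G
  hs1q : s 1 (q 1) = q 2 ∧ s 1 (q 2) = q 1
  hsq : ∀ i : ℕ, 2 ≤ i → i + 1 ≤ t → s i (q i) = q (i + 1) ∧ s i (q (i + 1)) = q i ∧
    ∀ j : ℕ, 1 ≤ j → j ≤ t → j ≠ i → j ≠ i + 1 → s i (q j) = q j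
  hH : ∀ g, g ∈ H ↔ g ∈ G ∧ g (q 1) = q 1 ∧ g (q 2) = q 2
  hsq2 : ∀ i : ℕ, 1 ≤ i → i + 1 ≤ t → s i ^ 2 ∈ H
  hbraid : ∀ i : ℕ, 1 ≤ i → i + 2 ≤ t → (s i * s (i + 1)) ^ 3 ∈ H
  hcomm : ∀ i j : ℕ, 1 ≤ i → i + 2 ≤ j → j + 1 ≤ t → (s i * s j) ^ 2 ∈ H ∧ (s j * s i) ^ 2 ∈ H
  hnorm : ∀ i : ℕ, 2 ≤ i → i + 1 ≤ t → ∀ g ∈ G, g (q 2) = q 2 →
    s i * g * (s i)⁻¹ ∈ G ∧ (s i * g * (s i)⁻¹) (q 2) = q 2

/-- The tower of subgroups. -/
def TT (q : ℕ → α) (G : Subgroup (Perm α)) (s : ℕ → Perm α) : ℕ → Subgroup (Perm α)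
  | 0 => Fix1 G (q 2)
  | (j + 1) => Subgroup.closure ((G : Set (Perm α)) ∪ {x | ∃ i, 2 ≤ i ∧ i ≤ j + 1 ∧ x = s i})

variable {t : ℕ} {q : ℕ → α} {G : Subgroup (Perm α)} {s : ℕ → Perm α} {H : Subgroup (Perm α)}

theorem TT_zero {g : Perm α} : g ∈ TT q G s 0 ↔ g ∈ G ∧ g (q 2) = q 2 := Iff.rfl

theorem G_le_TT (j : ℕ) : G ≤ TT q G s (j + 1) := fun _ hg =>
  Subgroup.subset_closure (Or.inl hg)

theorem s_mem_TT {i j : ℕ} (h2 : 2 ≤ i) (hj : i ≤ j + 1) : s i ∈ TT q G s (j + 1) :=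
  Subgroup.subset_closure (Or.inr ⟨i, h2, hj, rfl⟩)

theorem TT_mono (j : ℕ) : TT q G s j ≤ TT q G s (j + 1) := by
  cases j with
  | zero =>
    intro g hg
    exact G_le_TT 0 hg.1
  | succ j =>
    apply Subgroup.closure_mono
    apply Set.union_subset_union_right
    rintro x ⟨i, h1, h2, rfl⟩
    exact ⟨i, h1, by omega, rfl⟩

theorem TT_one : TT q G s 1 = G := by
  apply le_antisymm
  · apply (Subgroup.closure_le _).mpr
    rintro x (hx | ⟨i, h1, h2, rfl⟩)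
    · exact hx
    · have h2' : i ≤ 1 := h2
      omega
  · exact G_le_TT 0

theorem D.H_le_G (d : D t q G s H) : H ≤ G := fun _ hg => ((d.hH _).mp hg).1

theorem D.H_le_TT (d : D t q G s H) (j : ℕ) : H ≤ TT q G s j := by
  cases j with
  | zero =>
    intro g hg
    have := (d.hH _).mp hg
    exact ⟨this.1, this.2.2⟩
  | succ j => exact d.H_le_G.trans (G_le_TT j)

/-- `T_{j+1}` fixes the later points. -/
theorem D.TT_fix (d : D t q G s H) (j : ℕ) {g : Perm α} (hg : g ∈ TT q G s (j + 1)) (i : ℕ)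
    (h1 : j + 3 ≤ i) (h2 : i ≤ t) : g (q i) = q i := by
  have hle : TT q G s (j + 1) ≤ MulAction.stabilizer (Perm α) (q i) := by
    apply (Subgroup.closure_le _).mpr
    rintro x (hx | ⟨k, hk1, hk2, rfl⟩)
    · exact d.hfix x hx i (by omega) h2
    · exact (d.hsq k hk1 (by omega)).2.2 i (by omega) h2 (by omega) (by omega)
  exact hle hg

/-- The `s i` normalise `H`. -/
theorem D.s_norm_H (d : D t q G s H) {i : ℕ} (h1 : 1 ≤ i) (h2 : i + 1 ≤ t) :
    ∀ h ∈ H, s i * h * (s i)⁻¹ ∈ H := by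
  intro h hh
  obtain ⟨hG, hq1, hq2⟩ := (d.hH h).mp hh
  rcases (by omega : i = 1 ∨ 2 ≤ i) with rfl | hi
  · obtain ⟨h3, h4⟩ := d.hs1q
    have h3' : (s 1)⁻¹ (q 2) = q 1 := by rw [← h3]; exact inv_app _ _
    have h4' : (s 1)⁻¹ (q 1) = q 2 := by rw [← h4]; exact inv_app _ _
    refine (d.hH _).mpr ⟨G.mul_mem (G.mul_mem d.hs1 hG) (G.inv_mem d.hs1), ?_, ?_⟩
    · rw [Perm.mul_apply, Perm.mul_apply, h4', hq2, h4]
    · rw [Perm.mul_apply, Perm.mul_apply, h3', hq1, h3]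
  · obtain ⟨h3, h4⟩ := d.hnorm i hi h2 h hG hq2
    have h5 : s i (q 1) = q 1 := (d.hsq i hi h2).2.2 1 le_rfl (by omega) (by omega) (by omega)
    have h5' : (s i)⁻¹ (q 1) = q 1 := by
      conv_lhs => rw [← h5]
      exact inv_app _ _
    refine (d.hH _).mpr ⟨h3, ?_, h4⟩
    rw [Perm.mul_apply, Perm.mul_apply, h5', hq1, h5]

theorem D.s_norm_H' (d : D t q G s H) {i : ℕ} (h1 : 1 ≤ i) (h2 : i + 1 ≤ t) :
    ∀ h ∈ H, (s i)⁻¹ * h * s i ∈ H := inv_conj_mem (d.s_norm_H h1 h2)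

theorem D.sq_mem (d : D t q G s H) {i : ℕ} (h1 : 1 ≤ i) (h2 : i + 1 ≤ t) : s i * s i ∈ H := by
  have := d.hsq2 i h1 h2
  rwa [pow_two] at this

/-- The Bruhat decomposition of the doubly transitive group. -/
theorem D.bruhat (d : D t q G s H) (g : Perm α) (hg : g ∈ G) :
    g ∈ TT q G s 0 ∨ ∃ a ∈ TT q G s 0, ∃ b ∈ TT q G s 0, g = a * s 1 * b := by
  by_cases h : g (q 2) = q 2
  · exact Or.inl ⟨hg, h⟩
  · right
    have hq12 : q 1 ≠ q 2 := fun h' => by
      have := d.hq 1 2 le_rfl (by have := d.ht; omega) (by omega) d.ht h'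
      omega
    have hav : ∀ i, 3 ≤ i → i ≤ t → q 2 ≠ q i ∧ q 1 ≠ q i ∧ q 2 ≠ q i ∧ g (q 2) ≠ q i := by
      intro i h3 hi
      refine ⟨fun h' => ?_, fun h' => ?_, fun h' => ?_, fun h' => ?_⟩
      · have := d.hq 2 i (by omega) (by omega) (by omega) hi h'
        omega
      · have := d.hq 1 i (by omega) (by omega) (by omega) hi h'
        omega
      · have := d.hq 2 i (by omega) (by omega) (by omega) hi h'
        omega
      · have h4 := d.hfix g hg i h3 hi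
        rw [← h4] at h'
        have h5 := g.injective h'
        have := d.hq 2 i (by omega) (by omega) (by omega) hi h5
        omega
    obtain ⟨x, hx, hx2, hx1⟩ := d.h2 (q 2) (q 1) (q 2) (g (q 2)) hav hq12.symm (Ne.symm h)
    refine ⟨x, ⟨hx, hx2⟩, (s 1)⁻¹ * x⁻¹ * g, ⟨?_, ?_⟩, by group⟩
    · exact G.mul_mem (G.mul_mem (G.inv_mem d.hs1) (G.inv_mem hx)) hg
    · have h3 : x⁻¹ (g (q 2)) = q 1 := by rw [← hx1]; exact inv_app _ _
      have h4 : (s 1)⁻¹ (q 1) = q 2 := by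
        conv_lhs => rw [← d.hs1q.2]
        exact inv_app _ _
      rw [Perm.mul_apply, Perm.mul_apply, h3, h4]

/-- Conjugating a generator commuting modulo `H`. -/
theorem D.conj_comm (d : D t q G s H) {i j : ℕ} (h1 : 1 ≤ i) (h2 : i + 2 ≤ j) (h3 : j + 1 ≤ t)
    (U : Subgroup (Perm α)) (hHU : H ≤ U) (hU : s i ∈ U) : s j * s i * (s j)⁻¹ ∈ U := by
  have h4 := (d.hcomm i j h1 h2 h3).2
  have h5 := d.sq_mem (i := j) (by omega) h3
  have e : s j * s i * (s j)⁻¹ = (s j * s i) ^ 2 * (s i)⁻¹ * (s j * s j)⁻¹ := by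
    rw [pow_two]; group
  rw [e]
  exact U.mul_mem (U.mul_mem (hHU h4) (U.inv_mem hU)) (U.inv_mem (hHU h5))

/-- `s j`, `j ≥ 3`, normalises `G`. -/
theorem D.s_norm_G (d : D t q G s H) {j : ℕ} (h3 : 3 ≤ j) (h4 : j + 1 ≤ t) :
    ∀ g ∈ G, s j * g * (s j)⁻¹ ∈ G := by
  intro g hg
  rcases d.bruhat g hg with h | ⟨a, ha, b, hb, rfl⟩
  · exact (d.hnorm j (by omega) h4 g h.1 h.2).1
  · have e : s j * (a * s 1 * b) * (s j)⁻¹ =
        (s j * a * (s j)⁻¹) * (s j * s 1 * (s j)⁻¹) * (s j * b * (s j)⁻¹) := by group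
    rw [e]
    exact G.mul_mem (G.mul_mem (d.hnorm j (by omega) h4 a ha.1 ha.2).1
      (d.conj_comm le_rfl (by omega) h4 G d.H_le_G d.hs1)) (d.hnorm j (by omega) h4 b hb.1 hb.2).1

/-- `s (j + 2)` normalises `T j`. -/
theorem D.s_norm_TT (d : D t q G s H) {j : ℕ} (h : j + 3 ≤ t) :
    ∀ g ∈ TT q G s j, s (j + 2) * g * (s (j + 2))⁻¹ ∈ TT q G s j := by
  cases j with
  | zero =>
    intro g hg
    exact d.hnorm 2 le_rfl (by omega) g hg.1 hg.2
  | succ j =>
    have hle : TT q G s (j + 1) ≤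
        (TT q G s (j + 1)).comap (MulAut.conj (s (j + 1 + 2))).toMonoidHom := by
      apply (Subgroup.closure_le _).mpr
      rintro x (hx | ⟨i, h1, h2, rfl⟩)
      · exact G_le_TT (q := q) (s := s) j (d.s_norm_G (j := j + 1 + 2) (by omega) (by omega) x hx)
      · exact d.conj_comm (i := i) (j := j + 1 + 2) (by omega) (by omega) (by omega) _
          (d.H_le_TT _) (s_mem_TT h1 h2)
    intro g hg
    exact hle hg

/-- The stages of the induction. -/
structure Stage (t : ℕ) (q : ℕ → α) (G : Subgroup (Perm α)) (s : ℕ → Perm α) (j : ℕ) : Prop where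
  dec : ∀ x, x ∈ TT q G s (j + 1) ↔ x ∈ TT q G s j ∨
    ∃ a ∈ TT q G s j, ∃ b ∈ TT q G s j, x = a * s (j + 1) * b
  stab : ∀ g ∈ TT q G s (j + 1), g (q (j + 2)) = q (j + 2) → g ∈ TT q G s j
  trans : ∀ y, (∀ i, j + 3 ≤ i → i ≤ t → y ≠ q i) → ∃ g ∈ TT q G s (j + 1), g y = q (j + 2)
  tr : ∀ x y : Fin (j + 2) → α, Function.Injective x → Function.Injective y →
    (∀ k i, j + 3 ≤ i → i ≤ t → x k ≠ q i) → (∀ k i, j + 3 ≤ i → i ≤ t → y k ≠ q i) →
    ∃ g ∈ TT q G s (j + 1), ∀ k, g (x k) = y k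

theorem D.stage_zero (d : D t q G s H) : Stage t q G s 0 := by
  have hq12 : q 1 ≠ q 2 := fun h' => by
    have := d.hq 1 2 le_rfl (by have := d.ht; omega) (by omega) d.ht h'
    omega
  have hq2 : ∀ i, 3 ≤ i → i ≤ t → q 2 ≠ q i := fun i h3 hi h' => by
    have := d.hq 2 i (by omega) (by omega) (by omega) hi h'
    omega
  have hq1 : ∀ i, 3 ≤ i → i ≤ t → q 1 ≠ q i := fun i h3 hi h' => by
    have := d.hq 1 i (by omega) (by omega) (by omega) hi h'
    omega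
  refine ⟨?_, ?_, ?_, ?_⟩
  · intro x
    rw [TT_one]
    constructor
    · exact d.bruhat x
    · rintro (h | ⟨a, ha, b, hb, rfl⟩)
      · exact h.1
      · exact G.mul_mem (G.mul_mem ha.1 d.hs1) hb.1
  · intro g hg hfix
    rw [TT_one] at hg
    exact ⟨hg, hfix⟩
  · intro y hy
    rw [TT_one]
    by_cases hy2 : y = q 2
    · exact ⟨1, G.one_mem, by rw [hy2]; rfl⟩
    · obtain ⟨g, hg, h1, -⟩ := d.h2 y (q 2) (q 2) (q 1) (fun i h3 hi =>
        ⟨hy i h3 hi, hq2 i h3 hi, hq2 i h3 hi, hq1 i h3 hi⟩) hy2 hq12.symm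
      exact ⟨g, hg, h1⟩
  · intro x y hx hy hxa hya
    rw [TT_one]
    obtain ⟨g, hg, h1, h2⟩ := d.h2 (x 0) (x 1) (y 0) (y 1) (fun i h3 hi =>
      ⟨hxa 0 i h3 hi, hxa 1 i h3 hi, hya 0 i h3 hi, hya 1 i h3 hi⟩)
      (fun h => absurd (hx h) (by decide)) (fun h => absurd (hy h) (by decide))
    refine ⟨g, hg, fun k => ?_⟩
    fin_cases k
    · exact h1
    · exact h2

theorem D.stage_succ (d : D t q G s H) {j : ℕ} (hj : j + 3 ≤ t) (S : Stage t q G s j) :
    Stage t q G s (j + 1) := by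
  have hu1 : s (j + 1) ∈ TT q G s (j + 1) := by
    rcases (by omega : j = 0 ∨ 1 ≤ j) with rfl | hj1
    · rw [TT_one]; exact d.hs1
    · exact s_mem_TT (by omega) le_rfl
  have hbr := braid_of (H := H) (a := s (j + 1)) (b := s (j + 2)) (d.sq_mem (by omega) (by omega))
    (d.sq_mem (by omega) (by omega)) (d.hbraid (j + 1) (by omega) (by omega))
    (d.s_norm_H' (by omega) (by omega)) (d.s_norm_H' (by omega) (by omega))
  have hn := d.s_norm_TT hj
  obtain ⟨C, hC⟩ := double_coset_closed (TT q G s j) (TT q G s (j + 1)) H (s (j + 1)) (s (j + 2))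
    S.dec (TT_mono j) hu1 (d.H_le_TT j) (d.sq_mem (by omega) (by omega)) hn (inv_conj_mem hn) hbr
  have hs2mem : s (j + 2) ∈ TT q G s (j + 1 + 1) := s_mem_TT (by omega) le_rfl
  have hdec : ∀ x, x ∈ TT q G s (j + 1 + 1) ↔ x ∈ TT q G s (j + 1) ∨
      ∃ a ∈ TT q G s (j + 1), ∃ b ∈ TT q G s (j + 1), x = a * s (j + 2) * b := by
    intro x
    rw [← hC]
    constructor
    · intro hx
      have hle : TT q G s (j + 1 + 1) ≤ C := by
        apply (Subgroup.closure_le _).mpr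
        rintro y (hy | ⟨i, h1, h2, rfl⟩)
        · exact (hC y).mpr (Or.inl (G_le_TT j hy))
        · by_cases hi : i = j + 2
          · subst hi
            exact (hC _).mpr (Or.inr ⟨1, Subgroup.one_mem _, 1, Subgroup.one_mem _, by group⟩)
          · exact (hC _).mpr (Or.inl (s_mem_TT h1 (by omega)))
      exact hle hx
    · intro hx
      rcases (hC x).mp hx with h | ⟨a, ha, b, hb, rfl⟩
      · exact TT_mono _ h
      · exact Subgroup.mul_mem _ (Subgroup.mul_mem _ (TT_mono _ ha) hs2mem) (TT_mono _ hb)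
  have hsq := d.hsq (j + 2) (by omega) (by omega)
  have hq23 : q (j + 2) ≠ q (j + 2 + 1) := fun h' => by
    have := d.hq (j + 2) (j + 2 + 1) (by omega) (by omega) (by omega) (by omega) h'
    omega
  refine ⟨hdec, ?_, ?_, ?_⟩
  · intro g hg hfix
    rcases (hdec g).mp hg with h | ⟨a, ha, b, hb, rfl⟩
    · exact h
    · exfalso
      have h1 := d.TT_fix j ha (j + 3) le_rfl (by omega)
      have h2 := d.TT_fix j hb (j + 3) le_rfl (by omega)
      rw [Perm.mul_apply, Perm.mul_apply, h2] at hfix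
      have h3 : s (j + 2) (q (j + 3)) = q (j + 2) := hsq.2.1
      rw [h3] at hfix
      have h4 : a (q (j + 2)) = a (q (j + 3)) := by rw [h1]; exact hfix
      exact hq23 (a.injective h4)
  · intro y hy
    by_cases hy3 : y = q (j + 3)
    · exact ⟨1, Subgroup.one_mem _, by rw [hy3]; rfl⟩
    · obtain ⟨g, hg, hgy⟩ := S.trans y (fun i h3 hi => by
        by_cases hi3 : i = j + 3
        · rw [hi3]; exact hy3
        · exact hy i (by omega) hi)
      refine ⟨s (j + 2) * g, Subgroup.mul_mem _ hs2mem (TT_mono _ hg), ?_⟩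
      rw [Perm.mul_apply, hgy]
      exact hsq.1
  · intro x y hx hy hxa hya
    -- the stage structure of `trans` at level `j + 1`
    have htrans : ∀ w, (∀ i, j + 4 ≤ i → i ≤ t → w ≠ q i) → ∃ g ∈ TT q G s (j + 1 + 1), g w = q (j + 3) := by
      intro w hw
      by_cases hy3 : w = q (j + 3)
      · exact ⟨1, Subgroup.one_mem _, by rw [hy3]; rfl⟩
      · obtain ⟨g, hg, hgy⟩ := S.trans w (fun i h3 hi => by
          by_cases hi3 : i = j + 3
          · rw [hi3]; exact hy3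
          · exact hw i (by omega) hi)
        refine ⟨s (j + 2) * g, Subgroup.mul_mem _ hs2mem (TT_mono _ hg), ?_⟩
        rw [Perm.mul_apply, hgy]
        exact hsq.1
    obtain ⟨a, ha, hax⟩ := htrans (x 0) (fun i h1 h2 => hxa 0 i h1 h2)
    obtain ⟨c, hc, hcy⟩ := htrans (y 0) (fun i h1 h2 => hya 0 i h1 h2)
    have hmove : ∀ (g : Perm α), g ∈ TT q G s (j + 1 + 1) → ∀ (z : Fin (j + 1 + 2) → α), Function.Injective z →
        (∀ k i, j + 1 + 3 ≤ i → i ≤ t → z k ≠ q i) → g (z 0) = q (j + 3) → ∀ (k : Fin (j + 2)),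
        ∀ i, j + 3 ≤ i → i ≤ t → g (z k.succ) ≠ q i := by
      intro g hg z hz hza hg0 k i h1 h2 h3
      by_cases hi3 : i = j + 3
      · subst hi3
        rw [← hg0] at h3
        have := hz (g.injective h3)
        exact (Fin.succ_ne_zero k) this
      · have h4 := d.TT_fix (j + 1) hg i (by omega) h2
        rw [← h4] at h3
        exact hza k.succ i (by omega) h2 (g.injective h3)
    obtain ⟨b, hb, hbk⟩ := S.tr (fun k => a (x k.succ)) (fun k => c (y k.succ))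
      (fun k l h => Fin.succ_injective _ (hx (a.injective h)))
      (fun k l h => Fin.succ_injective _ (hy (c.injective h)))
      (fun k i h1 h2 => hmove a ha x hx hxa hax k i h1 h2)
      (fun k i h1 h2 => hmove c hc y hy hya hcy k i h1 h2)
    refine ⟨c⁻¹ * b * a, Subgroup.mul_mem _ (Subgroup.mul_mem _ (Subgroup.inv_mem _ hc) (TT_mono _ hb)) ha,
      fun k => ?_⟩
    refine Fin.cases ?_ (fun l => ?_) k
    · have h1 := d.TT_fix j hb (j + 3) le_rfl (by omega)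
      rw [Perm.mul_apply, Perm.mul_apply, hax, h1, ← hcy, inv_app]
    · rw [Perm.mul_apply, Perm.mul_apply, hbk l, inv_app]

theorem D.stage (d : D t q G s H) : ∀ j, j + 2 ≤ t → Stage t q G s j := by
  intro j
  induction j with
  | zero => intro _; exact d.stage_zero
  | succ j ih =>
    intro h
    exact d.stage_succ (by omega) (ih (by omega))

/-- Descending through the point stabilisers. -/
theorem D.descend (d : D t q G s H) : ∀ j, j + 2 ≤ t → ∀ g ∈ TT q G s (j + 1),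
    (∀ i, 1 ≤ i → i ≤ j + 2 → g (q i) = q i) → g ∈ H := by
  intro j
  induction j with
  | zero =>
    intro _ g hg hfix
    rw [TT_one] at hg
    exact (d.hH g).mpr ⟨hg, hfix 1 le_rfl (by omega), hfix 2 (by omega) le_rfl⟩
  | succ j ih =>
    intro h g hg hfix
    have hS := d.stage (j + 1) h
    have h1 := hS.stab g hg (hfix (j + 1 + 2) (by omega) le_rfl)
    exact ih (by omega) g h1 (fun i h2 h3 => hfix i h2 (by omega))

end CfsgLib.H9.WittExt
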